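/-
Two enumerations in the symmetric group of degree seven.
-/
import Mathlib.GroupTheory.Perm.Cycle.Concrete
import Mathlib.GroupTheory.Perm.Fin
set_option autoImplicit false
set_option maxRecDepth 100000

namespace CA.GW
open Equiv Equiv.Perm

theorem s7_rel : ∀ b : Perm (Fin 7), b * b * b = 1 →
    b * (c[0, 3, 6, 2, 5, 1, 4] * b * c[0, 4, 1, 5, 2, 6, 3]) = c[0, 3, 6, 2, 5, 1, 4] * b * c[0, 4, 1, 5, 2, 6, 3] * b →
    (c[0, 2, 4, 6, 1, 3, 5] * b) * (c[0, 2, 4, 6, 1, 3, 5] * b) * (c[0, 2, 4, 6, 1, 3, 5] * b) = 1 →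
    ∃ k : Fin 7, b * c[0, 1, 2, 3, 4, 5, 6] ^ k.1 = c[0, 1, 2, 3, 4, 5, 6] ^ k.1 * c[0, 1, 2] := by
  decide +kernel

theorem s7_cent : ∀ y : Perm (Fin 7), y * (swap 0 1 * swap 2 3) = swap 0 1 * swap 2 3 * y →
    y ^ 12 = 1 ∧ (y ^ 3 = 1 → y * (swap 0 2 * swap 1 3) = swap 0 2 * swap 1 3 * y) := by
  decide +kernel

end CA.GW
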