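import Cfsg.Agent.GW.AS3
import Cfsg.Agent.Dih.BSW2

/-! Almost simple groups with socle of Brauer-Suzuki-Wall type. -/

set_option autoImplicit false
set_option linter.unusedSectionVars false

namespace CA.GW

open Subgroup Cfsg CA.FG CA.BG CA.Dih Cfsg.Agent.Lin
open scoped MatrixGroups commutatorElement Classical

universe u

variable {Γ : Type u} [Group Γ] [Finite Γ]

theorem r2_of_dih {S : Subgroup Γ} {c : Γ} (hS : IsSylowOf 2 S ⊤) (h : IsDih S c) : R2 Γ := by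
  have := Fintype.ofFinite Γ
  intro a b d a2 b2 d2 ab ad bd a1 b1 nab
  have cm : ∀ x ∈ ({a, b, d} : Set Γ), ∀ y ∈ ({a, b, d} : Set Γ), x * y = y * x := by
    rintro x (rfl | rfl | rfl) y (rfl | rfl | rfl) <;> simp [ab.eq, ad.eq, bd.eq]
  have sq : ∀ x ∈ closure ({a, b, d} : Set Γ), x * x = 1 := fun x hx => by
    induction hx using closure_induction with
    | mem x hx => rcases hx with rfl | rfl | rfl <;> assumption
    | one => simp
    | mul x y hx hy h1 h2 =>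
      have := (isMulCommutative_closure cm).is_comm.comm ⟨x, hx⟩ ⟨y, hy⟩
      rw [mul_assoc, ← mul_assoc y, ← (show x * y = y * x from congrArg Subtype.val this), mul_assoc, h2, mul_one, h1]
    | inv x hx h1 => rw [← mul_inv_rev, h1, inv_one]
  obtain ⟨g, -, hg⟩ := sylow_subJ Nat.prime_two hS (pGrp_of_forall_pow (k := 1) Nat.prime_two fun x hx => by
    rw [pow_one, pow_two, sq x hx]) le_top
  have hd := h.conj g
  generalize S :^ g = T at hg hd
  generalize g * c * g⁻¹ = e at hd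
  have ma : a ∈ closure ({a, b, d} : Set Γ) := subset_closure (by simp)
  have mb : b ∈ closure ({a, b, d} : Set Γ) := subset_closure (by simp)
  have md : d ∈ closure ({a, b, d} : Set Γ) := subset_closure (by simp)
  have U : ∀ x ∈ closure ({a, b, d} : Set Γ), ∀ y ∈ closure ({a, b, d} : Set Γ), x ∈ zpowers e → y ∈ zpowers e → x ≠ 1 →
      y = 1 ∨ y = x := fun x hx y hy h1 h2 x1 => or_iff_not_imp_left.2 fun y1 =>
    eq_of_cyclic_inv (cyclic_zpowers e) h2 h1 (sq y hy) y1 (sq x hx) x1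
  have M : ∀ x ∈ closure ({a, b, d} : Set Γ), ∀ y ∈ closure ({a, b, d} : Set Γ), x ∉ zpowers e → y ∉ zpowers e →
      x * y ∈ zpowers e := fun x hx y hy => mul_mem_of_relIndex_two hd.index (hg hx) (hg hy)
  have c1 : ∀ {x y : Γ}, x * x = 1 → x * y = 1 → y = x := fun h1 h2 => mul_left_cancel (h2.trans h1.symm)
  have c2 : ∀ {x y z : Γ}, x * x = 1 → x * y = z → y = x * z := fun h1 h2 => by rw [← h2, ← mul_assoc, h1, one_mul]
  by_cases ha : a ∈ zpowers e <;> by_cases hb : b ∈ zpowers e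
  · exact ((U a ma b mb ha hb a1).elim b1 fun e => nab e.symm).elim
  · by_cases hc : d ∈ zpowers e
    · exact (U a ma d md ha hc a1).imp_right .inl
    · exact .inr (.inr ((U a ma _ (mul_mem mb md) ha (M b mb d md hb hc) a1).imp (c1 b2) fun e => (c2 b2 e).trans ab.eq.symm))
  · by_cases hc : d ∈ zpowers e
    · exact (U b mb d md hb hc b1).imp_right fun e => .inr (.inl e)
    · exact .inr ((U b mb _ (mul_mem ma md) hb (M a ma d md ha hc) b1).imp (c1 a2) fun e => .inr (c2 a2 e))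
  · have n : a * b ≠ 1 := fun e => nab (c1 a2 e).symm
    by_cases hc : d ∈ zpowers e
    · exact (U _ (mul_mem ma mb) d md (M a ma b mb ha hb) hc n).imp_right fun e => .inr (.inr e)
    · exact .inr ((U _ (mul_mem ma mb) _ (mul_mem ma md) (M a ma b mb ha hb) (M a ma d md ha hc) n).imp (c1 a2)
        fun e => .inl (mul_left_cancel e))

theorem R2.of_inj {Δ : Type*} [Group Δ] (h : R2 Γ) (f : Δ →* Γ) (hf : Function.Injective f) : R2 Δ :=
  fun a b c a2 b2 c2 ab ac bc a1 b1 n => by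
    simpa only [← map_mul, hf.eq_iff, map_eq_one_iff f hf] using h (f a) (f b) (f c) (by rw [← map_mul, a2, map_one])
      (by rw [← map_mul, b2, map_one]) (by rw [← map_mul, c2, map_one]) (ab.map f) (ac.map f) (bc.map f)
      ((map_ne_one_iff f hf).2 a1) ((map_ne_one_iff f hf).2 b1) (hf.ne n)

/-- an element of an odd order group normalized by an involution is inverted times centralized -/
theorem exists_inv_mul_cent {X : Subgroup Γ} (oX : ¬ 2 ∣ Nat.card X) {a z : Γ} (a2 : a * a = 1) (nX : a ∈ 𝒩(X))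
    (hz : z ∈ X) : ∃ e ∈ X, a * e * a⁻¹ = e⁻¹ ∧ a * (e⁻¹ * z) * a⁻¹ = e⁻¹ * z := by
  have hc : z * (a * z⁻¹ * a⁻¹) ∈ X := mul_mem hz ((mem_normalizer_iff.1 nX _).1 (inv_mem hz))
  have ic : a * (z * (a * z⁻¹ * a⁻¹)) * a⁻¹ = (z * (a * z⁻¹ * a⁻¹))⁻¹ := by
    rw [inv_eq_of_mul_eq_one_right a2, show a * (z * (a * z⁻¹ * a)) * a = a * z * a * z⁻¹ * (a * a) by group, a2]
    simp [mul_assoc, inv_eq_of_mul_eq_one_right a2]
  have e0 : a * z * a⁻¹ = (z * (a * z⁻¹ * a⁻¹))⁻¹ * z := by group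
  generalize z * (a * z⁻¹ * a⁻¹) = c at hc ic e0
  obtain ⟨k, hk⟩ := Nat.not_even_iff_odd.1 (mt even_iff_two_dvd.1 oX)
  have e1 : c ^ (k + 1) * c ^ (k + 1) = c := by
    rw [← pow_add, show k + 1 + (k + 1) = Nat.card X + 1 by omega, pow_succ,
      orderOf_dvd_iff_pow_eq_one.1 (orderOf_dvd_card_of_mem hc), one_mul]
  have e2 : a * c ^ (k + 1) * a⁻¹ = (c ^ (k + 1))⁻¹ := by rw [← conj_pow, ic, inv_pow]
  refine ⟨_, pow_mem hc _, e2, ?_⟩
  rw [show a * ((c ^ (k + 1))⁻¹ * z) * a⁻¹ = (a * c ^ (k + 1) * a⁻¹)⁻¹ * (a * z * a⁻¹) by group, e2, e0]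
  generalize c ^ (k + 1) = d at e1
  rw [← e1]; group

theorem one_of_odd_inv {X : Subgroup Γ} (oX : ¬ 2 ∣ Nat.card X) {z : Γ} (hz : z ∈ X) (e : z = z⁻¹) : z = 1 := by
  by_contra z1
  exact oX (orderOf_two (mul_eq_one_iff_eq_inv.2 e) z1 ▸ orderOf_dvd_card_of_mem hz)

/-- an involution normalizing a cyclic `p`-group of odd order centralizes or inverts it -/
theorem cent_or_inv {X : Subgroup Γ} {p : ℕ} (hp : p.Prime) (pX : IsPGrp p X) (oX : ¬ 2 ∣ Nat.card X) (cX : IsCyclic X)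
    {a : Γ} (a2 : a * a = 1) (nX : a ∈ 𝒩(X)) : (∀ z ∈ X, a * z * a⁻¹ = z) ∨ ∀ z ∈ X, a * z * a⁻¹ = z⁻¹ := by
  obtain ⟨z, hz, rfl⟩ := cyclic_iff_eq_zpowers.1 cX
  obtain ⟨e, he, e1, e2⟩ := exists_inv_mul_cent oX a2 nX (mem_zpowers z)
  have hf := mul_mem (inv_mem he) (mem_zpowers z)
  obtain ⟨i, hi⟩ := (pGrp_iff_card hp).1 (IsPiGrp.of_le pX (zpowers_le.2 he))
  obtain ⟨j, hj⟩ := (pGrp_iff_card hp).1 (IsPiGrp.of_le pX (zpowers_le.2 hf))
  rcases le_total i j with l | l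
  · obtain ⟨n, hn⟩ := le_of_cyclic_of_card_dvd cX (zpowers_le.2 he) (zpowers_le.2 hf) (hi ▸ hj ▸ pow_dvd_pow p l)
      (mem_zpowers e)
    have : e = 1 := one_of_odd_inv oX he (by rw [← e1, ← hn]; simp only [← conj_zpow, e2])
    rw [this, inv_one, one_mul] at e2
    exact .inl (by rintro _ ⟨n, rfl⟩; simp only [← conj_zpow, e2])
  · obtain ⟨n, hn⟩ := le_of_cyclic_of_card_dvd cX (zpowers_le.2 hf) (zpowers_le.2 he) (hi ▸ hj ▸ pow_dvd_pow p l)
      (mem_zpowers _)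
    have : e⁻¹ * z = 1 := one_of_odd_inv oX hf (by
      nth_rw 1 [← e2]
      rw [← hn]; simp only [← conj_zpow, e1, inv_zpow])
    obtain rfl := inv_mul_eq_one.1 this
    exact .inr (by rintro _ ⟨n, rfl⟩; simp only [← conj_zpow, e1, inv_zpow])

namespace PM

variable {F : Type*} [Field F] [Fintype F] {ι : SL(2, F) →* Γ} (h : PM ι)
include h

theorem normal : ι.range.Normal := ⟨by
  rintro _ ⟨A, rfl⟩ g
  exact (h.norm g A).imp fun _ e => e.symm⟩

/-- an odd `r`-subgroup normalized by a four-group is centralized by one of its involutions -/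
theorem d1 (h2 : R2 Γ) {r : ℕ} (hr : r.Prime) (r2 : r ≠ 2) {X : Subgroup Γ} (rX : IsPGrp r X) {a b : Γ} (a2 : a * a = 1)
    (b2 : b * b = 1) (ab : a * b = b * a) (a1 : a ≠ 1) (b1 : b ≠ 1) (n : a ≠ b) (na : a ∈ 𝒩(X)) (nb : b ∈ 𝒩(X)) :
    a ∈ 𝒞(X) ∨ b ∈ 𝒞(X) ∨ a * b ∈ 𝒞(X) := by
  have := h.normal
  have oX : ¬ 2 ∣ Nat.card X := fun e => r2 (rX 2 Nat.prime_two e).symm
  have o0 : ¬ 2 ∣ Nat.card (X ⊓ ι.range : Subgroup Γ) := fun e => oX (e.trans (card_dvd_of_le inf_le_left))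
  have n0 : ∀ v ∈ 𝒩(X), v ∈ 𝒩(X ⊓ ι.range) := fun v hv => inf_normalizer_le_normalizer_inf
    ⟨hv, by rw [normalizer_eq_top]; trivial⟩
  have ab2 : a * b * (a * b) = 1 := by rw [mul_assoc, ← mul_assoc b, ← ab, mul_assoc, b2, mul_one, a2]
  have key : ∀ v, v * v = 1 → v ∈ 𝒩(X) → (∀ z ∈ X ⊓ ι.range, v * z * v⁻¹ = z) → v ∈ 𝒞(X) := fun v v2 nv hv x hx => by
    have hc : ⁅x, v⁆ ∈ X ⊓ ι.range := ⟨by
      rw [commutatorElement_def, mul_assoc, mul_assoc, ← mul_assoc v]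
      exact mul_mem hx ((mem_normalizer_iff.1 nv _).1 (inv_mem hx)), h.comm_mem x v⟩
    refine commutatorElement_eq_one_iff_mul_comm.1 (one_of_odd_inv o0 hc ((hv _ hc).symm.trans ?_))
    rw [commutatorElement_def, inv_eq_of_mul_eq_one_right v2, show v * (x * v * x⁻¹ * v) * v = v * x * v * x⁻¹ * (v * v) by
      group, v2]
    simp [mul_assoc, inv_eq_of_mul_eq_one_right v2]
  have alt : ∀ v, v * v = 1 → v ≠ 1 → v ∈ 𝒩(X) → (∀ z ∈ X ⊓ ι.range, v * z * v⁻¹ = z) ∨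
      ∀ z ∈ X ⊓ ι.range, v * z * v⁻¹ = z⁻¹ := fun v v2 v1 nv => by
    obtain ⟨p, _, -, hp, -⟩ := FiniteField.card' F
    have := Fact.mk hp
    have := Fact.mk hr
    have r0 := IsPiGrp.of_le rX (inf_le_left (b := ι.range))
    by_cases e : r = p
    · subst e
      refine .inr fun z hz => ?_
      obtain ⟨e, he, e1, e2⟩ := exists_inv_mul_cent o0 v2 (n0 v nv) hz
      have hf := mul_mem (inv_mem he) hz
      obtain ⟨k, hk⟩ := (pElt_iff hr).1 (r0.piElt hf)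
      rwa [← inv_mul_eq_one.1 (h.inv_unip h2 v2 v1 hf.2 hk (mul_inv_eq_iff_eq_mul.1 e2))]
    · exact cent_or_inv hr r0 o0 (h.cyc_sub r2 e inf_le_right (r0.isPGroup hr)) v2 (n0 v nv)
  rcases alt a a2 a1 na with ea | ea
  · exact .inl (key a a2 na ea)
  rcases alt b b2 b1 nb with eb | eb
  · exact .inr (.inl (key b b2 nb eb))
  refine .inr (.inr (key _ ab2 (mul_mem na nb) fun z hz => ?_))
  rw [show a * b * z * (a * b)⁻¹ = a * (b * z * b⁻¹) * a⁻¹ by group, eb z hz, ea _ (inv_mem hz), inv_inv]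

theorem card_range : 2 * Nat.card ι.range = Fintype.card F * (Fintype.card F ^ 2 - 1) := by
  have := h.card_map_CT 1
  rw [show CT (1 : M2 F) = ⊤ from eq_top_iff.2 fun A _ => by simp [mem_CT], ← MonoidHom.range_eq_map, card_top,
    card_SL2 rfl] at this
  exact this.symm

end PM

theorem exists_pm {L : Subgroup Γ} [L.Normal] (hc : 𝒞(L) = ⊥) {F : Type*} [Field F] [Fintype F]
    (ho : Odd (Fintype.card F)) (e : L ≃* Matrix.ProjectiveSpecialLinearGroup (Fin 2) F) :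
    ∃ ι : SL(2, F) →* Γ, PM ι ∧ ι.range = L := by
  let ι : SL(2, F) →* Γ := (L.subtype.comp e.symm.toMonoidHom).comp (QuotientGroup.mk' _)
  have hr : ι.range = L := le_antisymm (by rintro _ ⟨A, rfl⟩; exact (e.symm A).2) fun x hx => by
    obtain ⟨A, hA⟩ := QuotientGroup.mk_surjective (e ⟨x, hx⟩)
    exact ⟨A, by simp [ι, hA]⟩
  refine ⟨ι, ⟨fun h2 => ?_, fun A => ?_, fun γ A => ?_, fun γ hγ => ?_⟩, hr⟩
  · have := FiniteField.even_card_of_char_two (F := F) ((CharP.ringChar_of_prime_eq_zero Nat.prime_two h2))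
    rw [Nat.odd_iff] at ho
    omega
  · rw [← mem_center_SL2, ← QuotientGroup.eq_one_iff]
    simp [ι]
  · obtain ⟨B, hB⟩ := hr.ge (Normal.conj_mem ‹_› _ (hr.le ⟨A, rfl⟩) γ)
    exact ⟨B, hB.symm⟩
  · refine hc.le fun x hx => ?_
    obtain ⟨A, rfl⟩ := hr.ge hx
    exact (mul_inv_eq_iff_eq_mul.1 (hγ A)).symm

end CA.GW

theorem CA.realizeEqns_GW_AS4 : True := by

  trivial
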