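/-
The layer of a subgroup (ambient style) and Bender's theorem on maximal subgroups.
-/
import Cfsg.Agent.BG.I01
import Cfsg.Agent.FG.CompLayer

set_option autoImplicit false
set_option linter.unusedSectionVars false

namespace CA.GW

open Subgroup Cfsg CA.FG CA.BG
open scoped commutatorElement

universe u v

variable {G : Type u} [Group G] [Finite G] {p q : ℕ}

/-! ### components and the layer -/

/-- `E(H)` seen in the ambient group. -/
def layerOf (H : Subgroup G) : Subgroup G := (layer H).map H.subtype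

/-- `L` is a component of `H`. -/
def CompOf (L H : Subgroup G) : Prop := L ≤ H ∧ (L.subgroupOf H).IsSubnormal ∧ IsQuasisimple L

theorem CompOf.le {L H : Subgroup G} (h : CompOf L H) : L ≤ H := h.1

theorem CompOf.qs {L H : Subgroup G} (h : CompOf L H) : IsQuasisimple L := h.2.2

theorem CompOf.comp {L H : Subgroup G} (h : CompOf L H) : IsComponent (L.subgroupOf H) :=
  ⟨h.2.1, Comp.qs_subgroupOf h.qs h.le⟩

theorem compOf_map {H : Subgroup G} {L : Subgroup H} (h : IsComponent L) : CompOf (L.map H.subtype) H :=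
  ⟨map_subtype_le _, by rw [subgroupOf_map_subtype']; exact h.1,
    Comp.qs_map_of_injective h.2 _ H.subtype_injective⟩

theorem compOf_of_normal {L H : Subgroup G} (h : L ⊲ H) (hq : IsQuasisimple L) : CompOf L H :=
  ⟨h.1, (normal_subgroupOf_of_normalIn h).isSubnormal, hq⟩

theorem CompOf.restrict {L H K : Subgroup G} (h : CompOf L H) (hLK : L ≤ K) (hKH : K ≤ H) : CompOf L K :=
  ⟨hLK, h.2.1.comap (inclusion hKH), h.qs⟩

theorem CompOf.perfect {L H : Subgroup G} (h : CompOf L H) : ⁅L, L⁆ = L := Comp.qs_commutator h.qs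

theorem CompOf.ne_bot {L H : Subgroup G} (h : CompOf L H) : L ≠ ⊥ := Comp.qs_ne_bot h.qs

theorem CompOf.not_sol {L H : Subgroup G} (h : CompOf L H) : ¬ Group.IsSolvable L := Comp.qs_not_solvable h.qs

theorem layerOf_le (H : Subgroup G) : layerOf H ≤ H := map_subtype_le _

theorem charIn_layerOf (H : Subgroup G) : CharIn (layerOf H) H :=
  charIn_of_functor rfl fun e => (Comp.layer_map_equiv e).le

theorem norm_layerOf {A H : Subgroup G} (h : A ≤ 𝒩(H)) : A ≤ 𝒩(layerOf H) := (charIn_layerOf H).norm h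

theorem layerOf_normal (H : Subgroup G) : layerOf H ⊲ H := (charIn_layerOf H).normalIn

theorem layerOf_norm (H : Subgroup G) : H ≤ 𝒩(layerOf H) := (layerOf_normal H).2

theorem CompOf.le_layer {L H : Subgroup G} (h : CompOf L H) : L ≤ layerOf H := by
  rw [← map_subtype_subgroupOf h.le]
  exact map_mono (Comp.le_layer h.comp)

theorem layerOf_le_iff {H X : Subgroup G} : layerOf H ≤ X ↔ ∀ L, CompOf L H → L ≤ X := by
  refine ⟨fun h L hL => hL.le_layer.trans h, fun h => ?_⟩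
  rw [layerOf, map_le_iff_le_comap, Comp.layer_le_iff]
  exact fun L hL => map_le_iff_le_comap.1 (h _ (compOf_map hL))

theorem layerOf_eq_bot_iff {H : Subgroup G} : layerOf H = ⊥ ↔ ∀ L, ¬ CompOf L H := by
  rw [eq_bot_iff, layerOf_le_iff]
  exact ⟨fun h L hL => hL.ne_bot (eq_bot_iff.2 (h L hL)), fun h L hL => (h L hL).elim⟩

theorem exists_compOf {H : Subgroup G} (h : layerOf H ≠ ⊥) : ∃ L, CompOf L H := by
  by_contra hc
  exact h (layerOf_eq_bot_iff.2 fun L hL => hc ⟨L, hL⟩)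

theorem layerOf_eq_bot_of_sol {H : Subgroup G} (h : Group.IsSolvable H) : layerOf H = ⊥ :=
  layerOf_eq_bot_iff.2 fun _ hL => hL.not_sol (sol_of_le h hL.le)

theorem layerOf_perfect (H : Subgroup G) : ⁅layerOf H, layerOf H⁆ = layerOf H := by
  rw [layerOf, ← map_commutator, Comp.layer_commutator]

theorem layerOf_map_equiv {G' : Type v} [Group G'] [Finite G'] (H : Subgroup G) (e : G ≃* G') :
    (layerOf H).map e.toMonoidHom = layerOf (H.map e.toMonoidHom) := by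
  rw [layerOf, layerOf, ← Comp.layer_map_equiv (Comp.subMap e H), Comp.map_subMap]

theorem layerOf_conjg (H : Subgroup G) (g : G) : layerOf H :^ g = layerOf (H :^ g) :=
  layerOf_map_equiv H (MulAut.conj g)

theorem CompOf.cent_of_sol {L H X : Subgroup G} (h : CompOf L H) (hX : X ≤ H) (hn : L ≤ 𝒩(X))
    (hs : Group.IsSolvable X) : L ≤ 𝒞(X) := by
  have := Comp.component_commutator_of_solvable h.comp (subgroupOf_norm H hn) ((subgroupOf_sol_iff hX).2 hs)
  exact (subgroupOf_cent_iff h.le hX).1 (comm_eq_bot_iff'.1 this)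

theorem layerOf_cent_of_sol {H X : Subgroup G} (hX : X ≤ H) (hn : layerOf H ≤ 𝒩(X))
    (hs : Group.IsSolvable X) : layerOf H ≤ 𝒞(X) :=
  layerOf_le_iff.2 fun _ hL => hL.cent_of_sol hX (hL.le_layer.trans hn) hs

theorem layerOf_cent_of_normal {H X : Subgroup G} (hX : X ⊲ H) (hs : Group.IsSolvable X) :
    layerOf H ≤ 𝒞(X) := layerOf_cent_of_sol hX.1 ((layerOf_le H).trans hX.2) hs

theorem layerOf_cent_fitting (H : Subgroup G) : layerOf H ≤ 𝒞(fittingOf H) :=
  layerOf_cent_of_normal (fitting_normal H) (sol_of_nil (fitting_nil H))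

theorem layerOf_cent_pcore (p : ℕ) (H : Subgroup G) : layerOf H ≤ 𝒞(pCoreOf p H) :=
  (layerOf_cent_fitting H).trans (cent_anti (pcore_le_fitting p H))

theorem CompOf.eq_or_cent {L K H : Subgroup G} (hL : CompOf L H) (hK : CompOf K H) : L = K ∨ L ≤ 𝒞(K) := by
  by_cases h : L.subgroupOf H = K.subgroupOf H
  · exact Or.inl ((subgroupOf_eq_iff hL.le hK.le).1 h)
  · exact Or.inr ((subgroupOf_cent_iff hL.le hK.le).1
      (comm_eq_bot_iff.1 (Comp.component_commutator_of_ne hL.comp hK.comp h)))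

theorem CompOf.le_or_cent {L H X : Subgroup G} (hL : CompOf L H) (hX : X ≤ H) (hn : L ≤ 𝒩(X)) :
    L ≤ X ∨ L ≤ 𝒞(X) := by
  rcases Comp.component_le_or_commutator hL.comp (subgroupOf_norm H hn) with h | h
  · exact Or.inl ((subgroupOf_le_iff hL.le).1 h)
  · exact Or.inr ((subgroupOf_cent_iff hL.le hX).1 (comm_eq_bot_iff'.1 h))

/-- `C_H(F^*(H)) ≤ F(H)`. -/
theorem cent_Fstar (H : Subgroup G) : H ⊓ 𝒞(fittingOf H) ⊓ 𝒞(layerOf H) ≤ fittingOf H := by
  rintro x ⟨⟨hx, h1⟩, h2⟩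
  refine ⟨⟨x, hx⟩, Comp.centralizer_Fstar_le_fitting (G := H) ?_, rfl⟩
  have : generalizedFittingSubgroup H ≤ 𝒞[(⟨x, hx⟩ : H)] := sup_le
    (fun y hy => mem_centralizer_singleton_iff.2 (Subtype.ext (h2 _ ⟨y, hy, rfl⟩)))
    (fun y hy => mem_centralizer_singleton_iff.2 (Subtype.ext (h1 _ ⟨y, hy, rfl⟩)))
  exact mem_cent_iff_le_cent_singleton.2 this

theorem le_fitting_of_cent {H X : Subgroup G} (hX : X ≤ H) (h1 : X ≤ 𝒞(fittingOf H))
    (h2 : X ≤ 𝒞(layerOf H)) : X ≤ fittingOf H := (le_inf (le_inf hX h1) h2).trans (cent_Fstar H)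

theorem cent_fitting_of_layer {H : Subgroup G} (h : layerOf H = ⊥) : H ⊓ 𝒞(fittingOf H) ≤ fittingOf H :=
  le_fitting_of_cent inf_le_left inf_le_right (by rw [h, cent_bot]; exact le_top)

/-- A perfect group normalizing `X ≤ A` with `[X, E]` solvable inside `E = E(A)` centralizes `X`. -/
theorem layerOf_cent_of_comm {A X D : Subgroup G} (hX : X ≤ A) (hD : ⁅X, layerOf A⁆ ≤ D)
    (hn : layerOf A ≤ 𝒩(D)) (hs : Group.IsSolvable D) : layerOf A ≤ 𝒞(X) := by
  have h1 : ⁅X, layerOf A⁆ ≤ layerOf A ⊓ D := le_inf (comm_le_right (hX.trans (layerOf_norm A))) hD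
  have h2 : layerOf A ≤ 𝒞(layerOf A ⊓ D) := layerOf_cent_of_sol (inf_le_left.trans (layerOf_le A))
    (norm_inf le_normalizer hn) (sol_of_le hs inf_le_right)
  exact comm_eq_bot_iff'.1 (Comp.commutator_eq_bot_of_perfect (layerOf_perfect A)
    (comm_eq_bot_iff'.2 (h2.trans (cent_anti h1))))

/-- A perfect group is generated by its `p'`-elements. -/
theorem le_of_perfect {E N : Subgroup G} (hp : p.Prime) (hE : ⁅E, E⁆ = E) (hn : E ≤ 𝒩(N))
    (h : ∀ x ∈ E, IsPiElt {p}ᶜ x → x ∈ N) : E ≤ N := by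
  have h1 : IsPGrp p (E /ₛ N) := by
    refine piGrp_iff_forall_piElt.2 fun y hy => ?_
    obtain ⟨x, hx, rfl⟩ := mem_quot.1 hy
    obtain ⟨a, b, ha, hb, pa, pb, e, -⟩ := exists_piPart {p} x
    have hb' : (b : G) ∈ E := by
      obtain ⟨k, rfl⟩ := hb
      simpa using E.zpow_mem hx k
    have : coset N b = 1 := coset_eq_one_iff.2 (h _ hb' (by simpa [IsPiElt] using pb))
    rw [e, map_mul, this, mul_one]
    exact pa.map _
  by_contra hc
  have := der_lt_of_sol h1.sol (fun e => hc ((quot_eq_bot_iff hn).1 e))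
  rw [← quot_comm hn hn, hE] at this
  exact lt_irrefl _ this

/-! ### self-centralizing subgroups of the Fitting subgroup -/

/-- `Y` is a self-centralizing subgroup of `F(A)`. -/
def SC (Y A : Subgroup G) : Prop := Y ≤ fittingOf A ∧ fittingOf A ⊓ 𝒞(Y) ≤ Y

theorem SC.le {Y A : Subgroup G} (h : SC Y A) : Y ≤ fittingOf A := h.1

theorem SC.nil {Y A : Subgroup G} (h : SC Y A) : Group.IsNilpotent Y := nil_of_le (fitting_nil A) h.1

theorem SC.mono {Y Y' A : Subgroup G} (h : SC Y A) (h1 : Y ≤ Y') (h2 : Y' ≤ fittingOf A) : SC Y' A :=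
  ⟨h2, (inf_le_inf_left _ (cent_anti h1)).trans (h.2.trans h1)⟩

theorem sc_fitting (A : Subgroup G) : SC (fittingOf A) A := ⟨le_rfl, inf_le_left⟩

/-- `F(A) ∩ B` is self-centralizing in `F(A)` when `N(X) ≤ B` for some `X ≤ F(A)`. -/
theorem sc_of_norm {X A B : Subgroup G} (hX : X ≤ fittingOf A) (h1 : X ≤ B) (h2 : fittingOf A ⊓ 𝒞(X) ≤ B) :
    SC (fittingOf A ⊓ B) A :=
  ⟨inf_le_left, le_inf inf_le_left ((inf_le_inf_left _ (cent_anti (le_inf hX h1))).trans h2)⟩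

theorem sc_of_norm' {X A B : Subgroup G} (hX : X ≤ fittingOf A) (h : 𝒩(X) ≤ B) : SC (fittingOf A ⊓ B) A :=
  sc_of_norm hX (le_normalizer.trans h) (inf_le_right.trans ((cent_le_norm X).trans h))

theorem SC.conjg {Y A : Subgroup G} (h : SC Y A) (g : G) : SC (Y :^ g) (A :^ g) := by
  refine ⟨fitting_conjg A g ▸ conjg_mono g h.1, ?_⟩
  rw [← fitting_conjg, ← conjg_cent, ← conjg_inf]
  exact conjg_mono g h.2

theorem SC.center_le {Y A : Subgroup G} (h : SC Y A) : 𝒵(fittingOf A) ≤ Y :=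
  (inf_le_inf_left _ (cent_anti h.1)).trans h.2

theorem SC.cent {Y A R : Subgroup G} (h : SC Y A) (nR : R ≤ 𝒩(fittingOf A))
    (co : (Nat.card (fittingOf A)).Coprime (Nat.card R)) (c : R ≤ 𝒞(Y)) : R ≤ 𝒞(fittingOf A) := by
  have h1 : Y ≤ fittingOf A ⊓ 𝒞(R) := le_inf h.1 (le_cent_symm c)
  exact coprime_nil_faithful_cent_stab nR co (fitting_nil A)
    ((inf_le_inf_left _ (cent_anti h1)).trans (h.2.trans h1))

theorem p_core_Fitting' (p : ℕ) (A : Subgroup G) : piCoreOf {p} (fittingOf A) = pCoreOf p A := p_core_Fitting p A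

theorem pcore_fitting_le (π : Set ℕ) (A : Subgroup G) : piCoreOf π (fittingOf A) ≤ fittingOf A := pcore_le _ _

theorem pcore_fitting_normal (π : Set ℕ) (A : Subgroup G) : piCoreOf π (fittingOf A) ⊲ A :=
  NormalIn.pcore (fitting_normal A) π

theorem SC.pi_sc {Y A : Subgroup G} (h : SC Y A) (π : Set ℕ) :
    piCoreOf π (fittingOf A) ⊓ 𝒞(piCoreOf π Y) ≤ piCoreOf π Y := by
  have h1 : piCoreOf π (fittingOf A) ≤ 𝒞(piCoreOf πᶜ Y) :=
    (pcore_cent_compl π _).trans (cent_anti (nilpotent_pcore_mono πᶜ (fitting_nil A) h.1))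
  have h2 : piCoreOf π (fittingOf A) ⊓ 𝒞(piCoreOf π Y) ≤ Y := by
    refine (le_inf (inf_le_left.trans (pcore_le _ _)) ?_).trans h.2
    conv_rhs => rw [← (nilpotent_pcoreC π h.nil).sup_eq]
    exact le_cent_sup inf_le_right (inf_le_left.trans h1)
  exact nilpotent_le_pcore h.nil h2 ((pcore_piGrp π _).of_le inf_le_left)

theorem SC.pi_center_le {Y A : Subgroup G} (h : SC Y A) (π : Set ℕ) :
    𝒵(piCoreOf π (fittingOf A)) ≤ piCoreOf π Y :=
  (inf_le_inf_left _ (cent_anti (nilpotent_pcore_mono π (fitting_nil A) h.1))).trans (h.pi_sc π)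

theorem SC.p_center_le {Y A : Subgroup G} (h : SC Y A) (p : ℕ) : 𝒵(pCoreOf p A) ≤ pCoreOf p Y := by
  have := h.pi_center_le {p}
  rwa [p_core_Fitting'] at this

theorem SC.p_le {Y A : Subgroup G} (h : SC Y A) (p : ℕ) : pCoreOf p Y ≤ pCoreOf p A :=
  p_core_Fitting p A ▸ nilpotent_pcore_mono {p} (fitting_nil A) h.1

/-- A `π'`-group normalizing `O_π(F(A))` and centralizing `O_π(Y)` centralizes `O_π(F(A))`. -/
theorem SC.pi_cent {Y A R : Subgroup G} (h : SC Y A) (π : Set ℕ) (nR : R ≤ 𝒩(piCoreOf π (fittingOf A)))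
    (hR : IsPiGrp πᶜ R) (c : R ≤ 𝒞(piCoreOf π Y)) : R ≤ 𝒞(piCoreOf π (fittingOf A)) := by
  have h1 : piCoreOf π Y ≤ piCoreOf π (fittingOf A) ⊓ 𝒞(R) :=
    le_inf (nilpotent_pcore_mono π (fitting_nil A) h.1) (le_cent_symm c)
  exact coprime_nil_faithful_cent_stab nR ((pcore_piGrp π _).coprime hR)
    (nil_of_le (fitting_nil A) (pcore_le _ _))
    ((inf_le_inf_left _ (cent_anti h1)).trans ((h.pi_sc π).trans h1))

theorem SC.p_cent {Y A R : Subgroup G} (h : SC Y A) (p : ℕ) (nR : R ≤ 𝒩(pCoreOf p A))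
    (hR : IsPiGrp {p}ᶜ R) (c : R ≤ 𝒞(pCoreOf p A ⊓ Y)) : R ≤ 𝒞(pCoreOf p A) := by
  have := h.pi_cent {p} (by rwa [p_core_Fitting']) hR
    (c.trans (cent_anti (le_inf (h.p_le p) (pcore_le _ _))))
  rwa [p_core_Fitting'] at this

/-! ### primitive subgroups -/

/-- Every nontrivial normal subgroup of `A` has normalizer `A`. -/
def Prim (A : Subgroup G) : Prop := ∀ K, K ⊲ A → K ≠ ⊥ → 𝒩(K) ≤ A

theorem prim_of_coatom [IsSimpleGroup G] {A : Subgroup G} (h : IsCoatom A) : Prim A := fun K hK h0 => by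
  by_contra hc
  have h1 : 𝒩(K) = ⊤ := h.2 _ (lt_of_le_of_ne hK.2 fun e => hc e.ge)
  rcases (normal_of_top_le_norm h1.ge).eq_bot_or_eq_top with e | e
  · exact h0 e
  · exact h.1 (top_le_iff.1 (e ▸ hK.1))

theorem Prim.cent {A K : Subgroup G} (h : Prim A) (hK : K ⊲ A) (h0 : K ≠ ⊥) : 𝒞(K) ≤ A :=
  (cent_le_norm K).trans (h K hK h0)

theorem Prim.eq {A B K : Subgroup G} (hA : Prim A) (hB : Prim B) (h1 : K ⊲ A) (h2 : K ⊲ B) (h0 : K ≠ ⊥) :
    A = B := le_antisymm (h1.2.trans (hB K h2 h0)) (h2.2.trans (hA K h1 h0))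

theorem Prim.conjg {A : Subgroup G} (h : Prim A) (g : G) : Prim (A :^ g) := fun K hK h0 => by
  have h1 : K :^ g⁻¹ ⊲ A := by
    have := (conjg_normalIn_iff (g := g⁻¹)).2 hK
    rwa [← conjg_mul, inv_mul_cancel, conjg_one] at this
  have := h _ h1 (by simpa using h0)
  rw [← conjg_norm] at this
  exact le_conjg_iff.2 this

theorem center_pcore_fitting_normal (π : Set ℕ) (A : Subgroup G) : 𝒵(piCoreOf π (fittingOf A)) ⊲ A :=
  (charIn_center _).trans_normal (pcore_fitting_normal π A)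

theorem center_pcore_normal (p : ℕ) (A : Subgroup G) : 𝒵(pCoreOf p A) ⊲ A :=
  (charIn_center _).trans_normal (pcore_normal _ A)

theorem center_pcore_ne_bot {A : Subgroup G} (h : pCoreOf p A ≠ ⊥) : 𝒵(pCoreOf p A) ≠ ⊥ :=
  center_nil_ne_bot (pcore_pGrp p A).nil h

/-! ### Bender's lemmas -/

section Bender

variable {A B Y : Subgroup G}

/-- A subgroup `Q` normalized by `B` and of order prime to `|F(A)|` meets `A` trivially. -/
theorem inf_eq_bot_of_sc (hY : SC Y A) (hE : layerOf A ≤ B) (hYB : Y ≤ B) {Q : Subgroup G} (nQ : B ≤ 𝒩(Q))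
    (sQ : Group.IsSolvable Q) (co : (Nat.card (fittingOf A)).Coprime (Nat.card Q)) : Q ⊓ A = ⊥ := by
  have co' : (Nat.card (fittingOf A)).Coprime (Nat.card ↥(Q ⊓ A)) :=
    co.coprime_dvd_right (card_dvd_of_le inf_le_left)
  have nF : Q ⊓ A ≤ 𝒩(fittingOf A) := inf_le_right.trans (fitting_norm A)
  have h1 : Q ⊓ A ≤ 𝒞(Y) := comm_eq_bot_iff.1 (eq_bot_iff.2 ((le_inf
    ((commutator_mono le_rfl hY.1).trans (comm_le_right nF))
    ((commutator_mono inf_le_left le_rfl).trans (comm_le_left (hYB.trans nQ)))).trans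
      (inf_eq_bot_of_cop co).le))
  have h2 : layerOf A ≤ 𝒞(Q ⊓ A) := layerOf_cent_of_comm inf_le_right
    ((commutator_mono inf_le_left le_rfl).trans (comm_le_left (hE.trans nQ))) (hE.trans nQ) sQ
  have h3 := le_fitting_of_cent inf_le_right (hY.cent nF co' h1) (le_cent_symm h2)
  exact eq_bot_iff.2 ((le_inf h3 le_rfl).trans (inf_eq_bot_of_cop co').le)

theorem coprime_fitting_of_pcore {Q : Subgroup G} (hQ : IsPGrp q Q) (h : pCoreOf q A = ⊥) :
    (Nat.card (fittingOf A)).Coprime (Nat.card Q) := by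
  refine IsPiGrp.coprime (π := {q}ᶜ) ?_ (by rwa [compl_compl])
  have := (pcore_sylow_fitting q A).2.2
  rw [h, relIndex_bot_left] at this
  exact piNat_compl_iff.2 this

theorem pcore_inf_eq_bot (hY : SC Y A) (hE : layerOf A ≤ B) (hYB : Y ≤ B) (h : pCoreOf q A = ⊥) :
    pCoreOf q B ⊓ A = ⊥ :=
  inf_eq_bot_of_sc hY hE hYB (pcore_norm _ B) (pcore_pGrp q B).sol (coprime_fitting_of_pcore (pcore_pGrp q B) h)

theorem pcore_ne_bot_of_sc (hY : SC Y A) (hYB : Y ≤ B) (hF : fittingOf B ≤ A) (hE : layerOf B ≤ A)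
    (h : pCoreOf q A ≠ ⊥) : pCoreOf q B ≠ ⊥ := fun e =>
  center_pcore_ne_bot h (eq_bot_iff.2 ((le_inf inf_le_left ((hY.p_center_le q).trans
    ((pcore_le _ _).trans hYB))).trans (pcore_inf_eq_bot (sc_fitting B) hE hF e).le))

theorem pcore_cent_le (hA : Prim A) (hY : SC Y A) (h : pCoreOf p A ≠ ⊥) : 𝒞(pCoreOf p Y) ≤ A :=
  (cent_anti (hY.p_center_le p)).trans (hA.cent (center_pcore_normal p A) (center_pcore_ne_bot h))

/-- `O_p(B)` centralizes `O_{p'}(Y)`. -/
theorem pcore_cent_p' (hA : Prim A) (hY : SC Y A) (hYB : Y ≤ B) (h : pCoreOf p A ≠ ⊥) :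
    pPrimeCoreOf p Y ≤ 𝒞(pCoreOf p B) := by
  have nP : Y ≤ 𝒩(pCoreOf p B) := hYB.trans (pcore_norm _ B)
  refine coprime_A_times_B (pcore_pGrp p B) (pcore_pGrp p Y) (pcore_piGrp _ Y) ((pcore_le _ _).trans nP)
    ((pcore_le _ _).trans nP) (le_cent_symm (pcore_cent_compl _ Y)) ?_
  have h1 : pCoreOf p B ⊓ 𝒞(pCoreOf p Y) ≤ 𝒩(pPrimeCoreOf p (fittingOf A)) :=
    (inf_le_right.trans (pcore_cent_le hA hY h)).trans (pcore_fitting_normal _ A).2
  refine comm_eq_bot_iff'.1 (eq_bot_iff.2 ((le_inf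
    ((commutator_mono inf_le_left le_rfl).trans (comm_le_left ((pcore_le _ _).trans nP)))
    ((commutator_mono le_rfl (nilpotent_pcore_mono _ (fitting_nil A) hY.1)).trans (comm_le_right h1))).trans
      (pcore_inf_pcore_compl {p} B _).le))

/-- `O_p(B)` centralizes `E(A)`. -/
theorem pcore_cent_layer (hp : p.Prime) (hA : Prim A) (hY : SC Y A) (hE : layerOf A ≤ B) (hYB : Y ≤ B)
    (h : pCoreOf p A ≠ ⊥) : layerOf A ≤ 𝒞(pCoreOf p B) := by
  have nP : B ≤ 𝒩(pCoreOf p B) := pcore_norm _ B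
  have h1 : layerOf A ≤ 𝒞(pCoreOf p B ⊓ 𝒞(pCoreOf p Y)) :=
    layerOf_cent_of_comm (inf_le_right.trans (pcore_cent_le hA hY h))
      ((commutator_mono inf_le_left le_rfl).trans (comm_le_left (hE.trans nP))) (hE.trans nP)
      (pcore_pGrp p B).sol
  refine le_of_perfect hp (layerOf_perfect A) (norm_cent (hE.trans nP)) fun x hx px => ?_
  have hx' : zpowers x ≤ layerOf A := zpowers_le.2 hx
  exact coprime_A_times_B (pcore_pGrp p B) (pcore_pGrp p Y) (piGrp_zpowers_iff.2 px) (hx'.trans (hE.trans nP))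
    ((pcore_le _ _).trans (hYB.trans nP))
    (hx'.trans ((layerOf_cent_fitting A).trans (cent_anti ((pcore_le _ _).trans hY.1)))) (hx'.trans h1)
    (mem_zpowers x)

/-- `F^*(A)` is a `p`-group. -/
def CharP (p : ℕ) (A : Subgroup G) : Prop := layerOf A = ⊥ ∧ IsPGrp p (fittingOf A)

theorem CharP.fitting_eq (h : CharP p A) : fittingOf A = pCoreOf p A := by
  rw [← p_core_Fitting', pcore_of_piGrp h.2]

theorem CharP.cent_le (h : CharP p A) : A ⊓ 𝒞(pCoreOf p A) ≤ pCoreOf p A :=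
  h.fitting_eq ▸ cent_fitting_of_layer h.1

theorem CharP.conjg (h : CharP p A) (g : G) : CharP p (A :^ g) :=
  ⟨by rw [← layerOf_conjg, h.1, conjg_bot], fitting_conjg A g ▸ h.2.conjg g⟩

theorem pGrp_fitting_of (h : pPrimeCoreOf p (fittingOf A) = ⊥) : IsPGrp p (fittingOf A) := by
  have := (nilpotent_pcoreC {p} (fitting_nil A)).sup_eq
  rw [show piCoreOf {p}ᶜ (fittingOf A) = ⊥ from h, sup_bot_eq] at this
  exact this ▸ pcore_pGrp p _

theorem pGrp_fitting_of_forall (h : ∀ r, r.Prime → r ≠ p → pCoreOf r A = ⊥) : IsPGrp p (fittingOf A) :=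
  fun r hr hd => by
    by_contra hc
    have := (pcore_sylow_fitting r A).2.2
    rw [h r hr hc, relIndex_bot_left] at this
    exact this r hr rfl hd

theorem pcore_le_of_sc (hp : p.Prime) (hA : Prim A) (hY : SC Y A) (hE : layerOf A ≤ B) (hYB : Y ≤ B)
    (h : pCoreOf p A ≠ ⊥) (hc : ¬ CharP p A) : pCoreOf p B ≤ A := by
  by_cases h1 : layerOf A = ⊥
  · have h2 : pPrimeCoreOf p (fittingOf A) ≠ ⊥ := fun e => hc ⟨h1, pGrp_fitting_of e⟩
    exact (le_cent_symm ((hY.pi_center_le _).trans (pcore_cent_p' hA hY hYB h))).trans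
      (hA.cent (center_pcore_fitting_normal _ A)
        (center_nil_ne_bot (nil_of_le (fitting_nil A) (pcore_le _ _)) h2))
  · exact (le_cent_symm (pcore_cent_layer hp hA hY hE hYB h)).trans (hA.cent (layerOf_normal A) h1)

theorem layer_le_layer (hEA : layerOf A ≤ B) (hF : fittingOf B ≤ A) (hEB : layerOf B ≤ A) :
    layerOf A ≤ layerOf B := layerOf_le_iff.2 fun L hL => by
  have hLB : L ≤ B := hL.le_layer.trans hEA
  by_contra hc
  have h1 : layerOf B ≤ 𝒞(L) := layerOf_le_iff.2 fun K hK =>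
    ((hK.restrict (le_inf (hK.le_layer.trans hEB) hK.le) inf_le_right).eq_or_cent
      (hL.restrict (le_inf hL.le hLB) inf_le_left)).resolve_left fun e => hc (e ▸ hK.le_layer)
  have h2 : L ≤ 𝒞(fittingOf B) :=
    hL.cent_of_sol hF (hLB.trans (fitting_norm B)) (sol_of_nil (fitting_nil B))
  exact hL.not_sol (sol_of_le (sol_of_nil (fitting_nil B)) (le_fitting_of_cent hLB h2 (le_cent_symm h1)))

theorem pcore_le_pcore (hp : p.Prime) (hpq : p ≠ q) (hA : Prim A) (hB : Prim B) (hEA : layerOf A = ⊥)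
    (hFA : fittingOf A ≤ B) (hFB : fittingOf B ≤ A) (hpA : pCoreOf p A ≠ ⊥) (hpB : pCoreOf p B ≠ ⊥)
    (hqA : pCoreOf q A ≠ ⊥) : pCoreOf q B ≤ pCoreOf q A := by
  set K := A ⊓ 𝒞(pPrimeCoreOf q (fittingOf A)) with hK
  have nK : A ≤ 𝒩(K) := (inf_cent_normalIn_of_norm (pcore_fitting_normal _ A).2).2
  have PA : pCoreOf p B ≤ A := (pcore_le_fitting p B).trans hFB
  have le' : ∀ {r s : ℕ}, r ≠ s → pCoreOf r A ≤ pPrimeCoreOf s (fittingOf A) := fun {r s} h =>
    p_core_Fitting r A ▸ pcore_mono_pi (by simpa using h.symm) _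
  have c1 : pCoreOf p B ≤ 𝒞(pCoreOf q A) :=
    (le_cent_symm (pcore_cent_p' hA (sc_fitting A) hFA hpA)).trans (cent_anti (le' hpq.symm))
  have c2 : pCoreOf q B ≤ K :=
    le_inf ((pcore_le_fitting q B).trans hFB) (le_cent_symm (pcore_cent_p' hA (sc_fitting A) hFA hqA))
  have z1 : ⁅pCoreOf p B, K⁆ ≤ 𝒵(fittingOf A) := by
    have h1 : ⁅pCoreOf p B, K⁆ ≤ A ⊓ 𝒞(fittingOf A) := by
      refine le_inf (comm_le_of_le PA inf_le_left) ?_
      conv_rhs => rw [← (nilpotent_pcoreC {q} (fitting_nil A)).sup_eq, p_core_Fitting']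
      exact le_cent_sup ((commutator_mono c1 le_rfl).trans
        (comm_le_left (inf_le_left.trans (norm_cent (pcore_norm _ A)))))
        ((comm_le_right (PA.trans nK)).trans inf_le_right)
    exact le_inf (h1.trans (cent_fitting_of_layer hEA)) (h1.trans inf_le_right)
  set Z := 𝒵(fittingOf A) with hZ
  have nZ : Z ⊲ A := (charIn_center _).trans_normal (fitting_normal A)
  have nilZ : Group.IsNilpotent Z := nil_of_le (fitting_nil A) inf_le_left
  have T1 : IsPGrp p (pCoreOf p B ⊔ pCoreOf p Z) :=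
    (pcore_pGrp p B).sup (pcore_pGrp p Z) (Or.inl (PA.trans (NormalIn.pcore nZ _).2))
  have T2 : Group.IsNilpotent ↥(pCoreOf p B ⊔ Z) := by
    have e : pCoreOf p B ⊔ Z = (pCoreOf p B ⊔ pCoreOf p Z) ⊔ pPrimeCoreOf p Z := by
      rw [sup_assoc, (nilpotent_pcoreC {p} nilZ).sup_eq]
    rw [e]
    exact nil_sup_of_cent T1.nil (nil_of_le nilZ (pcore_le _ _)) (le_cent_sup
      ((nilpotent_pcore_mono _ (fitting_nil A) inf_le_left).trans (pcore_cent_p' hA (sc_fitting A) hFA hpA))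
      (le_cent_symm (pcore_cent_compl _ Z)))
  have T3 : K ≤ 𝒩(pCoreOf p B ⊔ Z) := by
    refine le_normalizer_iff_commutator_le_left.2 (comm_sup_left_le (norm_of_le le_sup_left)
      (norm_of_le le_sup_right) (z1.trans le_sup_right)
      ((comm_le_left (inf_le_left.trans nZ.2)).trans le_sup_right))
  have T4 : ⁅pCoreOf p B, K⁆ ≤ pCoreOf p A := le_pcore_of_le_fitting (z1.trans inf_le_left)
    ((pcore_pGrp p _).of_le ((commutator_mono (nilpotent_le_pcore T2 le_sup_left (pcore_pGrp p B)) le_rfl).trans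
      (comm_le_left (norm_pcore _ T3))))
  set K0 := closure {x | x ∈ K ∧ IsPiElt {p}ᶜ x} with hK0
  have K0K : K0 ≤ K := (closure_le _).2 fun x hx => hx.1
  have K0C : K0 ≤ 𝒞(pCoreOf p B) := (closure_le _).2 fun x hx =>
    stable_factor_cent' (K := pCoreOf p A) ((zpowers_le.2 hx.1).trans (inf_le_right.trans (cent_anti (le' hpq))))
      ((commutator_mono le_rfl (zpowers_le.2 hx.1)).trans T4)
      ((pcore_pGrp p A).coprime (piGrp_zpowers_iff.2 hx.2)) (mem_zpowers x)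
  have nK0 : K0 ⊲ A := ⟨K0K.trans inf_le_left, norm_closure fun a ha x hx =>
    ⟨conj_mem_of_le_norm nK ha hx.1, hx.2.conj a⟩⟩
  have h5 : pCoreOf q B ≤ K0 := fun x hx => subset_closure ⟨c2 hx,
    ((pcore_pGrp q B).piGrp (by simpa using hpq.symm)).piElt hx⟩
  exact (pcore_max ⟨h5, (K0C.trans (hB.cent (pcore_normal _ B) hpB)).trans (pcore_norm _ B)⟩
    (pcore_pGrp q B)).trans (NormalIn.pcore_le nK0 _)

/-- Bender's theorem on maximal subgroups. -/
theorem bender (hA : Prim A) (hB : Prim B) (hY : SC Y A) (hYB : Y ≤ B) (hEA : layerOf A ≤ B)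
    (hFB : fittingOf B ≤ A) (hEB : layerOf B ≤ A) : A = B ∨ ∃ p, p.Prime ∧ CharP p A ∧ CharP p B := by
  have ab : ∀ r, pCoreOf r A ≠ ⊥ → pCoreOf r B ≠ ⊥ := fun r => pcore_ne_bot_of_sc hY hYB hFB hEB
  have ba : ∀ r, pCoreOf r B ≠ ⊥ → pCoreOf r A ≠ ⊥ := fun r h e => h (by
    have := pcore_inf_eq_bot hY hEA hYB e
    rwa [inf_eq_left.2 ((pcore_le_fitting r B).trans hFB)] at this)
  by_cases hc : ∃ p, p.Prime ∧ CharP p B
  · obtain ⟨p, hp, hc⟩ := hc
    refine Or.inr ⟨p, hp, ⟨eq_bot_iff.2 (hc.1 ▸ layer_le_layer hEA hFB hEB),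
      pGrp_fitting_of_forall fun r hr h => ?_⟩, hc⟩
    by_contra h'
    exact h ((pcore_pGrp r B).mem_of_piGrp (ab r h') (hc.2.of_le (pcore_le_fitting r B)))
  push Not at hc
  have hFA : fittingOf A ≤ B := fitting_le_of_forall_pcore fun r hr => by
    by_cases h : pCoreOf r A = ⊥
    · rw [h]; exact bot_le
    · exact pcore_le_of_sc hr hB (sc_fitting B) hEB hFB (ab r h) (hc r hr)
  have e : layerOf A = layerOf B := le_antisymm (layer_le_layer hEA hFB hEB) (layer_le_layer hEB hFA hEA)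
  left
  by_cases h0 : layerOf A = ⊥
  · have ex : ∀ p, p.Prime → ∃ r, r.Prime ∧ r ≠ p ∧ pCoreOf r B ≠ ⊥ := fun p hp => by
      by_contra h
      push Not at h
      exact hc p hp ⟨e ▸ h0, pGrp_fitting_of_forall h⟩
    obtain ⟨q, hq, -, hqB⟩ := ex 2 Nat.prime_two
    obtain ⟨p, hp, hpq, hpB⟩ := ex q hq
    have h1 := pcore_le_pcore hp hpq hA hB h0 hFA hFB (ba p hpB) hpB (ba q hqB)
    have h2 := pcore_le_pcore hp hpq hB hA (e ▸ h0) hFB hFA hpB (ba p hpB) hqB
    have h3 : pCoreOf q B ⊲ A := by rw [le_antisymm h1 h2]; exact pcore_normal _ A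
    exact hA.eq hB h3 (pcore_normal _ B) hqB
  · exact hA.eq hB (layerOf_normal A) (e ▸ layerOf_normal B) h0

theorem fitting_le_of_sc (hA : Prim A) (hY : SC Y A) (hYB : Y ≤ B) (hEA : layerOf A ≤ B)
    (hπ : ∀ r, r.Prime → pCoreOf r B ≠ ⊥ → pCoreOf r A ≠ ⊥) (hc : ∀ r, r.Prime → ¬ CharP r A) :
    fittingOf B ≤ A := fitting_le_of_forall_pcore fun r hr => by
  by_cases h : pCoreOf r B = ⊥
  · rw [h]; exact bot_le
  · exact pcore_le_of_sc hr hA hY hEA hYB (hπ r hr h) (hc r hr)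

/-- `A ↝ B`, `π(F(B)) ⊆ π(F(A))`, `E(B) ≤ A` and `F^*(A)` not a `p`-group force `A = B`. -/
theorem bender' (hA : Prim A) (hB : Prim B) (hY : SC Y A) (hYB : Y ≤ B) (hEA : layerOf A ≤ B)
    (hEB : layerOf B ≤ A) (hπ : ∀ r, r.Prime → pCoreOf r B ≠ ⊥ → pCoreOf r A ≠ ⊥)
    (hc : ∀ r, r.Prime → ¬ CharP r A) : A = B :=
  (bender hA hB hY hYB hEA (fitting_le_of_sc hA hY hYB hEA hπ hc) hEB).resolve_right
    fun ⟨r, hr, h, _⟩ => hc r hr h

/-- `A ↝ A^g` forces `A^g = A`. -/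
theorem bender_conj (hA : Prim A) (hE : layerOf A = ⊥) (hc : ∀ r, r.Prime → ¬ CharP r A) (hY : SC Y A)
    {g : G} (hYB : Y ≤ A :^ g) : A :^ g = A :=
  (bender' hA (hA.conjg g) hY hYB (hE ▸ bot_le) (by rw [← layerOf_conjg, hE, conjg_bot]; exact bot_le)
    (fun r _ h e => h (by
      rw [pCoreOf, ← pcore_conjg, show piCoreOf {r} A = ⊥ from e, conjg_bot])) hc).symm

end Bender

theorem realizeEqns_GW_B1 : True := by
  have := @CA.GW.layerOf.eq_1.{0}
  have := @CA.GW.layerOf.eq_def.{0}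
  have := @CA.GW.layerOf.congr_simp.{0}
  have := @CA.GW.CompOf.eq_1.{0}
  have := @CA.GW.CompOf.eq_def.{0}
  have := @CA.GW.CompOf.congr_simp.{0}
  have := @CA.GW.CharP.eq_1.{0}
  have := @CA.GW.CharP.eq_def.{0}
  have := @CA.GW.CharP.congr_simp.{0}
  have := @CA.GW.Prim.eq_1.{0}
  have := @CA.GW.Prim.eq_def.{0}
  have := @CA.GW.Prim.congr_simp.{0}
  have := @CA.GW.SC.eq_1.{0}
  have := @CA.GW.SC.eq_def.{0}
  have := @CA.GW.SC.congr_simp.{0}
  trivial

end CA.GW
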