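/-
Involutions acting on groups of odd order; the solvable part of the Thompson-Bender lemma.
-/
import Cfsg.Agent.GW.B1
import Cfsg.Agent.Dih.BSW2

set_option autoImplicit false
set_option linter.unusedSectionVars false

namespace CA.GW

open Subgroup Cfsg CA.FG CA.BG
open scoped commutatorElement

universe u v

variable {G : Type u} [Group G] [Finite G] {p q : ℕ}

theorem two_zpowers {t : G} (t2 : t * t = 1) : IsPGrp 2 (zpowers t) :=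
  piGrp_zpowers_iff.2 (pElt_of_pow_eq_one Nat.prime_two (by rw [sq, t2]))

theorem co_zpowers {t : G} (t2 : t * t = 1) {F : Subgroup G} (oF : IsPiGrp {2}ᶜ F) :
    (Nat.card F).Coprime (Nat.card (zpowers t)) := ((two_zpowers t2).coprime oF).symm

theorem sol_zpowers (t : G) : Group.IsSolvable (zpowers t) := sol_of_abelian (abelian_zpowers t)

theorem odd_of_pGrp {P : Subgroup G} (h : IsPGrp p P) (p2 : p ≠ 2) : IsPiGrp {2}ᶜ P := h.piGrp (by simpa using p2)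

theorem comm_zpowers_le {A K : Subgroup G} {u : G} (hA : A ≤ 𝒩(K)) (hu : u ∈ 𝒩(K))
    (h : ∀ a ∈ A, a⁻¹ * (u * a * u⁻¹) ∈ K) : ⁅A, zpowers u⁆ ≤ K := by
  rw [← quot_cent_iff hA (zpowers_le.2 hu), show zpowers u /ₛ K = _ from quot_zpowers ⟨u, hu⟩, cent_zpowers]
  intro y hy
  obtain ⟨x, hx, rfl⟩ := mem_quot.1 hy
  have : coset K x = coset K (⟨u, hu⟩ * x * ⟨u, hu⟩⁻¹) := coset_eq_iff.2 (h x hx)
  rw [mem_centralizer_singleton_iff]
  rw [map_mul, map_mul, map_inv, eq_mul_inv_iff_mul_eq] at this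
  exact this

/-- If `u` inverts `F` then `[A, u]` centralizes `F`. -/
theorem comm_le_cent_of_inv {F A : Subgroup G} {u : G} (h : ∀ y ∈ F, u * y * u⁻¹ = y⁻¹) (hA : A ≤ 𝒩(F)) :
    ⁅A, zpowers u⁆ ≤ 𝒞(F) := by
  have hu : u ∈ 𝒩(F) := mem_norm_of_forall fun y hy => h y hy ▸ F.inv_mem hy
  refine comm_zpowers_le (norm_cent hA) (norm_cent (zpowers_le.2 hu) (mem_zpowers u)) fun a ha y hy => ?_
  have h1 : u⁻¹ * y * u = y⁻¹ := by
    have := h _ (F.inv_mem hy)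
    rw [inv_inv] at this
    conv_lhs => rw [← this]
    group
  have h2 := h _ (conj_mem_of_le_norm hA ha (F.inv_mem hy))
  have : a⁻¹ * (u * a * u⁻¹) * y * (a⁻¹ * (u * a * u⁻¹))⁻¹ = y := by
    calc _ = a⁻¹ * (u * (a * (u⁻¹ * y * u) * a⁻¹) * u⁻¹) * a := by group
      _ = y := by rw [h1, h2]; group
  rw [mul_inv_eq_iff_eq_mul] at this
  exact this.symm

theorem inv_of_fpf {F : Subgroup G} {u : G} (u2 : u * u = 1) (hu : u ∈ 𝒩(F)) (hc : F ⊓ 𝒞[u] = ⊥) {y : G}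
    (hy : y ∈ F) : u * y * u⁻¹ = y⁻¹ :=
  have := Fintype.ofFinite G
  Dih.inv_of_fpf' u2 hu hc hy

theorem abelian_of_fpf {F : Subgroup G} {u : G} (u2 : u * u = 1) (hu : u ∈ 𝒩(F)) (hc : F ⊓ 𝒞[u] = ⊥) :
    IsMulCommutative F :=
  have := Fintype.ofFinite G
  Dih.abelian_of_inv fun _ hy => inv_of_fpf u2 hu hc hy

theorem comm_eq_of_inv {F : Subgroup G} {u : G} (oF : IsPiGrp {2}ᶜ F) (u2 : u * u = 1) (hu : u ∈ 𝒩(F))
    (h : F ⊓ 𝒞[u] = ⊥) : ⁅F, zpowers u⁆ = F := by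
  have := coprime_cent_prod (zpowers_le.2 hu) (co_zpowers u2 oF) (Or.inr (sol_zpowers u))
  rwa [cent_zpowers, h, sup_bot_eq] at this

theorem comm_comm_zpowers {F : Subgroup G} {u : G} (oF : IsPiGrp {2}ᶜ F) (u2 : u * u = 1) (hu : u ∈ 𝒩(F)) :
    ⁅⁅F, zpowers u⁆, zpowers u⁆ = ⁅F, zpowers u⁆ :=
  coprime_commGid (zpowers_le.2 hu) (co_zpowers u2 oF) (Or.inr (sol_zpowers u))

theorem comm_sup_cent {F : Subgroup G} {u : G} (oF : IsPiGrp {2}ᶜ F) (u2 : u * u = 1) (hu : u ∈ 𝒩(F)) :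
    ⁅F, zpowers u⁆ ⊔ (F ⊓ 𝒞[u]) = F := by
  have := coprime_cent_prod (zpowers_le.2 hu) (co_zpowers u2 oF) (Or.inr (sol_zpowers u))
  rwa [cent_zpowers] at this

theorem quot_cent1 {F K : Subgroup G} {u : G} (oF : IsPiGrp {2}ᶜ F) (u2 : u * u = 1) (hK : K ≤ F)
    (hu : u ∈ 𝒩(K)) : (F ⊓ 𝒞[u]) /ₛ K = (F /ₛ K) ⊓ 𝒞[coset K ⟨u, hu⟩] := by
  have := coprime_quotient_cent hK (zpowers_le.2 hu) (co_zpowers u2 oF) (Or.inr (sol_zpowers u))
  rwa [cent_zpowers, show zpowers u /ₛ K = _ from quot_zpowers ⟨u, hu⟩, cent_zpowers] at this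

theorem quot_cent1' {F K : Subgroup G} {u : G} (oK : IsPiGrp {2}ᶜ K) (u2 : u * u = 1) (hF : u ∈ 𝒩(F))
    (hu : u ∈ 𝒩(K)) : (F ⊓ 𝒞[u]) /ₛ K = (F /ₛ K) ⊓ 𝒞[coset K ⟨u, hu⟩] := by
  have := coprime_norm_quotient_cent (zpowers_le.2 hF) (zpowers_le.2 hu) (co_zpowers u2 oK)
    (Or.inr (sol_zpowers u))
  rwa [cent_zpowers, show zpowers u /ₛ K = _ from quot_zpowers ⟨u, hu⟩, cent_zpowers] at this

theorem coset_sq {K : Subgroup G} {u : G} (u2 : u * u = 1) (hu : u ∈ 𝒩(K)) :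
    coset K ⟨u, hu⟩ * coset K ⟨u, hu⟩ = 1 := by
  rw [← map_mul, show (⟨u, hu⟩ * ⟨u, hu⟩ : 𝒩(K)) = 1 from Subtype.ext u2, map_one]

theorem coset_mem_norm {K F : Subgroup G} {u : G} (hu : u ∈ 𝒩(K)) (hF : u ∈ 𝒩(F)) :
    coset K ⟨u, hu⟩ ∈ 𝒩(F /ₛ K) :=
  quot_norm K (zpowers_le.2 hF) (mem_quot_of_mem hu (mem_zpowers u))

theorem quot_comm_zpowers {K P : Subgroup G} {u : G} (hu : u ∈ 𝒩(K)) (hP : P ≤ 𝒩(K)) :
    (⁅P, zpowers u⁆ : Subgroup G) /ₛ K = ⁅P /ₛ K, zpowers (coset K ⟨u, hu⟩)⁆ := by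
  rw [quot_comm hP (zpowers_le.2 hu), show zpowers u /ₛ K = _ from quot_zpowers ⟨u, hu⟩]

/-- If `C_N(u) ≤ D ⊲ N` then `[P, u]` acts trivially on `N / D`. -/
theorem comm_comm_le_of_fix {N D P : Subgroup G} {u : G} (oN : IsPiGrp {2}ᶜ N) (u2 : u * u = 1) (hD : D ⊲ N)
    (uN : u ∈ 𝒩(N)) (uD : u ∈ 𝒩(D)) (PN : P ≤ 𝒩(N)) (PD : P ≤ 𝒩(D)) (h : N ⊓ 𝒞[u] ≤ D) :
    ⁅N, ⁅P, zpowers u⁆⁆ ≤ D := by
  have h1 : (N /ₛ D) ⊓ 𝒞[coset D ⟨u, uD⟩] = ⊥ := by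
    rw [← quot_cent1 oN u2 hD.1 uD]; exact quot_eq_bot_of_le h
  have h2 := comm_le_cent_of_inv (fun y hy => inv_of_fpf (coset_sq u2 uD) (coset_mem_norm uD uN) h1 hy)
    (quot_norm D PN)
  rw [← quot_comm_zpowers uD PD] at h2
  exact (quot_cent_iff' (comm_le_of_le PD (zpowers_le.2 uD)) hD.2).1 h2

/-- `P = [P, u]` acts coprimely on the nilpotent group `F` of odd order and centralizes `C_F(u)`:
then `P` centralizes `F`. -/
theorem cent_of_cent_fix {F P : Subgroup G} {u : G} (nF : Group.IsNilpotent F) (oF : IsPiGrp {2}ᶜ F)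
    (u2 : u * u = 1) (uF : u ∈ 𝒩(F)) (uP : u ∈ 𝒩(P)) (PF : P ≤ 𝒩(F))
    (co : (Nat.card F).Coprime (Nat.card P)) (hP : P ≤ ⁅P, zpowers u⁆) (h : F ⊓ 𝒞[u] ≤ 𝒞(P)) : P ≤ 𝒞(F) := by
  refine coprime_nil_faithful_cent_stab PF co nF ?_
  set D := F ⊓ 𝒞(P) with hD
  have uD : zpowers u ≤ 𝒩(D) := norm_inf (zpowers_le.2 uF) (norm_cent (zpowers_le.2 uP))
  have PD : P ≤ 𝒩(D) := norm_inf PF (norm_cent le_normalizer)
  set N := F ⊓ 𝒞(D) with hN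
  have uN : zpowers u ≤ 𝒩(N) := norm_inf (zpowers_le.2 uF) (norm_cent uD)
  have PN : P ≤ 𝒩(N) := norm_inf PF (norm_cent PD)
  have h1 := comm_comm_le_of_fix (D := N ⊓ D) (oF.of_le inf_le_left) u2
    ⟨inf_le_left, norm_inf le_normalizer (inf_le_right.trans (cent_le_norm D))⟩ (uN (mem_zpowers u))
    (norm_inf uN uD (mem_zpowers u)) PN (norm_inf PN PD)
    (le_inf inf_le_left (le_inf (inf_le_left.trans inf_le_left) ((inf_le_inf_right _ inf_le_left).trans h)))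
  refine le_inf inf_le_left (le_cent_symm (stable_factor_cent' (K := N ⊓ D)
    (le_cent_symm (inf_le_right.trans inf_le_right)) ((commutator_mono le_rfl hP).trans h1)
    (co.coprime_dvd_left (card_dvd_of_le (inf_le_left.trans inf_le_left)))))

/-- Thompson-Bender lemma inside a solvable group of odd order. -/
theorem tb_sol {W P : Subgroup G} {u : G} (sW : Group.IsSolvable W) (oW : IsPiGrp {2}ᶜ W) (u2 : u * u = 1)
    (uW : u ∈ 𝒩(W)) (uP : u ∈ 𝒩(P)) (PW : P ≤ W) (pP : IsPGrp p P) (hP : P ≤ ⁅P, zpowers u⁆)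
    (h : W ⊓ 𝒞[u] ≤ 𝒩(P)) : P ≤ pCoreOf p W := by
  set O := pCoreOf p W with hO
  have uO : u ∈ 𝒩(O) := norm_pcore _ (zpowers_le.2 uW) (mem_zpowers u)
  have WO : W ≤ 𝒩(O) := pcore_norm _ W
  set F := fittingOf (W /ₛ O) with hF
  have p'F : IsPiGrp {p}ᶜ F := by
    have := (pcore_sylow_fitting p (W /ₛ O)).2.2
    rw [show pCoreOf p (W /ₛ O) = ⊥ from pcore_quot_pcore _ W, relIndex_bot_left] at this
    exact piNat_compl_iff.2 this
  have PF : P /ₛ O ≤ 𝒩(F) := (quot_mono O PW).trans (fitting_norm _)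
  have h1 : F ⊓ 𝒞[coset O ⟨u, uO⟩] ≤ 𝒩(P /ₛ O) := by
    refine (inf_le_inf_right _ (fitting_le _)).trans ?_
    rw [← quot_cent1 oW u2 (pcore_le _ W) uO]
    exact quot_norm O h
  have co := ((pP.quot O).coprime p'F).symm
  have h2 : P /ₛ O ≤ 𝒞(F) := cent_of_cent_fix (fitting_nil _) ((oW.quot O).of_le (fitting_le _))
    (coset_sq u2 uO) (norm_fitting (zpowers_le.2 (coset_mem_norm uO uW)) (mem_zpowers _))
    (coset_mem_norm uO uP) PF co (by rw [← quot_comm_zpowers uO (PW.trans WO)]; exact quot_mono O hP)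
    (comm_eq_bot_iff.1 (eq_bot_iff.2 ((le_inf ((commutator_mono inf_le_left le_rfl).trans (comm_le_left PF))
      (comm_le_right h1)).trans (inf_eq_bot_of_cop co).le)))
  have h3 := (le_inf (quot_mono O PW) h2).trans (cent_sub_Fitting (sol_quot O sW))
  exact (quot_eq_bot_iff (PW.trans WO)).1 ((pP.quot O).eq_bot (p'F.of_le h3))

end CA.GW
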