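/-
Groups with dihedral Sylow 2-subgroups (Gorenstein-Walter): definitions and the interface of the parts.
-/
import Cfsg.Agent.Dih.BSW2
import Cfsg.Agent.FT
import Cfsg.Agent.BG.I05

set_option autoImplicit false
set_option linter.unusedSectionVars false

namespace CA.GW

open Subgroup Cfsg CA.FG CA.BG CA.Dih
open scoped commutatorElement

universe u

variable {G : Type u} [Group G]

/-- involutions -/
def IsInv (a : G) : Prop := a * a = 1 ∧ a ≠ 1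

/-- the core `O(X)` -/
abbrev OO (X : Subgroup G) : Subgroup G := pPrimeCoreOf 2 X

/-- `U = O(C(t))` -/
abbrev UU (t : G) : Subgroup G := OO 𝒞[t]

/-- `F = F(O(C(t)))` -/
abbrev FF (t : G) : Subgroup G := fittingOf (UU t)

/-- the number of `C(t)`-conjugates of `a` -/
noncomputable abbrev kk (t a : G) : ℕ := (𝒞[a]).relIndex 𝒞[t]

/-- the number of involutions -/
noncomputable abbrev nn (t : G) : ℕ := (𝒞[t]).index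

/-- dihedral Sylow `2`-subgroup `S = ⟨c, s⟩`, `t` the involution of `⟨c⟩`, one class of involutions -/
structure DS (S : Subgroup G) (c t s : G) : Prop where
  syl : IsSylowOf 2 S ⊤
  dih : IsDih S c
  inv : IsInv t
  tc : t ∈ zpowers c
  sS : s ∈ S
  sc : s ∉ zpowers c
  one : ∀ a : G, IsInv a → IsConj t a

/-- the number of involutions of `C(t)` other than `t` -/
noncomputable abbrev kS (c t s : G) : ℕ := kk t s + kk t (s * c)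

/-- the results of character theory valid without simplicity -/
structure ChB (S : Subgroup G) (c t s : G) : Prop where
  b3 : 3 * kS c t s ^ 2 ≤ 4 * nn t

/-- the results of character theory for simple groups -/
structure ChA (S : Subgroup G) (c t s : G) : Prop where
  b15 : 4 * nn t ≤ 15 * kS c t s ^ 2
  b45 : 4 ≤ orderOf c → 16 * nn t ≤ 45 * kS c t s ^ 2
  lemN : 4 ≤ orderOf c → ∀ ρ : ℕ, Odd ρ → 3 ≤ ρ → kk t (s * c) = ρ * kk t s →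
    orderOf c = 4 ∧ ((ρ = 3 ∧ 4 * nn t = 105 * kk t s ^ 2) ∨ (ρ = 5 ∧ 4 * nn t = 189 * kk t s ^ 2))
  of4 : 4 ≤ orderOf c → (nn t).Coprime (kS c t s) →
    ∃ δ : ℤ, (δ = 1 ∨ δ = -1) ∧ (nn t : ℤ) = (2 * kS c t s + δ) * (kS c t s + δ)
  of3 : orderOf c = 2 → ∀ D : Subgroup G, D < UU t → 𝒞[t] ≤ 𝒩(D) → (∀ y ∈ UU t, s * y * s⁻¹ * y ∈ D) →
    (∀ y ∈ UU t, y ∉ D → ∀ g : G, g * y * g⁻¹ ∈ 𝒞[t] → g ∈ 𝒞[t]) → (nn t).Coprime (kS c t s) →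
    ∃ δ : ℤ, (δ = 1 ∨ δ = -1) ∧ (nn t : ℤ) = (2 * kS c t s + δ) * (kS c t s + δ)
  thmC : c ∈ 𝒞(UU t) → ∀ N : Subgroup G, N ≤ UU t ⊓ 𝒞[s] → UU t ⊓ 𝒞[s] ⊓ ⁅UU t, zpowers s⁆ ≤ N →
    UU t ⊓ 𝒞[s] ≤ 𝒩(N) → (orderOf c = 2 → ∃ σ ∈ 𝒩(S) ⊓ 𝒩(N), σ ∉ 𝒞[t]) → UU t ⊓ 𝒞[s] ≤ N

/-- the character theory holds in all finite groups -/
def Ch : Prop := ∀ (L : Type u) [Group L] [Finite L] (S : Subgroup L) (c t s : L), DS S c t s →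
  ChB S c t s ∧ (IsSimpleGroup L → ¬ IsMulCommutative L → ChA S c t s)

/-- the `A₇` configuration -/
structure A7T (S : Subgroup G) (c t s : G) : Prop extends DS S c t s where
  m4 : orderOf c = 4
  cardU : Nat.card (UU t) = 3
  cs : s ∈ 𝒞(UU t)
  isc : ∀ y ∈ UU t, s * c * y * (s * c)⁻¹ = y⁻¹
  card : Nat.card G = 2520

/-- the conclusion for simple groups -/
def Good (L : Type u) [Group L] : Prop :=
  (∃ (K : Subgroup L) (t : L), BSW K t) ∨ Nonempty (L ≃* alternatingGroup (Fin 7))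

/-- the Sylow `2`-subgroups are dihedral of order at least `4` -/
def HasDih (L : Type u) [Group L] : Prop := ∃ (S : Subgroup L) (c : L), IsSylowOf 2 S ⊤ ∧ IsDih S c ∧ c ≠ 1

/-- the inductive hypothesis -/
def IH (G : Type u) [Group G] : Prop := ∀ (L : Type u) [Group L] [Finite L] [IsSimpleGroup L],
  ¬ IsMulCommutative L → Nat.card L < Nat.card G → HasDih L → Good L

/-- `E` is the component of `M`, and `M/O(M)` is almost simple with socle `E O(M)/O(M)` -/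
structure Comp (M E : Subgroup G) : Prop where
  le : E ≤ M
  norm : M ≤ 𝒩(E)
  perf : ⁅E, E⁆ = E
  nsol : ¬ Group.IsSolvable E
  cent : M ⊓ 𝒞(E) = OO M
  der : ⁅M, M⁆ ≤ E ⊔ OO M
  gen : E ≤ Subgroup.closure {a | a ∈ E ∧ IsInv a}
  conj : ∀ a ∈ E, ∀ b ∈ E, IsInv a → IsInv b → ∃ g ∈ E, g * a * g⁻¹ = b
  four : ∀ a ∈ E, IsInv a → ∃ b ∈ E, IsInv b ∧ b ≠ a ∧ b ∈ 𝒞[a]
  two : ∀ x ∈ E ⊔ OO M, IsPiElt {2} x → x ∈ E
  out : ∀ w ∈ M, IsInv w → w ∉ E → 2 ∣ (𝒞[w]).relIndex M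
  out2 : ∀ x ∈ M, ∀ y ∈ M, IsPiElt {2} x → IsPiElt {2} y → x ∉ E → y ∉ E → x * y ∈ E ⊔ OO M

/-- the case `E/Z(E) = L₂(q)`: `K` is the cyclic torus containing `t` -/
structure Tor (M E K : Subgroup G) (t : G) (q r : ℕ) : Prop where
  tK : t ∈ K
  le : K ≤ E
  cyc : IsCyclic K
  inf : K ⊓ OO M = ⊥
  norm : M ⊓ 𝒞[t] ≤ 𝒩(K)
  inv : ∀ a ∈ M ⊓ 𝒞[t], IsInv a → a ≠ t → ∀ y ∈ K, a * y * a⁻¹ = y⁻¹
  sq : ∀ g ∈ (E ⊔ OO M) ⊓ 𝒞[t], g * g ∉ OO M → g ∈ K ⊔ OO M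
  cnt : {a | a ∈ E ⊓ 𝒞[t] ∧ IsInv a ∧ a ≠ t}.ncard = Nat.card K
  idx : (𝒞[t]).relIndex M = q * r
  hq : q = Nat.card K + r
  hr : r = Nat.card K + 1 ∨ r + 1 = Nat.card K
  r3 : 3 ≤ r
  pp : IsPrimePow q
  tl : ∀ p : ℕ, p.Prime → p ≠ 2 → ∀ Φ : Subgroup G, IsPGrp p Φ → Φ ≤ M ⊓ 𝒞[t] → Φ ≤ 𝒞(pPrimeCoreOf p K) →
    Φ ≤ K ⊔ OO M
  ti : ∀ y ∈ K ⊔ OO M, y ∉ OO M → M ⊓ 𝒞[y] ≤ 𝒞[t]
  pcyc : ∀ p : ℕ, p.Prime → p ≠ 2 → ∀ Φ : Subgroup G, IsPGrp p Φ → Φ ≤ E ⊔ OO M →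
    ∀ y ∈ Φ, y ∈ K ⊔ OO M → y ∉ OO M → Φ ≤ K ⊔ OO M

/-- the case `E/Z(E) = A₇` -/
structure TorA (M E : Subgroup G) (t : G) : Prop where
  inn : ∀ a ∈ M, IsInv a → a ∈ E
  ex : ∃ s ∈ E ⊓ 𝒞[t], IsInv s ∧ s ≠ t ∧ ∀ y ∈ M ⊓ 𝒞[t], ¬ 2 ∣ orderOf y → y ∈ 𝒞[s]

/-- structure of the nonsolvable proper subgroups whose core is centralized by an involution -/
def XC (G : Type u) [Group G] : Prop := ∀ N : Subgroup G, N ≠ ⊤ → ¬ Group.IsSolvable N →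
  (∃ a ∈ N, IsInv a ∧ OO N ≤ 𝒞[a]) →
    ∃ E, Comp N E ∧ ∀ t ∈ E, IsInv t → (∃ K q r, Tor N E K t q r) ∨ TorA N E t

/-- the core of a proper overgroup of `C(t)` centralizes `t` -/
def ClaimA (G : Type u) [Group G] : Prop := ∀ t : G, IsInv t → ∀ M : Subgroup G, M ≠ ⊤ → 𝒞[t] ≤ M → OO M ≤ 𝒞[t]

/-- the common hypotheses (with `IsSimpleGroup G`) -/
structure Cx (S : Subgroup G) (c t s : G) : Prop extends DS S c t s where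
  nab : ¬ IsMulCommutative G
  ch : Ch.{u}
  xc : XC G
  U1 : UU t ≠ ⊥

/-- the main case: `C(t)` is a maximal subgroup -/
structure Loc (S : Subgroup G) (c t s : G) : Prop extends Cx S c t s where
  max : IsCoatom 𝒞[t]

/-- the TI configuration; `F₀ = F ∩ O(M)` -/
structure Cfg (t : G) (M E K : Subgroup G) (q r : ℕ) : Prop where
  comp : Comp M E
  tor : Tor M E K t q r
  ne : M ≠ ⊤
  F0 : FF t ⊓ OO M ≠ ⊥
  nD : ∀ D : Subgroup G, D ≤ FF t ⊓ OO M → D ≠ ⊥ → 𝒩(D) ≤ M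
  ti : ∀ x ∈ FF t ⊓ OO M, x ≠ 1 → ∀ g : G, g * x * g⁻¹ ∈ FF t ⊓ OO M → g ∈ M

/-- the first consequences of the TI configuration -/
structure CfF (t : G) (M E K : Subgroup G) (q r : ℕ) : Prop extends Cfg t M E K q r where
  notle : ¬ 𝒞[t] ≤ M
  star : ∀ x ∈ FF t ⊓ M, ∃ a ∈ FF t ⊓ K, ∃ b ∈ FF t ⊓ OO M, x = a * b
  zp : ∀ p : ℕ, p.Prime → p ∣ Nat.card (FF t) → ∃ z ∈ K ⊓ FF t ⊓ 𝒞(FF t), orderOf z = p
  cs : ∀ v ∈ E ⊓ 𝒞[t], IsInv v → v ≠ t → FF t ⊓ 𝒞[v] = FF t ⊓ OO M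
  cV : ∀ v ∈ E ⊓ 𝒞[t], IsInv v → v ≠ t → 𝒞[t] ⊓ 𝒞[v] ≤ M
  cyc : IsCyclic (FF t ⊓ OO M : Subgroup G)
  dvd : Nat.card (FF t ⊓ OO M : Subgroup G) ∣ Nat.card (FF t ⊓ K : Subgroup G)
  nconj : ∀ g ∈ 𝒞[t], ∀ x ∈ FF t ⊓ OO M, g * x * g⁻¹ ∈ K → x = 1
  count : ∀ x ∈ FF t ⊓ OO M, (orderOf x).Prime → ∀ T : Set (Subgroup G),
    (∀ X ∈ T, X ≠ zpowers x ∧ X ≤ M ∧ ∃ g ∈ 𝒞[t], X = zpowers x :^ g) →
      T.ncard * (q * r * (q * r - 1 - Nat.card K)) ≤ nn t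
  big : ∀ (S : Subgroup G) (c s : G), DS S c t s → Nat.card K ^ 2 < kS c t s

/-- `Ω = Ω₁(O_p(F) ∩ M)` is normal in `C(t)` -/
def OmN (t : G) (M : Subgroup G) (p : ℕ) : Prop :=
  ∀ g ∈ 𝒞[t], ∀ x ∈ FF t ⊓ M, x ^ p = 1 → g * x * g⁻¹ ∈ M

/-- case II produces a TI configuration -/
def CfgII (t : G) : Prop := ∀ v ∈ 𝒞[t], IsInv v → v ≠ t → ∀ p : ℕ, p.Prime → pCoreOf p (UU t) ⊓ 𝒞[v] ≠ ⊥ →
  v ∉ 𝒞(pCoreOf p (UU t)) → ∃ M E K q r, CfF t M E K q r ∧ pCoreOf p (UU t) ⊓ 𝒞[v] ≤ OO M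

/-- case A is impossible -/
def NoA (t : G) : Prop := ∀ M E K q r, CfF t M E K q r → ∀ p : ℕ, p.Prime → p ∣ Nat.card (FF t ⊓ OO M : Subgroup G) →
  ¬ OmN t M p

end CA.GW
theorem CA.GW.realizeEqnsDefs : True := by
  have := @CA.GW.UU.eq_1.{0}
  have := @CA.GW.UU.eq_def.{0}
  have := @CA.GW.UU.congr_simp.{0}
  have := @CA.GW.OmN.eq_1.{0}
  have := @CA.GW.OmN.eq_def.{0}
  have := @CA.GW.OmN.congr_simp.{0}
  have := @CA.GW.OO.eq_1.{0}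
  have := @CA.GW.OO.eq_def.{0}
  have := @CA.GW.OO.congr_simp.{0}
  have := @CA.GW.kk.eq_1.{0}
  have := @CA.GW.kk.eq_def.{0}
  have := @CA.GW.kk.congr_simp.{0}
  have := @CA.GW.Good.eq_1.{0}
  have := @CA.GW.Good.eq_def.{0}
  have := @CA.GW.Good.congr_simp.{0}
  have := @CA.GW.ClaimA.eq_1.{0}
  have := @CA.GW.ClaimA.eq_def.{0}
  have := @CA.GW.ClaimA.congr_simp.{0}
  have := @CA.GW.IsInv.eq_1.{0}
  have := @CA.GW.IsInv.eq_def.{0}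
  have := @CA.GW.IsInv.congr_simp.{0}
  have := @CA.GW.kS.eq_1.{0}
  have := @CA.GW.kS.eq_def.{0}
  have := @CA.GW.kS.congr_simp.{0}
  have := @CA.GW.HasDih.eq_1.{0}
  have := @CA.GW.HasDih.eq_def.{0}
  have := @CA.GW.HasDih.congr_simp.{0}
  have := @CA.GW.CfgII.eq_1.{0}
  have := @CA.GW.CfgII.eq_def.{0}
  have := @CA.GW.CfgII.congr_simp.{0}
  have := @CA.GW.FF.eq_1.{0}
  have := @CA.GW.FF.eq_def.{0}
  have := @CA.GW.FF.congr_simp.{0}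
  have := @CA.GW.XC.eq_1.{0}
  have := @CA.GW.XC.eq_def.{0}
  have := @CA.GW.XC.congr_simp.{0}
  have := @CA.GW.nn.eq_1.{0}
  have := @CA.GW.nn.eq_def.{0}
  have := @CA.GW.nn.congr_simp.{0}
  have := @CA.GW.Ch.eq_1.{0}
  have := @CA.GW.Ch.eq_def.{0}
  have := @CA.GW.Ch.congr_simp.{0}
  have := @CA.GW.NoA.eq_1.{0}
  have := @CA.GW.NoA.eq_def.{0}
  have := @CA.GW.NoA.congr_simp.{0}
  have := @CA.GW.IH.eq_1.{0}
  have := @CA.GW.IH.eq_def.{0}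
  have := @CA.GW.IH.congr_simp.{0}
  trivial
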