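/-
Groups with dihedral Sylow 2-subgroups: the structure of `H = C(t)`.
-/
import Cfsg.Agent.GW.Defs
import Cfsg.Agent.GW.B2

set_option autoImplicit false
set_option linter.unusedSectionVars false

namespace CA.GW

open Subgroup Cfsg CA.FG CA.BG CA.Dih
open scoped commutatorElement

universe u

variable {G : Type u} [Group G] [Finite G] {S : Subgroup G} {c t s a v : G}

theorem IsInv.ord (h : IsInv a) : orderOf a = 2 := orderOf_two h.1 h.2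

theorem isInv_of_ord (h : orderOf a = 2) : IsInv a := ⟨sq_eq_one_of_orderOf h, ne_one_of_orderOf Nat.prime_two h⟩

theorem IsInv.inv_eq (h : IsInv a) : a⁻¹ = a := inv_eq_of_mul_eq_one_right h.1

theorem IsInv.conj (h : IsInv a) (g : G) : IsInv (g * a * g⁻¹) := isInv_of_ord ((orderOf_conj a g).trans h.ord)

theorem isInv_conj {g : G} : IsInv (g * a * g⁻¹) ↔ IsInv a :=
  ⟨fun h => by simpa [mul_assoc] using h.conj g⁻¹, fun h => h.conj g⟩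

theorem IsInv.two (h : IsInv a) : IsPiElt {2} a := pElt_of_pow_eq_one Nat.prime_two ((pow_two a).trans h.1)

theorem IsInv.mul (ha : IsInv a) (hv : IsInv v) (hc : v ∈ 𝒞[a]) (ne : v ≠ a) : IsInv (a * v) := by
  have e := mem_centralizer_singleton_iff.1 hc
  refine ⟨?_, fun e' => ne ?_⟩
  · rw [mul_assoc, ← mul_assoc v, e, mul_assoc, hv.1, mul_one, ha.1]
  · rw [← ha.inv_eq]; exact (inv_eq_of_mul_eq_one_right e').symm

theorem IsInv.mul_ne (hv : IsInv v) : a * v ≠ a := fun e => hv.2 (by simpa using e)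

theorem IsInv.mul_ne' (ha : IsInv a) : a * v ≠ v := fun e => ha.2 (by simpa using e)

theorem eq_one_of_odd {U : Subgroup G} (oU : IsPiGrp {2}ᶜ U) {y : G} (hy : y ∈ U) (e : y * y = 1) : y = 1 :=
  (pElt_of_pow_eq_one Nat.prime_two ((pow_two y).trans e)).eq_one (oU.piElt hy)

theorem exists_sqrt {U : Subgroup G} (oU : IsPiGrp {2}ᶜ U) {y : G} (hy : y ∈ U) : ∃ z ∈ zpowers y, z * z = y := by
  have h1 : ¬ 2 ∣ orderOf y := (piNat_compl_singleton_iff Nat.prime_two).1 (oU.piElt hy)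
  obtain ⟨j, hj⟩ : ∃ j, orderOf y + 1 = 2 * j := ⟨(orderOf y + 1) / 2, by omega⟩
  exact ⟨y ^ j, ⟨j, by simp⟩, by rw [← pow_add, ← two_mul, ← hj, pow_succ, pow_orderOf_eq_one, one_mul]⟩

theorem inv_of_mem_zpowers {y z : G} (h : a * y * a⁻¹ = y⁻¹) (hz : z ∈ zpowers y) : a * z * a⁻¹ = z⁻¹ := by
  obtain ⟨i, rfl⟩ := hz
  simp only
  rw [← conj_zpow, h, inv_zpow]

/-- the elements of `U` inverted by `a` -/
def Iset (U : Subgroup G) (a : G) : Set G := {y | y ∈ U ∧ a * y * a⁻¹ = y⁻¹}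

theorem exists_inv_mul {U : Subgroup G} (oU : IsPiGrp {2}ᶜ U) (a2 : a * a = 1) (ha : a ∈ 𝒩(U)) {y : G} (hy : y ∈ U) :
    ∃ i ∈ Iset U a, ∃ b ∈ U ⊓ 𝒞[a], y = i * b := by
  have ai : a⁻¹ = a := inv_eq_of_mul_eq_one_right a2
  have h1 : y * (a * y⁻¹ * a⁻¹) ∈ U := mul_mem hy (conj_mem_of_mem_norm ha (inv_mem hy))
  obtain ⟨z, hz, e⟩ := exists_sqrt oU h1
  have h2 : a * z * a⁻¹ = z⁻¹ := inv_of_mem_zpowers (by
    calc a * (y * (a * y⁻¹ * a⁻¹)) * a⁻¹ = a * y * (a * y⁻¹ * (a * a)⁻¹) := by group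
      _ = (y * (a * y⁻¹ * a⁻¹))⁻¹ := by rw [a2]; nth_rw 2 [← ai]; group) hz
  have zU := zpowers_le.2 h1 hz
  refine ⟨z, ⟨zU, h2⟩, z⁻¹ * y, mem_inf.2 ⟨mul_mem (inv_mem zU) hy, ?_⟩, by group⟩
  rw [mem_centralizer_singleton_iff, eq_comm, ← mul_inv_eq_iff_eq_mul]
  calc a * (z⁻¹ * y) * a⁻¹ = (a * z * a⁻¹)⁻¹ * (y * (a * y⁻¹ * a⁻¹))⁻¹ * y := by group
    _ = z⁻¹ * y := by rw [h2, ← e]; group

theorem card_Iset {U : Subgroup G} (oU : IsPiGrp {2}ᶜ U) (a2 : a * a = 1) (ha : a ∈ 𝒩(U)) :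
    (Iset U a).ncard = (𝒞[a]).relIndex U := by
  have e : (Iset U a) × (U ⊓ 𝒞[a] : Subgroup G) ≃ U := Equiv.ofBijective
    (fun x => ⟨x.1.1 * x.2.1, mul_mem x.1.2.1 x.2.2.1⟩) ⟨?_, fun y => ?_⟩
  · have h1 := Nat.card_congr e
    rw [Nat.card_prod, ← card_inf_mul_relIndex 𝒞[a] U, inf_comm 𝒞[a], mul_comm] at h1
    exact Nat.eq_of_mul_eq_mul_left Nat.card_pos h1
  · rintro ⟨⟨i, hi⟩, ⟨b, hb⟩⟩ ⟨⟨j, hj⟩, ⟨d, hd⟩⟩ e
    have e1 : i * b = j * d := congrArg Subtype.val e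
    have f : ∀ i b : G, a * i * a⁻¹ = i⁻¹ → b ∈ 𝒞[a] → i * b * (a * (i * b)⁻¹ * a⁻¹) = i * i := fun i b hi hb => by
      have := mem_centralizer_singleton_iff.1 hb
      calc i * b * (a * (i * b)⁻¹ * a⁻¹) = i * (b * a) * b⁻¹ * a⁻¹ * (a * i * a⁻¹)⁻¹ := by group
        _ = i * i := by rw [this, hi]; group
    have e2 : i * i = j * j := by rw [← f i b hi.2 hb.2, e1, f j d hj.2 hd.2]
    have o : ¬ 2 ∣ Nat.card U := (piGrp_compl_singleton_iff Nat.prime_two).1 oU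
    obtain ⟨k, hk⟩ : ∃ k, Nat.card U + 1 = 2 * k := ⟨(Nat.card U + 1) / 2, by omega⟩
    have g : ∀ i ∈ U, i = (i * i) ^ k := fun i hi => by
      rw [← pow_two, ← pow_mul, ← hk, pow_succ, pow_card_eq_one_of_mem hi, one_mul]
    have e3 : i = j := by rw [g i hi.1, e2, ← g j hj.1]
    subst e3
    have e4 : b = d := mul_left_cancel e1
    subst e4; rfl
  · obtain ⟨i, hi, b, hb, e⟩ := exists_inv_mul oU a2 ha y.2
    exact ⟨⟨⟨i, hi⟩, ⟨b, hb⟩⟩, Subtype.ext e.symm⟩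

theorem ncard_conj (H : Subgroup G) (a : G) : {b | ∃ g ∈ H, g * a * g⁻¹ = b}.ncard = (𝒞[a]).relIndex H := by
  let i : MulAction G G := MulAction.compHom G (MulAut.conj : G →* MulAut G)
  have h := @ncard_orbit G _ _ G i _ H a
  have e1 : @MulAction.stabilizer G G _ i a = 𝒞[a] := by
    ext g; rw [mem_centralizer_singleton_iff, ← mul_inv_eq_iff_eq_mul]; rfl
  rw [e1] at h
  rw [← h]
  congr 1
  ext b
  exact ⟨fun ⟨g, hg, e⟩ => ⟨⟨g, hg⟩, e⟩, fun ⟨g, e⟩ => ⟨g, g.2, e⟩⟩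

theorem UU_conj (t g : G) : UU t :^ g = UU (g * t * g⁻¹) := by rw [pcore_conjg, conjg_cent1]

theorem FF_conj (t g : G) : FF t :^ g = FF (g * t * g⁻¹) := by rw [fitting_conjg, UU_conj]

theorem UU_le (t : G) : UU t ≤ 𝒞[t] := pcore_le _ _

theorem UU_norm (t : G) : 𝒞[t] ≤ 𝒩(UU t) := pcore_norm _ _

theorem UU_odd (t : G) : IsPiGrp {2}ᶜ (UU t) := pcore_piGrp _ _

theorem odd_sol {U : Subgroup G} (oU : IsPiGrp {2}ᶜ U) : Group.IsSolvable U :=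
  CA.FT.odd_solvable U (Nat.not_even_iff_odd.1 (mt even_iff_two_dvd.1
    ((piGrp_compl_singleton_iff Nat.prime_two).1 oU)))

theorem UU_sol (t : G) : Group.IsSolvable (UU t) := odd_sol (UU_odd t)

theorem FF_le (t : G) : FF t ≤ UU t := fitting_le _

theorem FF_normal (t : G) : FF t ⊲ 𝒞[t] := NormalIn.fitting (pcore_normal _ _)

theorem FF_odd (t : G) : IsPiGrp {2}ᶜ (FF t) := (UU_odd t).of_le (FF_le t)

theorem pcore_UU_normal (p : ℕ) (t : G) : pCoreOf p (UU t) ⊲ 𝒞[t] := NormalIn.pcore (pcore_normal _ _) _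

/-- a `2`-element of `C(t)` centralizing `F` centralizes `U` -/
theorem cent_UU_of_FF {x : G} (hx : x ∈ 𝒞[t]) (x2 : IsPiElt {2} x) (h : x ∈ 𝒞(FF t)) : x ∈ 𝒞(UU t) :=
  coprime_cent_Fitting (zpowers_le.2 (UU_norm t hx)) ((piGrp_zpowers_iff.2 x2).coprime (UU_odd t)).symm (UU_sol t)
    ⟨mem_zpowers x, h⟩

theorem kk_conj {g : G} (hg : g ∈ 𝒞[t]) (a : G) : kk t (g * a * g⁻¹) = kk t a := by
  have := relIndex_conjg 𝒞[a] 𝒞[t] g
  rwa [conjg_of_mem hg, conjg_cent1] at this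

theorem kk_conj' (g t a : G) : kk (g * t * g⁻¹) (g * a * g⁻¹) = kk t a := by
  rw [kk, ← conjg_cent1, ← conjg_cent1, relIndex_conjg]

theorem nn_conj (g t : G) : nn (g * t * g⁻¹) = nn t := by rw [nn, ← conjg_cent1, index_conjg]

theorem conj_eq_of_cent {g : G} (hg : g ∈ 𝒞[t]) : g * t * g⁻¹ = t := by
  rw [mem_centralizer_singleton_iff.1 hg, mul_inv_cancel_right]

theorem cent_of_conj_eq {g : G} (hg : g * t * g⁻¹ = t) : g ∈ 𝒞[t] :=
  mem_centralizer_singleton_iff.2 (mul_inv_eq_iff_eq_mul.1 hg)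

namespace DS

variable (h : DS S c t s)
include h

theorem cS : c ∈ S := h.dih.mem

theorem zle : zpowers c ≤ S := zpowers_le.2 h.cS

theorem tS : t ∈ S := h.zle h.tc

theorem pS : IsPGrp 2 S := h.syl.piGrp

theorem isInv (ha : a ∈ S) (hc : a ∉ zpowers c) : IsInv a := ⟨h.dih.sq a ha hc, fun e => hc (e ▸ one_mem _)⟩

theorem sInv : IsInv s := h.isInv h.sS h.sc

theorem inverts (ha : a ∈ S) (hc : a ∉ zpowers c) {y : G} (hy : y ∈ zpowers c) : a * y * a⁻¹ = y⁻¹ := by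
  have h1 := h.dih.sq _ (mul_mem ha (h.zle hy)) fun e => hc ((mul_mem_cancel_right hy).1 e)
  rw [eq_inv_iff_mul_eq_one, (h.isInv ha hc).inv_eq, ← h1]; group

theorem uniq (ha : a ∈ zpowers c) (hi : IsInv a) : a = t :=
  have := Fintype.ofFinite G
  eq_of_cyclic_inv (cyclic_zpowers c) ha h.tc hi.1 hi.2 h.inv.1 h.inv.2

theorem le : S ≤ 𝒞[t] := fun a ha => by
  by_cases hc : a ∈ zpowers c
  · exact mem_centralizer_singleton_iff.2 (abelian_iff_forall.1 (abelian_zpowers c) _ hc _ h.tc)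
  · exact cent_of_conj_eq ((h.inverts ha hc h.tc).trans h.inv.inv_eq)

theorem sH : s ∈ 𝒞[t] := h.le h.sS

theorem cH : c ∈ 𝒞[t] := h.le h.cS

theorem st : s ≠ t := fun e => h.sc (e ▸ h.tc)

theorem sylH : IsSylowOf 2 S 𝒞[t] := h.syl.of_le h.le le_top

theorem hall (ha : IsInv a) : IsPiHallOf {2}ᶜ (UU a) 𝒞[a] := h.dih.hall_core h.syl ha.ord

/-- elements of odd order centralizing an involution `a` lie in `U_a` -/
theorem mem_UU (ha : IsInv a) {y : G} (hy : y ∈ 𝒞[a]) (o : IsPiElt {2}ᶜ y) : y ∈ UU a :=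
  (h.hall ha).mem_of_normal (UU_norm a) o hy

theorem le_UU (ha : IsInv a) {Y : Subgroup G} (hy : Y ≤ 𝒞[a]) (o : IsPiGrp {2}ᶜ Y) : Y ≤ UU a :=
  fun _ e => h.mem_UU ha (hy e) (o.piElt e)

theorem sup : S ⊔ UU t = 𝒞[t] := h.sylH.sup_compl (h.hall h.inv)

theorem decomp {g : G} (hg : g ∈ 𝒞[t]) : ∃ y ∈ UU t, ∃ x ∈ S, y * x = g := by
  rwa [← h.sup, mem_sup_of_left_le_norm' (h.le.trans (UU_norm t))] at hg

theorem inf : S ⊓ UU t = ⊥ := h.pS.inf_eq_bot (UU_odd t)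

theorem conj (g : G) : DS (S :^ g) (g * c * g⁻¹) (g * t * g⁻¹) (g * s * g⁻¹) where
  syl := by simpa using h.syl.conjg g
  dih := h.dih.conj g
  inv := h.inv.conj g
  tc := by rw [← conjg_zpowers]; exact conj_mem_conjg g h.tc
  sS := conj_mem_conjg g h.sS
  sc := fun e => h.sc (by rw [← conjg_zpowers, mem_conjg] at e; simpa [mul_assoc] using e)
  one := fun a ha => (isConj_iff.2 ⟨g, rfl⟩ : IsConj t _).symm.trans (h.one a ha)

theorem conjH {g : G} (hg : g ∈ 𝒞[t]) : DS (S :^ g) (g * c * g⁻¹) t (g * s * g⁻¹) := by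
  have := h.conj g
  rwa [conj_eq_of_cent hg] at this

theorem exists_conj (ha : IsInv a) : ∃ g, g * t * g⁻¹ = a := isConj_iff.1 (h.one a ha)

theorem solH (ha : IsInv a) : Group.IsSolvable 𝒞[a] := by
  obtain ⟨g, rfl⟩ := h.exists_conj ha
  rw [← conjg_cent1, sol_conjg, ← h.sup]
  exact sol_sup h.pS.sol (UU_sol t) (Or.inl (h.le.trans (UU_norm t)))

theorem change (ha : a ∈ S) (hc : a ∉ zpowers c) : DS S c t a := { h with sS := ha, sc := hc }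

theorem swap : DS S c t (s * c) :=
  h.change (mul_mem h.sS h.cS) fun e => h.sc ((mul_mem_cancel_right (mem_zpowers c)).1 e)

theorem cardS : Nat.card S = 2 * orderOf c := by
  rw [← card_mul_relIndex h.zle, h.dih.index, Nat.card_zpowers, mul_comm]

theorem two_dvd : 2 ∣ orderOf c := by
  rw [← h.inv.ord, ← Nat.card_zpowers c]; exact orderOf_dvd_card_of_mem h.tc

theorem exists_pow : ∃ e, orderOf c = 2 ^ (e + 1) := by
  obtain ⟨e, he⟩ := (pGrp_iff_card Nat.prime_two).1 (h.pS.of_le h.zle)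
  rw [Nat.card_zpowers] at he
  have := h.two_dvd
  rcases e with _ | e
  · omega
  · exact ⟨e, he⟩

theorem m_cases : orderOf c = 2 ∨ (4 ≤ orderOf c ∧ 4 ∣ orderOf c) := by
  obtain ⟨e, he⟩ := h.exists_pow
  rcases e with _ | e
  · exact Or.inl he
  · have : 4 ∣ orderOf c := ⟨2 ^ e, by rw [he]; ring⟩
    exact Or.inr ⟨Nat.le_of_dvd (orderOf_pos c) this, this⟩

theorem pow_half : c ^ (orderOf c / 2) = t := by
  obtain ⟨j, hj⟩ := h.two_dvd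
  have := orderOf_pos c
  rw [hj, Nat.mul_div_cancel_left _ two_pos]
  refine h.uniq ⟨j, by simp⟩ ⟨by rw [← pow_add, ← two_mul, ← hj, pow_orderOf_eq_one], fun e => ?_⟩
  have := Nat.le_of_dvd (by omega) (orderOf_dvd_of_pow_eq_one e)
  omega

theorem c_eq (h2 : orderOf c = 2) : c = t := h.uniq (mem_zpowers c) (isInv_of_ord h2)

theorem cardH : Nat.card 𝒞[t] = 2 * orderOf c * Nat.card (UU t) := by
  rw [← h.sylH.card_mul_card (h.hall h.inv), h.cardS]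

theorem cardG : Nat.card G = 2 * orderOf c * Nat.card (UU t) * nn t := by rw [← h.cardH, card_mul_index]

theorem odd_nn : ¬ 2 ∣ nn t := fun e => h.syl.not_dvd_index Nat.prime_two (by
  rw [relIndex_top_right]; exact e.trans (index_dvd_of_le h.le))

theorem mem_cases (ha : a ∈ S) : a ∈ zpowers c ∨ ∃ y ∈ zpowers c, a = s * y := by
  by_cases hc : a ∈ zpowers c
  · exact Or.inl hc
  · exact Or.inr ⟨s * a, mul_mem_of_relIndex_two h.dih.index h.sS ha h.sc hc,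
      by rw [← mul_assoc, h.sInv.1, one_mul]⟩

theorem conj_s {y : G} (hy : y ∈ zpowers c) : y⁻¹ * s * y⁻¹⁻¹ = s * (y * y) := by
  calc y⁻¹ * s * y⁻¹⁻¹ = (s * y * s⁻¹) * s * y := by rw [h.inverts h.sS h.sc hy]; group
    _ = s * (y * y) := by group

theorem classS (ha : a ∈ S) (hc : a ∉ zpowers c) :
    ∃ g ∈ zpowers c, g * s * g⁻¹ = a ∨ g * (s * c) * g⁻¹ = a := by
  obtain ⟨_, ⟨i, rfl⟩, rfl⟩ := (h.mem_cases ha).resolve_left hc
  have hy : ∀ j : ℤ, c ^ j ∈ zpowers c := fun j => ⟨j, rfl⟩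
  obtain ⟨j, rfl | rfl⟩ := Int.even_or_odd' i
  · exact ⟨(c ^ j)⁻¹, inv_mem (hy j), Or.inl (by rw [h.conj_s (hy j)]; group)⟩
  · exact ⟨(c ^ j)⁻¹, inv_mem (hy j), Or.inr (by rw [h.swap.conj_s (hy j)]; group)⟩

/-- every `2`-subgroup of `H` containing an involution `v ≠ t` lies in a `DS` with `s = v` -/
theorem exists_of_le {T : Subgroup G} (pT : IsPGrp 2 T) (hT : T ≤ 𝒞[t]) (hv : v ∈ T) (iv : IsInv v) (ne : v ≠ t) :
    ∃ g ∈ 𝒞[t], T ≤ S :^ g ∧ DS (S :^ g) (g * c * g⁻¹) t v := by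
  obtain ⟨g, hg, e⟩ := sylow_subJ Nat.prime_two h.sylH pT hT
  have h1 := h.conjH hg
  exact ⟨g, hg, e, h1.change (e hv) fun e' => ne (h1.uniq e' iv)⟩

theorem exists_of (hv : v ∈ 𝒞[t]) (iv : IsInv v) (ne : v ≠ t) :
    ∃ g ∈ 𝒞[t], DS (S :^ g) (g * c * g⁻¹) t v := by
  obtain ⟨g, hg, -, e⟩ := h.exists_of_le (two_zpowers iv.1) (zpowers_le.2 hv) (mem_zpowers v) iv ne
  exact ⟨g, hg, e⟩

theorem classH (hv : v ∈ 𝒞[t]) (iv : IsInv v) (ne : v ≠ t) :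
    ∃ g ∈ 𝒞[t], g * s * g⁻¹ = v ∨ g * (s * c) * g⁻¹ = v := by
  obtain ⟨g, hg, e⟩ := h.exists_of hv iv ne
  obtain ⟨x, hx, e'⟩ := (h.conjH hg).classS e.sS e.sc
  refine ⟨x * g, mul_mem (e.le (e.zle hx)) hg, e'.imp (fun e => ?_) fun e => ?_⟩ <;> rw [← e] <;> group

theorem not_conj {g : G} (hg : g ∈ 𝒞[t]) : g * s * g⁻¹ ≠ s * c := fun e => by
  obtain ⟨y, hy, x, hx, rfl⟩ := h.decomp hg
  have h1 : x * s * x⁻¹ ∈ S := mul_mem (mul_mem hx h.sS) (inv_mem hx)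
  have h2 : (s * c) * (x * s * x⁻¹)⁻¹ ∈ S ⊓ UU t := by
    refine mem_inf.2 ⟨mul_mem h.swap.sS (inv_mem h1), ?_⟩
    rw [← e, show y * x * s * (y * x)⁻¹ * (x * s * x⁻¹)⁻¹ = y * ((x * s * x⁻¹) * y⁻¹ * (x * s * x⁻¹)⁻¹) by group]
    exact mul_mem hy (conj_mem_of_mem_norm (UU_norm t (h.le h1)) (inv_mem hy))
  rw [h.inf, mem_bot, mul_inv_eq_one] at h2
  have h3 : ∃ z ∈ zpowers c, x * s * x⁻¹ = s * (z * z) := by
    rcases h.mem_cases hx with e | ⟨z, hz, rfl⟩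
    · exact ⟨x⁻¹, inv_mem e, by rw [← h.conj_s (inv_mem e), inv_inv]⟩
    · refine ⟨z, hz, ?_⟩
      calc s * z * s * (s * z)⁻¹ = (s * z * s⁻¹) * (s * s) * s⁻¹ * (s * z * s⁻¹)⁻¹ := by group
        _ = z⁻¹ * s * z⁻¹⁻¹ := by rw [h.inverts h.sS h.sc hz, h.sInv.1, h.sInv.inv_eq, mul_one]
        _ = s * (z * z) := h.conj_s hz
  obtain ⟨_, ⟨i, rfl⟩, h4⟩ := h3
  rw [h4, mul_right_inj] at h2
  have h5 : c ^ (2 * i - 1) = 1 := by
    rw [zpow_sub, two_mul, zpow_add, zpow_one]; simp only at h2; rw [← h2, mul_inv_cancel]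
  have h6 := (Int.natCast_dvd_natCast.2 h.two_dvd).trans (orderOf_dvd_iff_zpow_eq_one.2 h5)
  omega

/-- the number of involutions of `H` other than `t` -/
theorem ncard_invs : {a | a ∈ 𝒞[t] ∧ IsInv a ∧ a ≠ t}.ncard = kS c t s := by
  rw [kS, kk, kk, ← ncard_conj, ← ncard_conj, ← Set.ncard_union_eq]
  · congr 1
    ext a
    refine ⟨fun ⟨h1, h2, h3⟩ => ?_, ?_⟩
    · obtain ⟨g, hg, e⟩ := h.classH h1 h2 h3
      exact e.imp (fun e => ⟨g, hg, e⟩) fun e => ⟨g, hg, e⟩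
    · rintro (⟨g, hg, rfl⟩ | ⟨g, hg, rfl⟩)
      · exact ⟨(h.conjH hg).sH, (h.conjH hg).sInv, (h.conjH hg).st⟩
      · exact ⟨(h.swap.conjH hg).sH, (h.swap.conjH hg).sInv, (h.swap.conjH hg).st⟩
  · refine Set.disjoint_left.2 ?_
    rintro _ ⟨g, hg, rfl⟩ ⟨x, hx, e⟩
    refine h.not_conj (mul_mem (inv_mem hx) hg) ?_
    rw [show x⁻¹ * g * s * (x⁻¹ * g)⁻¹ = x⁻¹ * (g * s * g⁻¹) * x by group, ← e]; group

theorem kS_eq {S' : Subgroup G} {c' s' : G} (h' : DS S' c' t s') : kS c' t s' = kS c t s := by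
  rw [← h.ncard_invs, h'.ncard_invs]

theorem ord_eq {S' : Subgroup G} {c' t' s' : G} (h' : DS S' c' t' s') : orderOf c' = orderOf c := by
  have := h.syl.card_eq h'.syl
  rw [h.cardS, h'.cardS] at this
  omega

theorem ncard_all : {a : G | IsInv a}.ncard = nn t := by
  rw [nn, ← relIndex_top_right, ← ncard_conj]
  congr 1
  ext a
  exact ⟨fun e => (h.exists_conj e).imp fun g e => ⟨trivial, e⟩, fun ⟨g, _, e⟩ => e ▸ h.inv.conj g⟩

theorem mem_S_cent (ha : a ∈ S) (hc : a ∈ 𝒞[s]) : a = 1 ∨ a = t ∨ a = s ∨ a = t * s := by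
  have f : ∀ y ∈ zpowers c, y ∈ 𝒞[s] → y = 1 ∨ y = t := fun y hy e => by
    have h1 := h.inverts h.sS h.sc hy
    rw [conj_eq_of_cent (mem_cent_singleton_comm.1 e), eq_inv_iff_mul_eq_one] at h1
    exact or_iff_not_imp_left.2 fun e => h.uniq hy ⟨h1, e⟩
  rcases h.mem_cases ha with e | ⟨y, hy, rfl⟩
  · rcases f a e hc with e | e <;> simp [e]
  · rcases f y hy ((mul_mem_cancel_left (mem_cent_singleton_self s)).1 hc) with e | e
    · simp [e]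
    · simp [e, mem_centralizer_singleton_iff.1 h.sH]

theorem card_S_cent : Nat.card (S ⊓ 𝒞[s] : Subgroup G) = 4 := by
  have e : ((S ⊓ 𝒞[s] : Subgroup G) : Set G) = {1, t, s, t * s} := by
    ext a
    refine ⟨fun e => h.mem_S_cent e.1 e.2, ?_⟩
    have ht : t ∈ S ⊓ 𝒞[s] := ⟨h.tS, mem_cent_singleton_comm.1 h.sH⟩
    have hs : s ∈ S ⊓ 𝒞[s] := ⟨h.sS, mem_cent_singleton_self s⟩
    rintro (rfl | rfl | rfl | rfl)
    exacts [one_mem _, ht, hs, mul_mem ht hs]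
  have i := h.inv.mul h.sInv h.sH h.st
  rw [← SetLike.coe_sort_coe, Nat.card_coe_set_eq, e, Set.ncard_eq_four]
  exact ⟨_, _, _, _, h.inv.2.symm, h.sInv.2.symm, i.2.symm, h.st.symm, h.sInv.mul_ne.symm, h.inv.mul_ne'.symm, rfl⟩

/-- `C(V) = V × B` -/
theorem cV_decomp (hv : v ∈ 𝒞[t]) (iv : IsInv v) (ne : v ≠ t) {g : G} (h1 : g ∈ 𝒞[t]) (h2 : g ∈ 𝒞[v]) :
    ∃ b ∈ UU t ⊓ 𝒞[v], g = b ∨ g = b * t ∨ g = b * v ∨ g = b * (t * v) := by
  obtain ⟨x, -, d⟩ := h.exists_of hv iv ne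
  obtain ⟨y, hy, z, hz, rfl⟩ := d.decomp h1
  have e := mem_centralizer_singleton_iff.1 h2
  have h3 : z * (v * z⁻¹ * v⁻¹) ∈ S :^ x ⊓ UU t := by
    refine mem_inf.2 ⟨mul_mem hz (mul_mem (mul_mem d.sS (inv_mem hz)) (inv_mem d.sS)), ?_⟩
    rw [show z * (v * z⁻¹ * v⁻¹) = y⁻¹ * (y * z * v) * z⁻¹ * v⁻¹ by group, e,
      show y⁻¹ * (v * (y * z)) * z⁻¹ * v⁻¹ = y⁻¹ * (v * y * v⁻¹) by group]
    exact mul_mem (inv_mem hy) (conj_mem_of_mem_norm (UU_norm t hv) hy)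
  rw [d.inf, mem_bot] at h3
  have h4 : z ∈ 𝒞[v] := mem_centralizer_singleton_iff.2 (by
    calc z * v = z * (v * z⁻¹ * v⁻¹) * (v * z) := by group
      _ = v * z := by rw [h3, one_mul])
  refine ⟨y, mem_inf.2 ⟨hy, (mul_mem_cancel_right h4).1 h2⟩, ?_⟩
  rcases d.mem_S_cent hz h4 with e | e | e | e <;> simp [e]

theorem card_cV (hv : v ∈ 𝒞[t]) (iv : IsInv v) (ne : v ≠ t) :
    Nat.card (𝒞[t] ⊓ 𝒞[v] : Subgroup G) = 4 * Nat.card (UU t ⊓ 𝒞[v] : Subgroup G) := by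
  obtain ⟨x, -, d⟩ := h.exists_of hv iv ne
  have e : 𝒞[t] ⊓ 𝒞[v] = (S :^ x ⊓ 𝒞[v]) ⊔ (UU t ⊓ 𝒞[v]) := by
    refine le_antisymm (fun g hg => ?_) (sup_le (inf_le_inf_right _ d.le) (inf_le_inf_right _ (UU_le t)))
    have ht : t ∈ S :^ x ⊓ 𝒞[v] := ⟨d.tS, mem_cent_singleton_comm.1 hv⟩
    have hs : v ∈ S :^ x ⊓ 𝒞[v] := ⟨d.sS, mem_cent_singleton_self v⟩
    obtain ⟨b, hb, rfl | rfl | rfl | rfl⟩ := h.cV_decomp hv iv ne hg.1 hg.2
    exacts [mem_sup_right hb, mul_mem (mem_sup_right hb) (mem_sup_left ht),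
      mul_mem (mem_sup_right hb) (mem_sup_left hs), mul_mem (mem_sup_right hb) (mem_sup_left (mul_mem ht hs))]
  rw [e, card_sup_of_inf_eq_bot (Or.inl (norm_inf (inf_le_left.trans (d.le.trans (UU_norm t)))
    (norm_of_le inf_le_right))) ((d.pS.inf_left _).inf_eq_bot ((UU_odd t).inf_left _)), d.card_S_cent]

theorem two_kk (hv : v ∈ 𝒞[t]) (iv : IsInv v) (ne : v ≠ t) :
    2 * kk t v = orderOf c * (𝒞[v]).relIndex (UU t) := by
  have h1 := card_inf_mul_relIndex 𝒞[v] 𝒞[t]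
  have h2 := card_inf_mul_relIndex 𝒞[v] (UU t)
  rw [inf_comm, h.card_cV hv iv ne, h.cardH, ← h2, inf_comm] at h1
  have h3 : 0 < Nat.card (𝒞[v] ⊓ UU t : Subgroup G) := Nat.card_pos
  exact Nat.eq_of_mul_eq_mul_left (Nat.mul_pos two_pos h3) (by rw [kk]; linarith)

theorem two_kk' (hv : v ∈ 𝒞[t]) (iv : IsInv v) (ne : v ≠ t) : 2 * kk t v = orderOf c * (Iset (UU t) v).ncard := by
  rw [card_Iset (UU_odd t) iv.1 (UU_norm t hv), h.two_kk hv iv ne]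

/-- `B = C_U(v) = C_{U_v}(t)` -/
theorem B_symm (iv : IsInv v) : UU t ⊓ 𝒞[v] = UU v ⊓ 𝒞[t] :=
  le_antisymm (le_inf (h.le_UU iv inf_le_right ((UU_odd t).inf_left _)) (inf_le_left.trans (UU_le t)))
    (le_inf (h.le_UU h.inv inf_le_right ((UU_odd v).inf_left _)) (inf_le_left.trans (UU_le v)))

theorem swapV (h4 : 4 ≤ orderOf c) (hv : v ∈ 𝒞[t]) (iv : IsInv v) (ne : v ≠ t) :
    ∃ g ∈ 𝒞[t], g * v * g⁻¹ = t * v := by
  obtain ⟨x, -, d⟩ := h.exists_of hv iv ne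
  obtain ⟨j, hj⟩ := (h.m_cases.resolve_left (by omega)).2
  have h1 := d.pow_half
  rw [orderOf_conj, hj, show 4 * j / 2 = j + j by omega, pow_add] at h1
  have hy : (x * c * x⁻¹) ^ j ∈ zpowers (x * c * x⁻¹) := ⟨j, by simp⟩
  refine ⟨_, inv_mem (d.le (d.zle hy)), ?_⟩
  rw [d.conj_s hy, h1, mem_centralizer_singleton_iff.1 hv]

theorem abel2 (h2 : orderOf c = 2) (ha : a ∈ S) : S ≤ 𝒞[a] := fun b hb => by
  have hs : ∀ y ∈ S, y ∈ 𝒞[s] := fun y hy => by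
    have : ∀ z ∈ zpowers c, z ∈ 𝒞[s] := fun z hz =>
      zpowers_le.2 (show c ∈ 𝒞[s] by rw [h.c_eq h2]; exact mem_cent_singleton_comm.1 h.sH) hz
    rcases h.mem_cases hy with e | ⟨z, hz, rfl⟩
    exacts [this _ e, mul_mem (mem_cent_singleton_self s) (this _ hz)]
  rw [mem_cent_singleton_comm]
  have ht := mem_cent_singleton_comm.1 (h.le hb)
  have hs' := mem_cent_singleton_comm.1 (hs b hb)
  rcases h.mem_S_cent ha (hs a ha) with rfl | rfl | rfl | rfl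
  exacts [one_mem _, ht, hs', mul_mem ht hs']

/-- for `|S| = 4`: fusion in `S` happens in the normalizer, inside any subgroup -/
theorem FV2 (h2 : orderOf c = 2) {X : Subgroup G} (hX : S ≤ X) {g : G} (hg : g ∈ X) (e : g * t * g⁻¹ ∈ S) :
    ∃ x ∈ X ⊓ 𝒩(S), x * t * x⁻¹ = g * t * g⁻¹ := by
  have cS : ∀ a ∈ S, S ≤ 𝒞[a] := fun a => h.abel2 h2
  have s1 : IsSylowOf 2 S (X ⊓ 𝒞[g * t * g⁻¹]) := h.syl.of_le (le_inf hX (cS _ e)) le_top
  have s2 : IsSylowOf 2 (S :^ g) (X ⊓ 𝒞[g * t * g⁻¹]) :=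
    (h.conj g).syl.of_le (le_inf (conjg_le_of_mem hX hg) (h.conj g).le) le_top
  obtain ⟨y, hy, e'⟩ := sylow_trans Nat.prime_two s2 s1
  refine ⟨y * g, ⟨mul_mem hy.1 hg, conjg_eq_self_iff.1 (by rw [conjg_mul, ← e'])⟩, ?_⟩
  rw [show y * g * t * (y * g)⁻¹ = y * (g * t * g⁻¹) * y⁻¹ by group, conj_eq_of_cent hy.2]

/-- `N(V)` is transitive on the involutions of `V = ⟨t, v⟩` -/
theorem FV (hv : v ∈ 𝒞[t]) (iv : IsInv v) (ne : v ≠ t) :
    ∃ g, g * t * g⁻¹ = v ∧ g * v * g⁻¹ = t * v := by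
  have vt := mem_centralizer_singleton_iff.1 hv
  obtain ⟨x, rfl⟩ := h.exists_conj iv
  rcases h.m_cases with h2 | h4
  · obtain ⟨z, -, d⟩ := h.exists_of hv iv ne
    have d2 : orderOf (z * c * z⁻¹) = 2 := (orderOf_conj _ _).trans h2
    obtain ⟨g, hg, e⟩ := d.FV2 d2 le_top (mem_top x) d.sS
    obtain ⟨g', e'⟩ := h.exists_conj (h.inv.mul iv hv ne)
    obtain ⟨g2, hg2, e2⟩ := d.FV2 d2 le_top (mem_top g') (e' ▸ mul_mem d.tS d.sS)
    rw [e'] at e2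
    generalize x * t * x⁻¹ = v at *
    have f : ∀ g ∈ 𝒩(S :^ z), g * v * g⁻¹ = t ∨ g * v * g⁻¹ = v ∨ g * v * g⁻¹ = t * v := fun g hg => by
      have h1 := conj_mem_of_mem_norm hg d.sS
      exact (d.mem_S_cent h1 (d.abel2 d2 d.sS h1)).resolve_left (iv.conj g).2
    rcases f g hg.2 with e3 | e3 | e3
    · rcases f g2 hg2.2 with e4 | e4 | e4
      · refine ⟨g2 * g2, ?_, ?_⟩
        · calc g2 * g2 * t * (g2 * g2)⁻¹ = g2 * (g2 * t * g2⁻¹) * g2⁻¹ := by group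
            _ = (g2 * t * g2⁻¹) * (g2 * v * g2⁻¹) := by rw [e2, ← e2]; nth_rw 1 [e2]; group
            _ = v := by rw [e2, e4, mul_assoc, vt, ← mul_assoc, h.inv.1, one_mul]
        · calc g2 * g2 * v * (g2 * g2)⁻¹ = g2 * (g2 * v * g2⁻¹) * g2⁻¹ := by group
            _ = t * v := by rw [e4, e2]
      · refine ⟨g2 * g, ?_, ?_⟩
        · calc g2 * g * t * (g2 * g)⁻¹ = g2 * (g * t * g⁻¹) * g2⁻¹ := by group
            _ = v := by rw [e, e4]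
        · calc g2 * g * v * (g2 * g)⁻¹ = g2 * (g * v * g⁻¹) * g2⁻¹ := by group
            _ = t * v := by rw [e3, e2]
      · exact absurd (by simpa using e4.trans e2.symm) ne
    · exact absurd (by simpa using e3.trans e.symm) ne
    · exact ⟨g, e, e3⟩
  · obtain ⟨g1, h1, e1⟩ := h.swapV h4.1 hv iv ne
    obtain ⟨g2, h2, e2⟩ := (h.conj x).swapV (by rw [orderOf_conj]; exact h4.1) (mem_cent_singleton_comm.1 hv) h.inv
      ne.symm
    generalize x * t * x⁻¹ = v at *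
    have e3 : g1⁻¹ * v * g1 = t * v := by
      calc g1⁻¹ * v * g1 = g1⁻¹ * (t * (t * v)) * g1 := by rw [← mul_assoc t, h.inv.1, one_mul]
        _ = g1⁻¹ * ((g1 * t * g1⁻¹) * (g1 * v * g1⁻¹)) * g1 := by rw [conj_eq_of_cent h1, e1]
        _ = t * v := by group
    refine ⟨g1⁻¹ * g2, ?_, ?_⟩
    · calc g1⁻¹ * g2 * t * (g1⁻¹ * g2)⁻¹ = g1⁻¹ * (g2 * t * g2⁻¹) * g1 := by group
        _ = v := by rw [e2, vt, ← e1]; group
    · calc g1⁻¹ * g2 * v * (g1⁻¹ * g2)⁻¹ = g1⁻¹ * (g2 * v * g2⁻¹) * g1 := by group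
        _ = t * v := by rw [conj_eq_of_cent h2, e3]

theorem WC {l : ℕ} (hl : l.Prime) {y : G} (hy : y ∈ 𝒞[t]) (ly : IsPiElt {l} y)
    (u : ∀ a ∈ 𝒞[y], IsInv a → a = t) : ¬ l ∣ nn t := by
  obtain ⟨L, hL, e⟩ := sylow_superset hl (piGrp_zpowers_iff.2 ly) (zpowers_le.2 hy)
  have h1 := hL.of_norm_le hl le_top fun g hg => by
    have h2 := hL.le (conj_mem_of_mem_norm hg.2 (e (mem_zpowers y)))
    have h3 : g⁻¹ * t * g⁻¹⁻¹ ∈ 𝒞[y] := by
      rw [mem_cent_singleton_comm, ← conjg_cent1, mem_conjg]; simpa using h2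
    exact inv_mem_iff.1 (cent_of_conj_eq (u _ h3 (h.inv.conj _)))
  intro e
  refine h1.not_dvd_index hl ?_
  rw [relIndex_top_right]
  exact e.trans (index_dvd_of_le hL.le)

/-- restriction to a subgroup with one class of involutions -/
theorem sub {M : Subgroup G} (hM : S ≤ M) (one : ∀ a ∈ M, IsInv a → ∃ g ∈ M, g * t * g⁻¹ = a) :
    DS (S.subgroupOf M) ⟨c, hM h.cS⟩ ⟨t, hM h.tS⟩ ⟨s, hM h.sS⟩ := by
  have z : ∀ y : M, y ∈ zpowers (⟨c, hM h.cS⟩ : M) ↔ (y : G) ∈ zpowers c := fun y =>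
    ⟨fun ⟨i, e⟩ => ⟨i, congrArg Subtype.val e⟩, fun ⟨i, e⟩ => ⟨i, Subtype.ext e⟩⟩
  have z' : zpowers (⟨c, hM h.cS⟩ : M) = (zpowers c).subgroupOf M := Subgroup.ext z
  refine ⟨?_, ⟨h.cS, ?_, fun y hy e => Subtype.ext (h.dih.sq y hy (mt (z y).2 e))⟩,
    ⟨Subtype.ext h.inv.1, fun e => h.inv.2 (congrArg Subtype.val e)⟩, (z _).2 h.tc, h.sS, mt (z _).1 h.sc,
    fun a ha => ?_⟩
  · rw [← subgroupOf_self M]
    exact (pHall_subgroupOf_iff hM le_rfl).2 (h.syl.of_le hM le_top)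
  · rw [z', relIndex_subgroupOf hM, h.dih.index]
  · obtain ⟨g, hg, e⟩ := one a a.2 ⟨congrArg Subtype.val ha.1, fun e => ha.2 (Subtype.ext e)⟩
    exact isConj_iff.2 ⟨⟨g, hg⟩, Subtype.ext e⟩

end DS

theorem cent1_subgroupOf {M : Subgroup G} (x : M) : 𝒞[x] = (𝒞[(x : G)]).subgroupOf M := by
  ext y
  simp only [mem_subgroupOf, mem_centralizer_singleton_iff, Subtype.ext_iff, coe_mul]

theorem kk_sub {M : Subgroup G} (x y : M) (h : 𝒞[(x : G)] ≤ M) : kk x y = kk (x : G) (y : G) := by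
  rw [kk, cent1_subgroupOf, cent1_subgroupOf, relIndex_subgroupOf h]

theorem Cx.chA [IsSimpleGroup G] (h : Cx S c t s) {S' : Subgroup G} {c' t' s' : G} (d : DS S' c' t' s') :
    ChA S' c' t' s' := (h.ch G _ _ _ _ d).2 inferInstance h.nab

theorem Cx.change (h : Cx S c t s) {S' : Subgroup G} {c' s' : G} (d : DS S' c' t s') : Cx S' c' t s' :=
  { h with toDS := d }

theorem Loc.change (h : Loc S c t s) {S' : Subgroup G} {c' s' : G} (d : DS S' c' t s') : Loc S' c' t s' :=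
  { h with toDS := d }

theorem Cx.conj (h : Cx S c t s) (g : G) : Cx (S :^ g) (g * c * g⁻¹) (g * t * g⁻¹) (g * s * g⁻¹) :=
  { h with toDS := h.toDS.conj g, U1 := by rw [← UU_conj, Ne, conjg_eq_bot]; exact h.U1 }

theorem Loc.conj (h : Loc S c t s) (g : G) : Loc (S :^ g) (g * c * g⁻¹) (g * t * g⁻¹) (g * s * g⁻¹) :=
  { toCx := h.toCx.conj g, max := by rw [← conjg_cent1, isCoatom_conjg]; exact h.max }

theorem Cx.FF_ne (h : Cx S c t s) : FF t ≠ ⊥ := fun e => h.U1 (by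
  have := cent_sub_Fitting (UU_sol t)
  rw [show fittingOf (UU t) = ⊥ from e, cent_bot, inf_top_eq] at this
  exact le_bot_iff.1 this)

/-- no proper overgroup of `C(t)` has one class of involutions -/
theorem Cx.se [IsSimpleGroup G] (h : Cx S c t s) {M : Subgroup G} (h1 : M ≠ ⊤) (h2 : 𝒞[t] < M) :
    ¬ ∀ a ∈ M, IsInv a → ∃ g ∈ M, g * t * g⁻¹ = a := fun one => by
  have hM := h.le.trans h2.le
  have b := (h.ch M _ _ _ _ (h.toDS.sub hM one)).1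
  have b3 := b.b3
  have a := h.chA h.toDS
  have e1 : kS (⟨c, hM h.cS⟩ : M) ⟨t, hM h.tS⟩ ⟨s, hM h.sS⟩ = kS c t s := by
    rw [kS, kk_sub _ _ h2.le, kk_sub _ _ h2.le]; rfl
  have e2 : nn (⟨t, hM h.tS⟩ : M) * M.index = nn t := by
    rw [nn, cent1_subgroupOf]; exact relIndex_mul_index h2.le
  rw [e1] at b3
  have o := h.odd_nn
  have i1 : M.index ≠ 1 := mt index_eq_one.1 h1
  have i2 : ¬ 2 ∣ M.index := fun e => o (e2 ▸ e.mul_left _)
  have n0 : 0 < nn (⟨t, hM h.tS⟩ : M) := index_pos _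
  have i3 := two_mul_card_dvd_factorial h.nab h1
  have b15 := a.b15
  have i5 : M.index ≤ 5 := by
    by_contra e
    have := Nat.mul_le_mul_left (nn (⟨t, hM h.tS⟩ : M)) (show 6 ≤ M.index by omega)
    omega
  have c1 := h.cardG
  have c2 := one_lt_card h.U1
  have c3 : ¬ 2 ∣ Nat.card (UU t) := (piGrp_compl_singleton_iff Nat.prime_two).1 (UU_odd t)
  have n1 : nn (⟨t, hM h.tS⟩ : M) ≠ 1 := by
    rw [nn, cent1_subgroupOf]; exact fun e => h2.not_ge (relIndex_eq_one.1 e)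
  have n2 : ¬ 2 ∣ nn (⟨t, hM h.tS⟩ : M) := fun e => o (e2 ▸ e.mul_right _)
  have m2 := Nat.le_of_dvd (orderOf_pos c) h.two_dvd
  have := Nat.le_of_dvd (Nat.factorial_pos _) i3
  have : M.index.factorial ≤ 120 := Nat.factorial_le i5
  have : 2 * 2 * 3 * (3 * 3) ≤ Nat.card G := by
    rw [c1, ← e2]
    exact Nat.mul_le_mul (Nat.mul_le_mul (by omega) (by omega)) (Nat.mul_le_mul (by omega) (by omega))
  omega

namespace Loc

variable [IsSimpleGroup G] (h : Loc S c t s)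
include h

theorem prim : Prim 𝒞[t] := prim_of_coatom h.max

theorem norm_eq {Z : Subgroup G} (hZ : Z ⊲ 𝒞[t]) (Z1 : Z ≠ ⊥) : 𝒩(Z) = 𝒞[t] := le_antisymm (h.prim Z hZ Z1) hZ.2

/-- no involution `a ≠ t` centralizes `U` -/
theorem L0 (hv : v ∈ 𝒞[t]) (iv : IsInv v) (ne : v ≠ t) : v ∉ 𝒞(UU t) := fun e => by
  obtain ⟨g, e1, e2⟩ := h.FV hv iv ne
  have h1 : UU t :^ g = UU t := by
    refine (eq_of_le_of_card_ge ?_ (card_conjg _ g).le).symm
    rw [UU_conj, e1]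
    exact h.le_UU iv (mem_cent_iff_le_cent_singleton.1 e) (UU_odd t)
  have h2 : g ∈ 𝒞[t] := h.prim _ (pcore_normal _ _) h.U1 (conjg_eq_self_iff.1 h1)
  exact ne (e1.symm.trans (conj_eq_of_cent h2))

theorem L0' (hv : v ∈ 𝒞[t]) (iv : IsInv v) (ne : v ≠ t) : v ∉ 𝒞(FF t) := fun e =>
  h.L0 hv iv ne (cent_UU_of_FF hv iv.two e)

end Loc

end CA.GW
theorem CA.GW.realizeEqnsBasic : True := by
  have := @CA.GW.Iset.eq_1.{0}
  have := @CA.GW.Iset.eq_def.{0}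
  have := @CA.GW.Iset.congr_simp.{0}
  trivial
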