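/-
Facts about the alternating group of degree seven.
-/
import Cfsg.Agent.GW.A7E
import Cfsg.Agent.GW.AS4
import Cfsg.Agent.GW.Basic
import Mathlib.GroupTheory.GroupAction.Jordan
set_option autoImplicit false
set_option maxRecDepth 100000

namespace CA.GW
open Cfsg CA.FG Subgroup Equiv Equiv.Perm

theorem s7_ct {t : Perm (Fin 7)} {p : ℕ} (hp : p.Prime) (o : orderOf t = p) :
    ∃ n, t.cycleType = Multiset.replicate (n + 1) p ∧ (n + 1) * p ≤ 7 := by
  obtain ⟨n, hn⟩ := cycleType_prime_order (o ▸ hp)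
  rw [o] at hn
  have := t.sum_cycleType_le
  exact ⟨n, hn, by rw [mul_comm]; simpa [hn, mul_add, add_comm, mul_comm] using this⟩

theorem s7_conj7 {a b : Perm (Fin 7)} (ha : orderOf a = 7) (hb : orderOf b = 7) : IsConj a b := by
  obtain ⟨n, h1, h2⟩ := s7_ct (by norm_num) ha
  obtain ⟨m, h3, h4⟩ := s7_ct (by norm_num) hb
  rw [isConj_iff_cycleType_eq, h1, h3, show n = m by omega]

theorem s7_conj2 {a b : Perm (Fin 7)} (ha : orderOf a = 2) (hb : orderOf b = 2) (sa : sign a = 1) (sb : sign b = 1) :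
    IsConj a b := by
  have k : ∀ a : Perm (Fin 7), orderOf a = 2 → sign a = 1 → a.cycleType = Multiset.replicate 2 2 := fun a ha sa => by
    obtain ⟨n, h1, h2⟩ := s7_ct (by norm_num) ha
    rw [sign_of_cycleType, h1] at sa
    have : n ≤ 2 := by omega
    interval_cases n
    · simp at sa; exact absurd sa (by decide)
    · exact h1
    · simp at sa; exact absurd sa (by decide)
  rw [isConj_iff_cycleType_eq, k a ha sa, k b hb sb]

theorem a7_aut (α : alternatingGroup (Fin 7) →* Perm (Fin 7)) (hα : Function.Injective α) :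
    ∃ σ : Perm (Fin 7), ∀ x, α x = σ * x * σ⁻¹ := by
  have := Fact.mk (show Nat.Prime 7 by norm_num)
  let a : alternatingGroup (Fin 7) := ⟨c[0, 1, 2, 3, 4, 5, 6], by rw [mem_alternatingGroup]; decide +kernel⟩
  let b : alternatingGroup (Fin 7) := ⟨c[0, 1, 2], by rw [mem_alternatingGroup]; decide +kernel⟩
  have oa : orderOf (a : Perm (Fin 7)) = 7 := orderOf_eq_prime (by decide +kernel) (by decide +kernel)
  obtain ⟨σ, hσ⟩ := isConj_iff.1 (s7_conj7 oa (b := α a) (by rw [orderOf_injective α hα, ← orderOf_coe, oa]))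
  let β : alternatingGroup (Fin 7) →* Perm (Fin 7) := (MulAut.conj σ⁻¹).toMonoidHom.comp α
  have ba : β a = a := by simp [β, ← hσ, mul_assoc]
  have bb : β (b * b * b) = β 1 := congrArg β (by decide +kernel)
  have b3 : β (b * (a ^ 3 * b * a ^ 4)) = β (a ^ 3 * b * a ^ 4 * b) := congrArg β (by decide +kernel)
  have b2 : β (a ^ 2 * b * (a ^ 2 * b) * (a ^ 2 * b)) = β 1 := congrArg β (by decide +kernel)
  have e : a.1 ^ 2 = c[0, 2, 4, 6, 1, 3, 5] ∧ a.1 ^ 3 = c[0, 3, 6, 2, 5, 1, 4] ∧ a.1 ^ 4 = c[0, 4, 1, 5, 2, 6, 3] := by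
    decide +kernel
  simp only [map_mul, map_one, map_pow, ba, e.1, e.2.1, e.2.2] at bb b3 b2
  obtain ⟨k, hk⟩ := s7_rel (β b) bb b3 b2
  let γ : alternatingGroup (Fin 7) →* Perm (Fin 7) := (MulAut.conj (a.1 ^ k.1)).toMonoidHom.comp (Subgroup.subtype _)
  have h1 : a ∈ β.eqLocus γ := by
    show β a = a.1 ^ k.1 * a.1 * (a.1 ^ k.1)⁻¹
    rw [ba]; group
  have h2 : b ∈ β.eqLocus γ := by
    show β b = a.1 ^ k.1 * b.1 * (a.1 ^ k.1)⁻¹
    exact eq_mul_inv_of_mul_eq hk
  set K := (β.eqLocus γ).map (Subgroup.subtype _)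
  have ht : MulAction.IsPretransitive K (Fin 7) := by
    refine (MulAction.isPretransitive_iff_base 0).2 fun x => ?_
    have : ∀ x : Fin 7, (a.1 ^ x.1) 0 = x := by decide +kernel
    exact ⟨⟨_, pow_mem (mem_map_of_mem _ h1) x.1⟩, this x⟩
  have h3 := alternatingGroup_le_of_isPreprimitive_of_isThreeCycle_mem
    (MulAction.IsPreprimitive.of_prime_card (G := K) (X := Fin 7) (by simp; norm_num))
    (g := b.1) (by rw [← card_support_eq_three_iff]; decide +kernel) (mem_map_of_mem _ h2)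
  refine ⟨σ * a.1 ^ k.1, fun x => ?_⟩
  obtain ⟨y, hy, e⟩ := h3 x.2
  obtain rfl : y = x := Subtype.ext e
  have : σ⁻¹ * α y * σ⁻¹⁻¹ = a.1 ^ k.1 * y.1 * (a.1 ^ k.1)⁻¹ := hy
  calc _ = σ * (σ⁻¹ * α y * σ⁻¹⁻¹) * σ⁻¹ := by group
    _ = _ := by rw [this]; group

theorem a7_top {Γ : Type*} [Group Γ] [Finite Γ] (L : Subgroup Γ) [L.Normal] (hc : 𝒞(L) = ⊥)
    (e : Nonempty (L ≃* alternatingGroup (Fin 7))) (hd : HasDih Γ) : L = ⊤ := by
  obtain ⟨e⟩ := e
  obtain ⟨S, c, hS, hD, -⟩ := hd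
  refine eq_top_iff.2 fun g _ => ?_
  obtain ⟨σ, hσ⟩ := a7_aut ((Subgroup.subtype _).comp (e.symm.trans ((MulAut.conjNormal g).trans e)).toMonoidHom)
    (Subtype.val_injective.comp (MulEquiv.injective _))
  obtain ⟨τ, h1, h2, h3, h4⟩ : ∃ τ : Perm (Fin 7), σ * τ⁻¹ ∈ alternatingGroup (Fin 7) ∧ τ * τ = 1 ∧
      Commute τ (swap 0 1 * swap 2 3) ∧ Commute τ (swap 0 2 * swap 1 3) := by
    rcases Int.units_eq_one_or (sign σ) with h | h
    · exact ⟨1, by simpa using h, by simp, by simp, by simp⟩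
    · exact ⟨swap 5 6, by simp [h], by simp, by show _ = _; decide +kernel, by show _ = _; decide +kernel⟩
  set l := e.symm ⟨_, h1⟩ with hl
  have k : ∀ x : L, (e (MulAut.conjNormal ((l : Γ)⁻¹ * g) x) : Perm (Fin 7)) = τ * e x * τ⁻¹ := fun x => by
    have := hσ (e x)
    simp only [MonoidHom.comp_apply, MulEquiv.coe_toMonoidHom, MulEquiv.trans_apply, MulEquiv.symm_apply_apply,
      coe_subtype] at this
    rw [show MulAut.conjNormal ((l : Γ)⁻¹ * g) x = l⁻¹ * MulAut.conjNormal g x * l from Subtype.ext (by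
      simp [mul_assoc]), map_mul, map_mul, map_inv, hl, MulEquiv.apply_symm_apply]
    rw [Subgroup.coe_mul, Subgroup.coe_mul, Subgroup.coe_inv, this]; group
  set d := (l : Γ)⁻¹ * g with hd
  have cm : ∀ x : alternatingGroup (Fin 7), Commute τ x → Commute (e.symm x : Γ) d := fun x hx => by
    have := k (e.symm x)
    rw [MulEquiv.apply_symm_apply, hx.eq, mul_inv_cancel_right, Subtype.val_inj, ← MulEquiv.eq_symm_apply] at this
    have := congrArg Subtype.val this
    rw [MulAut.conjNormal_apply, mul_inv_eq_iff_eq_mul] at this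
    exact this.symm
  have dd : d * d = 1 := by
    rw [← mem_bot, ← hc]
    intro x hx
    have : MulAut.conjNormal d (MulAut.conjNormal d ⟨x, hx⟩) = (⟨x, hx⟩ : L) := e.injective (Subtype.ext (by
      rw [k, k, show τ * (τ * (e ⟨x, hx⟩ : Perm (Fin 7)) * τ⁻¹) * τ⁻¹ = τ * τ * e ⟨x, hx⟩ * (τ * τ)⁻¹ by group, h2]
      group))
    have := congrArg Subtype.val this
    simp only [MulAut.conjNormal_apply] at this
    conv_lhs => rw [← this]
    group
  let v : alternatingGroup (Fin 7) := ⟨swap 0 1 * swap 2 3, by rw [mem_alternatingGroup]; decide +kernel⟩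
  let w : alternatingGroup (Fin 7) := ⟨swap 0 2 * swap 1 3, by rw [mem_alternatingGroup]; decide +kernel⟩
  let φ : alternatingGroup (Fin 7) →* Γ := L.subtype.comp e.symm.toMonoidHom
  have hφ : Function.Injective φ := Subtype.val_injective.comp e.symm.injective
  have dL : d ∈ L := by
    rcases r2_of_dih hS hD (φ v) (φ w) d (by rw [← map_mul, ← map_one φ]; congr 1; decide +kernel)
      (by rw [← map_mul, ← map_one φ]; congr 1; decide +kernel) dd (Commute.map (by show _ = _; decide +kernel) φ)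
      (cm v h3) (cm w h4) ((map_ne_one_iff φ hφ).2 (by decide +kernel)) ((map_ne_one_iff φ hφ).2 (by decide +kernel))
      (hφ.ne (by decide +kernel)) with h | h | h | h <;> rw [h]
    exacts [one_mem _, (e.symm v).2, (e.symm w).2, mul_mem (e.symm v).2 (e.symm w).2]
  simpa [hd] using mul_mem l.2 dL

theorem a7_ex (t : alternatingGroup (Fin 7)) (ht : IsInv t) :
    ∃ s, IsInv s ∧ s ≠ t ∧ s * t = t * s ∧ ∀ y, y * t = t * y → ¬ 2 ∣ orderOf y → y * s = s * y := by
  obtain ⟨σ, hσ⟩ := isConj_iff.1 (s7_conj2 (a := swap 0 1 * swap 2 3) (b := t)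
    (orderOf_eq_prime (by decide +kernel) (by decide +kernel)) (by rw [orderOf_coe, ht.ord]) (by decide +kernel) t.2)
  let φ := MulAut.conjNormal (H := alternatingGroup (Fin 7)) σ
  let v : alternatingGroup (Fin 7) := ⟨swap 0 1 * swap 2 3, by rw [mem_alternatingGroup]; decide +kernel⟩
  let w : alternatingGroup (Fin 7) := ⟨swap 0 2 * swap 1 3, by rw [mem_alternatingGroup]; decide +kernel⟩
  obtain rfl : φ v = t := Subtype.ext hσ
  refine ⟨φ w, ⟨by rw [← map_mul, ← map_one φ]; congr 1; decide +kernel, (map_ne_one_iff φ φ.injective).2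
    (by decide +kernel)⟩, φ.injective.ne (by decide +kernel), by
      rw [← map_mul, ← map_mul]; congr 1; decide +kernel, fun y hy o => ?_⟩
  obtain ⟨y, rfl⟩ := φ.surjective y
  rw [← map_mul, ← map_mul, φ.injective.eq_iff] at hy ⊢
  rw [MulEquiv.orderOf_eq, ← orderOf_coe] at o
  obtain ⟨h1, h2⟩ := s7_cent y (congrArg Subtype.val hy)
  refine Subtype.ext (h2 (orderOf_dvd_iff_pow_eq_one.1 ?_))
  exact ((Nat.prime_two.coprime_iff_not_dvd.2 o).symm.pow_right 2).dvd_of_dvd_mul_left (orderOf_dvd_of_pow_eq_one h1)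

end CA.GW
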