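/-
Groups whose `2`-subgroups are cyclic or dihedral are `p`-stable for odd `p`; the `Z(L(P))` theorem.
-/
import Cfsg.Agent.GW.B2
import Cfsg.Agent.TG.Stab

set_option autoImplicit false
set_option linter.unusedSectionVars false

namespace CA.GW

open Subgroup Cfsg CA.FG CA.BG CA.BG.P06
open scoped commutatorElement

universe u v

variable {G : Type u} [Group G] [Finite G] {p q : ℕ}

/-- Every `2`-subgroup of `X` is cyclic or dihedral. -/
def DihS (X : Subgroup G) : Prop :=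
  ∀ T, T ≤ X → IsPGrp 2 T → ∃ c ∈ T, ∀ s ∈ T, s ∉ zpowers c → s * s = 1

theorem DihS.mono {X Y : Subgroup G} (h : DihS X) (hY : Y ≤ X) : DihS Y := fun T hT => h T (hT.trans hY)

theorem DihS.img {G' : Type v} [Group G'] [Finite G'] {D X : Subgroup G} (h : DihS X) (f : D →* G') :
    DihS (img f X) := fun T hT pT => by
  obtain ⟨P, hP⟩ := sylow_exists Nat.prime_two (X ⊓ pre f T)
  have e : FG.img f P = T := by
    have := hP.img (f := f) (inf_le_right.trans (pre_le f T))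
    rw [img_inf_pre, inf_eq_right.2 hT] at this
    exact this.eq_self pT
  obtain ⟨c, hc, hs⟩ := h P (hP.le.trans inf_le_left) hP.piGrp
  have cD : c ∈ D := pre_le f T (hP.le hc).2
  refine ⟨f ⟨c, cD⟩, e ▸ mem_img_of_mem cD hc, fun s hs' hn => ?_⟩
  obtain ⟨x, hx, rfl⟩ := mem_img.1 (e.ge hs')
  rw [← map_mul, show x * x = 1 from Subtype.ext (hs x hx fun hz => hn ?_), map_one]
  rw [← img_zpowers]
  exact mem_img.2 ⟨x, hz, rfl⟩

theorem DihS.quot {X : Subgroup G} (h : DihS X) (K : Subgroup G) : DihS (X /ₛ K) := h.img _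

theorem exists_gen_of_cyclic {H : Subgroup G} (h : IsCyclic H) : ∃ x ∈ H, H = zpowers x := cyclic_iff_eq_zpowers.1 h

theorem dihS_of_isDih {S X : Subgroup G} {c : G} (hS : IsSylowOf 2 S X) (h : Dih.IsDih S c) : DihS X :=
  fun T hT pT => by
  obtain ⟨g, -, hg⟩ := sylow_subJ Nat.prime_two hS pT hT
  obtain ⟨d, hd, e⟩ := exists_gen_of_cyclic (cyclic_of_le (cyclic_zpowers (g * c * g⁻¹)) (inf_le_right (a := T)))
  exact ⟨d, hd.1, fun s hs hn => (h.conj g).sq s (hg hs) fun hz => hn (e ▸ ⟨hs, hz⟩)⟩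

/-- If all involutions are central there is a normal `2`-complement. -/
theorem DihS.hall_of_cent {L : Subgroup G} (h : DihS L) (hc : ∀ u ∈ L, u * u = 1 → u ∈ 𝒞(L)) :
    IsPiHallOf {2}ᶜ (pPrimeCoreOf 2 L) L := by
  obtain ⟨T, hT⟩ := sylow_exists Nat.prime_two L
  obtain ⟨c, hcT, hs⟩ := h T hT.le hT.piGrp
  suffices H : SDProd (pPrimeCoreOf 2 L) T L from
    H.complIn.pHall_left (pcore_piGrp _ L) (piNat_compl_compl.2 hT.piGrp)
  by_cases h1 : T ≤ zpowers c
  · exact cyclic_pdiv_normal_complement Nat.prime_two (fun q hq _ => hq.two_le) hT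
      (cyclic_of_le (cyclic_zpowers c) h1)
  · obtain ⟨s, hsT, hsc⟩ := SetLike.not_le_iff_exists.1 h1
    have h2 := hc s (hT.le hsT) (hs s hsT hsc)
    refine Burnside_normal_complement Nat.prime_two hT (inf_le_left.trans (le_cent_symm fun y hy => ?_))
    by_cases h3 : y ∈ zpowers c
    · have h4 := hc _ (hT.le (mul_mem hsT hy)) (hs _ (mul_mem hsT hy) fun hz =>
        hsc (by simpa using mul_mem hz (inv_mem h3)))
      simpa using mul_mem (inv_mem h2) h4
    · exact hc y (hT.le hy) (hs y hy h3)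

theorem quad_form {R : Type v} [Ring R] (ρ : G →* R) {x y : G} (hx : (ρ x - 1) * (ρ x - 1) = 0)
    (hy : (ρ y - 1) * (ρ y - 1) = 0) {g : G} (hg : g ∈ closure {x, y}) :
    (ρ g + ρ g⁻¹) * ρ x = ρ x * (ρ g + ρ g⁻¹) ∧ (ρ g + ρ g⁻¹) * ρ y = ρ y * (ρ g + ρ g⁻¹) := by
  obtain ⟨A, hA⟩ : ∃ A, ρ x = 1 + A := ⟨ρ x - 1, by abel⟩
  obtain ⟨B, hB⟩ : ∃ B, ρ y = 1 + B := ⟨ρ y - 1, by abel⟩
  have A2 : A * A = 0 := by simpa [hA] using hx
  have B2 : B * B = 0 := by simpa [hB] using hy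
  have inv : ∀ {z : G} {E : R}, ρ z = 1 + E → E * E = 0 → ρ z⁻¹ = 1 - E := fun {z E} h h2 => by
    have h5 : ρ z⁻¹ * ρ z = 1 := by rw [← map_mul, inv_mul_cancel, map_one]
    have h6 : ρ z * (1 - E) = 1 := by
      calc ρ z * (1 - E) = 1 - E * E := by rw [h]; noncomm_ring
        _ = 1 := by rw [h2, sub_zero]
    exact left_inv_eq_right_inv h5 h6
  let Z : Subring R := Subring.centralizer {A, B}
  have ZA : ∀ z ∈ Z, A * z = z * A := fun z hz => hz A (by simp)
  have ZB : ∀ z ∈ Z, B * z = z * B := fun z hz => hz B (by simp)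
  have AA : ∀ w, A * (A * w) = 0 := fun w => by rw [← mul_assoc, A2, zero_mul]
  have BB : ∀ w, B * (B * w) = 0 := fun w => by rw [← mul_assoc, B2, zero_mul]
  have hC : A * B + B * A ∈ Z := by
    rintro _ (rfl | rfl) <;> simp only [mul_add, add_mul, mul_assoc, AA, BB, A2, B2, mul_zero, zero_add, add_zero]
  let P : G → Prop := fun g => ∃ a ∈ Z, ∃ b ∈ Z, ∃ c ∈ Z, ∃ d ∈ Z,
    ρ g = a + b * A + c * B + d * (A * B) ∧ ρ g⁻¹ = a - b * A - c * B + d * (B * A)
  have sA : ∀ z ∈ Z, ∀ w, A * (z * w) = z * (A * w) := fun z hz w => by rw [← mul_assoc, ZA z hz, mul_assoc]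
  have sB : ∀ z ∈ Z, ∀ w, B * (z * w) = z * (B * w) := fun z hz w => by rw [← mul_assoc, ZB z hz, mul_assoc]
  have stepA : ∀ (z : G) (e : ℤ), ρ z = 1 + e • A → ρ z⁻¹ = 1 - e • A → ∀ g, P g → P (z * g) := by
    rintro z e h1 h2 g ⟨a, ha, b, hb, c, hc, d, hd, e1, e2⟩
    refine ⟨a, ha, b + e • a, add_mem hb (zsmul_mem ha e), c, hc, d + e • c, add_mem hd (zsmul_mem hc e), ?_, ?_⟩
    · rw [map_mul, h1, e1]
      simp only [add_mul, mul_add, one_mul, smul_mul_assoc, sA _ hb, sA _ hc, sA _ hd, ZA _ ha, AA, A2, mul_zero,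
        smul_add, smul_zero]
      abel
    · rw [mul_inv_rev, map_mul, h2, e2]
      simp only [add_mul, sub_mul, mul_sub, mul_one, smul_mul_assoc, mul_smul_comm, mul_assoc, A2, mul_zero,
        smul_add, smul_sub, smul_zero]
      abel
  have stepB : ∀ (z : G) (e : ℤ), ρ z = 1 + e • B → ρ z⁻¹ = 1 - e • B → ∀ g, P g → P (z * g) := by
    rintro z e h1 h2 g ⟨a, ha, b, hb, c, hc, d, hd, e1, e2⟩
    refine ⟨a + e • (b * (A * B + B * A)), add_mem ha (zsmul_mem (mul_mem hb hC) e), b, hb,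
      c + e • (a + d * (A * B + B * A)), add_mem hc (zsmul_mem (add_mem ha (mul_mem hd hC)) e),
      d - e • b, sub_mem hd (zsmul_mem hb e), ?_, ?_⟩
    · rw [map_mul, h1, e1]
      simp only [add_mul, mul_add, sub_mul, one_mul, smul_mul_assoc, sB _ hb, sB _ hc, sB _ hd, ZB _ ha, B2,
        mul_zero, smul_add, smul_zero, mul_assoc]
      abel
    · rw [mul_inv_rev, map_mul, h2, e2]
      simp only [add_mul, mul_add, sub_mul, mul_sub, mul_one, smul_mul_assoc, mul_smul_comm, mul_assoc, B2,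
        mul_zero, smul_add, smul_sub, smul_zero]
      abel
  have hP : P g := by
    induction hg using closure_induction_left with
    | one => exact ⟨1, one_mem _, 0, zero_mem _, 0, zero_mem _, 0, zero_mem _, by simp, by simp⟩
    | mul_left z hz g _ ih =>
      rcases hz with rfl | rfl
      · exact stepA _ 1 (by simpa using hA) (by simpa using inv hA A2) g ih
      · exact stepB _ 1 (by simpa using hB) (by simpa using inv hB B2) g ih
    | inv_mul_cancel z hz g _ ih =>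
      rcases hz with rfl | rfl
      · exact stepA _ (-1) (by simpa [sub_eq_add_neg] using inv hA A2) (by simpa using hA) g ih
      · exact stepB _ (-1) (by simpa [sub_eq_add_neg] using inv hB B2) (by simpa using hB) g ih
  obtain ⟨a, ha, b, hb, c, hc, d, hd, e1, e2⟩ := hP
  have hz : ρ g + ρ g⁻¹ ∈ Z := by
    rw [e1, e2, show a + b * A + c * B + d * (A * B) + (a - b * A - c * B + d * (B * A)) =
      a + a + d * (A * B + B * A) by noncomm_ring]
    exact add_mem (add_mem ha ha) (mul_mem hd hC)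
  generalize ρ g + ρ g⁻¹ = w at hz
  exact ⟨by rw [hA, mul_add, add_mul, ZA _ hz, mul_one, one_mul],
    by rw [hB, mul_add, add_mul, ZB _ hz, mul_one, one_mul]⟩

theorem quad_odd {R : Type v} [Ring R] (hp : p.Prime) (p2 : p ≠ 2) (hR : ∀ z : R, p • z = 0) (ρ : G →* R)
    (inj : Function.Injective ρ) {x y : G} (hx : (ρ x - 1) * (ρ x - 1) = 0) (hy : (ρ y - 1) * (ρ y - 1) = 0)
    (px : IsPiElt {p} x) (py : IsPiElt {p} y) (h : DihS (closure {x, y} : Subgroup G)) :
    Odd (Nat.card (closure {x, y} : Subgroup G)) := by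
  have two : ∀ z w : R, z + z = w + w → z = w := fun z w e => by
    rw [← sub_eq_zero]
    have h1 : 2 • (z - w) = 0 := by rw [two_nsmul, ← sub_eq_zero.2 e]; abel
    exact AddMonoid.addOrderOf_eq_one_iff.1 (Nat.eq_one_of_dvd_coprimes
      ((Nat.coprime_primes Nat.prime_two hp).2 p2.symm) (addOrderOf_dvd_of_nsmul_eq_zero h1)
      (addOrderOf_dvd_of_nsmul_eq_zero (hR _)))
  have h1 := h.hall_of_cent fun u hu u2 => by
    have := quad_form ρ hx hy hu
    rw [inv_eq_of_mul_eq_one_right u2, add_mul, mul_add, add_mul, mul_add] at this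
    rw [mem_cent_iff_le_cent_singleton, closure_le]
    rintro _ (rfl | rfl)
    · exact mem_centralizer_singleton_iff.2 (inj (by rw [map_mul, map_mul, two _ _ this.1]))
    · exact mem_centralizer_singleton_iff.2 (inj (by rw [map_mul, map_mul, two _ _ this.2]))
  have h2 : closure {x, y} ≤ pPrimeCoreOf 2 (closure {x, y}) := by
    refine (closure_le _).2 ?_
    rintro _ (rfl | rfl)
    · exact h1.mem_of_normal (pcore_norm _ _) (px.mono (by simpa using p2.symm)) (subset_closure (by simp))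
    · exact h1.mem_of_normal (pcore_norm _ _) (py.mono (by simpa using p2.symm)) (subset_closure (by simp))
  exact Nat.odd_iff.2 (Nat.two_dvd_ne_zero.1 ((piGrp_compl_singleton_iff Nat.prime_two).1 (h1.piGrp.of_le h2)))

open scoped IsMulCommutative in
theorem quad_minNormal (hp : p.Prime) (p2 : p ≠ 2) {E : Subgroup G} {x y : G}
    (abE : IsElementaryAbelian p E) (minE : MinNormal E (closure {x, y})) (px : IsPiElt {p} x)
    (py : IsPiElt {p} y) (hx : ⁅⁅E, zpowers x⁆, zpowers x⁆ = ⊥) (hy : ⁅⁅E, zpowers y⁆, zpowers y⁆ = ⊥)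
    (dih : DihS (closure {x, y} : Subgroup G)) : PiNat {p} ((𝒞(E)).relIndex (closure {x, y})) := by
  have cE := abE.1
  have nE := minE.norm
  have hxN : x ∈ 𝒩(E) := nE (subset_closure (by simp))
  have hyN : y ∈ 𝒩(E) := nE (subset_closure (by simp))
  let f := E.normalizerMonoidHom
  let ρ : MulAut E →* AddMonoid.End (Additive E) :=
    { toFun := fun a => MonoidHom.toAdditive a.toMonoidHom
      map_one' := rfl
      map_mul' := fun a b => rfl }
  have inj : Function.Injective ρ := fun a b h => MulEquiv.ext fun v =>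
    congrArg Additive.toMul (DFunLike.congr_fun h (Additive.ofMul v))
  have e : img f (closure {x, y}) = closure {f ⟨x, hxN⟩, f ⟨y, hyN⟩} := by
    rw [closure_pair, closure_pair, img_sup (zpowers_le.2 hxN) (zpowers_le.2 hyN),
      ← img_zpowers, ← img_zpowers]
  have hq : ∀ z : 𝒩(E), ⁅⁅E, zpowers (z : G)⁆, zpowers (z : G)⁆ = ⊥ →
      (ρ (f z) - 1) * (ρ (f z) - 1) = 0 := by
    intro z hz
    refine AddMonoidHom.ext fun v => ?_
    set w := (ρ (f z) - 1) v with hw
    have h1 : ((w.toMul : E) : G) ∈ ⁅E, zpowers (z : G)⁆ := by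
      rw [commutator_comm]
      have := commutator_mem_commutator (mem_zpowers (z : G)) v.toMul.2
      rw [commutatorElement_def] at this
      convert this using 1
      change (z : G) * v.toMul * (z : G)⁻¹ / v.toMul = _
      rw [div_eq_mul_inv]
    change ρ (f z) w - w = 0
    rw [sub_eq_zero]
    refine Additive.toMul.injective (Subtype.ext ?_)
    change (z : G) * w.toMul * (z : G)⁻¹ = w.toMul
    rw [← comm_of_le_cent (comm_eq_bot_iff.1 hz) h1 (mem_zpowers _), mul_inv_cancel_right]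
  have hV : ∀ v : Additive E, p • v = 0 := fun v => Additive.toMul.injective (Subtype.ext (abE.2 _ v.toMul.2))
  have px' := IsPiElt.map (x := (⟨x, hxN⟩ : 𝒩(E))) (by rwa [IsPiElt, ← Subgroup.orderOf_coe]) f
  have py' := IsPiElt.map (x := (⟨y, hyN⟩ : 𝒩(E))) (by rwa [IsPiElt, ← Subgroup.orderOf_coe]) f
  have h1 := quadratic_pair_linear ρ inj hp hV _ _
    (hq ⟨x, hxN⟩ hx) (hq ⟨y, hyN⟩ hy) (fun W hW => by
      rcases minE.eq_bot_or_eq (W := (Subgroup.toAddSubgroup.symm W).map E.subtype) (map_subtype_le _)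
        (fun g hg => mem_norm_of_forall (by
          rintro _ ⟨w, hw, rfl⟩
          exact ⟨_, hW _ (e ▸ mem_img_of_mem (nE hg) hg) _ hw, rfl⟩)) with h | h
      · left
        rw [map_eq_bot_iff_of_injective _ E.subtype_injective] at h
        exact Subgroup.toAddSubgroup.symm.injective (by rw [h, OrderIso.map_bot])
      · right
        refine eq_top_iff.2 fun v _ => ?_
        exact (mem_map_iff_mem E.subtype_injective).1 (h.ge v.toMul.2))
    (quad_odd (R := AddMonoid.End (Additive E)) hp p2 (fun z => AddMonoidHom.ext fun v => hV (z v)) ρ inj (hq ⟨x, hxN⟩ hx) (hq ⟨y, hyN⟩ hy) px' py'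
      (e ▸ dih.img f))
  have h2 := piGrp_closure_pair_of_der px' py' h1
  rwa [← e, IsPiGrp, card_img_of_le nE, pre_def, MonoidHom.comap_bot, normalizerMonoidHom_ker,
    map_subtype_subgroupOf (cent_le_norm E)] at h2

theorem quad_cent (hp : p.Prime) (p2 : p ≠ 2) {E : Subgroup G} {x y : G}
    (pE : IsPGrp p E) (nE : closure {x, y} ≤ 𝒩(E)) (px : IsPiElt {p} x)
    (py : IsPiElt {p} y) (hx : ⁅⁅E, zpowers x⁆, zpowers x⁆ = ⊥) (hy : ⁅⁅E, zpowers y⁆, zpowers y⁆ = ⊥)
    (dih : DihS (closure {x, y} : Subgroup G)) {Q : Subgroup G} (sQ : Q ≤ closure {x, y})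
    (p'Q : IsPiGrp {p}ᶜ Q) : Q ≤ 𝒞(E) := by
  induction hn : Nat.card E using Nat.strong_induction_on generalizing G with
  | _ n ih =>
  subst hn
  by_cases h0 : E = ⊥
  · rw [h0, cent_bot]; exact le_top
  obtain ⟨V, sVZ, minV⟩ := minNormal_exists (center_nil_ne_bot pE.nil h0) (norm_inf nE (norm_cent nE))
  have sVE := sVZ.trans inf_le_left
  have pV := pE.of_le sVE
  have nVE : E ≤ 𝒩(V) := norm_of_cent' (sVZ.trans inf_le_right)
  have abV : IsElementaryAbelian p V := by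
    rcases minV.eq_bot_or_eq (ohm1_le p V) (norm_ohm1 p minV.norm) with h | h
    · exact absurd h (ohm1_ne_bot pV minV.ne_bot)
    · exact h ▸ ohm1_abelem p (abelian_of_le (abelian_inf_cent E) sVZ)
  have h1 := quad_minNormal hp p2 abV minV px py
    (le_bot_iff.1 ((commutator_mono (commutator_mono sVE le_rfl) le_rfl).trans hx.le))
    (le_bot_iff.1 ((commutator_mono (commutator_mono sVE le_rfl) le_rfl).trans hy.le)) dih
  have cQV : Q ≤ 𝒞(V) :=
    le_of_piGrp_of_relIndex sQ (norm_cent minV.norm) p'Q (piNat_compl_compl.2 h1)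
  have hxN : x ∈ 𝒩(V) := minV.norm (subset_closure (by simp))
  have hyN : y ∈ 𝒩(V) := minV.norm (subset_closure (by simp))
  have e : closure {x, y} /ₛ V = closure {coset V ⟨x, hxN⟩, coset V ⟨y, hyN⟩} := by
    rw [closure_pair, closure_pair, quot_sup (zpowers_le.2 hxN) (zpowers_le.2 hyN),
      ← quot_zpowers, ← quot_zpowers]
  have hq : ∀ z : 𝒩(V), (z : G) ∈ 𝒩(E) → ⁅⁅E, zpowers (z : G)⁆, zpowers (z : G)⁆ = ⊥ →
      ⁅⁅E /ₛ V, zpowers (coset V z)⁆, zpowers (coset V z)⁆ = ⊥ := by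
    intro z hzE hz
    rw [← quot_zpowers, ← quot_comm nVE (zpowers_le.2 z.2),
      ← quot_comm ((comm_le_left (zpowers_le.2 hzE)).trans nVE) (zpowers_le.2 z.2), hz, bot_quot]
  have h2 := ih _ (card_quot_lt_of_normal ⟨sVE, nVE⟩ minV.ne_bot) (pE.quot V) (e ▸ quot_norm V nE)
    (IsPiElt.map (x := (⟨x, hxN⟩ : 𝒩(V))) (by rwa [IsPiElt, ← Subgroup.orderOf_coe]) _)
    (IsPiElt.map (x := (⟨y, hyN⟩ : 𝒩(V))) (by rwa [IsPiElt, ← Subgroup.orderOf_coe]) _)
    (hq ⟨x, hxN⟩ (nE (subset_closure (by simp))) hx) (hq ⟨y, hyN⟩ (nE (subset_closure (by simp))) hy)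
    (e ▸ dih.quot V) (e ▸ quot_mono V sQ) (p'Q.quot V) rfl
  exact stable_factor_cent' cQV ((quot_cent_iff' (sQ.trans minV.norm) nVE).1 h2) (pV.coprime p'Q)

theorem DihS.stable {H : Subgroup G} (dih : DihS H) (hp : p.Prime) (p2 : p ≠ 2) : PStable p H := by
  intro P A pP _ sA pA hA y hy
  have nCN : H ⊓ 𝒩(P) ≤ 𝒩(H ⊓ 𝒞(P)) := norm_inf (norm_of_le inf_le_left) (norm_cent inf_le_right)
  obtain ⟨a, ha, rfl⟩ := mem_quot.1 hy
  refine baer_suzuki_of hp (K := {y | ∃ n : 𝒩(H ⊓ 𝒞(P)), (n : G) ∈ H ⊓ 𝒩(P) ∧ IsPiElt {p} (n : G) ∧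
    ⁅⁅P, zpowers (n : G)⁆, zpowers (n : G)⁆ = ⊥ ∧ coset _ n = y}) ?_ ?_ ?_ _
    ⟨a, sA ha, pA.piElt ha, le_bot_iff.1 ((commutator_mono (commutator_mono le_rfl (zpowers_le.2 ha))
      (zpowers_le.2 ha)).trans hA.le), rfl⟩
  · rintro _ ⟨n, hn, -, -, rfl⟩
    exact mem_quot.2 ⟨n, hn, rfl⟩
  · rintro g hg _ ⟨n, hn, pn, qn, rfl⟩
    obtain ⟨m, hm, rfl⟩ := mem_quot.1 hg
    refine ⟨m * n * m⁻¹, mul_mem (mul_mem hm hn) (inv_mem hm), pn.conj m, ?_,
      by rw [map_mul, map_mul, map_inv]⟩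
    have := congrArg (· :^ (m : G)) qn
    simp only [conjg_comm, conjg_zpowers, conjg_bot, conjg_of_mem_norm hm.2] at this
    exact this
  · rintro _ ⟨x, hx, px, qx, rfl⟩ _ ⟨y, hy, py, qy, rfl⟩
    have sL : closure {(x : G), (y : G)} ≤ H ⊓ 𝒩(P) := by
      rw [closure_pair]; exact sup_le (zpowers_le.2 hx) (zpowers_le.2 hy)
    have e : closure {(x : G), (y : G)} /ₛ (H ⊓ 𝒞(P)) = closure {coset _ x, coset _ y} := by
      rw [closure_pair, closure_pair, quot_sup (zpowers_le.2 x.2) (zpowers_le.2 y.2),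
        ← quot_zpowers, ← quot_zpowers]
    rw [← e, IsPGrp, piGrp_quot_iff (sL.trans nCN)]
    refine piNat_relIndex_inf (norm_cent (sL.trans inf_le_right)) ?_
      (piNat_relIndex_of_forall_le fun _ => quad_cent hp p2 pP (sL.trans inf_le_right) px py qx qy
        (dih.mono (sL.trans inf_le_left)))
    rw [relIndex_eq_one.2 (sL.trans inf_le_left)]
    exact PiNat.one _

theorem abelian_gen_charP {H P : Subgroup G} (stab : PStable p H) (cH : CharP p H) (pP : IsPGrp p P)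
    (nsP : P ⊲ H) {S : Set (Subgroup G)}
    (hS : ∀ B ∈ S, B ≤ H ∧ IsMulCommutative B ∧ IsPGrp p B ∧ P ≤ 𝒩(B))
    (hC : pCoreOf p H ⊓ 𝒞(P) ≤ P) : sSup S ≤ pCoreOf p H := by
  have nsC := inf_cent_normalIn_of_norm nsP.2
  have sPO : P ≤ pCoreOf p H := pcore_max nsP pP
  have pO := pcore_pGrp p H
  have pC : IsPGrp p (H ⊓ 𝒞(P)) := by
    rw [IsPGrp, IsPiGrp, ← relIndex_bot_left]
    refine piNat_relIndex_of_forall_le fun Q sQ p'Q => ?_
    have sQH := sQ.trans inf_le_left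
    have h1 : P ≤ pCoreOf p H ⊓ 𝒞(Q) := le_inf sPO (le_cent_symm (sQ.trans inf_le_right))
    have h2 := coprime_nil_faithful_cent_stab (sQH.trans (pcore_norm _ H)) (pO.coprime p'Q) pO.nil
      (((inf_le_inf_left _ (cent_anti h1)).trans hC).trans h1)
    exact ((pO.of_le ((le_inf sQH h2).trans cH.cent_le)).eq_bot p'Q).le
  have h := TG.abelian_gen_stable stab pP nsP hS
  rw [pCoreOf, ← pcore_quot_of_piGrp nsC pC] at h
  exact (quot_le_quot_iff' ((sSup_le fun B hB => (hS B hB).1).trans nsC.2) (pcore_max nsC pC)).1 h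

theorem charP_Puig_sub {H S : Subgroup G} (stab : PStable p H) (cH : CharP p H) (sylS : IsSylowOf p S H) :
    puigInfOf S ≤ puigInfOf (pCoreOf p H) ∧ puigOf (pCoreOf p H) ≤ puigOf S := by
  have sTS : pCoreOf p H ≤ S := IsPiHallOf.pcore_le sylS
  have pT := pcore_pGrp p H
  have h1 : puigSucc S (puigOf (pCoreOf p H)) ≤ pCoreOf p H :=
    abelian_gen_charP stab cH (pT.of_le (Puig_sub _))
      ((Puig_char _).trans_normal (pcore_normal _ H))
      (fun B hB => ⟨hB.1.trans sylS.le, hB.2.1, sylS.piGrp.of_le hB.1, hB.2.2⟩) (cent_Puig pT)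
  have h2 : puigInfOf S ≤ puigInfOf (pCoreOf p H) := by
    refine puigInfOf_le_iff.2 fun n => ?_
    induction n with
    | zero => exact bot_le
    | succ n ih =>
      exact (puigSucc_mono le_rfl ((Puig_def _).ge.trans (puigSucc_mono sTS ih))).trans
        ((puigSucc_restrict sTS h1).symm.trans (Puig_inf_def _)).le
  exact ⟨h2, (Puig_def _).ge.trans ((puigSucc_mono sTS h2).trans (Puig_def S).le)⟩

/-- The `Z(L(S))` theorem for `p`-stable groups of characteristic `p`. -/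
theorem charP_Puig_center_normal (hp : p.Prime) {H S : Subgroup G} (stab : PStable p H) (cH : CharP p H)
    (sylS : IsSylowOf p S H) : 𝒵(puigOf S) ⊲ H := by
  obtain ⟨sLiST, sLTS⟩ := charP_Puig_sub stab cH sylS
  have sTS : pCoreOf p H ≤ S := IsPiHallOf.pcore_le sylS
  have pS : IsPGrp p S := sylS.piGrp
  have sLS := Puig_sub S
  obtain ⟨Y, hY⟩ : ∃ Y, Y = 𝒵(puigOf (pCoreOf p H)) := ⟨_, rfl⟩
  have nsY : Y ⊲ H := hY ▸ (center_Puig_char _).trans_normal (pcore_normal _ H)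
  have sYT : Y ≤ pCoreOf p H := hY ▸ inf_le_left.trans (Puig_sub _)
  have sZY : 𝒵(puigOf S) ≤ Y := by
    rw [hY]
    refine le_inf (le_trans ?_ (sLiST.trans (Puig_inf_sub _))) (inf_le_right.trans (cent_anti sLTS))
    refine (inf_le_inf sLS (cent_anti (Puig_inf_sub S))).trans ?_
    rw [← Puig_inf_def S]
    exact cent_puigSucc pS.nil sLS
  have nsD := inf_cent_normalIn_of_norm nsY.2
  have nsC := quotPre_normalIn_of nsD (pcore_normal {p} _)
  have sYLi : Y ≤ puigInfOf S :=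
    (le_puigSucc (sYT.trans sTS) (hY ▸ abelian_inf_cent _) ((sLS.trans sylS.le).trans nsY.2)).trans
      (Puig_inf_def S).le
  have sLC : puigOf S ≤ quotPre (H ⊓ 𝒞(Y)) (pCoreOf p (H /ₛ (H ⊓ 𝒞(Y)))) := by
    refine ((Puig_def S).ge.trans (puigSucc_mono le_rfl sYLi)).trans ?_
    exact (quot_le_iff (((puigSucc_le S Y).trans sylS.le).trans nsD.2)).1
      (TG.abelian_gen_stable stab ((pcore_pGrp p H).of_le sYT) nsY
        fun B hB => ⟨hB.1.trans sylS.le, hB.2.1, pS.of_le hB.1, hB.2.2⟩)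
  have sylC := sylS.normal_inf nsC
  have defC := sylC.sup_eq_of_index (le_quotPre _) (by
    rw [relIndex_quotPre_self]; exact pcore_piGrp _ _)
  have hN := (center_Puig_char
    (quotPre (H ⊓ 𝒞(Y)) (pCoreOf p (H /ₛ (H ⊓ 𝒞(Y)))) ⊓ S)).norm_le
  rw [sub_Puig_eq inf_le_right (le_inf sLC sLS)] at hN
  refine ⟨(inf_le_left.trans sLS).trans sylS.le, (frattini_arg hp nsC sylC).ge.trans
    (sup_le (defC.ge.trans (sup_le ?_ (le_normalizer.trans hN))) (inf_le_right.trans hN))⟩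
  exact norm_of_cent (inf_le_right.trans (cent_anti sZY))

/-- Primitive subgroups of characteristic `p` are conjugate. -/
theorem conj_of_charP (hp : p.Prime) (p2 : p ≠ 2) (dih : DihS (⊤ : Subgroup G)) {A B : Subgroup G}
    (hA : Prim A) (hB : Prim B) (cA : CharP p A) (cB : CharP p B) (nA : pCoreOf p A ≠ ⊥) (nB : pCoreOf p B ≠ ⊥) :
    ∃ g, B = A :^ g := by
  have key : ∀ {A : Subgroup G}, Prim A → CharP p A → pCoreOf p A ≠ ⊥ →
      ∃ P, IsSylowOf p P ⊤ ∧ 𝒩(𝒵(puigOf P)) = A := fun {A} hA cA nA => by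
    obtain ⟨P, hP⟩ := sylow_exists hp A
    have h1 := charP_Puig_center_normal hp ((dih.mono le_top).stable hp p2) cA hP
    have h2 := hA _ h1 fun e => nA (eq_bot_iff.2 (hP.pcore_le.trans (trivg_center_Puig_pgroup hP.piGrp e).le))
    exact ⟨P, IsSylowOf.of_norm_le hP hp le_top (inf_le_right.trans ((center_Puig_char P).norm_le.trans h2)),
      le_antisymm h2 h1.2⟩
  obtain ⟨P, hP, rfl⟩ := key hA cA nA
  obtain ⟨Q, hQ, rfl⟩ := key hB cB nB
  obtain ⟨g, -, rfl⟩ := sylow_trans hp hP hQ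
  exact ⟨g, by rw [conjg_norm, conjg_inf, conjg_cent, Puig_conjg]⟩

theorem realizeEqns_GW_B3 : True := by
  have := @CA.GW.DihS.eq_1.{0}
  have := @CA.GW.DihS.eq_def.{0}
  have := @CA.GW.DihS.congr_simp.{0}
  trivial

end CA.GW
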