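/-
Dihedral `2`-subgroups, four-groups, and the Thompson-Bender lemma for groups with dihedral Sylow `2`-subgroups.
-/
import Cfsg.Agent.GW.B3
import Cfsg.Agent.GW.Basic

set_option autoImplicit false
set_option linter.unusedSectionVars false

namespace CA.GW.BA

open Subgroup Cfsg CA.FG CA.BG CA.Dih
open scoped commutatorElement

universe u v

variable {G : Type u} [Group G] [Finite G] {p q : ℕ}

/-! ### four-groups -/

theorem mem_c1 {x y : G} : x ∈ 𝒞[y] ↔ x * y = y * x := mem_centralizer_singleton_iff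

theorem conj_eq_iff {g x : G} : g * x * g⁻¹ = x ↔ g ∈ 𝒞[x] := by rw [mem_c1, mul_inv_eq_iff_eq_mul]

theorem inv_conj {a : G} (h : IsInv a) (g : G) : IsInv (g * a * g⁻¹) :=
  ⟨by rw [show g * a * g⁻¹ * (g * a * g⁻¹) = g * (a * a) * g⁻¹ by group, h.1]; group, by simpa using h.2⟩

theorem inv_inv' {a : G} (h : a * a = 1) : a⁻¹ = a := inv_eq_of_mul_eq_one_right h

theorem mem_zpowers_inv {a x : G} (h : a * a = 1) : x ∈ zpowers a ↔ x = 1 ∨ x = a := by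
  refine ⟨fun hx => ?_, by rintro (rfl | rfl); exacts [one_mem _, mem_zpowers _]⟩
  obtain ⟨n, rfl⟩ := mem_powers_iff_mem_zpowers.2 hx
  rcases Nat.even_or_odd' n with ⟨m, rfl | rfl⟩
  · left; simp only [pow_mul, pow_two, h, one_pow]
  · right; simp only [pow_succ, pow_mul, pow_zero, one_mul, h, one_pow]

/-- `t`, `s` generate a four-group -/
structure Four (t s : G) : Prop where
  it : IsInv t
  is : IsInv s
  ne : t ≠ s
  comm : t * s = s * t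

/-- the four-group generated by `t` and `s` -/
abbrev V4 (t s : G) : Subgroup G := zpowers t ⊔ zpowers s

namespace Four

variable {t s : G}

theorem ts (h : Four t s) : IsInv (t * s) :=
  ⟨by rw [mul_assoc, ← mul_assoc s, ← h.comm, mul_assoc, h.is.1, mul_one, h.it.1], fun e =>
    h.ne (by rw [eq_inv_of_mul_eq_one_left e, inv_inv' h.is.1])⟩

theorem symm (h : Four t s) : Four s t := ⟨h.is, h.it, h.ne.symm, h.comm.symm⟩

theorem tts (h : Four t s) : t * (t * s) = s := by rw [← mul_assoc, h.it.1, one_mul]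

theorem sts (h : Four t s) : s * (t * s) = t := by rw [h.comm, ← mul_assoc, h.is.1, one_mul]

theorem left (h : Four t s) : Four t (t * s) :=
  ⟨h.it, h.ts, fun e => h.is.2 (by simpa using e.symm), by rw [h.tts, mul_assoc, ← h.comm, h.tts]⟩

theorem ct (h : Four t s) : s ∈ 𝒞[t] := mem_c1.2 h.comm.symm

theorem cs (h : Four t s) : t ∈ 𝒞[s] := mem_c1.2 h.comm

theorem c_mul {x : G} (h1 : x ∈ 𝒞[t]) (h2 : x ∈ 𝒞[s]) : x ∈ 𝒞[t * s] :=
  mem_cent_singleton_comm.1 (mul_mem (mem_cent_singleton_comm.1 h1) (mem_cent_singleton_comm.1 h2))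

theorem norm (h : Four t s) : zpowers t ≤ 𝒩(zpowers s) := norm_zpowers_of_cent (zpowers_le.2 h.cs)

theorem mem (h : Four t s) {x : G} : x ∈ V4 t s ↔ x = 1 ∨ x = t ∨ x = s ∨ x = t * s := by
  rw [mem_sup_of_left_le_norm h.norm]
  simp only [mem_zpowers_inv h.it.1, mem_zpowers_inv h.is.1]
  constructor
  · rintro ⟨_, rfl | rfl, _, rfl | rfl, rfl⟩ <;> simp
  · rintro (rfl | rfl | rfl | rfl)
    exacts [⟨1, .inl rfl, 1, .inl rfl, by simp⟩, ⟨_, .inr rfl, 1, .inl rfl, by simp⟩,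
      ⟨1, .inl rfl, _, .inr rfl, by simp⟩, ⟨_, .inr rfl, _, .inr rfl, rfl⟩]

theorem two (h : Four t s) : IsPGrp 2 (V4 t s) := (two_zpowers h.it.1).sup (two_zpowers h.is.1) (.inl h.norm)

theorem le {X : Subgroup G} (ht : t ∈ X) (hs : s ∈ X) : V4 t s ≤ X := sup_le (zpowers_le.2 ht) (zpowers_le.2 hs)

theorem t_mem (t s : G) : t ∈ V4 t s := mem_sup_left (mem_zpowers t)

theorem s_mem (t s : G) : s ∈ V4 t s := mem_sup_right (mem_zpowers s)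

theorem abel (h : Four t s) : IsMulCommutative (V4 t s) :=
  abelian_sup (abelian_zpowers t) (abelian_zpowers s) (by rw [cent_zpowers]; exact zpowers_le.2 h.cs)

theorem cent (t s : G) : 𝒞(V4 t s) = 𝒞[t] ⊓ 𝒞[s] := by rw [cent_sup, cent_zpowers, cent_zpowers]

theorem ncyc (h : Four t s) : ¬ IsCyclic (V4 t s) := fun c =>
  have := Fintype.ofFinite G
  h.ne (eq_of_cyclic_inv c (t_mem t s) (s_mem t s) h.it.1 h.it.2 h.is.1 h.is.2)

/-- an odd group normalized by a four-group is generated by the fixed points of the involutions -/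
theorem gen (h : Four t s) {H X : Subgroup G} (oH : IsPiGrp {2}ᶜ H) (ht : t ∈ 𝒩(H)) (hs : s ∈ 𝒩(H))
    (h1 : H ⊓ 𝒞[t] ≤ X) (h2 : H ⊓ 𝒞[s] ≤ X) (h3 : H ⊓ 𝒞[t * s] ≤ X) : H ≤ X :=
  coprime_abelian_gen_cent1_le h.abel h.ncyc (le ht hs) (h.two.coprime oH).symm fun a ha a1 => by
    rcases h.mem.1 ha with rfl | rfl | rfl | rfl
    exacts [(a1 rfl).elim, h1, h2, h3]

end Four

/-! ### dihedral groups -/

theorem dih_inv {S : Subgroup G} {c s x : G} (h : IsDih S c) (hs : s ∈ S) (hc : s ∉ zpowers c) (hx : x ∈ zpowers c) :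
    s * x * s⁻¹ = x⁻¹ := by
  have h1 := h.sq _ (mul_mem hs (zpowers_le.2 h.mem hx)) fun e => hc ((mul_mem_cancel_right hx).1 e)
  rw [inv_inv' (h.sq s hs hc), eq_inv_iff_mul_eq_one, mul_assoc, h1]

theorem dih_uniq {c a b : G} (ha : a ∈ zpowers c) (hb : b ∈ zpowers c) (ia : IsInv a) (ib : IsInv b) : a = b :=
  have := Fintype.ofFinite G
  eq_of_cyclic_inv (cyclic_zpowers c) ha hb ia.1 ia.2 ib.1 ib.2

theorem dih_split {S : Subgroup G} {c t s : G} (h : IsDih S c) (f : Four t s) (ht : t ∈ S) (hs : s ∈ S) :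
    ∃ a ∈ V4 t s, ∃ w ∈ V4 t s, IsInv a ∧ a ∈ zpowers c ∧ w ∉ zpowers c := by
  by_cases h1 : t ∈ zpowers c
  · exact ⟨t, Four.t_mem t s, s, Four.s_mem t s, f.it, h1, fun h2 => f.ne (dih_uniq h1 h2 f.it f.is)⟩
  by_cases h2 : s ∈ zpowers c
  · exact ⟨s, Four.s_mem t s, t, Four.t_mem t s, f.is, h2, h1⟩
  · exact ⟨t * s, mul_mem (Four.t_mem t s) (Four.s_mem t s), t, Four.t_mem t s, f.ts,
      mul_mem_of_relIndex_two h.index ht hs h1 h2, h1⟩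

theorem dih_four {S : Subgroup G} {c t s x : G} (h : IsDih S c) (f : Four t s) (ht : t ∈ S) (hs : s ∈ S)
    (hx : x ∈ S) (c1 : x ∈ 𝒞[t]) (c2 : x ∈ 𝒞[s]) : x ∈ V4 t s := by
  obtain ⟨a, ha, w, hw, ia, ac, wc⟩ := dih_split h f ht hs
  have wS := Four.le ht hs hw
  have key : ∀ y ∈ zpowers c, y ∈ 𝒞(V4 t s) → y ∈ V4 t s := fun y hy cy => by
    by_cases y1 : y = 1
    · rw [y1]; exact one_mem _
    have := dih_inv h wS wc hy
    rw [cy w hw, mul_inv_cancel_right] at this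
    exact dih_uniq ac hy ia ⟨mul_eq_one_iff_eq_inv.2 this, y1⟩ ▸ ha
  have cx : x ∈ 𝒞(V4 t s) := by rw [Four.cent]; exact ⟨c1, c2⟩
  by_cases h1 : x ∈ zpowers c
  · exact key x h1 cx
  · exact (mul_mem_cancel_right hw).1 (key _ (mul_mem_of_relIndex_two h.index hx wS h1 wc)
      (mul_mem cx (abelian_iff_le_cent.1 f.abel hw)))

theorem dih_meet {S A : Subgroup G} {c t s : G} (h : IsDih S c) (pS : IsPGrp 2 S) (f : Four t s) (ht : t ∈ S)
    (hs : s ∈ S) (hA : A ≤ S) (nA : ¬ IsCyclic A) : t ∈ A ∨ s ∈ A ∨ t * s ∈ A := by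
  obtain ⟨a, ha, -, -, ia, ac, -⟩ := dih_split h f ht hs
  have h1 : A ⊓ zpowers c ≠ ⊥ := fun e => by
    obtain ⟨x, hx, x1⟩ := exists_mem_ne_one (ne_bot_of_not_cyclic nA)
    have out : ∀ y ∈ A, y ≠ 1 → y ∉ zpowers c := fun y hy y1 hc => y1 (e.le ⟨hy, hc⟩)
    refine nA (cyclic_of_le (cyclic_zpowers x) fun y hy => ?_)
    by_cases y1 : y = 1
    · rw [y1]; exact one_mem _
    have : y * x = 1 := e.le ⟨mul_mem hy hx, mul_mem_of_relIndex_two h.index (hA hy) (hA hx) (out y hy y1) (out x hx x1)⟩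
    rw [eq_inv_of_mul_eq_one_left this]
    exact inv_mem (mem_zpowers x)
  obtain ⟨x, hx, x1⟩ := exists_mem_ne_one h1
  obtain ⟨y, hy, y2, y1⟩ := exists_inv_of_piElt (pS.piElt (hA hx.1)) x1
  have h2 : a ∈ A := dih_uniq (zpowers_le.2 hx.2 hy) ac ⟨y2, y1⟩ ia ▸ zpowers_le.2 hx.1 hy
  rcases f.mem.1 ha with rfl | rfl | rfl | rfl
  exacts [(ia.2 rfl).elim, .inl h2, .inr (.inl h2), .inr (.inr h2)]

/-- the `2`-subgroups of `N` are cyclic or dihedral -/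
def Dh (N : Subgroup G) : Prop := ∀ T, T ≤ N → IsPGrp 2 T → IsCyclic T ∨ ∃ c, IsDih T c

theorem dh_of {N S : Subgroup G} {c : G} (hS : IsSylowOf 2 S N) (h : IsDih S c) : Dh N := fun T hT pT => by
  obtain ⟨g, -, hg⟩ := sylow_subJ Nat.prime_two hS pT hT
  have h' := h.conj g
  by_cases h1 : T ≤ zpowers (g * c * g⁻¹)
  · exact .inl (cyclic_of_le (cyclic_zpowers _) h1)
  obtain ⟨d, hd, e⟩ := exists_gen_of_cyclic (cyclic_of_le (cyclic_zpowers (g * c * g⁻¹)) (inf_le_left (b := T)))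
  refine .inr ⟨d, hd.2, ?_, fun s hs hn => h'.sq s (hg hs) fun hz => hn (e ▸ ⟨hz, hs⟩)⟩
  have h2 := relIndex_le_of_le_right (H := zpowers (g * c * g⁻¹)) hg (relIndex_pos _ _).ne'
  have h3 := one_lt_relIndex h1
  rw [← e, inf_relIndex_right]
  rw [h'.index] at h2
  omega

namespace Dh

variable {N : Subgroup G} {t s : G}

theorem mono (h : Dh N) {M : Subgroup G} (hM : M ≤ N) : Dh M := fun T hT => h T (hT.trans hM)

theorem img {G' : Type v} [Group G'] [Finite G'] {D : Subgroup G} (h : Dh N) (f : D →* G') :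
    Dh (img f N) := fun T hT pT => by
  obtain ⟨P, hP⟩ := sylow_exists Nat.prime_two (N ⊓ pre f T)
  have PD := hP.le.trans (inf_le_right.trans (pre_le f T))
  have e : FG.img f P = T := by
    have := hP.img (f := f) (inf_le_right.trans (pre_le f T))
    rw [img_inf_pre, inf_eq_right.2 hT] at this
    exact this.eq_self pT
  subst e
  rcases h P (hP.le.trans inf_le_left) hP.piGrp with h1 | ⟨c, hc⟩
  · exact .inl (cyclic_img f h1)
  by_cases h1 : FG.img f P ≤ zpowers (f ⟨c, PD hc.mem⟩)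
  · exact .inl (cyclic_of_le (cyclic_zpowers _) h1)
  refine .inr ⟨f ⟨c, PD hc.mem⟩, mem_img_of_mem _ hc.mem, ?_, fun s hs hn => ?_⟩
  · have h2 := relIndex_img_dvd (f := f) (zpowers_le.2 hc.mem) PD
    rw [hc.index, show FG.img f (zpowers c) = _ from img_zpowers ⟨c, PD hc.mem⟩] at h2
    exact ((Nat.dvd_prime Nat.prime_two).1 h2).resolve_left (one_lt_relIndex h1).ne'
  · obtain ⟨x, hx, rfl⟩ := mem_img.1 hs
    rw [← map_mul, show x * x = 1 from Subtype.ext (hc.sq x hx fun hz => hn ?_), map_one]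
    rw [← img_zpowers]
    exact mem_img.2 ⟨x, hz, rfl⟩

theorem dih (h : Dh N) (f : Four t s) {T : Subgroup G} (hT : T ≤ N) (pT : IsPGrp 2 T) (hV : V4 t s ≤ T) :
    ∃ c, IsDih T c := (h T hT pT).resolve_left fun e => f.ncyc (cyclic_of_le e hV)

theorem four (h : Dh N) (f : Four t s) (ht : t ∈ N) (hs : s ∈ N) {x : G} (hx : x ∈ N) (px : IsPiElt {2} x)
    (c1 : x ∈ 𝒞[t]) (c2 : x ∈ 𝒞[s]) : x ∈ V4 t s := by
  obtain ⟨c, hd⟩ := h.dih f (sup_le (Four.le ht hs) (zpowers_le.2 hx))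
    (f.two.sup (piGrp_zpowers_iff.2 px) (.inr (norm_of_cent (zpowers_le.2 (by rw [Four.cent]; exact ⟨c1, c2⟩)))))
    le_sup_left
  exact dih_four hd f (mem_sup_left (Four.t_mem t s)) (mem_sup_left (Four.s_mem t s))
    (mem_sup_right (mem_zpowers x)) c1 c2

theorem four' (h : Dh N) (f : Four t s) (ht : t ∈ N) (hs : s ∈ N) {x : G} (hx : x ∈ N) (ix : IsInv x)
    (c1 : x ∈ 𝒞[t]) (c2 : x ∈ 𝒞[s]) : x = t ∨ x = s ∨ x = t * s :=
  (f.mem.1 (h.four f ht hs hx (piGrp_zpowers_iff.1 (two_zpowers ix.1)) c1 c2)).resolve_left ix.2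

theorem cent (h : Dh N) {U P : Subgroup G} (hU : U ≤ N) (pU : IsPGrp 2 U) {a : G} (ha : a ∈ U) (a1 : a ≠ 1)
    (hp : p.Prime) (p2 : p ≠ 2) (pP : IsPGrp p P) (nU : P ≤ 𝒩(U)) (cP : P ≤ 𝒞[a]) : P ≤ 𝒞(U) := fun x hx => by
  rcases h U hU pU with h1 | ⟨c, hd⟩
  · exact cent_of_cyclic_two h1 pU nU ((piGrp_compl_singleton_iff Nat.prime_two).1 (odd_of_pGrp pP p2)) hx
  · exact hd.cent_of_fix pU le_rfl ha a1 hp p2 (pP.piElt hx) (nU hx) (cP hx)

theorem hall (h : Dh N) {a : G} (ha : a ∈ N) (ia : IsInv a) : IsPiHallOf {2}ᶜ (OO (N ⊓ 𝒞[a])) (N ⊓ 𝒞[a]) :=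
  Frobenius_normal_complement Nat.prime_two fun U hU pU _ q hq q2 x hx nx qx =>
    cent_anti le_sup_left (h.cent (sup_le (hU.trans inf_le_left) (zpowers_le.2 ha))
      (pU.sup (two_zpowers ia.1) (.inl (norm_zpowers_of_cent (hU.trans inf_le_right))))
      (mem_sup_right (mem_zpowers a)) ia.2 hq q2 (piGrp_zpowers_iff.2 qx)
      (norm_sup (zpowers_le.2 nx) (norm_zpowers_of_cent (zpowers_le.2 hx.2))) (zpowers_le.2 hx.2) (mem_zpowers x))

theorem dihS (h : Dh N) : DihS N := fun T hT pT => by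
  rcases h T hT pT with h1 | ⟨c, hd⟩
  · obtain ⟨d, hd, e⟩ := exists_gen_of_cyclic h1
    exact ⟨d, hd, fun s hs hn => (hn (e ▸ hs)).elim⟩
  · exact ⟨c, hd.mem, hd.sq⟩

end Dh

theorem sol_of_odd {H : Subgroup G} (h : IsPiGrp {2}ᶜ H) : Group.IsSolvable H :=
  FT.odd_sol (Nat.odd_iff.2 (Nat.two_dvd_ne_zero.1 ((piGrp_compl_singleton_iff Nat.prime_two).1 h)))

theorem sol_of_cyclic_sylow {H T : Subgroup G} (hT : IsSylowOf 2 T H) (c : IsCyclic T) : Group.IsSolvable H := by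
  have := cyclic_pdiv_normal_complement Nat.prime_two (fun q hq _ => hq.two_le) hT c
  rw [← this.sup_eq]
  exact sol_sup (sol_of_odd (pcore_piGrp _ _)) hT.pGrp.sol (.inr this.norm)

/-- a nonsolvable normal subgroup meets every four-group -/
theorem Dh.meet {N E : Subgroup G} {t s : G} (h : Dh N) (f : Four t s) (ht : t ∈ N) (hs : s ∈ N) (hE : E ⊲ N)
    (ns : ¬ Group.IsSolvable E) : t ∈ E ∨ s ∈ E ∨ t * s ∈ E := by
  obtain ⟨T, hT, hV⟩ := sylow_superset Nat.prime_two f.two (Four.le ht hs)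
  obtain ⟨c, hd⟩ := h.dih f hT.le hT.piGrp hV
  have := dih_meet hd hT.piGrp f (hV (Four.t_mem t s)) (hV (Four.s_mem t s)) inf_le_left
    fun e => ns (sol_of_cyclic_sylow (hT.inf_normal hE) e)
  exact this.imp (·.2) (Or.imp (·.2) (·.2))

theorem exists_comm_inv {u a : G} (iu : u * u = 1) (ia : a * a = 1) (h : ¬ ∃ g ∈ zpowers (u * a), g * a * g⁻¹ = u) :
    ∃ z ∈ zpowers (u * a), IsInv z ∧ z ∈ 𝒞[u] ∧ z ∈ 𝒞[a] := by
  have h1 : ∀ z ∈ zpowers (u * a), u * z * u⁻¹ = z⁻¹ := by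
    rintro _ ⟨k, rfl⟩
    simp only
    rw [← conj_zpow, ← inv_zpow, mul_inv_rev, inv_inv' ia, ← mul_assoc, iu, one_mul]
  have h2 : ∀ z ∈ zpowers (u * a), a * z * a⁻¹ = z⁻¹ := by
    rintro _ ⟨k, rfl⟩
    simp only
    rw [← conj_zpow, ← inv_zpow, mul_inv_rev, inv_inv' ia, inv_inv' iu, mul_assoc, mul_assoc, ia, mul_one]
  by_cases e : 2 ∣ orderOf (u * a)
  · obtain ⟨z, hz, z2, z1⟩ := exists_inv_mem_zpowers e
    refine ⟨z, hz, ⟨z2, z1⟩, mem_cent_singleton_comm.1 (conj_eq_iff.1 ?_), mem_cent_singleton_comm.1 (conj_eq_iff.1 ?_)⟩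
    · rw [h1 z hz, inv_inv' z2]
    · rw [h2 z hz, inv_inv' z2]
  · obtain ⟨k, hk⟩ : ∃ k, orderOf (u * a) = 2 * k + 1 := ⟨orderOf (u * a) / 2, by omega⟩
    refine (h ⟨(u * a) ^ (k + 1), pow_mem (mem_zpowers _) _, ?_⟩).elim
    have h3 := h2 _ (inv_mem (pow_mem (mem_zpowers (u * a)) (k + 1)))
    have h4 := pow_orderOf_eq_one (u * a)
    calc _ = (u * a) ^ (k + 1) * (a * ((u * a) ^ (k + 1))⁻¹ * a⁻¹) * a := by group
      _ = (u * a) ^ (2 * k + 1) * (u * a) * a := by rw [h3, inv_inv, ← pow_add, ← pow_succ]; congr 2; omega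
      _ = u := by rw [← hk, h4, one_mul, mul_assoc, ia, mul_one]

theorem eq_one_of_inv {y : G} (oy : IsPiElt {2}ᶜ y) (h : y = y⁻¹) : y = 1 :=
  (pElt_of_pow_eq_one Nat.prime_two ((pow_two y).trans (mul_eq_one_iff_eq_inv.2 h))).eq_one oy

theorem inf_c1_conj {N : Subgroup G} {g : G} (hg : g ∈ N) (u : G) : (N ⊓ 𝒞[u]) :^ g = N ⊓ 𝒞[g * u * g⁻¹] := by
  rw [conjg_inf, conjg_cent1, conjg_of_mem hg]

/-! ### the Thompson-Bender lemma -/

/-- centralizers of odd elements fixed by an outer involution -/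
def OutP (N E : Subgroup G) : Prop :=
  ∀ u ∈ N, IsInv u → u ∉ E → ∀ y ∈ E ⊓ 𝒞[u], y ≠ 1 → ¬ 2 ∣ orderOf y → E ⊓ 𝒞[y] ≤ 𝒞[u]

/-- the structure of a nonsolvable core-free group -/
def XS (N : Subgroup G) : Prop :=
  ∃ E, Comp N E ∧ (∀ t ∈ E, IsInv t → (∃ K q r, Tor N E K t q r) ∨ TorA N E t) ∧ OutP N E

/-- the structure of the nonsolvable proper subgroups modulo their cores -/
def XQ (G : Type u) [Group G] : Prop := ∀ X : Subgroup G, X ≠ ⊤ → ¬ Group.IsSolvable X → XS (X /ₛ OO X)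

/-- the Thompson-Bender property -/
def TB (X : Subgroup G) : Prop := ∀ u ∈ X, u * u = 1 → ∀ p : ℕ, p.Prime → p ≠ 2 → ∀ P, P ≤ X → IsPGrp p P →
  X ⊓ 𝒞[u] ≤ 𝒩(P) → ⁅P, zpowers u⁆ ≤ pCoreOf p X

theorem tb_bar_sol {N P : Subgroup G} {u : G} (h : Dh N) (hO : OO N = ⊥) (sN : Group.IsSolvable N) (hu : u ∈ N)
    (u2 : u * u = 1) (hp : p.Prime) (p2 : p ≠ 2) (PN : P ≤ N) (pP : IsPGrp p P) (hn : N ⊓ 𝒞[u] ≤ 𝒩(P)) :
    P ≤ 𝒞[u] := by
  have pT := pcore_pGrp 2 N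
  have co := (pT.coprime_of_ne pP p2.symm)
  have nT : P ≤ 𝒩(pCoreOf 2 N) := PN.trans (pcore_norm _ N)
  have h1 : P ≤ 𝒞(pCoreOf 2 N) := by
    by_cases h0 : pCoreOf 2 N = ⊥
    · rw [h0, cent_bot]; exact le_top
    obtain ⟨a, ha, a1⟩ := exists_mem_ne_one (pGrp_inf_cent_ne_bot pT (two_zpowers u2)
      (zpowers_le.2 (pcore_norm _ N hu)) h0)
    rw [cent_zpowers] at ha
    refine h.cent (pcore_le _ N) pT ha.1 a1 hp p2 pP nT (mem_cent_iff_le_cent_singleton.1 ?_)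
    exact comm_eq_bot_iff.1 (eq_bot_iff.2 ((le_inf ((commutator_mono inf_le_left le_rfl).trans (comm_le_left nT))
      (comm_le_right ((inf_le_inf_right _ (pcore_le _ N)).trans hn))).trans (inf_eq_bot_of_cop co).le)) ha
  have := (le_inf ((le_inf PN h1).trans (cent_sub_pcore sN hO)) le_rfl).trans (inf_eq_bot_of_cop co).le
  exact this.trans bot_le

theorem tor_norm {N E K P : Subgroup G} {t y : G} {q r : ℕ} (h : Tor N E K t q r) (it : IsInv t) (tN : t ∈ N)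
    (hO : OO N = ⊥)
    (hp : p.Prime) (p2 : p ≠ 2) (pP : IsPGrp p P) (PE : P ≤ E) (hy : y ∈ P ⊓ 𝒞[t]) (y1 : y ≠ 1) :
    N ⊓ 𝒩(P) ≤ 𝒞[t] := fun g hg => by
  have odd : ∀ z ∈ P, z = z⁻¹ → z = 1 := fun z hz => eq_one_of_inv ((odd_of_pGrp pP p2).piElt hz)
  have h1 := h.sq y ⟨mem_sup_left (PE hy.1), hy.2⟩ (by
    rw [hO]; exact fun e => y1 (odd y hy.1 (mul_eq_one_iff_eq_inv.1 e)))
  have h2 := h.pcyc p hp p2 P pP (PE.trans le_sup_left) y hy.1 h1 (by rw [hO]; exact y1)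
  have h3 := conj_mem_of_mem_norm hg.2 hy.1
  have h4 : g * y * g⁻¹ ≠ 1 := by simpa using y1
  have h5 : g * t * g⁻¹ ∈ N ⊓ 𝒞[g * y * g⁻¹] := by
    rw [← inf_c1_conj hg.1]; exact conj_mem_conjg g ⟨tN, mem_cent_singleton_comm.1 hy.2⟩
  have h6 := h.ti _ (h2 h3) (by rw [hO]; exact h4) h5
  by_contra hc
  have h7 := h.inv _ ⟨h5.1, h6⟩ (inv_conj it g) (fun e => hc (conj_eq_iff.1 e)) (g * y * g⁻¹)
    (by simpa [hO] using h2 h3)
  rw [conj_eq_iff.2 h5.2] at h7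
  exact h4 (odd _ h3 h7)

theorem torA_conj {N E : Subgroup G} {t g : G} (h : TorA N E t) (hg : g ∈ N) (nE : N ≤ 𝒩(E)) :
    TorA N E (g * t * g⁻¹) := by
  obtain ⟨s, hs, is, st, hy⟩ := h.ex
  refine ⟨h.inn, g * s * g⁻¹, ⟨conj_mem_of_le_norm nE hg hs.1, ?_⟩, inv_conj is g, by simpa using st, fun y hy' oy => ?_⟩
  · rw [← conjg_cent1]; exact conj_mem_conjg g hs.2
  · rw [← inf_c1_conj hg, mem_conjg] at hy'
    rw [← conjg_cent1, mem_conjg]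
    exact hy _ hy' (by rwa [← orderOf_conj y g⁻¹, inv_inv] at oy)

theorem tb_bar_A {N E P : Subgroup G} {u : G} (h : Dh N) (hE : Comp N E) (hu : u ∈ E) (iu : IsInv u)
    (hA : TorA N E u) (PN : P ≤ N) (oP : IsPiGrp {2}ᶜ P) (hn : N ⊓ 𝒞[u] ≤ 𝒩(P)) : P ≤ 𝒞[u] := by
  obtain ⟨s, hs, is, st, hy⟩ := hA.ex
  have f : Four u s := ⟨iu, is, st.symm, (mem_c1.1 hs.2).symm⟩
  have key : ∀ v ∈ E, IsInv v → OO (N ⊓ 𝒞[u]) ≤ 𝒞[v] → P ⊓ 𝒞[v] ≤ 𝒞[u] := fun v hv iv hc => by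
    obtain ⟨g, hg, rfl⟩ := hE.conj u hu v hv iu iv
    have h1 := h.hall (hE.le hv) iv
    have h2 : OO (N ⊓ 𝒞[u]) = OO (N ⊓ 𝒞[g * u * g⁻¹]) := eq_of_le_of_card_ge
      (h1.le_of_normal (pcore_norm _ _) (pcore_piGrp _ _) (le_inf ((pcore_le _ _).trans inf_le_left) hc))
      (by rw [← inf_c1_conj (hE.le hg), OO, pPrimeCoreOf, ← pcore_conjg, card_conjg])
    exact (h1.le_of_normal (pcore_norm _ _) (oP.inf_left _) (inf_le_inf_right _ PN)).trans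
      (h2.ge.trans ((pcore_le _ _).trans inf_le_right))
  have h1 : OO (N ⊓ 𝒞[u]) ≤ 𝒞[s] := fun y hy' => hy y (pcore_le _ _ hy')
    ((piNat_compl_singleton_iff Nat.prime_two).1 ((pcore_piGrp _ _).piElt hy'))
  exact f.gen oP (hn ⟨hE.le hu, mem_cent_singleton_self u⟩) (hn ⟨hE.le hs.1, hs.2⟩) inf_le_right (key s hs.1 is h1)
    (key _ (mul_mem hu hs.1) f.ts fun y hy' => Four.c_mul (pcore_le _ _ hy').2 (h1 hy'))

theorem out_not_le {N E : Subgroup G} {u t : G} (h : Dh N) (hE : Comp N E) (hu : u ∈ N) (uE : u ∉ E) (ht : t ∈ E)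
    (f : Four u t) : ¬ N ⊓ 𝒞[u] ≤ 𝒞[t] := fun hc => by
  have tN := hE.le ht
  have utE : u * t ∉ E := fun e => uE ((mul_mem_cancel_right ht).1 e)
  obtain ⟨g, hg, e⟩ : ∃ g ∈ N ⊓ 𝒞[t], g * u * g⁻¹ = u * t := by
    obtain ⟨T, hT, hV⟩ := sylow_superset (M := N ⊓ 𝒞[t]) Nat.prime_two f.two
      (Four.le ⟨hu, f.cs⟩ ⟨tN, mem_cent_singleton_self t⟩)
    obtain ⟨b, hb, ib, bt, cb⟩ := hE.four t ht f.is
    obtain ⟨x, hx, hb'⟩ := sylow_Jsub Nat.prime_two hT (two_zpowers ib.1) (zpowers_le.2 ⟨hE.le hb, cb⟩)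
    have h1 : V4 u t < T := lt_of_le_of_ne hV fun e => by
      have h2 := conj_mem_of_le_norm hE.norm hx.1 hb
      rcases f.mem.1 (e.ge (hb' (conj_mem_conjg x (mem_zpowers b)))) with h3 | h3 | h3 | h3
      · exact (inv_conj ib x).2 h3
      · exact uE (h3 ▸ h2)
      · exact bt (by rw [← conj_eq_iff.2 hx.2] at h3; simpa using h3)
      · exact utE (h3 ▸ h2)
    obtain ⟨g, hg, gV⟩ := SetLike.exists_of_lt (nilpotent_proper_norm hT.pGrp.nil h1)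
    refine ⟨g, hT.le hg.1, ?_⟩
    rcases f.mem.1 (conj_mem_of_mem_norm hg.2 (Four.t_mem u t)) with h3 | h3 | h3 | h3
    · exact ((inv_conj f.it g).2 h3).elim
    · exact (gV (h.four f hu tN (hT.le hg.1).1 (hT.piGrp.piElt hg.1) (conj_eq_iff.1 h3) (hT.le hg.1).2)).elim
    · have h4 := conj_mem_of_le_norm' hE.norm (hT.le hg.1).1 ht
      rw [← h3, show g⁻¹ * (g * u * g⁻¹) * g = u by group] at h4
      exact (uE h4).elim
    · exact h3
  have hc' : N ⊓ 𝒞[u * t] ≤ 𝒞[t] := by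
    rw [← e, ← inf_c1_conj hg.1]; exact conjg_le_of_mem hc hg.2
  have h1 : E ≤ N ⊓ 𝒞[t] := le_inf hE.le (hE.gen.trans ((closure_le _).2 fun a ha => ?_))
  · have h2 := h.hall tN f.is
    obtain ⟨T, hT⟩ := sylow_exists Nat.prime_two (N ⊓ 𝒞[t])
    refine hE.nsol (sol_of_le ?_ h1)
    rw [← hT.sup_compl h2]
    exact sol_sup hT.pGrp.sol (sol_of_odd h2.piGrp) (.inl (hT.le.trans (pcore_norm _ _)))
  obtain ⟨z, hz, iz, c1, c2⟩ := exists_comm_inv f.it.1 ha.2.1 fun ⟨x, hx, e⟩ =>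
    uE (e ▸ conj_mem_of_le_norm hE.norm (zpowers_le.2 (mul_mem hu (hE.le ha.1)) hx) ha.1)
  have zN := zpowers_le.2 (mul_mem hu (hE.le ha.1)) hz
  rw [mem_cent_singleton_comm] at c2
  rcases h.four' f hu tN zN iz c1 (hc ⟨zN, c1⟩) with rfl | rfl | rfl
  exacts [hc ⟨hE.le ha.1, c2⟩, c2, hc' ⟨hE.le ha.1, c2⟩]

theorem tb_bar {N P : Subgroup G} {u : G} (h : Dh N) (hO : OO N = ⊥) (xs : ¬ Group.IsSolvable N → XS N) (hu : u ∈ N)
    (u2 : u * u = 1) (hp : p.Prime) (p2 : p ≠ 2) (PN : P ≤ N) (pP : IsPGrp p P) (hn : N ⊓ 𝒞[u] ≤ 𝒩(P)) :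
    P ≤ 𝒞[u] := by
  by_cases sN : Group.IsSolvable N
  · exact tb_bar_sol h hO sN hu u2 hp p2 PN pP hn
  by_cases u1 : u = 1
  · rw [u1, cent_one]; exact le_top
  have iu : IsInv u := ⟨u2, u1⟩
  obtain ⟨E, hE, hT, hout⟩ := xs sN
  by_cases hA : ∃ v ∈ E, IsInv v ∧ TorA N E v
  · obtain ⟨v, hv, iv, hA⟩ := hA
    have uE := hA.inn u hu iu
    obtain ⟨g, hg, rfl⟩ := hE.conj v hv u uE iv iu
    exact tb_bar_A h hE uE iu (torA_conj hA (hE.le hg) hE.norm) PN (odd_of_pGrp pP p2) hn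
  have uP : u ∈ 𝒩(P) := hn ⟨hu, mem_cent_singleton_self u⟩
  set R := ⁅P, zpowers u⁆ with hR
  have RP : R ≤ P := comm_le_left (zpowers_le.2 uP)
  have pR := pP.of_le RP
  have oR := odd_of_pGrp pR p2
  have RE : R ≤ E := by
    have := (commutator_mono PN (zpowers_le.2 hu)).trans hE.der
    rwa [hO, sup_bot_eq] at this
  have nR : N ⊓ 𝒞[u] ≤ 𝒩(R) := norm_comm hn (norm_zpowers_of_cent inf_le_right)
  have RR : ⁅R, zpowers u⁆ = R := comm_comm_zpowers (odd_of_pGrp pP p2) u2 uP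
  have uR : u ∈ 𝒩(R) := nR ⟨hu, mem_cent_singleton_self u⟩
  have tor : ∀ v ∈ E, IsInv v → R ⊓ 𝒞[v] ≠ ⊥ → N ⊓ 𝒞[u] ≤ 𝒞[v] := fun v hv iv h0 => by
    obtain ⟨K, q, r, hK⟩ := (hT v hv iv).resolve_right fun e => hA ⟨v, hv, iv, e⟩
    obtain ⟨y, hy, y1⟩ := exists_mem_ne_one h0
    exact (le_inf inf_le_left nR).trans (tor_norm hK iv (hE.le hv) hO hp p2 pR RE hy y1)
  suffices H : R ≤ 𝒞[u] by
    rw [← cent_zpowers] at H ⊢
    exact comm_eq_bot_iff.1 (hR.symm.trans (RR.symm.trans (comm_eq_bot_iff.2 H)))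
  by_cases uE : u ∈ E
  · obtain ⟨s, hs, is, su, cs⟩ := hE.four u uE iu
    have f : Four u s := ⟨iu, is, su.symm, (mem_c1.1 cs).symm⟩
    have key : ∀ v ∈ E, IsInv v → R ⊓ 𝒞[v] ≤ 𝒞[u] := fun v hv iv => by
      by_cases h0 : R ⊓ 𝒞[v] = ⊥
      · rw [h0]; exact bot_le
      have h1 := tor v hv iv h0
      obtain ⟨g, hg, rfl⟩ := hE.conj u uE v hv iu iv
      have h2 : N ⊓ 𝒞[u] = N ⊓ 𝒞[g * u * g⁻¹] := eq_of_le_of_card_ge (le_inf inf_le_left h1)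
        (by rw [← inf_c1_conj (hE.le hg), card_conjg])
      exact (inf_le_inf_right _ (RP.trans PN)).trans (h2.ge.trans inf_le_right)
    exact f.gen oR uR (nR ⟨hE.le hs, cs⟩) inf_le_right (key s hs is) (key _ (mul_mem uE hs) f.ts)
  obtain ⟨t, ht, it⟩ : ∃ t ∈ E ⊓ 𝒞[u], IsInv t := by
    obtain ⟨T, hT, uT⟩ := sylow_superset Nat.prime_two (two_zpowers u2) (zpowers_le.2 hu)
    have h1 := hT.inf_normal ⟨hE.le, hE.norm⟩
    obtain ⟨a, ha, a1⟩ := exists_mem_ne_one (pGrp_inf_cent_ne_bot h1.piGrp (two_zpowers u2)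
      (norm_inf (norm_of_le uT) (zpowers_le.2 (hE.norm hu))) fun e =>
        hE.nsol (sol_of_cyclic_sylow h1 (e ▸ cyclic_bot)))
    rw [cent_zpowers] at ha
    obtain ⟨y, hy, iy⟩ := exists_inv_of_piElt (h1.piGrp.piElt ha.1) a1
    exact ⟨y, zpowers_le.2 (show a ∈ E ⊓ 𝒞[u] from ⟨ha.1.2, ha.2⟩) hy, iy⟩
  have f : Four u t := ⟨iu, it, fun e => uE (e ▸ ht.1), (mem_c1.1 ht.2).symm⟩
  have h1 := out_not_le h hE hu uE ht.1 f
  have h2 : R ⊓ 𝒞[t] = ⊥ := by_contra fun e => h1 (tor t ht.1 it e)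
  have tR : t ∈ 𝒩(R) := nR ⟨hE.le ht.1, ht.2⟩
  have h3 := coprime_abel_cent_TI (zpowers_le.2 uR) (co_zpowers u2 oR) (abelian_of_fpf it.1 tR h2)
  rw [RR, cent_zpowers] at h3
  intro y hy
  by_contra y1
  obtain ⟨g, hg, gt⟩ := SetLike.not_le_iff_exists.1 h1
  have i1 : ∀ z ∈ R, t * z * t⁻¹ = z⁻¹ := fun z hz => inv_of_fpf it.1 tR h2 hz
  have i2 : g * t * g⁻¹ * y * (g * t * g⁻¹)⁻¹ = y⁻¹ := by
    rw [show g * t * g⁻¹ * y * (g * t * g⁻¹)⁻¹ = g * (t * (g⁻¹ * y * g) * t⁻¹) * g⁻¹ by group,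
      i1 _ (conj_mem_of_le_norm' nR hg hy)]
    group
  have mulc : ∀ a b : G, a * y⁻¹ * a⁻¹ = y → b * y * b⁻¹ = y⁻¹ → a * b ∈ 𝒞[y] := fun a b ha hb =>
    conj_eq_iff.1 (by rw [show a * b * y * (a * b)⁻¹ = a * (b * y * b⁻¹) * a⁻¹ by group, hb, ha])
  have gE := conj_mem_of_le_norm hE.norm hg.1 ht.1
  have gu : g * t * g⁻¹ ∈ 𝒞[u] := mul_mem (mul_mem hg.2 ht.2) (inv_mem hg.2)
  have h4 := hout _ (mul_mem hu (hE.le ht.1)) f.ts (fun e => uE ((E.mul_mem_cancel_right ht.1).1 e)) y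
    ⟨RE hy, mem_cent_singleton_comm.1 (mulc _ _ (by simpa using inv_of_fpf u2 uR h3 (inv_mem hy)) (i1 y hy))⟩
    (fun e => y1 (e ▸ one_mem _)) ((piNat_compl_singleton_iff Nat.prime_two).1 (oR.piElt hy))
    ⟨mul_mem ht.1 gE, mulc _ _ (by simpa using i1 _ (inv_mem hy)) i2⟩
  have h5 : g * t * g⁻¹ ∈ 𝒞[t] := by
    have := Four.c_mul gu ((mul_mem_cancel_left (mem_cent_singleton_comm.1 f.symm.left.symm.cs)).1 (f.comm ▸ h4))
    rwa [← f.comm, f.tts] at this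
  rcases h.four' f hu (hE.le ht.1) (hE.le gE) (inv_conj it g) gu h5 with e | e | e
  · exact uE (e ▸ gE)
  · exact gt (conj_eq_iff.1 e)
  · exact uE ((E.mul_mem_cancel_right ht.1).1 (e ▸ gE))

/-- The Thompson-Bender lemma. -/
theorem tb_of {X : Subgroup G} (h : Dh X) (xs : ¬ Group.IsSolvable X → XS (X /ₛ OO X)) : TB X := by
  intro u hu u2 p hp p2 P PX pP hn
  have nO := pcore_norm {2}ᶜ X
  have oO := pcore_piGrp {2}ᶜ X
  have uP : u ∈ 𝒩(P) := hn ⟨hu, mem_cent_singleton_self u⟩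
  have h1 := tb_bar (u := coset _ ⟨u, nO hu⟩) (h.img (coset (OO X))) (pcore_quot_pcore _ X)
    (fun e => xs fun e' => e (sol_quot _ e')) (mem_quot_of_mem _ hu) (coset_sq u2 _) hp p2 (quot_mono _ PX)
    (pP.quot _) (by rw [← quot_cent1' oO u2 (le_normalizer hu)]; exact quot_norm _ hn)
  rw [← cent_zpowers, ← quot_zpowers, quot_cent_iff (PX.trans nO) (zpowers_le.2 (nO hu))] at h1
  have nR : X ⊓ 𝒞[u] ≤ 𝒩(⁅P, zpowers u⁆) := norm_comm hn (norm_zpowers_of_cent inf_le_right)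
  exact (tb_sol (sol_of_odd oO) oO u2 (nO hu) (nR ⟨hu, mem_cent_singleton_self u⟩) h1
    (pP.of_le (comm_le_left (zpowers_le.2 uP))) (comm_comm_zpowers (odd_of_pGrp pP p2) u2 uP).ge
    ((inf_le_inf_right _ (pcore_le _ X)).trans nR)).trans (NormalIn.pcore_le (pcore_normal _ X) _)

theorem realizeEqns_GW_B4 : True := by
  have := @CA.GW.BA.XQ.eq_1.{0}
  have := @CA.GW.BA.XQ.eq_def.{0}
  have := @CA.GW.BA.XQ.congr_simp.{0}
  have := @CA.GW.BA.TB.eq_1.{0}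
  have := @CA.GW.BA.TB.eq_def.{0}
  have := @CA.GW.BA.TB.congr_simp.{0}
  have := @CA.GW.BA.Dh.eq_1.{0}
  have := @CA.GW.BA.Dh.eq_def.{0}
  have := @CA.GW.BA.Dh.congr_simp.{0}
  have := @CA.GW.BA.XS.eq_1.{0}
  have := @CA.GW.BA.XS.eq_def.{0}
  have := @CA.GW.BA.XS.congr_simp.{0}
  have := @CA.GW.BA.OutP.eq_1.{0}
  have := @CA.GW.BA.OutP.eq_def.{0}
  have := @CA.GW.BA.OutP.congr_simp.{0}
  have := @CA.GW.BA.V4.eq_1.{0}
  have := @CA.GW.BA.V4.eq_def.{0}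
  have := @CA.GW.BA.V4.congr_simp.{0}
  trivial

end CA.GW.BA
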