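import Cfsg.Agent.GW.XC3
import Cfsg.Agent.GW.B4
import Cfsg.Agent.GW.A7F

/-! The structure of the nonsolvable proper subgroups of a minimal counterexample. -/

set_option autoImplicit false
set_option linter.unusedSectionVars false

namespace CA.GW

open Subgroup Cfsg CA.FG CA.BG CA.Dih
open scoped commutatorElement Classical

universe u v

variable {G : Type u} [Group G] [Finite G] {Γ : Type u} [Group Γ] [Finite Γ] {L : Subgroup Γ}

theorem AS.der (h : AS L) (g : Good L) (x y : Γ) : ⁅x, y⁆ ∈ L := by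
  have := h.normal
  rcases g with ⟨K, t, b⟩ | e
  · obtain ⟨F, _, _, ι, m, rfl⟩ := h.model b
    exact m.comm_mem x y
  · exact a7_top L h.cent e h.hd ▸ mem_top _

theorem AS.tor (h : AS L) (g : Good L) {t : Γ} (ht : t ∈ L) (it : IsInv t) : (∃ K q r, TG L K t q r) ∨
    (L = ⊤ ∧ ∃ s, IsInv s ∧ s ≠ t ∧ s ∈ 𝒞[t] ∧ ∀ y ∈ 𝒞[t], ¬ 2 ∣ orderOf y → y ∈ 𝒞[s]) := by
  have := h.normal
  refine g.imp (fun ⟨K, t, b⟩ => h.tg b ht it) fun e => ?_
  obtain rfl := a7_top L h.cent e h.hd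
  obtain ⟨e⟩ := e
  replace e := (topEquiv.symm.trans e).symm
  obtain ⟨t, rfl⟩ := e.surjective t
  have k : ∀ a, IsInv (e a) ↔ IsInv a := fun a => by simp only [IsInv, ← map_mul, ne_eq, MulEquiv.map_eq_one_iff]
  obtain ⟨s, is, ne, c, hs⟩ := a7_ex t ((k t).1 it)
  refine ⟨rfl, e s, (k s).2 is, e.injective.ne ne, by simp only [mem_centralizer_singleton_iff, ← map_mul, c], fun y hy o => ?_⟩
  obtain ⟨y, rfl⟩ := e.surjective y
  simp only [mem_centralizer_singleton_iff, ← map_mul, e.injective.eq_iff, MulEquiv.orderOf_eq] at hy o ⊢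
  exact hs y hy o

theorem AS.outp (h : AS L) (g : Good L) {w y z : Γ} (iw : IsInv w) (hw : w ∉ L) (hy : y ∈ L) (c : y ∈ 𝒞[w])
    (y2 : y * y ≠ 1) (hz : z ∈ L) (c' : z ∈ 𝒞[y]) : z ∈ 𝒞[w] := by
  have := h.normal
  rcases g with ⟨K, t, b⟩ | e
  · obtain ⟨F, _, _, ι, m, rfl⟩ := h.model b
    exact mem_centralizer_singleton_iff.2 (m.outp h.hd.r2 iw.1 iw.2 hy (mem_centralizer_singleton_iff.1 c).symm y2 hz
      (mem_centralizer_singleton_iff.1 c').symm).symm
  · exact (hw (a7_top L h.cent e h.hd ▸ mem_top _)).elim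

theorem exists_AS {N : Subgroup G} {f : N →* Γ} (hf : Function.Surjective f) (hk : pre f ⊥ = OO N) (hd : DD N)
    (ns : ¬ Group.IsSolvable N) : ∃ L : Subgroup Γ, AS L := by
  have n1 : ¬ Group.IsSolvable Γ := fun e => ns (sol_of_img (f := f) le_rfl inferInstance
    (sol_of_le (odd_sol (pcore_piGrp _ N)) (hk ▸ inf_le_left)))
  have h1 : f.ker = piCoreOf {2}ᶜ ⊤ := by rw [← pre_bot_subgroupOf, hk, pcore_subgroupOf_self, pcore_top]
  have h2 := pcore_map_of_ker (π := {2}ᶜ) (H := ⊤) (f := f) le_top (by rw [h1]; exact pcore_piGrp _ _)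
  rw [map_top_of_surjective f hf, (Subgroup.map_eq_bot_iff _).2 h1.ge] at h2
  obtain ⟨L, l1, l2, l3, l4⟩ := dstruct (hd.hasDih_img hf n1) h2.symm n1
  exact ⟨L, hd.hasDih_img hf n1, l1, l2, l3, l4⟩

theorem xc_gen {N : Subgroup G} (hd : DD N) (ih : ∀ (L : Type u) [Group L] [Finite L] [IsSimpleGroup L],
    ¬ IsMulCommutative L → Nat.card L ≤ Nat.card N → HasDih L → Good L) (ns : ¬ Group.IsSolvable N)
    (ha : OO N = ⊥ ∨ ∃ a ∈ N, IsInv a ∧ OO N ≤ 𝒞[a]) : ∃ E, Comp N E ∧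
      (∀ t ∈ E, IsInv t → (∃ K q r, Tor N E K t q r) ∨ TorA N E t) ∧ (OO N = ⊥ → BA.OutP N E) := by
  have := normal_subgroupOf_of_normalIn (pcore_normal {2}ᶜ N)
  let f := QuotientGroup.mk' ((OO N).subgroupOf N)
  have hf : Function.Surjective f := QuotientGroup.mk'_surjective _
  have hk : pre f ⊥ = OO N := by
    rw [pre_def, MonoidHom.comap_bot, QuotientGroup.ker_mk', subgroupOf_map_subtype, inf_eq_left.2 (pcore_le _ _)]
  obtain ⟨L, s⟩ := exists_AS hf hk hd ns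
  have := s.simple
  have g := ih L s.nab ((Nat.le_of_dvd Nat.card_pos (card_subgroup_dvd_card L)).trans (Nat.card_le_card_of_surjective f hf))
    (s.hd.sub s.nsol)
  obtain ⟨E, h⟩ := exists_LF s hf hk (ha.elim (fun e => (exists_inv_of_not_odd fun o => ns (odd_sol o)).imp fun a ha =>
    ⟨ha.1, ha.2, e ▸ bot_le⟩) id)
  refine ⟨E, h.comp s (s.der g), fun t ht it => ?_, fun e w hw iw hw' y hy y1 o z hz => ?_⟩
  · lift t to N using h.le ht
    exact (s.tor g (h.memL ht) (h.inv_img it)).imp (fun ⟨K, q, r, b⟩ => (h.tor s ht it b).imp fun _ e => ⟨q, r, e⟩)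
      fun b => h.torA ht it b.1 b.2
  · lift w to N using hw
    lift y to N using h.le hy.1
    lift z to N using h.le hz.1
    have inj : ∀ a b : N, f a = f b → (a : G) = b := fun a b e' => mul_inv_eq_one.1
      (e.le ((h.k1 (x := a * b⁻¹)).1 (by rw [map_mul, map_inv, e', mul_inv_cancel])))
    have := s.outp g (h.inv_img iw) (fun e' => hw' (h.two (h.memE.2 e') iw.two)) (h.memL hy.1) (LF.cm' hy.2)
      (fun e' => o (IsInv.ord ⟨inj (y * y) 1 (by rw [map_mul, e', map_one]), y1⟩).symm.dvd) (h.memL hz.1) (LF.cm' hz.2)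
    exact mem_centralizer_singleton_iff.2 (inj (z * w) (w * z) (by
      rw [map_mul, map_mul, mem_centralizer_singleton_iff.1 this]))

theorem xc (hd : HasDih G) (ih : IH G) : XC G := fun N hN ns ha =>
  (xc_gen (hd.dd.mono le_top) (fun L _ _ _ nab le => ih L nab (le.trans_lt
    ((card_lt_of_lt (lt_top_iff_ne_top.2 hN)).trans_eq card_top))) ns (.inr ha)).imp fun _ e => ⟨e.1, e.2.1⟩

theorem xq (hd : HasDih G) (ih : IH G) : BA.XQ G := fun X hX ns =>
  (xc_gen ((hd.dd.mono le_top).img _) (fun L _ _ _ nab le => ih L nab ((le.trans (card_quot_le _ _)).trans_lt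
    ((card_lt_of_lt (lt_top_iff_ne_top.2 hX)).trans_eq card_top)))
    (fun e => ns (sol_of_quot (pcore_norm _ X) e (odd_sol (pcore_piGrp _ X)))) (.inl (pcore_quot_pcore _ X))).imp
    fun _ e => ⟨e.1, e.2.1, e.2.2 (pcore_quot_pcore _ X)⟩

end CA.GW

theorem CA.realizeEqns_GW_XC4 : True := by

  trivial
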