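/-
Two lemmas on groups inverted by an involution; three conjugate maximal subgroups around a four-group.
-/
import Cfsg.Agent.GW.B4

set_option autoImplicit false
set_option linter.unusedSectionVars false

namespace CA.GW.BA

open Subgroup Cfsg CA.FG CA.BG CA.Dih
open scoped commutatorElement

universe u v

variable {G : Type u} [Group G] [Finite G] {p q : ℕ}

theorem kill_ab {Y Q A : Subgroup G} {t : G} (t2 : t * t = 1) (cY : IsMulCommutative Y)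
    (oQ : IsPiGrp {2}ᶜ Q) (oA : IsPiGrp {2}ᶜ A) (tQ : t ∈ 𝒩(Q)) (fQ : Q ⊓ 𝒞[t] = ⊥) (tY : t ∈ 𝒩(Y))
    (QY : Q ≤ 𝒩(Y)) (AQ : A ≤ 𝒩(Q)) (hQ : Q ≤ ⁅Q, A⁆) (fY : Y ⊓ 𝒞(Q) = ⊥)
    (cA : A ≤ 𝒞(Y ⊓ 𝒞[t])) : Y = ⊥ := by
  by_contra h0
  have cQ := abelian_of_fpf t2 tQ fQ
  have cQ' := abelian_iff_forall.1 cQ
  have cY' := abelian_iff_forall.1 cY
  have iQ : ∀ a ∈ Q, t * a * t⁻¹ = a⁻¹ := fun a ha => inv_of_fpf t2 tQ fQ ha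
  obtain ⟨K, -, ⟨KQ, K0⟩, hmax⟩ := exists_max_subgroup (P := fun K => K ≤ Q ∧ Y ⊓ 𝒞(K) ≠ ⊥) (H := ⊥)
    ⟨bot_le, by rwa [cent_bot, inf_top_eq]⟩
  have fpf : ∀ a ∈ Q, ∀ z ∈ Y ⊓ 𝒞(K), z ≠ 1 → a ∈ 𝒞[z] → a ∈ K := fun a ha z hz z1 c =>
    (hmax (K ⊔ zpowers a) ⟨sup_le KQ (zpowers_le.2 ha), ne_bot_of_mem ⟨hz.1, by
      rw [cent_sup, cent_zpowers]; exact ⟨hz.2, mem_cent_singleton_comm.1 c⟩⟩ z1⟩ le_sup_left).le
      (mem_sup_right (mem_zpowers a))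
  have QK : Q ≤ 𝒩(Y ⊓ 𝒞(K)) := norm_inf QY (norm_cent (norm_of_le_abelian cQ KQ))
  have nQ : ¬ Q ≤ 𝒞(Y ⊓ 𝒞(K)) := fun e => K0 (eq_bot_iff.2 ((le_inf inf_le_left (le_cent_symm e)).trans fY.le))
  have tK : t ∈ 𝒩(Y ⊓ 𝒞(K)) := norm_inf (zpowers_le.2 tY) (norm_cent (zpowers_le.2
    (mem_norm_of_forall fun x hx => iQ x (KQ hx) ▸ inv_mem hx))) (mem_zpowers t)
  obtain ⟨y, hy, y1⟩ := exists_mem_ne_one (H := Y ⊓ 𝒞(K) ⊓ 𝒞[t]) fun e =>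
    nQ ((comm_eq_of_inv oQ t2 tQ fQ).ge.trans (comm_le_cent_of_inv (fun y hy => inv_of_fpf t2 tK e hy) QK))
  have fix : ∀ b ∈ A, ∀ w ∈ Y ⊓ 𝒞[t], b * w * b⁻¹ = w := fun b hb w hw => by
    rw [comm_of_le_cent cA hb hw, mul_inv_cancel_right]
  have hb : ∀ b ∈ A, b * y * b⁻¹ = y := fun b hb => fix b hb y ⟨hy.1.1, hy.2⟩
  have AK : ∀ b ∈ A, ∀ k ∈ K, b * k * b⁻¹ ∈ K := fun b hb' k hk =>
    fpf _ (conj_mem_of_le_norm AQ hb' (KQ hk)) y hy.1 y1 (by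
      rw [← hb b hb', ← conjg_cent1]; exact conj_mem_conjg b (mem_c1.2 (hy.1.2 k hk)))
  have key : ∀ b ∈ A, ∀ a ∈ Q, a⁻¹ * (b * a * b⁻¹) ∈ K ∨ a * (b * a * b⁻¹) ∈ K := fun b hb' a ha => by
    have hc := conj_mem_of_le_norm AQ hb' ha
    have m : ∀ a ∈ Q, a * y * a⁻¹ ∈ Y := fun a ha => conj_mem_of_le_norm QY ha hy.1.1
    have h1 : t * (a * y * a⁻¹ * (a⁻¹ * y * a⁻¹⁻¹)) * t⁻¹ = a * y * a⁻¹ * (a⁻¹ * y * a⁻¹⁻¹) := by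
      conv_rhs => rw [cY' _ (m a ha) _ (m _ (inv_mem ha))]
      calc _ = t * a * t⁻¹ * (t * y * t⁻¹) * (t * a * t⁻¹)⁻¹ *
            ((t * a * t⁻¹)⁻¹ * (t * y * t⁻¹) * (t * a * t⁻¹)) := by group
        _ = _ := by rw [iQ a ha, conj_eq_iff.2 (mem_cent_singleton_comm.1 hy.2), inv_inv]
    have h2 := fix b hb' _ ⟨mul_mem (m a ha) (m _ (inv_mem ha)), mem_cent_singleton_comm.1 (conj_eq_iff.1 h1)⟩
    rw [show b * (a * y * a⁻¹ * (a⁻¹ * y * a⁻¹⁻¹)) * b⁻¹ = b * a * b⁻¹ * (b * y * b⁻¹) * (b * a * b⁻¹)⁻¹ *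
      ((b * a * b⁻¹)⁻¹ * (b * y * b⁻¹) * (b * a * b⁻¹)⁻¹⁻¹) by group, hb b hb'] at h2
    generalize b * a * b⁻¹ = c at hc h2
    have ac := cQ' a ha c hc
    by_cases z1 : y * ((a * c)⁻¹ * y⁻¹ * (a * c)) = 1
    · refine .inr (fpf _ (mul_mem ha hc) y hy.1 y1 (mem_c1.2 ?_))
      calc a * c * y = a * c * y * ((a * c)⁻¹ * y⁻¹ * (a * c)) * ((a * c)⁻¹ * y * (a * c)) := by group
        _ = y * (a * c) := by rw [mul_assoc (a * c) y, z1]; group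
    · refine .inl (fpf _ (mul_mem (inv_mem ha) hc) _
        (mul_mem hy.1 (conj_mem_of_le_norm' QK (mul_mem ha hc) (inv_mem hy.1))) z1 (conj_eq_iff.1 ?_))
      have h3 : c * (y * ((a * c)⁻¹ * y⁻¹ * (a * c))) * c⁻¹ = c * y * c⁻¹ * (a⁻¹ * y * a⁻¹⁻¹)⁻¹ := by group
      have h4 : a * (y * ((a * c)⁻¹ * y⁻¹ * (a * c))) * a⁻¹ = a * y * a⁻¹ * (c⁻¹ * y * c⁻¹⁻¹)⁻¹ := by
        rw [ac]; group
      have h5 : c * y * c⁻¹ * (a⁻¹ * y * a⁻¹⁻¹)⁻¹ = a * y * a⁻¹ * (c⁻¹ * y * c⁻¹⁻¹)⁻¹ := by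
        rw [eq_mul_inv_of_mul_eq h2, mul_assoc _ (c⁻¹ * y * c⁻¹⁻¹)⁻¹,
          cY' _ (inv_mem (m _ (inv_mem hc))) _ (inv_mem (m _ (inv_mem ha))), mul_assoc, mul_inv_cancel_left]
      calc _ = a⁻¹ * (c * (y * ((a * c)⁻¹ * y⁻¹ * (a * c))) * c⁻¹) * a := by group
        _ = _ := by rw [h3, h5, ← h4]; group
  refine nQ ((hQ.trans (commutator_le.2 fun a ha b hb' => ?_)).trans (le_cent_symm inf_le_right))
  obtain ⟨d, hd, rfl⟩ := exists_sqrt oA hb'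
  have dA := zpowers_le.2 hb' hd
  have ha' := inv_mem ha
  have hc := conj_mem_of_le_norm AQ dA ha'
  rcases key d dA _ ha' with h1 | h1
  · have := mul_mem h1 (AK d dA _ h1)
    rwa [show a⁻¹⁻¹ * (d * a⁻¹ * d⁻¹) * (d * (a⁻¹⁻¹ * (d * a⁻¹ * d⁻¹)) * d⁻¹) = ⁅a, d * d⁆ by
      rw [commutatorElement_def]; group] at this
  · have := mul_mem (inv_mem h1) (AK d dA _ h1)
    rwa [cQ' _ ha' _ hc, show (d * a⁻¹ * d⁻¹ * a⁻¹)⁻¹ * (d * (d * a⁻¹ * d⁻¹ * a⁻¹) * d⁻¹) =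
      a * ((d * a⁻¹ * d⁻¹)⁻¹ * (d * (d * a⁻¹ * d⁻¹) * d⁻¹) * (d * a⁻¹ * d⁻¹)) by group,
      cQ' _ (inv_mem hc) _ (conj_mem_of_le_norm AQ dA hc),
      show a * (d * (d * a⁻¹ * d⁻¹) * d⁻¹ * (d * a⁻¹ * d⁻¹)⁻¹ * (d * a⁻¹ * d⁻¹)) = ⁅a, d * d⁆ by
        rw [commutatorElement_def]; group] at this

theorem kill {P Q A : Subgroup G} {t x : G} (t2 : t * t = 1) (x2 : x * x = 1) (xt : x ∈ 𝒞[t])
    (nP : Group.IsNilpotent P) (oP : IsPiGrp {2}ᶜ P) (oQ : IsPiGrp {2}ᶜ Q) (oA : IsPiGrp {2}ᶜ A)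
    (co : (Nat.card P).Coprime (Nat.card Q)) (tQ : t ∈ 𝒩(Q)) (fQ : Q ⊓ 𝒞[t] = ⊥) (xQ : x ∈ 𝒩(Q))
    (tP : t ∈ 𝒩(P)) (xP : x ∈ 𝒩(P)) (QP : Q ≤ 𝒩(P)) (AP : A ≤ 𝒩(P)) (AQ : A ≤ 𝒩(Q)) (hQ : Q ≤ ⁅Q, A⁆)
    (h1 : P ⊓ 𝒞[x] ≤ 𝒞(Q)) (h2 : A ≤ 𝒞(⁅P ⊓ 𝒞[t], zpowers x⁆)) : Q ≤ 𝒞(P) := by
  refine coprime_nil_faithful_cent_stab QP co nP ?_
  set D := P ⊓ 𝒞(Q) with hD
  set N := P ⊓ 𝒞(D) with hN
  have nn : ∀ {B : Subgroup G}, B ≤ 𝒩(P) → B ≤ 𝒩(Q) → B ≤ 𝒩(N) ∧ B ≤ 𝒩(N ⊓ D) := fun a b =>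
    have c := norm_inf a (norm_cent b)
    ⟨norm_inf a (norm_cent c), norm_inf (norm_inf a (norm_cent c)) c⟩
  obtain ⟨tN, tD⟩ := nn (zpowers_le.2 tP) (zpowers_le.2 tQ)
  obtain ⟨xN, xD⟩ := nn (zpowers_le.2 xP) (zpowers_le.2 xQ)
  obtain ⟨QN, QD⟩ := nn QP le_normalizer
  obtain ⟨AN, AD⟩ := nn AP AQ
  rw [zpowers_le] at tN tD xN xD
  have ND : N ≤ 𝒩(N ⊓ D) := norm_inf le_normalizer (inf_le_right.trans (cent_le_norm D))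
  have oN := oP.of_le (inf_le_left (b := 𝒞(D)))
  have oD := oN.of_le (inf_le_left (b := D))
  have e1 : (N /ₛ (N ⊓ D)) ⊓ 𝒞[coset _ ⟨x, xD⟩] = ⊥ := by
    rw [← quot_cent1 oN x2 inf_le_left xD]
    exact quot_eq_bot_of_le (le_inf inf_le_left (le_inf (inf_le_left.trans inf_le_left)
      ((inf_le_inf_right _ inf_le_left).trans h1)))
  have e2 := kill_ab (Y := N /ₛ (N ⊓ D)) (Q := Q /ₛ (N ⊓ D)) (A := A /ₛ (N ⊓ D)) (coset_sq t2 tD)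
    (abelian_of_fpf (coset_sq x2 xD) (coset_mem_norm xD xN) e1) (oQ.quot _) (oA.quot _) (coset_mem_norm tD tQ)
    (by rw [← quot_cent1' oD t2 tQ, fQ, bot_quot]) (coset_mem_norm tD tN) (quot_norm _ QN) (quot_norm _ AQ)
    (by rw [← quot_comm QD AD]; exact quot_mono _ hQ)
    (by
      rw [← coprime_quotient_cent inf_le_left QD (co.coprime_dvd_left (card_dvd_of_le inf_le_left))
        (.inl (sol_of_odd oN))]
      exact quot_eq_bot_of_le (le_inf inf_le_left (inf_le_inf_right _ inf_le_left)))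
    (by
      have xN' : x ∈ 𝒩(N ⊓ 𝒞[t]) := norm_inf (zpowers_le.2 xN) (norm_of_le (zpowers_le.2 xt)) (mem_zpowers x)
      have h3 := comm_le_left (zpowers_le.2 xN')
      rw [← quot_cent1 oN t2 inf_le_left tD, ← comm_sup_cent (oN.inf_left _) x2 xN',
        quot_sup (h3.trans (inf_le_left.trans ND)) (inf_le_left.trans (inf_le_left.trans ND)),
        quot_eq_bot_of_le (X := N ⊓ 𝒞[t] ⊓ 𝒞[x]) (le_inf (inf_le_left.trans inf_le_left)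
          (le_inf (inf_le_left.trans (inf_le_left.trans inf_le_left))
            ((inf_le_inf_right _ (inf_le_left.trans inf_le_left)).trans h1))), sup_bot_eq]
      exact quot_cent _ (h2.trans (cent_anti (commutator_mono (inf_le_inf_right _ inf_le_left) le_rfl))))
  exact ((quot_eq_bot_iff ND).1 e2).trans inf_le_right

/-- the global hypotheses -/
structure Ctx (G : Type u) [Group G] : Prop where
  nab : ¬ IsMulCommutative G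
  dh : Dh (⊤ : Subgroup G)
  tb : ∀ X : Subgroup G, X ≠ ⊤ → TB X
  syl : ∀ a : G, IsInv a → ∃ T, IsSylowOf 2 T ⊤ ∧ T ≤ 𝒞[a]
  sw : (∀ a v : G, Four a v → ∃ g ∈ 𝒞[a], g * v * g⁻¹ = a * v) ∨ ∀ a v : G, Four a v → IsSylowOf 2 (V4 a v) ⊤

/-- three maximal subgroups containing the centralizers of the involutions of a four-group -/
structure Tri (p : ℕ) (t s z : G) (A B C : Subgroup G) (ρ : G) : Prop where
  f : Four t s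
  hz : t * s = z
  rt : ρ * t * ρ⁻¹ = s
  rs : ρ * s * ρ⁻¹ = z
  rz : ρ * z * ρ⁻¹ = t
  rA : A :^ ρ = B
  rB : B :^ ρ = C
  rC : C :^ ρ = A
  co : IsCoatom A
  cA : 𝒞[t] ≤ A
  ne : A ≠ B
  lay : layerOf A = ⊥
  odd : IsPiGrp {2}ᶜ (fittingOf A)
  pp : p.Prime
  nc : t ∉ 𝒞(pCoreOf p A)

theorem pcore_conjg' (r : ℕ) (A : Subgroup G) (g : G) : pCoreOf r A :^ g = pCoreOf r (A :^ g) := pcore_conjg _ A g

theorem layer_nsol {M : Subgroup G} (h : layerOf M ≠ ⊥) : ¬ Group.IsSolvable (layerOf M) := fun e =>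
  (der_lt_of_sol e h).ne (layerOf_perfect M)

namespace Tri

variable {t s z ρ : G} {A B C : Subgroup G} (h : Tri p t s z A B C ρ)
include h

theorem rot : Tri p s z t B C A ρ where
  f := by rw [← h.hz, h.f.comm]; exact h.f.symm.left
  hz := by rw [← h.hz, h.f.sts]
  rt := h.rs
  rs := h.rz
  rz := h.rt
  rA := h.rB
  rB := h.rC
  rC := h.rA
  co := h.rA ▸ isCoatom_conjg.2 h.co
  cA := by rw [← h.rA, ← h.rt, ← conjg_cent1]; exact conjg_mono _ h.cA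
  ne := fun e => h.ne (conjg_inj.1 (h.rA.trans (e.trans h.rB.symm)))
  lay := by rw [← h.rA, ← layerOf_conjg, h.lay, conjg_bot]
  odd := by rw [← h.rA, ← fitting_conjg]; exact h.odd.conjg _
  pp := h.pp
  nc := by rw [← h.rA, ← h.rt, ← pcore_conjg', ← conjg_cent, conj_mem_conjg_iff]; exact h.nc

theorem rev : Tri p t z s A C B ρ⁻¹ where
  f := h.hz ▸ h.f.left
  hz := by rw [← h.hz, h.f.tts]
  rt := by rw [← h.rz]; group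
  rs := by rw [← h.rs]; group
  rz := by rw [← h.rt]; group
  rA := (conjg_eq_iff.1 h.rC).symm
  rB := (conjg_eq_iff.1 h.rB).symm
  rC := (conjg_eq_iff.1 h.rA).symm
  co := h.co
  cA := h.cA
  ne := h.rot.rot.ne.symm
  lay := h.lay
  odd := h.odd
  pp := h.pp
  nc := h.nc

theorem swp : Tri p s t z B A C ρ⁻¹ := h.rot.rev

theorem t2 : t * t = 1 := h.f.it.1

theorem tA : t ∈ A := h.cA (mem_cent_singleton_self t)

theorem sA : s ∈ A := h.cA h.f.ct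

theorem zA : z ∈ A := h.hz ▸ mul_mem h.tA h.sA

theorem cz {x : G} (h1 : x ∈ 𝒞[t]) (h2 : x ∈ 𝒞[s]) : x ∈ 𝒞[z] := h.hz ▸ Four.c_mul h1 h2

theorem O0 : pCoreOf p A ≠ ⊥ := fun e => h.nc (by rw [e, cent_bot]; exact mem_top t)

theorem oO (r : ℕ) : IsPiGrp {2}ᶜ (pCoreOf r A) := h.odd.of_le (pcore_le_fitting r A)

theorem p2 : p ≠ 2 := by simpa using (pcore_pGrp p A).mem_of_piGrp h.O0 (h.oO p)

theorem OB {r : ℕ} (e : pCoreOf r A = ⊥) : pCoreOf r B = ⊥ := by rw [← h.rA, ← pcore_conjg', e, conjg_bot]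

theorem nρ : ρ ∉ A := fun e => h.ne ((conjg_of_mem e).symm.trans h.rA)

theorem conj_eq {g : G} (e : g * t * g⁻¹ = s) : A :^ g = B := by
  have : ρ⁻¹ * g ∈ A := h.cA (conj_eq_iff.1 (by
    rw [show ρ⁻¹ * g * t * (ρ⁻¹ * g)⁻¹ = ρ⁻¹ * (g * t * g⁻¹) * ρ by group, e, ← h.rt]; group))
  rw [← h.rA, show g = ρ * (ρ⁻¹ * g) by group, conjg_mul, conjg_of_mem this]

theorem fix {g : G} (hg : g ∈ A) (e : g * t * g⁻¹ ∈ V4 t s) : g ∈ 𝒞[t] := by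
  rcases h.f.mem.1 e with e | e | e | e
  · exact ((inv_conj h.f.it g).2 e).elim
  · exact conj_eq_iff.1 e
  · exact (h.ne ((conjg_of_mem hg).symm.trans (h.conj_eq e))).elim
  · exact (h.rev.ne ((conjg_of_mem hg).symm.trans (h.rev.conj_eq (e.trans h.hz)))).elim

theorem nOX (r : ℕ) {X : Subgroup G} : X ⊓ 𝒞[t] ≤ 𝒩(pCoreOf r A ⊓ X) :=
  norm_inf (inf_le_right.trans (h.cA.trans (pcore_norm _ A))) (norm_of_le inf_le_left)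

theorem nR (r : ℕ) {X : Subgroup G} : X ⊓ 𝒞[t] ≤ 𝒩(⁅pCoreOf r A ⊓ X, zpowers t⁆) :=
  norm_comm (h.nOX r) (norm_zpowers_of_cent inf_le_right)

theorem R_le (r : ℕ) {X : Subgroup G} (tX : t ∈ X) : ⁅pCoreOf r A ⊓ X, zpowers t⁆ ≤ pCoreOf r A ⊓ X :=
  comm_le_left (zpowers_le.2 (h.nOX r ⟨tX, mem_cent_singleton_self t⟩))

theorem RR (r : ℕ) {X : Subgroup G} (tX : t ∈ X) :
    ⁅⁅pCoreOf r A ⊓ X, zpowers t⁆, zpowers t⁆ = ⁅pCoreOf r A ⊓ X, zpowers t⁆ :=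
  comm_comm_zpowers ((h.oO r).inf_left _) h.t2 (h.nOX r ⟨tX, mem_cent_singleton_self t⟩)

theorem R_mono {X Y : Subgroup G} (tX : t ∈ X) (e : ⁅pCoreOf p A ⊓ X, zpowers t⁆ ≤ Y) :
    ⁅pCoreOf p A ⊓ X, zpowers t⁆ ≤ ⁅pCoreOf p A ⊓ Y, zpowers t⁆ :=
  (h.RR p tX).ge.trans (commutator_mono (le_inf ((h.R_le p tX).trans inf_le_left) e) le_rfl)

theorem R_or (e1 : ⁅pCoreOf p A ⊓ B, zpowers t⁆ = ⊥) (e2 : ⁅pCoreOf p A ⊓ C, zpowers t⁆ = ⊥) : False := by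
  rw [comm_eq_bot_iff, cent_zpowers] at e1 e2
  exact h.nc (mem_cent_iff_le_cent_singleton.2 (h.f.gen (h.oO p) (pcore_norm _ A h.tA) (pcore_norm _ A h.sA)
    inf_le_right ((inf_le_inf_left _ h.rot.cA).trans e1) (h.hz ▸ (inf_le_inf_left _ h.rot.rot.cA).trans e2)))

theorem R_conj : (⁅pCoreOf p A ⊓ C, zpowers t⁆ : Subgroup G) :^ ρ = ⁅pCoreOf p B ⊓ A, zpowers s⁆ := by
  rw [conjg_comm, conjg_inf, pcore_conjg', conjg_zpowers, h.rA, h.rC, h.rt]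

theorem nc_sc {M : Subgroup G} (sc : SC (fittingOf A ⊓ M) A) : ⁅pCoreOf p A ⊓ M, zpowers t⁆ ≠ ⊥ := fun e =>
  h.nc (sc.p_cent p (zpowers_le.2 (pcore_norm _ A h.tA)) ((two_zpowers h.t2).piGrp (by simpa using h.p2.symm))
    ((comm_eq_bot_iff'.1 e).trans (cent_anti (inf_le_inf_left _ inf_le_right))) (mem_zpowers t))

variable (c : Ctx G)
include c

theorem tb (r : ℕ) {X : Subgroup G} (X1 : X ≠ ⊤) (tX : t ∈ X) : ⁅pCoreOf r A ⊓ X, zpowers t⁆ ≤ pCoreOf r X := by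
  by_cases e : pCoreOf r A = ⊥
  · rw [e, bot_inf_eq, commutator_bot_left]; exact bot_le
  exact c.tb X X1 t tX h.t2 r ((pcore_pGrp r A).prime e)
    (by simpa using (pcore_pGrp r A).mem_of_piGrp e (h.oO r)) _ inf_le_right ((pcore_pGrp r A).inf_left _) (h.nOX r)

theorem nc_M {M : Subgroup G} (M1 : M ≠ ⊤) (tM : t ∈ M) (sc : SC (fittingOf A ⊓ M) A) : t ∉ 𝒞(pCoreOf p M) :=
  fun e => h.nc_sc sc ((h.RR p tM).symm.trans (comm_eq_bot_iff'.2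
    ((zpowers_le.2 e).trans (cent_anti (h.tb c p M1 tM)))))

theorem R_leB : ⁅pCoreOf p A ⊓ B, zpowers t⁆ ≤ pCoreOf p A ⊓ pCoreOf p B :=
  le_inf ((h.R_le p h.rot.zA).trans inf_le_left) (h.tb c p h.rot.co.1 h.rot.zA)

end Tri

end CA.GW.BA
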