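/-
The core of a proper overgroup of an involution centralizer is centralized by the involution.
-/
import Cfsg.Agent.GW.B5

set_option autoImplicit false
set_option linter.unusedSectionVars false

namespace CA.GW.BA

open Subgroup Cfsg CA.FG CA.BG CA.Dih
open scoped commutatorElement

universe u v

variable {G : Type u} [Group G] [Finite G] {p q : ℕ}

theorem eq_of_sylow (hp : p.Prime) (p2 : p ≠ 2) (dih : DihS (⊤ : Subgroup G)) {A B T : Subgroup G}
    (hA : Prim A) (hB : Prim B) (cA : CharP p A) (cB : CharP p B) (T0 : T ≠ ⊥) (h1 : IsSylowOf p T A)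
    (h2 : IsSylowOf p T B) : A = B :=
  hA.eq hB (charP_Puig_center_normal hp ((dih.mono le_top).stable hp p2) cA h1)
    (charP_Puig_center_normal hp ((dih.mono le_top).stable hp p2) cB h2)
    fun e => T0 (trivg_center_Puig_pgroup h1.piGrp e)

namespace Tri

variable {t s z ρ : G} {A B C : Subgroup G} [IsSimpleGroup G] (h : Tri p t s z A B C ρ)
include h

theorem prim : Prim A := prim_of_coatom h.co

theorem Q_fix {M : Subgroup G} {r : ℕ} (sc : SC (fittingOf A ⊓ M) A) (e : pCoreOf r A = ⊥) :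
    pCoreOf r M ⊓ 𝒞[t] = ⊥ :=
  eq_bot_iff.2 ((inf_le_inf_left _ h.cA).trans (pcore_inf_eq_bot sc (h.lay ▸ bot_le) inf_le_right e).le)

theorem Q_odd {M : Subgroup G} {r : ℕ} (tM : t ∈ M) (sc : SC (fittingOf A ⊓ M) A) (e : pCoreOf r A = ⊥) :
    IsPiGrp {2}ᶜ (pCoreOf r M) := by
  by_cases r2 : r = 2
  · subst r2
    by_cases h0 : pCoreOf 2 M = ⊥
    · rw [h0]; exact piGrp_bot _
    have := pGrp_inf_cent_ne_bot (pcore_pGrp 2 M) (two_zpowers h.t2) (zpowers_le.2 (pcore_norm _ M tM)) h0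
    rw [cent_zpowers] at this
    exact (this (h.Q_fix sc e)).elim
  · exact odd_of_pGrp (pcore_pGrp r M) r2

theorem exists_M (c : Ctx G) {X : Subgroup G} (X0 : X ≠ ⊥) (pX : IsPGrp p X) : ∃ M, IsCoatom M ∧ 𝒩(X) ≤ M :=
  exists_coatom_ge (norm_ne_top X0 (ne_top_of_pGrp c.nab pX))

variable (c : Ctx G)
include c

theorem stepQ {M : Subgroup G} {r : ℕ} (tM : t ∈ M) (sM : s ∈ M) (sc : SC (fittingOf A ⊓ M) A)
    (e : pCoreOf r A = ⊥) (hB : pCoreOf r M ⊓ B = ⊥) (hC : fittingOf C ⊓ 𝒞[t] ⊓ 𝒞[z] ≤ M) : pCoreOf r M = ⊥ := by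
  set Q := pCoreOf r M with hQ
  have pQ : IsPGrp r Q := pcore_pGrp r M
  have MQ : M ≤ 𝒩(Q) := pcore_norm _ M
  have oQ := h.Q_odd tM sc e
  have ft := h.Q_fix sc e
  have fs : Q ⊓ 𝒞[s] = ⊥ := eq_bot_iff.2 ((inf_le_inf_left _ h.rot.cA).trans hB.le)
  have zQ : z ∈ 𝒞(Q) := h.hz ▸ mul_mem_cent_of_inv (fun y hy => inv_of_fpf h.t2 (MQ tM) ft hy)
    fun y hy => inv_of_fpf h.rot.t2 (MQ sM) fs hy
  have Qz : Q ≤ 𝒞[z] := mem_cent_iff_le_cent_singleton.1 zQ
  have h3 := h.rot.rot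
  have QC : Q ≤ C := Qz.trans h3.cA
  set Z := 𝒵(fittingOf A) with hZ
  have nZ : Z ⊲ A := (charIn_center _).trans_normal (fitting_normal A)
  have ZM : Z ≤ M := sc.center_le.trans inf_le_right
  have oZ : IsPiGrp {2}ᶜ Z := h.odd.inf_left _
  have co := coprime_fitting_of_pcore pQ e
  have h1 : Q ⊓ 𝒞(Z ⊓ 𝒞[z]) = ⊥ := by
    have h2 : Q ⊓ 𝒞(Z ⊓ 𝒞[z]) ≤ 𝒞(Z) := by
      conv_rhs => rw [← comm_sup_cent oZ h3.t2 (nZ.2 h.zA)]
      exact le_cent_sup (inf_le_left.trans (le_cent_symm ((commutator_mono le_rfl (zpowers_le.2 zQ)).trans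
        (comm_le_right (norm_cent (ZM.trans MQ)))))) inf_le_right
    exact eq_bot_iff.2 ((le_inf inf_le_left (h2.trans (h.prim.cent nZ (center_nil_ne_bot (fitting_nil A)
      (ne_bot_mono (pcore_le_fitting p A) h.O0))))).trans
      (pcore_inf_eq_bot sc (h.lay ▸ bot_le) inf_le_right e).le)
  have h2 := coprime_cent_prod (A := Z ⊓ 𝒞[z]) (inf_le_left.trans (ZM.trans MQ))
    (co.symm.coprime_dvd_right (card_dvd_of_le (inf_le_left.trans inf_le_left))) (.inl pQ.sol)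
  rw [h1, sup_bot_eq] at h2
  have h4 : fittingOf C ≤ 𝒞(Q) := fitting_le_of_forall_pcore fun q hq => le_cent_symm (by
    have co' := (coprime_fitting_of_pcore pQ (h.rot.OB (h.OB e))).coprime_dvd_left
      (card_dvd_of_le (pcore_le_fitting q C))
    have nP : C ≤ 𝒩(pCoreOf q C) := pcore_norm _ C
    have nF : C ⊓ 𝒞[z] ≤ 𝒩(pCoreOf q C ⊓ 𝒞[z]) := norm_inf (inf_le_left.trans nP) (norm_of_le inf_le_right)
    have co2 := co'.coprime_dvd_left (card_dvd_of_le (inf_le_left (b := 𝒞[z])))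
    refine kill h.t2 h3.t2 h3.f.cs (pcore_pGrp q C).nil (h3.oO q) oQ (oZ.inf_left _) co' (MQ tM) ft
      (cent_le_norm Q zQ) (nP h3.sA) (nP h3.tA) (QC.trans nP) (inf_le_right.trans (h3.cA.trans nP))
      (inf_le_left.trans (ZM.trans MQ)) h2.ge (le_cent_symm ?_) ?_
    · refine cent_of_cent_fix (IsPGrp.nil ((pcore_pGrp q C).inf_left _)) ((h3.oO q).inf_left _) h.t2
        (nF ⟨h3.sA, h3.f.ct⟩) (MQ tM) ((le_inf QC Qz).trans nF) co2 (comm_eq_of_inv oQ h.t2 (MQ tM) ft).ge ?_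
      exact comm_eq_bot_iff.1 (eq_bot_iff.2 ((le_inf
        ((commutator_mono inf_le_left le_rfl).trans (comm_le_left ((le_inf QC Qz).trans nF)))
        (comm_le_right ((le_inf (le_inf (inf_le_left.trans (inf_le_left.trans (pcore_le_fitting q C))) inf_le_right)
          (inf_le_left.trans inf_le_right)).trans (hC.trans MQ)))).trans (inf_eq_bot_of_cop co2).le))
    · exact (inf_le_left.trans inf_le_right).trans (cent_anti (((commutator_mono (inf_le_inf_left _ h.cA) le_rfl).trans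
        (h3.tb c q h.co.1 h.zA)).trans (pcore_le_fitting q A))))
  exact eq_bot_iff.2 ((le_pcore_of_le_fitting ((le_inf QC (le_cent_symm h4)).trans (cent_fitting_of_layer h3.lay))
    pQ).trans (h.rot.OB (h.OB e)).le)

theorem not_lay {M : Subgroup G} (M1 : M ≠ ⊤) (tM : t ∈ M) (sc : SC (fittingOf A ⊓ M) A) : t ∉ layerOf M :=
  fun e => h.nc_M c M1 tM sc (layerOf_cent_pcore p M e)

theorem piM {M : Subgroup G} (hM : 𝒞[t] ⊓ 𝒞[s] ≤ M) (s1 : SC (fittingOf A ⊓ M) A) (s2 : SC (fittingOf B ⊓ M) B)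
    {r : ℕ} (e : pCoreOf r A = ⊥) : pCoreOf r M = ⊥ :=
  h.stepQ c (hM ⟨mem_cent_singleton_self t, h.f.cs⟩) (hM ⟨h.f.ct, mem_cent_singleton_self s⟩) s1 e
    (pcore_inf_eq_bot s2 (h.rot.lay ▸ bot_le) inf_le_right (h.OB e))
    fun _ hx => hM ⟨hx.1.2, h.rev.cz hx.1.2 hx.2⟩

theorem z_cent {M : Subgroup G} (M1 : M ≠ ⊤) (hM : 𝒞[t] ⊓ 𝒞[s] ≤ M) (s1 : SC (fittingOf A ⊓ M) A)
    (s2 : SC (fittingOf B ⊓ M) B) (l : layerOf M ≠ ⊥) : pCoreOf p M ≤ 𝒞[z] := by
  have tM := hM ⟨mem_cent_singleton_self t, h.f.cs⟩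
  have sM := hM ⟨h.f.ct, mem_cent_singleton_self s⟩
  exact mem_cent_iff_le_cent_singleton.1 (layerOf_cent_pcore p M (h.hz ▸
    (((c.dh.mono le_top).meet h.f tM sM (layerOf_normal M) (layer_nsol l)).resolve_left
      (h.not_lay c M1 tM s1)).resolve_left (h.rot.not_lay c M1 sM s2)))

theorem R_cent (hc : ¬ CharP p A) : ⁅pCoreOf p A ⊓ B, zpowers t⁆ ≤ 𝒞[z] := by
  by_cases R0 : ⁅pCoreOf p A ⊓ B, zpowers t⁆ = ⊥
  · rw [R0]; exact bot_le
  have RA := (h.R_leB c).trans inf_le_left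
  obtain ⟨M, hM, nM⟩ := h.exists_M c R0 ((pcore_pGrp p A).of_le RA)
  have s1 := sc_of_norm' (RA.trans (pcore_le_fitting p A)) nM
  have s2 := sc_of_norm' (((h.R_leB c).trans inf_le_right).trans (pcore_le_fitting p B)) nM
  have cM : 𝒞[t] ⊓ 𝒞[s] ≤ M := ((le_inf (inf_le_right.trans h.rot.cA) inf_le_left).trans (h.nR p)).trans nM
  have tM := cM ⟨mem_cent_singleton_self t, h.f.cs⟩
  by_cases l : layerOf M = ⊥
  · have hc' : ∀ r, r.Prime → ¬ CharP r A := fun r _ e =>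
      hc (((pcore_pGrp p A).mem_of_piGrp h.O0 (e.2.of_le (pcore_le_fitting p A))) ▸ e)
    have e1 := bender' h.prim (prim_of_coatom hM) s1 inf_le_right (h.lay ▸ bot_le) (l ▸ bot_le)
      (fun r _ a b => a (h.piM c cM s1 s2 b)) hc'
    have e2 := bender' h.rot.prim (prim_of_coatom hM) s2 inf_le_right (h.rot.lay ▸ bot_le) (l ▸ bot_le)
      (fun r _ a b => a (h.piM c cM s1 s2 (h.swp.OB b))) fun r hr e => hc' r hr (h.swp.rA ▸ e.conjg _)
    exact (h.ne (e1.trans e2.symm)).elim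
  · exact ((h.R_mono h.rot.zA (le_normalizer.trans nM)).trans (h.tb c p hM.1 tM)).trans (h.z_cent c hM.1 cM s1 s2 l)

theorem R_bot (hc : ¬ CharP p A) : ⁅pCoreOf p A ⊓ B, zpowers t⁆ = ⊥ := by
  have h1 := h.R_cent c hc
  have h2 := (h.R_mono h.rot.zA (h1.trans h.rot.rot.cA)).trans (h.rev.R_cent c hc)
  rw [← h.RR p h.rot.zA, comm_eq_bot_iff, cent_zpowers]
  exact fun x hx => h.rot.cz (h2 hx) (h1 hx)

theorem charP : CharP p A := by_contra fun hc => h.R_or (h.R_bot c hc) (h.rev.R_bot c hc)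

theorem three {M : Subgroup G} (hM : IsCoatom M) (cM : CharP p M) (tM : t ∈ M) (sM : s ∈ M)
    (sc : SC (fittingOf A ⊓ M) A) : M = A ∨ M = B ∨ M = C := by
  obtain ⟨g, rfl⟩ := conj_of_charP h.pp h.p2 c.dh.dihS h.prim (prim_of_coatom hM) (h.charP c) cM h.O0
    (ne_bot_mono (h.tb c p hM.1 tM) (h.nc_sc sc))
  obtain ⟨T, hT, Tt⟩ := c.syl t h.f.it
  obtain ⟨m, hm, hV⟩ := sylow_subJ Nat.prime_two ((hT.of_le (Tt.trans h.cA) le_top).conjg g) h.f.two (Four.le tM sM)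
  rw [← conjg_mul] at hV
  have e : A :^ g = A :^ (m * g) := by rw [conjg_mul, conjg_of_mem hm]
  have h1 : V4 t s ≤ 𝒞[m * g * t * (m * g)⁻¹] := by rw [← conjg_cent1]; exact hV.trans (conjg_mono _ Tt)
  rw [e]
  rcases c.dh.four' h.f (mem_top _) (mem_top _) (mem_top _) (inv_conj h.f.it (m * g))
    (mem_cent_singleton_comm.1 (h1 (Four.t_mem t s))) (mem_cent_singleton_comm.1 (h1 (Four.s_mem t s))) with e | e | e
  · exact .inl (conjg_of_mem (h.cA (conj_eq_iff.1 e)))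
  · exact .inr (.inl (h.conj_eq e))
  · exact .inr (.inr (h.rev.conj_eq (e.trans h.hz)))

theorem F_eq : fittingOf A = pCoreOf p A := (h.charP c).fitting_eq

theorem O_bot {r : ℕ} (rp : r ≠ p) : pCoreOf r A = ⊥ :=
  ((h.charP c).2.of_le (pcore_le_fitting r A)).eq_bot ((pcore_pGrp r A).piGrp (by simpa using rp))

theorem Y_bot : pCoreOf p A ⊓ pCoreOf p B ⊓ pCoreOf p C = ⊥ := by
  by_contra Y0
  have YA : pCoreOf p A ⊓ pCoreOf p B ⊓ pCoreOf p C ≤ pCoreOf p A := inf_le_left.trans inf_le_left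
  obtain ⟨M, hM, nM⟩ := h.exists_M c Y0 ((pcore_pGrp p A).of_le YA)
  have s1 := sc_of_norm' (YA.trans (pcore_le_fitting p A)) nM
  have s2 := sc_of_norm' ((inf_le_left.trans inf_le_right).trans (pcore_le_fitting p B)) nM
  have cM : 𝒞[t] ⊓ 𝒞[s] ≤ M := (norm_inf (norm_inf (inf_le_left.trans (h.cA.trans (pcore_norm _ A)))
    (inf_le_right.trans (h.rot.cA.trans (pcore_norm _ B))))
    (fun x hx => pcore_norm _ C (h.rot.rot.cA (h.cz hx.1 hx.2)))).trans nM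
  have tM := cM ⟨mem_cent_singleton_self t, h.f.cs⟩
  have ρM : ρ ∈ M := nM (conjg_eq_self_iff.1 (by
    rw [conjg_inf, conjg_inf, pcore_conjg', pcore_conjg', pcore_conjg', h.rA, h.rB, h.rC, inf_comm, inf_assoc]))
  by_cases l : layerOf M = ⊥
  · rcases h.three c hM ⟨l, pGrp_fitting_of_forall fun r _ rp => h.piM c cM s1 s2 (h.O_bot c rp)⟩ tM
      (cM ⟨h.f.ct, mem_cent_singleton_self s⟩) s1 with rfl | rfl | rfl
    exacts [h.nρ ρM, h.rot.nρ ρM, h.rot.rot.nρ ρM]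
  · have := conjg_mono ρ (h.z_cent c hM.1 cM s1 s2 l)
    rw [conjg_of_mem_norm (pcore_norm _ M ρM), conjg_cent1, h.rz] at this
    exact h.nc_M c hM.1 tM s1 (mem_cent_iff_le_cent_singleton.2 this)

theorem R_bot' (e : ⁅pCoreOf p A ⊓ B, zpowers t⁆ ≤ C) : ⁅pCoreOf p A ⊓ B, zpowers t⁆ = ⊥ :=
  eq_bot_iff.2 ((le_inf (h.R_leB c) (((h.R_mono h.rot.zA e).trans (h.rev.R_leB c)).trans inf_le_right)).trans
    (h.Y_bot c).le)

theorem keyC (e1 : ⁅pCoreOf p A ⊓ B, zpowers t⁆ ≤ C) (e2 : ⁅pCoreOf p B ⊓ A, zpowers s⁆ ≤ C) : False :=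
  h.R_or (h.R_bot' c e1) (conjg_eq_bot.1 (h.R_conj.trans (h.swp.R_bot' c e2)))

theorem D_nle : ¬ pCoreOf p A ⊓ pCoreOf p B ≤ C := fun e =>
  h.keyC c ((h.R_leB c).trans e) ((h.swp.R_leB c).trans ((inf_comm _ _).le.trans e))

theorem D_ne : pCoreOf p A ⊓ pCoreOf p B ≠ ⊥ := fun e => h.D_nle c (e ▸ bot_le)

theorem ND : 𝒩(pCoreOf p A ⊓ pCoreOf p B) ≤ A ∨ 𝒩(pCoreOf p A ⊓ pCoreOf p B) ≤ B := by
  obtain ⟨M, hM, nM⟩ := h.exists_M c (h.D_ne c) ((pcore_pGrp p A).inf_left _)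
  have s1 := sc_of_norm' (inf_le_left.trans (pcore_le_fitting p A)) nM
  have s2 := sc_of_norm' (inf_le_right.trans (pcore_le_fitting p B)) nM
  have cM : 𝒞[t] ⊓ 𝒞[s] ≤ M := (norm_inf (inf_le_left.trans (h.cA.trans (pcore_norm _ A)))
    (inf_le_right.trans (h.rot.cA.trans (pcore_norm _ B)))).trans nM
  have tM := cM ⟨mem_cent_singleton_self t, h.f.cs⟩
  have sM := cM ⟨h.f.ct, mem_cent_singleton_self s⟩
  have DM := le_normalizer.trans nM
  by_cases l : layerOf M = ⊥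
  · rcases h.three c hM ⟨l, pGrp_fitting_of_forall fun r _ rp => h.piM c cM s1 s2 (h.O_bot c rp)⟩ tM sM s1
      with rfl | rfl | rfl
    exacts [.inl nM, .inr nM, (h.D_nle c DM).elim]
  · have h1 := (h.z_cent c hM.1 cM s1 s2 l).trans h.rot.rot.cA
    exact (h.keyC c (((h.R_mono h.rot.zA ((h.R_leB c).trans DM)).trans (h.tb c p hM.1 tM)).trans h1)
      (((h.swp.R_mono h.sA ((h.swp.R_leB c).trans ((inf_comm _ _).le.trans DM))).trans
        (h.swp.tb c p hM.1 sM)).trans h1)).elim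

theorem syl_both {T : Subgroup G} (hT : IsSylowOf p T (A ⊓ B)) (T0 : T ≠ ⊥) (e : 𝒩(T) ≤ B) : False := by
  have h1 : IsSylowOf p T A := IsSylowOf.of_norm_le hT h.pp inf_le_left (inf_le_inf_left _ e)
  exact h.ne (eq_of_sylow h.pp h.p2 c.dh.dihS h.prim h.rot.prim (h.charP c) (h.rot.charP c) T0 h1
    ((h.rA ▸ h1.conjg ρ).of_card_eq (hT.le.trans inf_le_right) (card_conjg T ρ).symm))

theorem fin (hV : IsSylowOf 2 (V4 t s) ⊤) (e : 𝒩(pCoreOf p A ⊓ pCoreOf p B) ≤ B) : False := by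
  have VI : V4 t s ≤ A ⊓ B := Four.le ⟨h.tA, h.rot.zA⟩ ⟨h.sA, h.rot.tA⟩
  have h1 := Burnside_normal_complement Nat.prime_two (hV.of_le VI le_top) fun g hg => by
    rw [Four.cent]
    exact ⟨h.fix hg.1.1 (conj_mem_of_mem_norm hg.2 (Four.t_mem t s)),
      h.swp.fix hg.1.2 ((show V4 t s = V4 s t from sup_comm _ _) ▸ conj_mem_of_mem_norm hg.2 (Four.s_mem t s))⟩
  have h2 : IsPiHallOf {2}ᶜ (OO (A ⊓ B)) (A ⊓ B) :=
    h1.complIn.pHall_left (pcore_piGrp _ _) (piNat_compl_compl.2 h.f.two)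
  have h3 := h.rot.rot
  obtain ⟨T, hT, VT, XT⟩ := sol_coprime_Sylow_subset (X := pCoreOf p C ⊓ (A ⊓ B)) h.pp (.inr h.f.two.sol) h1.norm
    (h.f.two.coprime h2.piGrp).symm (h2.le_of_normal (pcore_norm _ _) ((h3.oO p).inf_left _) inf_le_right)
    ((pcore_pGrp p C).inf_left _) (norm_inf (Four.le (pcore_norm _ C h3.sA) (pcore_norm _ C h3.zA)) (norm_of_le VI))
  have hT' := IsSylowOf.trans_hall hT h2 (by simpa using h.p2)
  have AT : pCoreOf p A ⊓ B ≤ T := hT'.le_of_norm_le ((pcore_pGrp p A).inf_left _)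
    (inf_le_inf_right _ (pcore_le _ A)) (norm_inf ((hT'.le.trans inf_le_left).trans (pcore_norm _ A))
      (norm_of_le (hT'.le.trans inf_le_right)))
  have BT : pCoreOf p B ⊓ A ≤ T := hT'.le_of_norm_le ((pcore_pGrp p B).inf_left _)
    (le_inf inf_le_right (inf_le_left.trans (pcore_le _ B))) (norm_inf ((hT'.le.trans inf_le_right).trans (pcore_norm _ B))
      (norm_of_le (hT'.le.trans inf_le_left)))
  have DT : pCoreOf p A ⊓ pCoreOf p B ≤ T := (inf_le_inf_left _ (pcore_le _ B)).trans AT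
  have T0 := ne_bot_mono DT (h.D_ne c)
  obtain ⟨M, hM, nM⟩ := h.exists_M c T0 hT.piGrp
  have TM := le_normalizer.trans nM
  have tM := nM (VT (Four.t_mem t s))
  have sM := nM (VT (Four.s_mem t s))
  have s1 : SC (fittingOf A ⊓ M) A := sc_of_norm (inf_le_left.trans (pcore_le_fitting p A)) (DT.trans TM)
    ((inf_le_inf (h.F_eq c).le ((cent_le_norm _).trans e)).trans (AT.trans TM))
  have pF : IsPGrp p (fittingOf M) := pGrp_fitting_of_forall fun r _ rp => by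
    have rA := h.O_bot c rp
    refine h.stepQ c tM sM s1 rA ?_ fun x hx =>
      TM (XT ⟨(h3.F_eq c).le hx.1.1, h.cA hx.1.2, h.rot.cA (h.rev.cz hx.1.2 hx.2)⟩)
    have nQ : M ⊓ B ≤ 𝒩(pCoreOf r M ⊓ B) := norm_inf (inf_le_left.trans (pcore_norm _ M)) (norm_of_le inf_le_right)
    have tQ := nQ ⟨tM, h.rot.zA⟩
    have QB : pCoreOf r M ⊓ B ≤ 𝒩(pCoreOf p B) := inf_le_right.trans (pcore_norm _ B)
    have co := (pcore_pGrp p B).coprime_of_ne ((pcore_pGrp r M).inf_left B) rp.symm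
    have h4 := cent_of_cent_fix (pcore_pGrp p B).nil (h.rot.oO p) h.t2 (pcore_norm _ B h.rot.zA) tQ QB co
      (comm_eq_of_inv ((h.Q_odd tM s1 rA).inf_left _) h.t2 tQ
        (eq_bot_iff.2 ((inf_le_inf_right _ inf_le_left).trans (h.Q_fix s1 rA).le))).ge
      (comm_eq_bot_iff.1 (eq_bot_iff.2 ((le_inf ((commutator_mono inf_le_left le_rfl).trans (comm_le_left QB))
        (comm_le_right ((le_inf ((inf_le_inf_left _ h.cA).trans (BT.trans TM))
          (inf_le_left.trans (pcore_le _ B))).trans nQ))).trans (inf_eq_bot_of_cop co).le)))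
    exact eq_bot_iff.2 ((le_inf ((le_inf inf_le_right h4).trans (h.rot.charP c).cent_le) le_rfl).trans
      (inf_eq_bot_of_cop co).le)
  have l : layerOf M = ⊥ := by_contra fun l => by
    have tE := h.not_lay c hM.1 tM s1
    refine layer_nsol l (sol_of_cyclic_sylow ((hV.of_le (Four.le tM sM) le_top).inf_normal (layerOf_normal M)) ?_)
    by_cases sE : s ∈ layerOf M
    · refine cyclic_of_le (cyclic_zpowers s) fun x hx => ?_
      rcases h.f.mem.1 hx.1 with rfl | rfl | rfl | rfl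
      exacts [one_mem _, (tE hx.2).elim, mem_zpowers _, (tE ((mul_mem_cancel_right sE).1 hx.2)).elim]
    · refine cyclic_of_le (cyclic_zpowers (t * s)) fun x hx => ?_
      rcases h.f.mem.1 hx.1 with rfl | rfl | rfl | rfl
      exacts [one_mem _, (tE hx.2).elim, (sE hx.2).elim, mem_zpowers _]
  rcases h.three c hM ⟨l, pF⟩ tM sM s1 with rfl | rfl | rfl
  · exact h.swp.syl_both c (inf_comm M B ▸ hT') T0 nM
  · exact h.syl_both c hT' T0 nM
  · exact h.D_nle c (DT.trans TM)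

theorem false : False := by
  rcases c.sw with sw | sw
  · obtain ⟨σ, hσ, e⟩ := sw z t h.rot.rot.f
    rw [h.rot.rot.hz] at e
    have e' : σ * s * σ⁻¹ = t := by
      calc σ * s * σ⁻¹ = σ * z * σ⁻¹ * (σ * t * σ⁻¹) := by rw [← h.rot.rot.hz]; group
        _ = t := by rw [conj_eq_iff.2 hσ, e, h.rev.rot.hz]
    have h1 := h.conj_eq e
    have h2 := h.swp.conj_eq e'
    have h3 : σ ∈ 𝒩(pCoreOf p A ⊓ pCoreOf p B) := conjg_eq_self_iff.1 (by
      rw [conjg_inf, pcore_conjg', pcore_conjg', h1, h2, inf_comm])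
    rcases h.ND c with e | e
    · exact h.ne ((conjg_of_mem (e h3)).symm.trans h1)
    · exact h.ne (h2.symm.trans (conjg_of_mem (e h3)))
  · rcases h.ND c with e | e
    · exact h.swp.fin c (sw s t h.swp.f) (inf_comm (pCoreOf p A) _ ▸ e)
    · exact h.fin c (sw t s h.f) e

end Tri

end CA.GW.BA
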