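/-
The core of a proper overgroup of an involution centralizer is centralized by the involution.
-/
import Cfsg.Agent.GW.B6

set_option autoImplicit false
set_option linter.unusedSectionVars false

namespace CA.GW.BA

open Subgroup Cfsg CA.FG CA.BG CA.Dih
open scoped commutatorElement

universe u v

variable {G : Type u} [Group G] [Finite G] {p q : ℕ}

theorem four_of {a v : G} (ia : IsInv a) (hv : v ∈ 𝒞[a]) (iv : IsInv v) (ne : v ≠ a) : Four a v :=
  ⟨ia, iv, ne.symm, (mem_c1.1 hv).symm⟩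

theorem dih_mem {S A : Subgroup G} {c a : G} (h : IsDih S c) (pS : IsPGrp 2 S) (ia : IsInv a) (ac : a ∈ zpowers c)
    (hA : A ≤ S) (nA : ¬ IsCyclic A) : a ∈ A := by
  have h1 : A ⊓ zpowers c ≠ ⊥ := fun e => by
    obtain ⟨x, hx, x1⟩ := exists_mem_ne_one (ne_bot_of_not_cyclic nA)
    have out : ∀ y ∈ A, y ≠ 1 → y ∉ zpowers c := fun y hy y1 hc => y1 (e.le ⟨hy, hc⟩)
    refine nA (cyclic_of_le (cyclic_zpowers x) fun y hy => ?_)
    by_cases y1 : y = 1
    · rw [y1]; exact one_mem _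
    have : y * x = 1 := e.le ⟨mul_mem hy hx, mul_mem_of_relIndex_two h.index (hA hy) (hA hx) (out y hy y1) (out x hx x1)⟩
    rw [eq_inv_of_mul_eq_one_left this]
    exact inv_mem (mem_zpowers x)
  obtain ⟨x, hx, x1⟩ := exists_mem_ne_one h1
  obtain ⟨y, hy, y2, y1⟩ := exists_inv_of_piElt (pS.piElt (hA hx.1)) x1
  exact dih_uniq (zpowers_le.2 hx.2 hy) ac ⟨y2, y1⟩ ia ▸ zpowers_le.2 hx.1 hy

variable {S : Subgroup G} {c t s : G}

theorem ds_dh (d : DS S c t s) : Dh (⊤ : Subgroup G) := dh_of d.syl d.dih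

theorem ctx_of (h : Cx S c t s) (xq : XQ G) : Ctx G where
  nab := h.nab
  dh := ds_dh h.toDS
  tb := fun X hX => tb_of ((ds_dh h.toDS).mono le_top) (xq X hX)
  syl := fun a ia => by
    obtain ⟨g, rfl⟩ := h.toDS.exists_conj ia
    exact ⟨_, (h.toDS.conj g).syl, (h.toDS.conj g).le⟩
  sw := by
    refine h.toDS.m_cases.symm.imp (fun m a v f => ?_) fun m a v f => ?_
    · obtain ⟨g, rfl⟩ := h.toDS.exists_conj f.it
      exact (h.toDS.conj g).swapV ((h.toDS.ord_eq (h.toDS.conj g)).symm ▸ m.1) f.ct f.is f.ne.symm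
    · obtain ⟨g, rfl⟩ := h.toDS.exists_conj f.it
      obtain ⟨k, -, d⟩ := (h.toDS.conj g).exists_of f.ct f.is f.ne.symm
      rw [le_antisymm (Four.le d.tS d.sS) fun x hx =>
        f.mem.2 (d.mem_S_cent hx (d.abel2 ((h.toDS.ord_eq d).trans m) d.sS hx))]
      exact d.syl

theorem coatom_cent [IsSimpleGroup G] (h : Cx S c t s) (cx : Ctx G) {M : Subgroup G} (hM : IsCoatom M)
    (tM : 𝒞[t] ≤ M) (hp : p.Prime) (p2 : p ≠ 2) : t ∈ 𝒞(pCoreOf p M) := by
  by_contra nc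
  have d := h.toDS
  have sM : IsSylowOf 2 S M := d.syl.of_le (d.le.trans tM) le_top
  have lt : 𝒞[t] < M := lt_of_le_of_ne tM fun e => nc (mem_cent_iff_le_cent_singleton.2 ((pcore_le _ M).trans e.ge))
  have O2 : pCoreOf 2 M = ⊥ := by
    by_contra h0
    have NS : pCoreOf 2 M ≤ S := sM.le_of_norm_le (pcore_pGrp 2 M) (pcore_le _ M) (sM.le.trans (pcore_norm _ M))
    by_cases cy : IsCyclic (pCoreOf 2 M)
    · obtain ⟨x, hx, x1⟩ := exists_mem_ne_one h0
      obtain ⟨a, ha, a2, a1⟩ := exists_inv_of_piElt ((pcore_pGrp 2 M).piElt hx) x1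
      have aN := zpowers_le.2 hx ha
      have := Fintype.ofFinite G
      have : M ≤ 𝒞[a] := fun g hg => conj_eq_iff.1 (eq_of_cyclic_inv cy (conj_mem_of_mem_norm (pcore_norm _ M hg) aN) aN
        (inv_conj ⟨a2, a1⟩ g).1 (inv_conj ⟨a2, a1⟩ g).2 a2 a1)
      obtain ⟨g, rfl⟩ := d.exists_conj ⟨a2, a1⟩
      have := card_le_of_le this
      rw [← conjg_cent1, card_conjg] at this
      exact (card_lt_of_lt lt).not_ge this
    · exact nc (pcore_cent_of_disjoint (by simpa using p2.symm) M (dih_mem d.dih d.pS d.inv d.tc NS cy))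
  have lay : layerOf M = ⊥ := by_contra fun l => nc (layerOf_cent_pcore p M (dih_mem d.dih d.pS d.inv d.tc inf_le_left
    fun e => layer_nsol l (sol_of_cyclic_sylow (sM.inf_normal (layerOf_normal M)) e)).2)
  have odd : IsPiGrp {2}ᶜ (fittingOf M) := (pcore_piGrp _ M).of_le (fitting_le_of_forall_pcore fun q _ => by
    by_cases q2 : q = 2
    · rw [q2, O2]; exact bot_le
    · exact pcore_max (pcore_normal _ M) (odd_of_pGrp (pcore_pGrp q M) q2))
  have se := h.se hM.1 lt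
  push Not at se
  obtain ⟨a, aM, ia, na⟩ := se
  obtain ⟨g, hg, e⟩ := sylow_subJ Nat.prime_two sM (two_zpowers ia.1) (zpowers_le.2 aM)
  have vS : g⁻¹ * a * g⁻¹⁻¹ ∈ S := by rw [inv_inv]; exact mem_conjg.1 (e (mem_zpowers a))
  have ne : g⁻¹ * a * g⁻¹⁻¹ ≠ t := fun e => na g hg (by rw [← e]; group)
  have f := four_of d.inv (d.le vS) (inv_conj ia _) ne
  obtain ⟨ρ, r1, r2⟩ := d.FV (d.le vS) f.is ne
  have nρ : ρ ∉ M := fun e => na _ (mul_mem hg e) (by
    rw [show g * ρ * t * (g * ρ)⁻¹ = g * (ρ * t * ρ⁻¹) * g⁻¹ by group, r1]; group)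
  generalize g⁻¹ * a * g⁻¹⁻¹ = v at f r1 r2
  have r3 : ρ * (t * v) * ρ⁻¹ = t := by
    rw [show ρ * (t * v) * ρ⁻¹ = ρ * t * ρ⁻¹ * (ρ * v * ρ⁻¹) by group, r1, r2, f.sts]
  refine Tri.false (p := p) ⟨f, rfl, r1, r2, r3, rfl, rfl, ?_, hM, tM, fun e => ?_, lay, odd, hp, nc⟩ cx
  · rw [← conjg_mul, ← conjg_mul]
    refine conjg_of_mem (tM (conj_eq_iff.1 ?_))
    rw [show ρ * ρ * ρ * t * (ρ * ρ * ρ)⁻¹ = ρ * (ρ * (ρ * t * ρ⁻¹) * ρ⁻¹) * ρ⁻¹ by group, r1, r2, r3]
  · exact nρ (prim_of_coatom hM M ⟨le_rfl, le_normalizer⟩ (ne_bot_of_mem (tM (mem_cent_singleton_self t)) d.inv.2)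
      (conjg_eq_self_iff.1 e.symm))

end CA.GW.BA

namespace CA.GW

open Subgroup Cfsg CA.FG CA.BG CA.Dih BA

universe u

variable {G : Type u} [Group G] [Finite G] {S : Subgroup G} {c t s : G}

theorem claimA [IsSimpleGroup G] (h : Cx S c t s) (xq : XQ G) : ClaimA G := fun a ia M M1 aM => by
  obtain ⟨g, rfl⟩ := h.toDS.exists_conj ia
  have h' := h.conj g
  generalize g * t * g⁻¹ = a at ia aM h'
  obtain ⟨N, hN, MN⟩ := exists_coatom_ge M1
  have cx := ctx_of h xq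
  have am := aM (mem_cent_singleton_self a)
  refine mem_cent_iff_le_cent_singleton.1 (coprime_cent_Fitting (zpowers_le.2 (pcore_norm _ M am))
    ((two_zpowers ia.1).coprime (pcore_piGrp _ M)).symm (sol_of_odd (pcore_piGrp _ M)) ⟨mem_zpowers a, ?_⟩)
  refine mem_cent_iff_le_cent_singleton.2 (fitting_le_of_forall_pcore fun p hp => ?_)
  by_cases p2 : p = 2
  · exact (((pcore_piGrp _ M).of_le (pcore_le _ _)).eq_bot ((pcore_pGrp p (OO M)).piGrp (by simp [p2]))).le.trans bot_le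
  refine ((pcore_normal _ M).pcore_le _).trans ?_
  have h1 := cx.tb N hN.1 a (MN am) ia.1 p hp p2 _ ((pcore_le _ M).trans MN) (pcore_pGrp p M)
    (inf_le_right.trans (aM.trans (pcore_norm _ M)))
  rw [← cent_zpowers, ← comm_eq_bot_iff, ← comm_comm_zpowers (odd_of_pGrp (pcore_pGrp p M) p2) ia.1 (pcore_norm _ M am),
    comm_eq_bot_iff, cent_zpowers]
  exact h1.trans (mem_cent_iff_le_cent_singleton.1 (coatom_cent h' cx hN (aM.trans MN) hp p2))

end CA.GW
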