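/-
Groups of order `p ^ 3` with coprime operators fixing the center, and an arithmetic lemma.
-/
import Cfsg.Agent.GW.B7

set_option autoImplicit false
set_option linter.unusedSectionVars false

namespace CA.GW.BA

open Subgroup Cfsg CA.FG CA.BG CA.Dih
open scoped commutatorElement

universe u v

theorem lb_arith {p κ e q r n : ℕ} {δ : ℤ} (hp : p.Prime) (p2 : p ≠ 2) (hκ : 2 * p ∣ κ) (κ0 : κ ≠ 0)
    (he : e ≤ p + 1) (pe : ¬ p ∣ e) (hD : κ < p * e) (hq : q = κ + r) (hr : r = κ + 1 ∨ r + 1 = κ)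
    (pq : IsPrimePow q) (hδ : δ = 1 ∨ δ = -1)
    (hn : (n : ℤ) = (2 * (p * e * κ : ℕ) + δ) * ((p * e * κ : ℕ) + δ)) (co : n.Coprime (p * e * κ))
    (hd : q * r ∣ n * (p * e * κ)) (hc : (p - 1) * (q * r * (q * r - 1 - κ)) ≤ n) : False := by
  have p3 : 3 ≤ p := by have := hp.two_le; omega
  have k2 := Nat.le_of_dvd (Nat.pos_of_ne_zero κ0) hκ
  by_cases p5 : p = 3
  · subst p5
    obtain rfl : κ = 6 := by omega
    obtain rfl : e = 4 := by omega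
    have : n = 145 * 73 ∨ n = 143 * 71 := by rcases hδ with rfl | rfl <;> omega
    have h2 : r = 7 ∨ r = 5 := by omega
    rcases this with rfl | rfl <;> rcases h2 with rfl | rfl <;> subst hq <;> omega
  have p5 : 5 ≤ p := by
    have := hp.eq_two_or_odd
    omega
  have crκ : r.Coprime κ := by
    rcases hr with rfl | rfl <;> simp
  have cqκ : q.Coprime κ := by rw [hq]; simpa using crκ
  have pκ : p ∣ κ := (Dvd.intro_left _ rfl).trans hκ
  obtain ⟨l, a, hl, a0, rfl⟩ := (isPrimePow_nat_iff _).1 pq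
  have cqk : ¬ l ∣ p * e * κ := fun h1 => by
    have h2 : (l ^ a).Coprime n := (((Nat.Prime.coprime_iff_not_dvd hl).2 fun h3 =>
      hl.one_lt.ne' (Nat.eq_one_of_dvd_coprimes co h3 h1))).pow_left a
    have h3 := cqκ.dvd_of_dvd_mul_right (h2.dvd_of_dvd_mul_left ((Dvd.intro _ rfl).trans hd))
    have h4 := Nat.le_of_dvd (Nat.pos_of_ne_zero fun e0 : e = 0 => pe (e0 ▸ dvd_zero p))
      ((cqκ.coprime_dvd_right pκ).dvd_of_dvd_mul_left h3)
    omega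
  have h1 : ((l : ℤ) ^ a) ∣ n := by
    exact_mod_cast (((Nat.Prime.coprime_iff_not_dvd hl).2 cqk).pow_left a).dvd_of_dvd_mul_right
      ((Dvd.intro _ rfl).trans hd)
  have hl' : Prime (l : ℤ) := Nat.prime_iff_prime_int.1 hl
  obtain ⟨c, hc', h2⟩ : ∃ c : ℤ, (c = 1 ∨ c = 2) ∧ (l : ℤ) ^ a ∣ 2 * (p * e * κ : ℕ) + c * δ := by
    rw [hn] at h1
    by_cases h3 : (l : ℤ) ∣ (p * e * κ : ℕ) + δ
    · refine ⟨2, .inr rfl, ?_⟩
      rw [← mul_add]
      refine (hl'.pow_dvd_of_dvd_mul_left a (fun h4 => hl'.not_unit (isUnit_of_dvd_unit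
        (y := δ) ?_ (by rcases hδ with rfl | rfl <;> simp))) h1).mul_left _
      have := (h3.mul_left 2).sub h4
      rwa [show 2 * ((p * e * κ : ℕ) + δ) - (2 * (p * e * κ : ℕ) + δ) = δ by ring] at this
    · exact ⟨1, .inl rfl, by rw [one_mul]; exact hl'.pow_dvd_of_dvd_mul_right a h3 h1⟩
  obtain ⟨η, hη, hr'⟩ : ∃ η : ℤ, (η = 1 ∨ η = -1) ∧ (r : ℤ) = κ + η := by
    rcases hr with h | h
    exacts [⟨1, .inl rfl, by omega⟩, ⟨-1, .inr rfl, by omega⟩]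
  have hq' : (l : ℤ) ^ a = 2 * κ + η := by
    have : ((l ^ a : ℕ) : ℤ) = κ + r := by exact_mod_cast hq
    push_cast at this
    omega
  have η2 : η * η = 1 := by rcases hη with rfl | rfl <;> rfl
  rw [hq'] at h2
  obtain ⟨j, hj⟩ : (2 * κ + η : ℤ) ∣ p * e - c * η * δ := by
    have := ((dvd_mul_right (2 * κ + η : ℤ) (p * e)).sub h2).mul_left η
    push_cast at this
    rwa [show η * ((2 * κ + η) * (p * e) - (2 * (p * e * κ) + c * δ)) = η * η * (p * e) - c * η * δ by ring, η2,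
      one_mul] at this
  obtain ⟨b, rfl⟩ := hκ
  obtain ⟨i, hi⟩ : (p : ℤ) ∣ j + c * δ := by
    refine ⟨η * (e - 4 * b * j), ?_⟩
    push_cast at hj
    linear_combination (-η) * hj - (j + c * δ) * η2
  have b1 : 1 ≤ b := Nat.pos_of_ne_zero fun e0 => κ0 (by rw [e0, mul_zero])
  have hD' : ((2 * p * b : ℕ) : ℤ) < p * e := by exact_mod_cast hD
  have he' : (p : ℤ) * e ≤ p * (p + 1) := by exact_mod_cast Nat.mul_le_mul_left p he
  have k2' : 2 * (p : ℤ) ≤ (2 * p * b : ℕ) := by exact_mod_cast k2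
  have p5' : (5 : ℤ) ≤ p := by exact_mod_cast p5
  have cd : -2 ≤ c * η * δ ∧ c * η * δ ≤ 2 ∧ -2 ≤ c * δ ∧ c * δ ≤ 2 := by
    rcases hc' with rfl | rfl <;> rcases hη with rfl | rfl <;> rcases hδ with rfl | rfl <;> norm_num
  have η1 : -1 ≤ η := by rcases hη with rfl | rfl <;> norm_num
  generalize hκ : 2 * p * b = κ at *
  have j1 : 1 ≤ j := by
    by_contra h
    have : (2 * κ + η : ℤ) * j ≤ 0 := mul_nonpos_of_nonneg_of_nonpos (by omega) (by omega)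
    omega
  have j2 : j < p - 2 := by
    by_contra h
    have : (4 * p - 1 : ℤ) * (p - 2) ≤ (2 * κ + η) * j := mul_le_mul (by omega) (by omega) (by omega) (by omega)
    nlinarith
  have i0 : i = 0 := by
    by_contra h
    rcases lt_or_gt_of_ne h with h | h <;> nlinarith
  rw [i0, mul_zero] at hi
  obtain rfl : δ = -1 := by
    rcases hδ with rfl | rfl
    · omega
    · rfl
  obtain rfl : j = c := by omega
  have hpe : (p : ℤ) * e = 2 * j * κ := by linear_combination hj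
  have c2 : r.Coprime 2 := crκ.coprime_dvd_right (hκ ▸ (Dvd.intro _ rfl).mul_right b)
  have h3 : r ∣ n := by
    refine Nat.Coprime.dvd_of_dvd_mul_right ?_ ((Dvd.intro_left _ rfl).trans hd)
    refine Nat.Coprime.mul_right ?_ crκ
    rcases hc' with rfl | rfl
    · rw [show p * e = 2 * κ by omega]; exact c2.mul_right crκ
    · rw [show p * e = 2 * (2 * κ) by omega]; exact c2.mul_right (c2.mul_right crκ)
  have h4 : (r : ℤ) ∣ (4 * j - 1) * (2 * j - 1) := by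
    have h5 : (r : ℤ) ∣ n := by exact_mod_cast h3
    have h6 : (r : ℤ) ∣ (κ : ℤ) * κ - 1 := ⟨κ - η, by rw [hr']; linear_combination η2⟩
    have := h5.sub (h6.mul_left (8 * j * j * (κ * κ + 1) - 6 * j))
    push_cast at hn
    rwa [hn, hpe, show (2 * (2 * j * κ * κ) + -1) * (2 * j * κ * κ + -1) - (8 * j * j * (κ * κ + 1) - 6 * j) *
      (κ * κ - 1) = (4 * j - 1) * (2 * j - 1) by ring] at this
  rcases hc' with rfl | rfl
  · have := Int.le_of_dvd (by norm_num) h4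
    omega
  have h5 : r ∣ 21 := Int.natCast_dvd_natCast.1 h4
  have h6 := Nat.le_of_dvd (by norm_num) h5
  obtain rfl : r = 21 := by
    have : 9 ≤ r := by omega
    interval_cases r <;> omega
  have h7 : κ = 20 ∨ κ = 22 := by omega
  have h8 : p ≤ 11 := by omega
  have h9 : p * e = 4 * κ := by omega
  rw [hq] at hc
  rw [h9] at hn
  rcases h7 with rfl | rfl <;> interval_cases p <;> omega

variable {G : Type u} [Group G] [Finite G] {p : ℕ}

theorem mul_card_le {H K : Subgroup G} (pK : IsPGrp p K) (h : H < K) : p * Nat.card H ≤ Nat.card K :=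
  have hp := pK.prime (ne_bot_of_gt h)
  P04.mul_card_le_of_lt hp (pK.isPGroup hp) h

theorem mem_zpowers_mul_self {y : G} (h : IsPiElt {2}ᶜ y) : y ∈ zpowers (y * y) := by
  rw [← pow_two]
  exact mem_zpowers_pow_iff.2 ((piNat_compl_singleton_iff_coprime Nat.prime_two).1 h).symm

/-- nonabelian groups of order `p ^ 3` -/
structure ES (p : ℕ) (W : Subgroup G) : Prop where
  pp : p.Prime
  card : Nat.card W = p ^ 3
  nab : ¬ IsMulCommutative W

namespace ES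

variable {W A : Subgroup G} (h : ES p W)
include h

theorem pW : IsPGrp p W := pGrp_of_card_eq_pow h.pp h.card

theorem cardZ : Nat.card ↥𝒵(W) = p := (p3group_extraspecial h.pp h.pW h.nab h.card.le).2.1

theorem der : ⁅W, W⁆ = 𝒵(W) := (p3group_extraspecial h.pp h.pW h.nab h.card.le).2.2.1

theorem card_le {X : Subgroup G} (hX : X < W) : Nat.card X ≤ p ^ 2 := by
  have := mul_card_le h.pW hX
  rw [h.card, pow_succ'] at this
  exact Nat.le_of_mul_le_mul_left this h.pp.pos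

theorem cent1 {y : G} (hy : y ∈ W) (cy : y ∉ 𝒞(W)) : 𝒵(W) ⊔ zpowers y = W ⊓ 𝒞[y] := by
  have h1 : 𝒵(W) ⊔ zpowers y ≤ W ⊓ 𝒞[y] := sup_le (inf_le_inf_left _ (cent_le_cent_singleton hy))
    (zpowers_le.2 ⟨hy, mem_cent_singleton_self y⟩)
  have h2 := mul_card_le (h.pW.of_le (h1.trans inf_le_left))
    (lt_of_le_of_ne le_sup_left fun e => cy (e.ge (mem_sup_right (mem_zpowers y))).2)
  refine eq_of_le_of_card_ge h1 ((h.card_le (lt_of_le_of_ne inf_le_left fun e =>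
    cy (mem_cent_iff_le_cent_singleton.2 (e.ge.trans inf_le_right)))).trans ?_)
  rwa [h.cardZ, ← pow_two] at h2

theorem cent (pA : IsPiGrp {p}ᶜ A) (nA : A ≤ 𝒩(W)) (cA : A ≤ 𝒞(𝒵(W))) {y : G} (hy : y ∈ W) (cy : y ∉ 𝒞(W))
    (c : A ≤ 𝒞[y]) : A ≤ 𝒞(W) := by
  have h1 : 𝒵(W) ⊔ zpowers y ≤ W ⊓ 𝒞(A) := sup_le (le_inf inf_le_left (le_cent_symm cA))
    (zpowers_le.2 ⟨hy, mem_cent_iff_le_cent_singleton.2 c⟩)
  exact coprime_nil_faithful_cent_stab nA (h.pW.coprime pA) h.pW.nil ((inf_le_inf_left _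
    (cent_le_cent_singleton (h1 (mem_sup_right (mem_zpowers y))))).trans ((h.cent1 hy cy).ge.trans h1))

theorem reg (pA : IsPiGrp {p}ᶜ A) (nA : A ≤ 𝒩(W)) (cA : A ≤ 𝒞(𝒵(W))) {a : G} (ha : a ∈ A) (c : a ∉ 𝒞(W)) :
    W ⊓ 𝒞[a] = 𝒵(W) := by
  have h1 := zpowers_le.2 ha
  refine le_antisymm (fun y hy => ⟨hy.1, by_contra fun cy => c (h.cent (pA.of_le h1) (h1.trans nA) (h1.trans cA) hy.1 cy
    (zpowers_le.2 (mem_cent_singleton_comm.1 hy.2)) (mem_zpowers a))⟩)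
    (le_inf inf_le_left (mem_cent_iff_le_cent_singleton.1 (cA ha)))

theorem cyc (pA : IsPiGrp {p}ᶜ A) (nA : A ≤ 𝒩(W)) (cA : A ≤ 𝒞(𝒵(W))) (ab : IsMulCommutative A)
    (f : A ⊓ 𝒞(W) = ⊥) : IsCyclic A ∧ (Nat.card A ∣ p + 1 ∨ Nat.card A ∣ p - 1) := by
  have reg : ∀ a ∈ A, a ≠ 1 → W ⊓ 𝒞[a] = 𝒵(W) := fun a ha a1 => h.reg pA nA cA ha fun e => a1 (f.le ⟨ha, e⟩)
  have cy : IsCyclic A := by_contra fun nc => h.nab (abelian_iff_le_cent.2 ((coprime_abelian_gen_cent1_le ab nc nA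
    (h.pW.coprime pA) fun a ha a1 => (reg a ha a1).le).trans inf_le_right))
  exact ⟨cy, extraspecial3_prime_sdprod_cycle h.pp h.card h.nab nA cy ((piGrp_compl_singleton_iff h.pp).1 pA) reg⟩

theorem dvd (pA : IsPiGrp {p}ᶜ A) (nA : A ≤ 𝒩(W)) (cA : A ≤ 𝒞(𝒵(W))) (ab : ⁅A, A⁆ ≤ 𝒞(W)) :
    (𝒞(W)).relIndex A ∣ p + 1 ∨ (𝒞(W)).relIndex A ∣ p - 1 := by
  have AN : A ≤ 𝒩(A ⊓ 𝒞(W)) := norm_inf le_normalizer (norm_cent nA)
  have WN : W ≤ 𝒩(A ⊓ 𝒞(W)) := norm_of_cent' inf_le_right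
  have i : A ⊓ 𝒞(W) ⊓ W = ⊥ := by rw [inf_comm]; exact h.pW.inf_eq_bot (pA.inf_left _)
  have e : ES p (W /ₛ (A ⊓ 𝒞(W))) := by
    refine ⟨h.pp, ?_, fun e => h.nab (der_eq_bot_iff.1 (eq_bot_iff.2 ((le_inf ((quot_abelian_iff WN).1 e)
      (der_le W)).trans i.le)))⟩
    rw [card_quot WN, ← h.card, ← card_inf_mul_relIndex (A ⊓ 𝒞(W)) W, i, card_bot, one_mul]
  have := (e.cyc (pA.quot _) (quot_norm _ nA) (by
    rw [← e.der, ← quot_comm WN WN, h.der]; exact quot_cent _ cA) ((quot_abelian_iff AN).2 (le_inf (der_le A) ab))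
    (eq_bot_iff.2 fun x hx => by
      obtain ⟨a, ha, rfl⟩ := mem_quot.1 hx.1
      have h1 : ⁅zpowers (a : G), W⁆ ≤ A ⊓ 𝒞(W) := (quot_cent_iff (zpowers_le.2 a.2) WN).1
        (by rw [quot_zpowers]; exact zpowers_le.2 hx.2)
      exact coset_eq_one_iff.2 ⟨ha, comm_eq_bot_iff.1 (eq_bot_iff.2 ((le_inf h1
        (comm_le_right (zpowers_le.2 (nA ha)))).trans i.le)) (mem_zpowers _)⟩)).2
  rwa [card_quot AN, inf_comm, inf_relIndex_right] at this

theorem eig {v x y : G} (pA : IsPiGrp {p}ᶜ A) (oA : IsPiGrp {2}ᶜ A) (nA : A ≤ 𝒩(W)) (cA : A ≤ 𝒞(𝒵(W)))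
    (ab : ⁅A, A⁆ ≤ 𝒞(W)) (vW : v ∈ 𝒩(W)) (vA : v ∈ 𝒩(A)) (xp : orderOf x = p) (cx : x ∉ 𝒞(W))
    (hx : W ⊓ 𝒞[v] = zpowers x) (hy : y ∈ A ⊓ 𝒞[v]) (cy : y ∉ 𝒞(W)) : ⁅A, zpowers v⁆ ≤ 𝒞(W) := by
  have xW := hx.ge (mem_zpowers x)
  have cl : ⁅W, W⁆ ≤ 𝒞(W) := h.der.le.trans inf_le_right
  obtain ⟨n, hn⟩ := P04.exists_nat_of_mem_zpowers (hx ▸ conj_mem_of_mem_norm
    (norm_inf (zpowers_le.2 (nA hy.1)) (norm_of_le (zpowers_le.2 hy.2)) (mem_zpowers y)) xW)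
  have h1 : A ≤ 𝒩(𝒵(W) ⊔ zpowers x) := fun u hu => mem_norm_of_forall fun w hw => by
    have uW := conj_mem_of_le_norm nA hu xW.1
    suffices e : ⁅x, u * x * u⁻¹⁆ = 1 by
      refine (?_ : (𝒵(W) ⊔ zpowers x) :^ u ≤ _) (conj_mem_conjg u hw)
      rw [conjg_sup, conjg_of_mem_norm (norm_of_cent cA hu), conjg_zpowers, sup_le_iff, zpowers_le]
      refine ⟨le_sup_left, (h.cent1 xW.1 cx).ge ⟨uW, mem_c1.2 (commutatorElement_eq_one_iff_mul_comm.1 e).symm⟩⟩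
    by_contra e
    have hz := h.der.le (commutator_mem_commutator xW.1 uW)
    have h2 : y * (u * x * u⁻¹) * y⁻¹ = (u * x * u⁻¹) ^ n := by
      have := ab (commutator_mem_commutator hy.1 hu) _ (pow_mem uW n)
      calc _ = ⁅y, u⁆ * (u * (y * x * y⁻¹) * u⁻¹) * ⁅y, u⁆⁻¹ := by simp only [commutatorElement_def]; group
        _ = _ := by rw [hn, ← conj_pow, ← this, mul_inv_cancel_right]
    have h3 : ⁅x, u * x * u⁻¹⁆ ^ (n * n) = ⁅x, u * x * u⁻¹⁆ ^ 1 := by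
      rw [← P02.comm_pow_pow_of_central cl xW.1 uW, ← hn, ← h2, ← conjugate_commutatorElement, pow_one,
        ← cA hy.1 _ hz, mul_inv_cancel_right]
    rw [pow_eq_pow_iff_modEq, (P04.orderOf_eq_of_pow h.pp e (P04.pow_eq_one_of_card h.cardZ hz)).trans xp.symm,
      ← pow_eq_pow_iff_modEq, pow_one] at h3
    have h4 := zpowers_le.2 (mul_mem hy.1 hy.1)
    have h5 := h.cent (pA.of_le h4) (h4.trans nA) (h4.trans cA) xW.1 cx (zpowers_le.2 (conj_eq_iff.1 (by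
      rw [show y * y * x * (y * y)⁻¹ = y * (y * x * y⁻¹) * y⁻¹ by group, hn, ← conj_pow, hn, ← pow_mul, h3])))
    exact cy (h5 (mem_zpowers_mul_self (oA.piElt hy.1)))
  have nZ : ∀ {B : Subgroup G}, B ≤ 𝒩(W) → B ≤ 𝒩(𝒵(W)) := fun e => norm_inf e (norm_cent e)
  have vW' := zpowers_le.2 vW
  have h2 : A ⊔ zpowers v ≤ 𝒩(𝒵(W) ⊔ zpowers x) := sup_le h1
    (norm_sup (nZ vW') (norm_zpowers_of_cent (zpowers_le.2 (mem_cent_singleton_comm.1 xW.2))))
  have xZ := nZ le_normalizer xW.1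
  have h3 := der_le_cent_of_cyclic (H := (𝒵(W) ⊔ zpowers x) /ₛ 𝒵(W))
    (by rw [quot_sup_self_left (zpowers_le.2 xZ)]; exact cyclic_quot _ (cyclic_zpowers x)) (quot_norm 𝒵(W) h2)
  have h4 := nZ (sup_le nA vW')
  have AA := comm_le_left (zpowers_le.2 vA)
  rw [← quot_comm h4 h4, quot_cent_iff' ((der_le _).trans h4) (sup_le le_normalizer (zpowers_le.2 xZ))] at h3
  have h5 := stable_factor_cent' (AA.trans cA) ((commutator_mono le_rfl (commutator_mono le_sup_left le_sup_right)).trans h3)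
    ((h.pW.inf_left _).coprime (pA.of_le AA))
  exact h.cent (pA.of_le AA) (AA.trans nA) (AA.trans cA) xW.1 cx
    (h5.trans (cent_le_cent_singleton (mem_sup_right (mem_zpowers x))))

end ES

end CA.GW.BA
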