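/-
The TI configuration when `Ω₁(O_p(F) ∩ M)` is not normal in `C(t)`: first consequences and the first case.
-/
import Cfsg.Agent.GW.B8

set_option autoImplicit false
set_option linter.unusedSectionVars false

namespace CA.GW.BA

open Subgroup Cfsg CA.FG CA.BG CA.Dih
open scoped commutatorElement

universe u v

variable {G : Type u} [Group G] [Finite G] {p q r : ℕ} {t x z : G} {M E K : Subgroup G}

/-- `O_p(U)` -/
abbrev PP (p : ℕ) (t : G) : Subgroup G := pCoreOf p (UU t)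

/-- `O_{p'}(F)` -/
abbrev FP (p : ℕ) (t : G) : Subgroup G := pPrimeCoreOf p (FF t)

/-- `Ω₁(Z₂(O_p(U)))` -/
abbrev WW (p : ℕ) (t : G) : Subgroup G := ohm1 p (ucnOf 2 (PP p t))

theorem PP_le (p : ℕ) (t : G) : PP p t ≤ FF t := pcore_le_fitting p _

theorem FF_dprod (p : ℕ) (t : G) : DProd (PP p t) (FP p t) (FF t) := by
  have := nilpotent_pcoreC {p} (fitting_nil (UU t))
  rwa [p_core_Fitting'] at this

theorem FF_H (t : G) : FF t ≤ 𝒞[t] := (FF_normal t).1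

theorem PP_norm (p : ℕ) (t : G) : 𝒞[t] ≤ 𝒩(PP p t) := (pcore_UU_normal p t).2

theorem FP_norm (p : ℕ) (t : G) : 𝒞[t] ≤ 𝒩(FP p t) := ((FF_normal t).pcore _).2

theorem WW_le (p : ℕ) (t : G) : WW p t ≤ PP p t := (ohm1_le _ _).trans (ucn_le _ _)

theorem WW_F (p : ℕ) (t : G) : WW p t ≤ FF t := (WW_le p t).trans (PP_le p t)

theorem WW_norm (p : ℕ) (t : G) : 𝒞[t] ≤ 𝒩(WW p t) := norm_ohm1 p (P04.norm_ucnOf_two (PP_norm p t))

theorem cent_FF {A : Subgroup G} (h1 : A ≤ 𝒞(PP p t)) (h2 : A ≤ 𝒞(FP p t)) : A ≤ 𝒞(FF t) :=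
  (FF_dprod p t).sup_eq ▸ le_cent_sup h1 h2

theorem mem_PP (hp : p.Prime) {y : G} (hy : y ∈ FF t) (e : y ^ p = 1) : y ∈ PP p t :=
  le_pcore_of_le_fitting (zpowers_le.2 hy) (piGrp_zpowers_iff.2 (pElt_of_pow_eq_one hp e)) (mem_zpowers y)

theorem mem_zpowers_of_prime {a b : G} (h : (orderOf a).Prime) (hb : b ∈ zpowers a) (b1 : b ≠ 1) : a ∈ zpowers b :=
  (eq_zpowers_of_card_prime (Nat.card_zpowers a ▸ h) hb b1).le (mem_zpowers a)

theorem mem_zpowers_of_cyc {X : Subgroup G} (c : IsCyclic X) (hp : p.Prime) {a b : G} (ha : a ∈ X) (hb : b ∈ X)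
    (oa : orderOf a = p) (e : b ^ p = 1) : b ∈ zpowers a :=
  (ohm1_eq_of_cyclic hp c (zpowers_le.2 ha) ((Nat.card_zpowers a).trans oa)).le (mem_ohm1 hb e)

theorem eq_one_of_fix_inv {U : Subgroup G} (oU : IsPiGrp {2}ᶜ U) {a y : G} (hy : y ∈ U) (c : y ∈ 𝒞[a])
    (e : a * y * a⁻¹ = y⁻¹) : y = 1 :=
  eq_one_of_inv (oU.piElt hy) ((conj_eq_iff.2 (mem_cent_singleton_comm.1 c)).symm.trans e)

section Cfg

variable (h : Cfg t M E K q r)
include h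

theorem cf_EO : E ≤ 𝒞(OO M) := le_cent_symm (h.comp.cent.ge.trans inf_le_right)

theorem cf_tE : t ∈ E := h.tor.le h.tor.tK

theorem cf_KH : K ≤ 𝒞[t] :=
  (abelian_iff_le_cent.1 (abelian_of_cyclic h.tor.cyc)).trans (cent_le_cent_singleton h.tor.tK)

theorem cf_KM : K ≤ M := h.tor.le.trans h.comp.le

theorem cf_nF0 : M ⊓ 𝒞[t] ≤ 𝒩(FF t ⊓ OO M) :=
  norm_inf (inf_le_right.trans (FF_normal t).2) (inf_le_left.trans (pcore_norm _ M))

theorem cf_cM {y : G} (hy : y ∈ FF t ⊓ OO M) (y1 : y ≠ 1) : 𝒞[y] ≤ M :=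
  (norm_zpowers_of_cent le_rfl).trans (h.nD _ (zpowers_le.2 hy) (ne_bot_of_mem (mem_zpowers y) y1))

theorem cf_KO {a : G} (ha : a ∈ K) (hO : a ∈ OO M) : a = 1 := h.tor.inf.le ⟨ha, hO⟩

/-- a good choice of the Sylow `2`-subgroup -/
theorem cf_DS {S : Subgroup G} {c s : G} (d : DS S c t s) :
    ∃ S' c' s', DS S' c' t s' ∧ s' ∈ E ∧ IsSylowOf 2 (S' ⊓ M) (M ⊓ 𝒞[t]) := by
  obtain ⟨v, vE, iv, ne, vH⟩ := h.comp.four t (cf_tE h) d.inv
  obtain ⟨T, hT, vT⟩ := sylow_superset Nat.prime_two (two_zpowers iv.1)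
    (zpowers_le.2 (show v ∈ M ⊓ 𝒞[t] from ⟨h.comp.le vE, vH⟩))
  obtain ⟨g, -, e, d'⟩ := d.exists_of_le hT.pGrp (hT.le.trans inf_le_right) (vT (mem_zpowers v)) iv ne
  exact ⟨_, _, _, d', vE, (hT.eq_of_le (d'.pS.inf_left M) (le_inf e (hT.le.trans inf_le_left))
    (le_inf inf_le_right (inf_le_left.trans d'.le))).symm ▸ hT⟩

end Cfg

/-- the configuration with a chosen prime -/
structure LB (t : G) (M E K : Subgroup G) (q r p : ℕ) (x z : G) : Prop extends CfF t M E K q r where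
  pp : p.Prime
  xF : x ∈ FF t ⊓ OO M
  xo : orderOf x = p
  zK : z ∈ K ⊓ FF t ⊓ 𝒞(FF t)
  zo : orderOf z = p
  nom : ¬ OmN t M p
  pF0 : IsPGrp p (FF t ⊓ OO M)

theorem exists_LB (hA : NoA t) (h : CfF t M E K q r) (hp : p.Prime) (hx : x ∈ FF t ⊓ OO M) (xo : orderOf x = p) :
    ∃ z, LB t M E K q r p x z := by
  have d := xo ▸ orderOf_dvd_card_of_mem hx
  obtain ⟨z, hz, zo⟩ := h.zp p hp (d.trans (card_dvd_of_le inf_le_left))
  have nom := hA M E K q r h p hp d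
  refine ⟨z, h, hp, hx, xo, hz, zo, nom, fun l hl ld => by_contra fun lp => nom fun g hg y hy _ => ?_⟩
  obtain ⟨a, ha, ao⟩ := exists_mem_orderOf_eq hl ld
  have key : ∀ {b : G} {X : Subgroup G}, b ∈ FF t ⊓ OO M → (orderOf b).Prime → X ≤ FF t → IsPiGrp {orderOf b}ᶜ X →
      X ≤ M := fun hb pb hX pX => ((le_cent_symm (sub_nilpotent_cent2 (fitting_nil _) (zpowers_le.2 hb.1) hX
        ((pGrp_of_card_eq pb (Nat.card_zpowers _)).coprime pX))).trans (cent_zpowers _).le).trans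
      (cf_cM h.toCfg hb fun e => pb.one_lt.ne' (orderOf_eq_one_iff.2 e))
  refine (FF_dprod p t).sup_eq.ge.trans (sup_le (key ha (ao ▸ hl) (PP_le p t) ?_)
    (key hx (xo ▸ hp) (pcore_le _ _) (xo ▸ pcore_piGrp _ _))) (conj_mem_of_le_norm (FF_normal t).2 hg hy.1)
  exact (pcore_pGrp p _).piGrp (by rw [ao]; exact fun e => lp e.symm)

namespace LB

variable (h : LB t M E K q r p x z)
include h

theorem cf : Cfg t M E K q r := h.toCfg

theorem x1 : x ≠ 1 := fun e => h.pp.one_lt.ne' (h.xo.symm.trans (orderOf_eq_one_iff.2 e))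

theorem z1 : z ≠ 1 := fun e => h.pp.one_lt.ne' (h.zo.symm.trans (orderOf_eq_one_iff.2 e))

theorem xp : x ^ p = 1 := h.xo ▸ pow_orderOf_eq_one x

theorem zp' : z ^ p = 1 := h.zo ▸ pow_orderOf_eq_one z

theorem xP : x ∈ PP p t := mem_PP h.pp h.xF.1 h.xp

theorem zP : z ∈ PP p t := mem_PP h.pp h.zK.1.2 h.zp'

theorem p2 : p ≠ 2 := by
  simpa using h.pF0.mem_of_piGrp h.F0 ((FF_odd t).inf_left _)

theorem cM : 𝒞[x] ≤ M := cf_cM h.cf h.xF h.x1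

theorem nle : ¬ FF t ≤ M := fun e => h.nom fun _ hg _ hy _ => e (conj_mem_of_le_norm (FF_normal t).2 hg hy.1)

theorem xc : x ∉ 𝒞(FF t) := fun e => h.nle ((mem_cent_iff_le_cent_singleton.1 e).trans h.cM)

theorem FM_le : FF t ⊓ M ≤ (FF t ⊓ K) ⊔ (FF t ⊓ OO M) := fun y hy => by
  obtain ⟨a, ha, b, hb, rfl⟩ := h.star y hy
  exact mul_mem (mem_sup_left ha) (mem_sup_right hb)

theorem FM_ab : IsMulCommutative (FF t ⊓ M : Subgroup G) :=
  abelian_of_le (abelian_sup (abelian_of_cyclic (cyclic_of_le h.tor.cyc inf_le_right)) (abelian_of_cyclic h.cyc)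
    (inf_le_right.trans (h.tor.le.trans ((cf_EO h.cf).trans (cent_anti inf_le_right))))) h.FM_le

theorem xM : x ∈ FF t ⊓ M := ⟨h.xF.1, pcore_le _ M h.xF.2⟩

theorem FM_c : FF t ⊓ M ≤ 𝒞[x] := (abelian_iff_le_cent.1 h.FM_ab).trans (cent_le_cent_singleton h.xM)

theorem pow_split {a b : G} {n : ℕ} (ha : a ∈ K) (hb : b ∈ OO M) (e : (a * b) ^ n = 1) : a ^ n = 1 ∧ b ^ n = 1 := by
  rw [Commute.mul_pow (cf_EO h.cf (h.tor.le ha) b hb).symm] at e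
  have := cf_KO h.cf (pow_mem ha n) (by rw [eq_inv_of_mul_eq_one_left e]; exact inv_mem (pow_mem hb n))
  exact ⟨this, by rwa [this, one_mul] at e⟩

theorem FP_le : FP p t ≤ K := fun y hy => by
  obtain ⟨a, ha, b, hb, e⟩ := h.star y ⟨pcore_le _ _ hy, h.cM (mem_cent_singleton_comm.1
    (mem_c1.2 ((FF_dprod p t).cent hy x h.xP)))⟩
  have : b ^ orderOf y = 1 := (h.pow_split ha.2 hb.2 (by rw [← e]; exact pow_orderOf_eq_one y)).2
  rw [e, (h.pF0.piElt hb).eq_one (((pcore_piGrp _ _).piElt hy).of_dvd (orderOf_dvd_of_pow_eq_one this)), mul_one]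
  exact ha.2

theorem om {y : G} (hy : y ∈ FF t ⊓ M) (e : y ^ p = 1) : ∃ a ∈ zpowers z, ∃ b ∈ zpowers x, y = a * b := by
  obtain ⟨a, ha, b, hb, rfl⟩ := h.star y hy
  have := h.pow_split ha.2 hb.2 e
  exact ⟨a, mem_zpowers_of_cyc h.tor.cyc h.pp h.zK.1.1 ha.2 h.zo this.1, b,
    mem_zpowers_of_cyc h.cyc h.pp h.xF hb h.xo this.2, rfl⟩

theorem om' {X : Subgroup G} (zX : z ∈ X) (xX : x ∉ X) {y : G} (hy : y ∈ FF t ⊓ M) (e : y ^ p = 1) (yX : y ∈ X) :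
    y ∈ zpowers z := by
  obtain ⟨a, ha, b, hb, rfl⟩ := h.om hy e
  by_cases b1 : b = 1
  · rwa [b1, mul_one]
  · exact (xX (zpowers_le.2 ((mul_mem_cancel_left (zpowers_le.2 zX ha)).1 yX)
      (mem_zpowers_of_prime (h.xo ▸ h.pp) hb b1))).elim

theorem xcP : x ∉ 𝒞(PP p t) := fun e => h.xc (cent_FF (zpowers_le.2 e)
  (le_cent_symm ((FF_dprod p t).cent.trans (cent_anti (zpowers_le.2 h.xP)))) (mem_zpowers x))

theorem zcP : z ∈ 𝒞(PP p t) := cent_anti (PP_le p t) h.zK.2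

theorem omZ {y : G} (hy : y ∈ 𝒵(PP p t)) (e : y ^ p = 1) : y ∈ zpowers z :=
  h.om' h.zcP h.xcP ⟨PP_le p t hy.1, h.cM (mem_c1.2 (hy.2 x h.xP).symm)⟩ e hy.2

theorem nz : 𝒞[t] ≤ 𝒩(zpowers z) := fun g hg => mem_norm_of_forall fun y hy =>
  h.omZ (conj_mem_of_le_norm (norm_inf (PP_norm p t) (norm_cent (PP_norm p t))) hg
    (zpowers_le.2 (show z ∈ 𝒵(PP p t) from ⟨h.zP, h.zcP⟩) hy))
    (by rw [conj_pow, P04.pow_eq_one_of_card ((Nat.card_zpowers z).trans h.zo) hy]; group)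

theorem nx : M ⊓ 𝒞[t] ≤ 𝒩(zpowers x) := (cf_nF0 h.cf).trans (norm_le_norm_of_cyclic h.cyc (zpowers_le.2 h.xF))

theorem oP : Odd (Nat.card (PP p t)) := P04.odd_of_ne_two h.pp ((pcore_pGrp p _).isPGroup h.pp) h.p2

theorem xz : x ∉ zpowers z := fun e => h.xcP (zpowers_le.2 h.zcP e)

theorem ncP : ¬ IsCyclic (PP p t) := fun c => h.xz (mem_zpowers_of_cyc c h.pp h.zP h.xP h.zo h.xp)

theorem ncW : ¬ IsCyclic (WW p t) := (Ohm1_odd_ucn2 h.pp (pcore_pGrp p _) h.oP h.ncP).1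

theorem Wp {w : G} (hw : w ∈ WW p t) : w ^ p = 1 := (Ohm1_odd_ucn2 h.pp (pcore_pGrp p _) h.oP h.ncP).2 w hw

theorem zW : z ∈ WW p t := mem_ohm1 (P04.center_le_ucnOf_two _ ⟨h.zP, h.zcP⟩) h.zp'

theorem comm_W {w a : G} (hw : w ∈ WW p t) (ha : a ∈ PP p t) : P04.rc w a ∈ zpowers z := by
  have h1 := (P04.mem_ucnOf_two.1 (ohm1_le _ _ hw)).2 a ha
  have wP := WW_le p t hw
  refine h.omZ ⟨P04.rc_mem_left wP (le_normalizer ha), h1⟩ (h.Wp ?_)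
  exact P04.rc_mem_left hw (WW_norm p t (FF_H t (PP_le p t ha)))

theorem idxW {a : G} (ha : a ∈ PP p t) : (𝒞[a]).relIndex (WW p t) ≤ p :=
  (P04.relIndex_cent1_le (Z := zpowers z) fun w hw => by
    have := inv_mem (h.comm_W hw ha)
    rwa [show (P04.rc w a)⁻¹ = P04.rc a w by unfold P04.rc; group] at this).trans
    ((Nat.card_zpowers z).trans h.zo).le

/-- coprime operators fixing `x` and `z` centralize `P` -/
theorem cent_P {A : Subgroup G} (pA : IsPiGrp {p}ᶜ A) (hA : A ≤ 𝒞[t]) (cx : A ≤ 𝒞[x]) (cz : A ≤ 𝒞[z]) :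
    A ≤ 𝒞(PP p t) :=
  coprime_odd_faithful_cent_abelem (zpowers_le.2 h.xP) (P04.abelem_zpowers h.xp) (pcore_pGrp p _)
    (hA.trans (PP_norm p t)) ((pcore_pGrp p _).coprime pA) h.oP fun y hy e => by
      obtain ⟨a, ha, b, hb, rfl⟩ := h.om ⟨PP_le p t hy.1, h.cM ((cent_zpowers x).le hy.2)⟩ e
      exact fun g hg => Four.c_mul (cent_singleton_le_of_mem_zpowers ha (cz hg))
        (cent_singleton_le_of_mem_zpowers hb (cx hg))

theorem iz {a : G} (ha : a ∈ M ⊓ 𝒞[t]) (ia : IsInv a) (ne : a ≠ t) : a * z * a⁻¹ = z⁻¹ :=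
  h.tor.inv a ha ia ne z h.zK.1.1

theorem ncent {a : G} (ha : a ∈ M ⊓ 𝒞[t]) (ia : IsInv a) (ne : a ≠ t) : z ∉ 𝒞[a] := fun e =>
  h.z1 (eq_one_of_fix_inv (FF_odd t) h.zK.1.2 e (h.iz ha ia ne))

theorem cent_F0 {A : Subgroup G} (pA : IsPiGrp {p}ᶜ A) (hA : A ≤ M ⊓ 𝒞[t]) (cx : A ≤ 𝒞[x]) :
    A ≤ 𝒞(FF t ⊓ OO M) :=
  coprime_abelian_pgroup_faithful_Ohm1 h.pF0 (hA.trans (cf_nF0 h.cf)) (h.pF0.coprime pA) (abelian_of_cyclic h.cyc) (by
    rw [ohm1_eq_of_cyclic h.pp h.cyc (zpowers_le.2 h.xF) ((Nat.card_zpowers x).trans h.xo), cent_zpowers]; exact cx)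

theorem sc : SC (FF t ⊓ M) (UU t) :=
  sc_of_norm (zpowers_le.2 h.xF.1) (zpowers_le.2 h.xM.2) (inf_le_right.trans ((cent_zpowers x).le.trans h.cM))

theorem two {a : G} (ha : IsPiElt {2} a) : IsPiGrp {p}ᶜ (zpowers a) :=
  IsPGrp.piGrp (piGrp_zpowers_iff.2 ha) (by simpa using h.p2.symm)

section One

variable (xW : x ∉ WW p t)
include xW

theorem W_cent {y : G} (hy : y ∈ WW p t) (c : y ∈ 𝒞[x]) : y ∈ zpowers z :=
  h.om' h.zW xW ⟨WW_F p t hy, h.cM c⟩ (h.Wp hy) hy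

theorem xcW : x ∉ 𝒞(WW p t) := fun e => h.ncW (cyclic_of_le (cyclic_zpowers z) fun _ hy =>
  h.W_cent xW hy (mem_cent_iff_le_cent_singleton.1 e hy))

theorem W_eq {w : G} (hw : w ∈ WW p t) (wz : w ∉ zpowers z) : zpowers z ⊔ zpowers w = WW p t := by
  refine eq_of_le_of_card_ge (sup_le (zpowers_le.2 h.zW) (zpowers_le.2 hw)) ?_
  rw [P04.card_sup_zpowers h.pp (h.nz (FF_H t (WW_F p t hw))) wz (h.Wp hw ▸ one_mem _),
    ← card_inf_mul_relIndex 𝒞[x] (WW p t)]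
  exact Nat.mul_le_mul (card_le_of_le fun y hy => h.W_cent xW hy.2 hy.1) (h.idxW h.xP)

theorem fix_x {a : G} (ia : IsInv a) (ha : a ∈ M ⊓ 𝒞[t]) (f : WW p t ⊓ 𝒞[a] = ⊥) : x ∈ 𝒞[a] := by
  rcases inf_eq_bot_or_le_of_card_prime (X := zpowers x) (by rw [Nat.card_zpowers, h.xo]; exact h.pp) 𝒞[a] with e | e
  · refine (h.xcW xW ?_).elim
    have := comm_le_cent_of_inv (fun y hy => inv_of_fpf ia.1 (WW_norm p t ha.2) f hy)
      (zpowers_le.2 (WW_norm p t (FF_H t h.xF.1)))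
    rw [comm_eq_of_inv ((FF_odd t).of_le (zpowers_le.2 h.xF.1)) ia.1 (h.nx ha) e] at this
    exact this (mem_zpowers x)
  · exact e (mem_zpowers x)

end One

end LB

/-- fixed points forming a `p`-group lie in `O_p` -/
theorem fix_le_pcore {X : Subgroup G} {s : G} (oX : IsPiGrp {2}ᶜ X) (s2 : s * s = 1) (sX : s ∈ 𝒩(X))
    (e : X ≤ ⁅X, zpowers s⁆) (pC : IsPGrp p (X ⊓ 𝒞[s])) : X ⊓ 𝒞[s] ≤ pCoreOf p X := by
  have sO : s ∈ 𝒩(pCoreOf p X) := norm_pcore _ (zpowers_le.2 sX) (mem_zpowers s)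
  have nO : X ≤ 𝒩(pCoreOf p X) := pcore_norm _ X
  have h1 := quot_cent1 oX s2 (pcore_le _ X) sO
  have sQ := coset_mem_norm sO sX
  have h2 : fittingOf (X /ₛ pCoreOf p X) ⊓ ((X ⊓ 𝒞[s]) /ₛ pCoreOf p X) = ⊥ :=
    inf_eq_bot_of_cop (coprime_fitting_of_pcore (pC.quot _) (pcore_quot_pcore _ X))
  have h3 := comm_le_cent_of_inv (fun y hy => inv_of_fpf (coset_sq s2 sO)
    (norm_fitting (zpowers_le.2 sQ) (mem_zpowers _))
    (eq_bot_iff.2 ((le_inf inf_le_left ((inf_le_inf_right _ (fitting_le _)).trans h1.ge)).trans h2.le)) hy)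
    (fitting_norm (X /ₛ pCoreOf p X))
  rw [← quot_comm_zpowers sO nO] at h3
  have h4 := (le_inf le_rfl ((quot_mono _ e).trans h3)).trans (cent_sub_Fitting (sol_quot _ (sol_of_odd oX)))
  exact (quot_eq_bot_iff (inf_le_left.trans nO)).1
    (eq_bot_iff.2 ((le_inf ((quot_mono _ inf_le_left).trans h4) le_rfl).trans h2.le))

variable {S : Subgroup G} {c s : G}

theorem sc_facts (d : DS S c t s) : s * c ∈ S ∧ IsInv (s * c) ∧ s * c ≠ t ∧ s * (s * c) = c :=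
  ⟨d.swap.sS, d.swap.sInv, d.swap.st, by rw [← mul_assoc, d.sInv.1, one_mul]⟩

theorem exists_sigma (d : DS S c t s) (h : Cfg t M E K q r) (sE : s ∈ E) (m : orderOf c = 2) :
    ∃ σ ∈ 𝒩(S) ⊓ E, σ ∉ 𝒞[t] := by
  obtain ⟨g, hg, e⟩ := h.comp.conj t (cf_tE h) s sE d.inv d.sInv
  obtain ⟨σ, hσ, e'⟩ := d.FV2 m (X := E) (fun a ha => by
    rcases d.mem_S_cent ha (d.abel2 m d.sS ha) with rfl | rfl | rfl | rfl
    exacts [one_mem _, cf_tE h, sE, mul_mem (cf_tE h) sE]) hg (e ▸ d.sS)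
  exact ⟨σ, ⟨hσ.2, hσ.1⟩, fun c => d.st (e.symm.trans (e'.symm.trans (conj_eq_iff.2 c)))⟩

theorem lb1 [IsSimpleGroup G] (l : Loc S c t s) (hII : CfgII t) (hA : NoA t) (h : LB t M E K q r p x z)
    (sE : s ∈ E) (syl : IsSylowOf 2 (S ⊓ M) (M ⊓ 𝒞[t])) (xW : x ∉ WW p t) : False := by
  have d := l.toDS
  have cs := h.cs s ⟨sE, d.sH⟩ d.sInv d.st
  have sM : s ∈ M ⊓ 𝒞[t] := ⟨h.comp.le sE, d.sH⟩
  have Ws : WW p t ⊓ 𝒞[s] = ⊥ := eq_bot_iff.2 fun y hy => by_contra fun y1 => xW (zpowers_le.2 hy.1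
    (mem_zpowers_of_prime (h.xo ▸ h.pp)
      (mem_zpowers_of_cyc h.cyc h.pp h.xF (cs ▸ ⟨WW_F p t hy.1, hy.2⟩) h.xo (h.Wp hy.1)) y1))
  have SM : S ≤ M := by_contra fun n => by
    obtain ⟨g, hg, gn⟩ := SetLike.exists_of_lt (nilpotent_proper_norm d.pS.nil (lt_of_le_of_ne inf_le_left
      fun e : S ⊓ M = S => n (e.ge.trans inf_le_right)))
    have gH := d.le hg.1
    have wS := conj_mem_of_mem_norm hg.2 (show s ∈ S ⊓ M from ⟨d.sS, sM.1⟩)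
    have h1 := h.fix_x xW (inv_conj d.sInv g) ⟨wS.2, d.le wS.1⟩ (by
      rw [← conjg_cent1, ← conjg_of_mem_norm (WW_norm p t gH), ← conjg_inf, Ws, conjg_bot])
    have h2 : x ∈ (FF t ⊓ OO M) :^ g := by
      rw [← cs, conjg_inf, conjg_cent1, conjg_of_mem_norm ((FF_normal t).2 gH)]; exact ⟨h.xF.1, h1⟩
    exact gn ⟨hg.1, (inv_mem_iff (H := M)).1 (h.ti x h.xF h.x1 g⁻¹ (by rw [inv_inv]; exact mem_conjg.1 h2))⟩
  obtain ⟨wS, iw, wt, sw⟩ := sc_facts d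
  have wM : s * c ∈ M ⊓ 𝒞[t] := ⟨SM wS, d.le wS⟩
  have xw : x ∈ 𝒞[s * c] := by_contra fun n => by
    obtain ⟨w, hw, w1⟩ := exists_mem_ne_one (H := WW p t ⊓ 𝒞[s * c]) fun e => n (h.fix_x xW iw wM e)
    have wP : w ∈ PP p t ⊓ 𝒞[s * c] := ⟨WW_le p t hw.1, hw.2⟩
    obtain ⟨M', E', K', q', r', h', e⟩ := hII _ wM.2 iw wt p h.pp (ne_bot_of_mem wP w1)
      fun e => n (mem_cent_iff_le_cent_singleton.1 e h.xP)
    obtain ⟨z', b⟩ := exists_LB hA h' h.pp ⟨WW_F p t hw.1, e wP⟩ (P04.orderOf_eq_of_pow h.pp w1 (h.Wp hw.1))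
    have h1 := h.W_eq xW hw.1 fun e => h.ncent wM iw wt
      (zpowers_le.2 hw.2 (mem_zpowers_of_prime (h.zo ▸ h.pp) e w1))
    refine b.nom fun g hg y hy _ => b.cM (cent_le_cent_singleton hw.1
      (conj_mem_of_le_norm (norm_cent (WW_norm p t)) hg ?_))
    rw [← h1, cent_sup, cent_zpowers, cent_zpowers]
    exact ⟨mem_cent_iff_le_cent_singleton.1 h.zK.2 hy.1, b.FM_c hy⟩
  have xs : x ∈ 𝒞[s] := (cs.ge h.xF).2
  have cU : c ∈ 𝒞(UU t) := by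
    have c2 := d.pS.piElt d.cS
    refine cent_UU_of_FF d.cH c2 (h.sc.cent (zpowers_le.2 ((FF_normal t).2 d.cH))
      (IsPiGrp.coprime (piGrp_zpowers_iff.2 c2) (FF_odd t)).symm ((le_cent_sup (zpowers_le.2 ?_)
        (h.cent_F0 (h.two c2) (zpowers_le.2 ⟨SM d.cS, d.cH⟩) (zpowers_le.2 ?_))).trans (cent_anti h.FM_le))
      (mem_zpowers c))
    · exact cent_anti inf_le_right (sw ▸ mul_mem_cent_of_inv (h.tor.inv s sM d.sInv d.st) (h.tor.inv _ wM iw wt))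
    · exact sw ▸ mul_mem (mem_cent_singleton_comm.1 xs) (mem_cent_singleton_comm.1 xw)
  have BM : UU t ⊓ 𝒞[s] ≤ M ⊓ 𝒞[t] := le_inf ((inf_le_inf_right _ (UU_le t)).trans (h.cV s ⟨sE, d.sH⟩ d.sInv d.st))
    (inf_le_left.trans (UU_le t))
  have sU := UU_norm t d.sH
  have UW : ⁅UU t, zpowers s⁆ ≤ 𝒞(WW p t) := comm_le_cent_of_inv
    (fun y hy => inv_of_fpf d.sInv.1 (WW_norm p t d.sH) Ws hy) ((UU_le t).trans (WW_norm p t))
  have UF : ⁅UU t, zpowers s⁆ ≤ 𝒞(FP p t) := comm_le_cent_of_inv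
    (fun y hy => h.tor.inv s sM d.sInv d.st y (h.FP_le hy)) ((UU_le t).trans (FP_norm p t))
  have U1 : ⁅UU t, zpowers s⁆ ⊲ UU t := ⟨comm_le_left (zpowers_le.2 sU), normalizer_commutator_ge_left _ _⟩
  have pC : IsPGrp p (⁅UU t, zpowers s⁆ ⊓ 𝒞[s]) := fun l hl ld => by_contra fun lp => by
    obtain ⟨y, hy, yo⟩ := exists_mem_orderOf_eq hl ld
    have yB := BM ⟨U1.1 hy.1, hy.2⟩
    have py : IsPiGrp {p}ᶜ (zpowers y) := (pGrp_of_card_eq hl ((Nat.card_zpowers y).trans yo)).piGrp lp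
    have h1 : zpowers y ≤ 𝒞[x] := by
      rw [← cent_zpowers, ← comm_eq_bot_iff]
      refine eq_bot_iff.2 ((le_inf (comm_le_right (zpowers_le.2 (h.nx yB))) ((commutator_mono (zpowers_le.2 (UW hy.1))
        le_rfl).trans (comm_le_left (zpowers_le.2 (norm_cent (WW_norm p t) (FF_H t h.xF.1)))))).trans ?_)
      exact ((inf_eq_bot_or_le_of_card_prime (by rw [Nat.card_zpowers, h.xo]; exact h.pp) _).resolve_right
        fun e => h.xcW xW (e (mem_zpowers x))).le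
    have h2 := cent_FF (h.cent_P py (zpowers_le.2 yB.2) h1 (zpowers_le.2 (cent_le_cent_singleton h.zW (UW hy.1))))
      (zpowers_le.2 (UF hy.1))
    have h3 := (le_inf (zpowers_le.2 (U1.1 hy.1)) h2).trans (cent_sub_Fitting (UU_sol t))
    have h4 := h.FP_le (nilpotent_le_pcore (fitting_nil _) h3 py (mem_zpowers y))
    exact hl.one_lt.ne' (yo.symm.trans (orderOf_eq_one_iff.2
      (eq_one_of_fix_inv (UU_odd t) (U1.1 hy.1) hy.2 (h.tor.inv s sM d.sInv d.st y h4))))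
  have h5 := (fix_le_pcore ((UU_odd t).of_le U1.1) d.sInv.1 (normalizer_commutator_ge_right _ _ (mem_zpowers s))
    (comm_comm_zpowers (UU_odd t) d.sInv.1 sU).ge pC).trans ((U1.pcore_le _).trans (PP_le p t))
  refine h.xcW xW ((l.chA d).thmC cU (FF t ⊓ OO M ⊓ 𝒞(WW p t))
    (inf_le_left.trans (cs.ge.trans (inf_le_inf_right _ (FF_le t))))
    (fun y hy => ⟨cs.le ⟨h5 ⟨hy.2, hy.1.2⟩, hy.1.2⟩, UW hy.2⟩)
    (norm_inf (BM.trans (cf_nF0 h.cf)) (norm_cent (BM.trans (inf_le_right.trans (WW_norm p t)))))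
    (fun m => ?_) ⟨FF_le t h.xF.1, xs⟩).2
  obtain ⟨σ, hσ, n⟩ := exists_sigma d h.cf sE m
  exact ⟨σ, ⟨hσ.1, cent_le_norm _ (cent_anti (inf_le_left.trans inf_le_right) (cf_EO h.cf hσ.2))⟩, n⟩

theorem realizeEqns_GW_B9 : True := by
  have := @CA.GW.BA.PP.eq_1.{0}
  have := @CA.GW.BA.PP.eq_def.{0}
  have := @CA.GW.BA.PP.congr_simp.{0}
  have := @CA.GW.BA.FP.eq_1.{0}
  have := @CA.GW.BA.FP.eq_def.{0}
  have := @CA.GW.BA.FP.congr_simp.{0}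
  have := @CA.GW.BA.WW.eq_1.{0}
  have := @CA.GW.BA.WW.eq_def.{0}
  have := @CA.GW.BA.WW.congr_simp.{0}
  trivial

end CA.GW.BA
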