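/-
The second case: `F = Z(F) W` with `W` extraspecial of order `p ^ 3`.
-/
import Cfsg.Agent.GW.B9

set_option autoImplicit false
set_option linter.unusedSectionVars false

namespace CA.GW.BA

open Subgroup Cfsg CA.FG CA.BG CA.Dih
open scoped commutatorElement

universe u v

variable {G : Type u} [Group G] [Finite G] {p q r : ℕ} {t x z : G} {M E K : Subgroup G}

/-- `C_U(Z(F))` -/
abbrev UH (t : G) : Subgroup G := UU t ⊓ 𝒞(𝒵(FF t))

theorem ZF_normal (t : G) : 𝒵(FF t) ⊲ 𝒞[t] := (charIn_center _).trans_normal (FF_normal t)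

theorem UH_norm (t : G) : 𝒞[t] ≤ 𝒩(UH t) := norm_inf (UU_norm t) (norm_cent (ZF_normal t).2)

theorem F_UH (t : G) : FF t ≤ UH t := le_inf (FF_le t) (le_cent_symm inf_le_right)

theorem UH_H (t : G) : UH t ≤ 𝒞[t] := inf_le_left.trans (UU_le t)

theorem UH_odd (t : G) : IsPiGrp {2}ᶜ (UH t) := (UU_odd t).inf_left _

theorem relIndex_of_comm_le {U A : Subgroup G} {v : G} (oU : IsPiGrp {2}ᶜ U) (v2 : v * v = 1) (vU : v ∈ 𝒩(U))
    (hA : A ⊲ U) (h : ⁅U, zpowers v⁆ ≤ A) : (𝒞[v]).relIndex U = (𝒞[v]).relIndex A := by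
  have e : A ⊔ (U ⊓ 𝒞[v]) = U := le_antisymm (sup_le hA.1 inf_le_left)
    ((comm_sup_cent oU v2 vU).ge.trans (sup_le_sup_right h _))
  have := relIndex_sup_right' (H := A) (K := U ⊓ 𝒞[v]) (.inr (inf_le_left.trans hA.2))
  rwa [e, inf_comm, inf_relIndex_right, ← inf_relIndex_right _ A, inf_assoc, inf_eq_right.2 hA.1,
    inf_relIndex_right] at this

namespace LB

variable (h : LB t M E K q r p x z)
include h

theorem comm_WF {w g : G} (hw : w ∈ WW p t) (hg : g ∈ FF t) : P04.rc w g ∈ zpowers z := by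
  obtain ⟨a, ha, b, hb, rfl⟩ := (mem_sup_of_norm (.inr (norm_of_cent (FF_dprod p t).cent))).1
    ((FF_dprod p t).sup_eq.ge hg)
  have := (FF_dprod p t).cent hb w (WW_le p t hw)
  rw [show P04.rc w (a * b) = b⁻¹ * ((b * w⁻¹ * b⁻¹) * a⁻¹ * w * a) * b by unfold P04.rc; group,
    show b * w⁻¹ * b⁻¹ = w⁻¹ by rw [← conj_inv, ← this, mul_inv_cancel_right]]
  exact conj_mem_of_le_norm' h.nz (FF_H t (pcore_le _ _ hb)) (h.comm_W hw ha)

theorem idxF {w : G} (hw : w ∈ WW p t) {X : Subgroup G} (hX : X ≤ FF t) : (𝒞[w]).relIndex X ≤ p :=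
  (P04.relIndex_cent1_le (Z := zpowers z) fun _ hg => h.comm_WF hw (hX hg)).trans ((Nat.card_zpowers z).trans h.zo).le

theorem zZ : z ∈ 𝒵(FF t) := ⟨h.zK.1.2, h.zK.2⟩

theorem zM : z ∈ FF t ⊓ M := ⟨h.zK.1.2, cf_KM h.cf h.zK.1.1⟩

theorem Z_le : 𝒵(FF t) ≤ FF t ⊓ M := le_inf inf_le_left (inf_le_right.trans ((cent_le_cent_singleton h.xF.1).trans h.cM))

theorem FM_eq : 𝒞[x] ⊓ FF t = FF t ⊓ M :=
  le_antisymm (le_inf inf_le_right (inf_le_left.trans h.cM)) (le_inf h.FM_c inf_le_left)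

theorem ZK (it : IsInv t) : 𝒵(FF t) ≤ K := fun a ha => by
  obtain ⟨v, vE, iv, ne, vH⟩ := h.comp.four t (cf_tE h.cf) it
  have e := inv_of_fpf iv.1 ((ZF_normal t).2 vH) (eq_bot_iff.2 fun y hy => by_contra fun y1 => h.nle
    ((mem_cent_iff_le_cent_singleton.1 hy.1.2).trans (cf_cM h.cf ((h.cs v ⟨vE, vH⟩ iv ne).le ⟨hy.1.1, hy.2⟩) y1))) ha
  obtain ⟨k, hk, b, hb, rfl⟩ := h.star a (h.Z_le ha)
  rw [show v * (k * b) * v⁻¹ = v * k * v⁻¹ * (v * b * v⁻¹) by group, h.tor.inv v ⟨h.comp.le vE, vH⟩ iv ne k hk.2,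
    ← cf_EO h.cf vE b hb.2, mul_inv_cancel_right, ← cf_EO h.cf (h.tor.le hk.2) b hb.2, mul_inv_rev, mul_right_inj] at e
  rw [eq_one_of_inv ((FF_odd t).piElt hb.1) e, mul_one]
  exact hk.2

end LB

/-- the second case -/
structure LC (t : G) (M E K : Subgroup G) (q r p : ℕ) (x z : G) : Prop extends LB t M E K q r p x z where
  xW : x ∈ WW p t
  it : IsInv t

namespace LC

variable (h : LC t M E K q r p x z)
include h

theorem W_nle : ¬ WW p t ≤ M := fun e => h.nom fun g hg y hy yp => by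
  obtain ⟨a, ha, b, hb, rfl⟩ := h.om hy yp
  exact e (conj_mem_of_le_norm (WW_norm p t) hg (mul_mem (zpowers_le.2 h.zW ha) (zpowers_le.2 h.xW hb)))

theorem es : ES p (WW p t) := by
  have e : zpowers z ⊔ zpowers x = 𝒞[x] ⊓ WW p t := le_antisymm
    (sup_le (zpowers_le.2 ⟨h.FM_c h.zM, h.zW⟩) (zpowers_le.2 ⟨mem_cent_singleton_self x, h.xW⟩)) fun y hy => by
      obtain ⟨a, ha, b, hb, rfl⟩ := h.om ⟨WW_F p t hy.2, h.cM hy.1⟩ (h.Wp hy.2)
      exact mul_mem (mem_sup_left ha) (mem_sup_right hb)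
  have c := P04.card_sup_zpowers h.pp (h.nz (FF_H t h.xF.1)) h.xz (h.xp ▸ one_mem _)
  rw [e, Nat.card_zpowers, h.zo] at c
  have n : ¬ WW p t ≤ 𝒞[x] := fun e => h.W_nle (e.trans h.cM)
  refine ⟨h.pp, le_antisymm ?_ ?_, fun e => n ((abelian_iff_le_cent.1 e).trans (cent_le_cent_singleton h.xW))⟩
  · rw [← card_inf_mul_relIndex 𝒞[x], c, pow_three, mul_assoc]
    exact Nat.mul_le_mul_left _ (Nat.mul_le_mul_left _ (h.idxW h.xP))
  · have := mul_card_le ((pcore_pGrp p _).of_le (WW_le p t)) (inf_lt_right.2 n)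
    rwa [c, ← pow_three] at this

theorem F_eq {w : G} (hw : w ∈ WW p t) (wM : w ∉ M) :
    (FF t ⊓ M) ⊔ zpowers w = FF t ∧ Nat.card (FF t) = Nat.card (FF t ⊓ M : Subgroup G) * p := by
  have c := P04.card_sup_zpowers (M := FF t ⊓ M) h.pp (mem_norm_of_forall fun y hy => by
      have := mul_mem hy (inv_mem (zpowers_le.2 h.zM (h.comm_WF (inv_mem hw) hy.1)))
      rwa [show y * (P04.rc w⁻¹ y)⁻¹ = w * y * w⁻¹ by unfold P04.rc; group] at this)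
    (fun e => wM e.2) (h.Wp hw ▸ one_mem _)
  have e := eq_of_le_of_card_ge (sup_le inf_le_left (zpowers_le.2 (WW_F p t hw))) (by
    rw [c, ← card_inf_mul_relIndex 𝒞[x], h.FM_eq]; exact Nat.mul_le_mul_left _ (h.idxF h.xW le_rfl))
  exact ⟨e, by rw [← c, e]⟩

theorem cardFM : Nat.card (FF t) = Nat.card (FF t ⊓ M : Subgroup G) * p :=
  let ⟨_, hw, wM⟩ := SetLike.not_le_iff_exists.1 (h.W_nle)
  (h.F_eq hw wM).2

theorem idx : (𝒞[x]).relIndex (FF t) = p :=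
  Nat.eq_of_mul_eq_mul_left (Nat.card_pos (α := (FF t ⊓ M : Subgroup G)))
    (by rw [← h.cardFM, ← h.FM_eq, card_inf_mul_relIndex])

theorem FM_sup : 𝒵(FF t) ⊔ zpowers x = FF t ⊓ M ∧ Nat.card (FF t ⊓ M : Subgroup G) = Nat.card ↥𝒵(FF t) * p := by
  obtain ⟨w, hw, wM⟩ := SetLike.not_le_iff_exists.1 (h.W_nle)
  have c := P04.card_sup_zpowers (M := 𝒵(FF t)) h.pp ((ZF_normal t).2 (FF_H t h.xF.1)) (fun e => h.xc e.2)
    (h.xp ▸ one_mem _)
  have e := eq_of_le_of_card_ge (sup_le h.Z_le (zpowers_le.2 h.xM)) (by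
    rw [c, ← card_inf_mul_relIndex 𝒞[w]]
    refine Nat.mul_le_mul (card_le_of_le (le_inf (inf_le_right.trans inf_le_left) ?_)) (h.idxF  hw inf_le_left)
    conv_rhs => rw [← (h.F_eq hw wM).1]
    exact le_cent_sup (inf_le_right.trans (abelian_iff_le_cent.1 h.FM_ab)) (inf_le_left.trans (cent_zpowers w).ge))
  exact ⟨e, e ▸ c⟩

theorem cardF : Nat.card (FF t) = Nat.card ↥𝒵(FF t) * p * p := by rw [h.cardFM, (h.FM_sup).2]

theorem ZW : 𝒵(FF t) ⊔ WW p t = FF t := by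
  obtain ⟨w, hw, wM⟩ := SetLike.not_le_iff_exists.1 (h.W_nle)
  refine le_antisymm (sup_le inf_le_left (WW_F p t)) ((h.F_eq hw wM).1.ge.trans ?_)
  rw [← (h.FM_sup).1]
  exact sup_le (sup_le_sup_left (zpowers_le.2 h.xW) _) (zpowers_le.2 (mem_sup_right hw))

theorem split {a : G} (ha : a ∈ FF t ⊓ M) : ∃ y ∈ 𝒵(FF t), ∃ b ∈ zpowers x, y * b = a :=
  (mem_sup_of_norm (.inr (zpowers_le.2 ((ZF_normal t).2 (FF_H t h.xF.1))))).1 ((h.FM_sup).1.ge ha)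

theorem KZ : FF t ⊓ K ≤ 𝒵(FF t) := fun a ha => by
  obtain ⟨y, hy, b, hb, rfl⟩ := h.split ⟨ha.1, cf_KM h.cf ha.2⟩
  rwa [cf_KO h.cf ((mul_mem_cancel_left (h.ZK h.it hy)).1 ha.2) (zpowers_le.2 h.xF.2 hb), mul_one]

theorem F0_eq : FF t ⊓ OO M = zpowers x := le_antisymm (fun a ha => by
  obtain ⟨y, hy, b, hb, rfl⟩ := h.split ⟨ha.1, pcore_le _ M ha.2⟩
  rwa [cf_KO h.cf (h.ZK h.it hy) ((mul_mem_cancel_right (zpowers_le.2 h.xF.2 hb)).1 ha.2), one_mul]) (zpowers_le.2 h.xF)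

theorem ZWz : 𝒵(WW p t) = zpowers z := (eq_zpowers_of_card_prime (by rw [(h.es).cardZ]; exact h.pp)
  ⟨h.zW, cent_anti (WW_F p t) h.zK.2⟩ h.z1)

theorem cZW {A : Subgroup G} (e : A ≤ 𝒞(𝒵(FF t))) : A ≤ 𝒞(𝒵(WW p t)) :=
  h.ZWz ▸ e.trans (cent_anti (zpowers_le.2 h.zZ))

theorem der : ⁅FF t, FF t⁆ ≤ 𝒵(FF t) := by
  conv_lhs => rw [← h.ZW, comm_sup_self_of_cent ((WW_F p t).trans (le_cent_symm inf_le_right)),
    der_eq_bot_iff.2 (abelian_inf_cent _), bot_sup_eq, (h.es).der, h.ZWz]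
  exact zpowers_le.2 h.zZ

theorem mem_W {y : G} (hy : y ∈ FF t) (e : y ^ p = 1) : y ∈ WW p t :=
  mem_ohm1 (P04.le_ucnOf_two le_rfl ((der_mono (PP_le p t)).trans ((h.der).trans
    (inf_le_right.trans (cent_anti (PP_le p t))))) (mem_PP h.pp hy e)) e

theorem cent_F {A : Subgroup G} (h1 : A ≤ 𝒞(𝒵(FF t))) (h2 : A ≤ 𝒞(WW p t)) : A ≤ 𝒞(FF t) :=
  (le_cent_sup h1 h2).trans (cent_anti h.ZW.ge)

theorem UH_cent : UH t ⊓ 𝒞(WW p t) ≤ FF t := (le_inf (inf_le_left.trans inf_le_left)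
  (h.cent_F (inf_le_left.trans inf_le_right) inf_le_right)).trans (cent_sub_Fitting (UU_sol t))

theorem FP_Z : FP p t ≤ 𝒵(FF t) := (le_inf (pcore_le _ _) h.FP_le).trans h.KZ

theorem cZ : IsCyclic ↥𝒵(FF t) := cyclic_of_le h.tor.cyc (h.ZK h.it)

theorem p'_Z {X : Subgroup G} (hX : X ≤ FF t) (pX : IsPiGrp {p}ᶜ X) : X ≤ 𝒵(FF t) :=
  (nilpotent_le_pcore (fitting_nil _) hX pX).trans h.FP_Z

theorem p'_W {X : Subgroup G} (hX : X ≤ FF t) (pX : IsPiGrp {p}ᶜ X) : X ≤ 𝒞(WW p t) :=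
  (h.p'_Z hX pX).trans (inf_le_right.trans (cent_anti (WW_F p t)))

theorem invs (hII : CfgII t) (hA : NoA t) {v : G} (hv : v ∈ 𝒞[t]) (iv : IsInv v) (ne : v ≠ t) :
    (∀ y ∈ 𝒵(FF t), v * y * v⁻¹ = y⁻¹) ∧ ∃ a ∈ WW p t, orderOf a = p ∧ FF t ⊓ 𝒞[v] = zpowers a := by
  have n : v ∉ 𝒞(PP p t) := fun e => h.ncent ⟨h.cM (cent_le_cent_singleton h.xP e), hv⟩ iv ne
    (mem_cent_iff_le_cent_singleton.1 e h.zP)
  have n0 : PP p t ⊓ 𝒞[v] ≠ ⊥ := fun e =>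
    h.es.nab (abelian_of_le (abelian_of_fpf iv.1 (PP_norm p t hv) e) (WW_le p t))
  obtain ⟨M', E', K', q', r', h', e⟩ := hII v hv iv ne p h.pp n0 n
  obtain ⟨a, ha, ao⟩ := IsPGrp.exists_orderOf_eq ((pcore_pGrp p _).inf_left _) n0
  have aF := PP_le p t ha.1
  obtain ⟨z', b⟩ := exists_LB hA h' h.pp ⟨aF, e ha⟩ ao
  have b' : LC t M' E' K' q' r' p a z' := ⟨b, h.mem_W aF b.xp, h.it⟩
  have i := fun y hy => b.tor.inv v ⟨b.cM (mem_cent_singleton_comm.1 ha.2), hv⟩ iv ne y (b.ZK h.it hy)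
  refine ⟨i, a, b'.xW, ao, le_antisymm (le_of_forall_pElt fun l _ y hy py => ?_) (zpowers_le.2 ⟨aF, ha.2⟩)⟩
  have h1 := zpowers_le.2 hy.1
  by_cases lp : l = p
  · exact b'.F0_eq.le ⟨hy.1, e ⟨le_pcore_of_le_fitting h1 (piGrp_zpowers_iff.2 (lp ▸ py)) (mem_zpowers y), hy.2⟩⟩
  · rw [eq_one_of_fix_inv (FF_odd t) hy.1 hy.2
      (i y (h.p'_Z h1 (IsPGrp.piGrp (piGrp_zpowers_iff.2 py) lp) (mem_zpowers y)))]
    exact one_mem _

theorem derU : ⁅UU t, UU t⁆ ≤ FF t := by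
  refine rank2_der1_sub_Fitting (Nat.odd_iff.2 (Nat.two_dvd_ne_zero.1
    ((piGrp_compl_singleton_iff Nat.prime_two).1 (UU_odd t)))) (UU_sol t)
    (rank_le_iff.2 fun l hl => (pRank_le_iff hl).2 fun A hA ab => ?_)
  by_cases lp : l = p
  · subst lp
    exact h.es.card_le (lt_of_le_of_ne (fun y hy => h.mem_W (hA hy) (ab.2 y hy)) fun e => h.es.nab (e ▸ ab.1))
  · exact ((abelem_cyclic_iff hl ab).1 (cyclic_of_le h.cZ (h.p'_Z hA ((abelem_pGrp hl ab).piGrp lp)))).trans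
      (Nat.le_self_pow two_ne_zero l)

theorem p_le {X : Subgroup G} (hX : X ≤ UH t) (pX : IsPGrp p X) : X ≤ FF t := by
  have e : FF t ≤ X ⊔ PP p t ⊔ FP p t := (FF_dprod p t).sup_eq.ge.trans (sup_le_sup_right le_sup_right _)
  refine (le_sup_left.trans le_sup_left).trans (fitting_max (normalIn_of_der_le (h.derU.trans e)
    (sup_le (sup_le (hX.trans inf_le_left) (pcore_le _ _)) ((pcore_le _ _).trans (FF_le t))))
    (nil_sup_of_cent (IsPGrp.nil (pX.sup (pcore_pGrp p _) (.inl (hX.trans ((UH_H t).trans (PP_norm p t))))))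
      (nil_of_le (fitting_nil _) (pcore_le _ _)) (le_cent_sup ?_ (FF_dprod p t).cent)))
  exact h.FP_Z.trans (le_cent_symm (hX.trans inf_le_right))

theorem idx_p' : PiNat {p}ᶜ ((FF t).relIndex (UH t)) :=
  let ⟨_, hP⟩ := sylow_exists h.pp (UH t)
  piNat_relIndex_of_le_left (h.p_le hP.le hP.pGrp) hP.index

section Hall

variable {Q : Subgroup G} (hQ : IsPiHallOf {p}ᶜ Q (UH t))
include hQ

theorem Q_sup : FF t ⊔ Q = UH t := hQ.sup_eq_of_index (F_UH t) h.idx_p'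

theorem Q_der : ⁅Q, Q⁆ ≤ 𝒞(WW p t) :=
  h.p'_W ((der_mono (hQ.le.trans inf_le_left)).trans h.derU) (hQ.piGrp.of_le (der_le Q))

theorem Q_idx : (𝒞(WW p t)).relIndex Q = (FF t).relIndex (UH t) := by
  rw [← h.Q_sup hQ, relIndex_sup_of_right_le_norm (hQ.le.trans ((UH_H t).trans (FF_normal t).2)),
    ← inf_relIndex_right, ← inf_relIndex_right (FF t), le_antisymm
      (le_inf ((le_inf (inf_le_right.trans hQ.le) inf_le_left).trans h.UH_cent) inf_le_right)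
      (le_inf (h.p'_W inf_le_left (hQ.piGrp.inf_right _)) inf_le_right)]

end Hall

theorem hall {A : Subgroup G} (hA : A ≤ 𝒞[t]) (pA : IsPGrp 2 A) : ∃ Q, IsPiHallOf {p}ᶜ Q (UH t) ∧ A ≤ 𝒩(Q) :=
  coprime_Hall_exists _ (hA.trans (UH_norm t)) (pA.coprime (UH_odd t)).symm (sol_of_odd (UH_odd t))

theorem dich (hII : CfgII t) (hA : NoA t) {v : G} (hv : v ∈ 𝒞[t]) (iv : IsInv v) (ne : v ≠ t) :
    UH t ⊓ 𝒞[v] ≤ FF t ∨ ⁅UH t, zpowers v⁆ ≤ FF t := by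
  obtain ⟨i, a, aW, ao, e⟩ := h.invs hII hA hv iv ne
  obtain ⟨Q, hQ, vQ⟩ := h.hall (zpowers_le.2 hv) (two_zpowers iv.1)
  have vF := (FF_normal t).2 hv
  have nF : UH t ≤ 𝒩(FF t) := (UH_H t).trans (FF_normal t).2
  rw [zpowers_le] at vQ
  by_cases c : Q ⊓ 𝒞[v] ≤ 𝒞(WW p t)
  · left
    rw [← quot_eq_bot_iff (inf_le_left.trans nF), quot_cent1' (FF_odd t) iv.1 (UH_norm t hv) vF, ← h.Q_sup hQ,
      quot_sup_self_left (hQ.le.trans nF), ← quot_cent1' (FF_odd t) iv.1 vQ vF]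
    exact quot_eq_bot_of_le ((le_inf (inf_le_left.trans hQ.le) c).trans h.UH_cent)
  obtain ⟨y, hy, cy⟩ := SetLike.not_le_iff_exists.1 c
  have av := (e.ge (mem_zpowers a)).2
  have := h.es.eig hQ.piGrp ((UH_odd t).of_le hQ.le) (hQ.le.trans ((UH_H t).trans (WW_norm p t)))
    (h.cZW (hQ.le.trans inf_le_right)) (h.Q_der hQ) (WW_norm p t hv) vQ ao (fun c => h.pp.one_lt.ne' (ao.symm.trans
      (orderOf_eq_one_iff.2 (eq_one_of_fix_inv (FF_odd t) (WW_F p t aW) av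
        (i a (zpowers_le.2 h.zZ (h.ZWz.le ⟨aW, c⟩)))))))
    (le_antisymm ((inf_le_inf_right _ (WW_F p t)).trans e.le) (zpowers_le.2 ⟨aW, av⟩)) hy cy
  right
  conv_lhs => rw [← h.Q_sup hQ]
  exact comm_sup_left_le le_normalizer (hQ.le.trans nF) (comm_le_left (zpowers_le.2 vF))
    ((le_inf ((comm_le_left (zpowers_le.2 vQ)).trans hQ.le) this).trans h.UH_cent)

theorem P1 (l : ℕ) (hl : l.Prime) (ld : ¬ l ∣ Nat.card (FF t)) (X : Subgroup G) (hX : X ≤ UH t) (pX : IsPGrp l X) :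
    IsCyclic X ∧ (X ≠ ⊥ → l < p) := by
  have lp : l ≠ p := fun e => ld (by rw [e, h.cardF]; exact Dvd.intro_left _ rfl)
  have i : X ⊓ FF t = ⊥ := inf_eq_bot_of_cop (pX.coprime_of_not_dvd ld)
  obtain ⟨h1, h2⟩ := h.es.cyc (pX.piGrp lp) (hX.trans ((UH_H t).trans (WW_norm p t))) (h.cZW (hX.trans inf_le_right))
    (der_eq_bot_iff.1 (eq_bot_iff.2 ((le_inf (der_le X) ((der_mono (hX.trans inf_le_left)).trans h.derU)).trans i.le)))
    (eq_bot_iff.2 ((le_inf inf_le_left ((inf_le_inf_right _ hX).trans h.UH_cent)).trans i.le))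
  refine ⟨h1, fun X0 => ?_⟩
  have l2 : l ≠ 2 := by simpa using pX.mem_of_piGrp X0 ((UH_odd t).of_le hX)
  have h3 := pX.dvd_card X0
  have := hl.eq_two_or_odd
  have := h.pp.eq_two_or_odd
  have := h.p2
  have := h.pp.two_le
  rcases h2 with h2 | h2 <;> have := Nat.le_of_dvd (by omega) (h3.trans h2) <;> omega

end LC

theorem realizeEqns_GW_B10 : True := by
  have := @CA.GW.BA.UH.eq_1.{0}
  have := @CA.GW.BA.UH.eq_def.{0}
  have := @CA.GW.BA.UH.congr_simp.{0}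
  trivial

end CA.GW.BA
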