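/-
Groups with dihedral Sylow 2-subgroups: cores of local subgroups, construction of the TI configuration.
-/
import Cfsg.Agent.GW.Basic
import Cfsg.Agent.GW.B4

set_option autoImplicit false
set_option linter.unusedSectionVars false

namespace CA.GW

open Subgroup Cfsg CA.FG CA.BG CA.Dih
open scoped commutatorElement

universe u

variable {G : Type u} [Group G] [Finite G] {S : Subgroup G} {c t s a v : G}

namespace L1

theorem four_of (it : IsInv t) (hv : v ∈ 𝒞[t]) (iv : IsInv v) (ne : v ≠ t) : BA.Four t v :=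
  ⟨it, iv, ne.symm, (BA.mem_c1.1 hv).symm⟩

theorem core_cent {N : Subgroup G} (it : IsInv t) (tN : t ∈ N)
    (hR : ∀ r : ℕ, r.Prime → r ≠ 2 → pCoreOf r N ≤ 𝒞[t]) : OO N ≤ 𝒞[t] := by
  have oO : IsPiGrp {2}ᶜ (OO N) := pcore_piGrp _ _
  have h1 : fittingOf (OO N) ≤ 𝒞[t] := fitting_le_of_forall_pcore fun r hr => by
    by_cases r2 : r = 2
    · subst r2
      rw [show pCoreOf 2 (OO N) = ⊥ from pcore_eq_bot_of_piGrp oO]; exact bot_le
    · exact ((pcore_normal _ N).pcore_le _).trans (hR r hr r2)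
  have h2 := coprime_cent_Fitting (A := zpowers t) (H := OO N) (zpowers_le.2 (pcore_norm _ N tN))
    (co_zpowers it.1 oO) (odd_sol oO)
  rw [← cent_zpowers]
  refine le_cent_symm (le_trans (le_inf le_rfl ?_) h2)
  exact le_cent_symm (by rwa [cent_zpowers])

theorem zp_normal (p : ℕ) (t : G) : 𝒵(pCoreOf p (UU t)) ⊲ 𝒞[t] :=
  ⟨inf_le_left.trans ((pcore_le _ _).trans (UU_le t)),
    norm_inf (pcore_UU_normal p t).2 (norm_cent (pcore_UU_normal p t).2)⟩

theorem zp_le (p : ℕ) (U : Subgroup G) : 𝒵(pCoreOf p U) ≤ 𝒵(fittingOf U) := by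
  refine le_inf (inf_le_left.trans (pcore_le_fitting p U)) (le_cent_symm (fitting_le_of_forall_pcore fun r _ => ?_))
  by_cases e : r = p
  · subst e; exact le_cent_symm inf_le_right
  · exact (pcore_cent_of_disjoint (fun x hx hx' => e (by simp_all)) U).trans (cent_anti inf_le_left)

theorem ne_two {p : ℕ} (h : pCoreOf p (UU t) ≠ ⊥) : p ≠ 2 := fun e => by
  subst e; exact h (pcore_eq_bot_of_piGrp (UU_odd t))

theorem odd_ne_top (it : IsInv t) {D : Subgroup G} (oD : IsPiGrp {2}ᶜ D) : D ≠ ⊤ := fun e =>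
  it.2 (eq_one_of_odd oD (e ▸ mem_top t) it.1)

theorem odd_relIndex {T N H : Subgroup G} (hT : IsSylowOf 2 T ⊤) (h1 : T ≤ N) (h2 : T ≤ H) : ¬ 2 ∣ H.relIndex N :=
  fun e => IsSylowOf.not_dvd_index (hT.of_le h1 le_top) Nat.prime_two (e.trans (relIndex_dvd_of_le_left N h2))

theorem pcore_conj (p : ℕ) (t g : G) : pCoreOf p (UU t) :^ g = pCoreOf p (UU (g * t * g⁻¹)) := by
  rw [← UU_conj]; exact pcore_conjg _ _ _

/-- `N(V)` permutes the involutions of `V` cyclically -/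
theorem FV3 (h : DS S c t s) (hv : v ∈ 𝒞[t]) (iv : IsInv v) (ne : v ≠ t) :
    ∃ g, g * t * g⁻¹ = v ∧ g * v * g⁻¹ = t * v ∧ g * (t * v) * g⁻¹ = t := by
  obtain ⟨g, h1, h2⟩ := h.FV hv iv ne
  refine ⟨g, h1, h2, ?_⟩
  rw [show g * (t * v) * g⁻¹ = (g * t * g⁻¹) * (g * v * g⁻¹) by group, h1, h2, ← mul_assoc, BA.mem_c1.1 hv,
    mul_assoc, iv.1, mul_one]

theorem comp_le {X E E' : Subgroup G} (hE : Comp X E) (perf : ⁅E', E'⁆ = E')
    (gen : E' ≤ Subgroup.closure {a | a ∈ E' ∧ IsInv a}) (g : G) (h : E' :^ g ≤ X) : E' :^ g ≤ E := by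
  have h1 : E' :^ g ≤ E ⊔ OO X := by
    rw [← perf, conjg_comm]; exact (commutator_mono h h).trans hE.der
  rw [conjg_le_iff]
  refine gen.trans ((closure_le _).2 fun a ha => ?_)
  exact mem_conjg_inv.2 (hE.two _ (h1 (conj_mem_conjg g ha.1)) (ha.2.conj g).two)

theorem comp_le' {X E M' E' : Subgroup G} (hE : Comp X E) (hE' : Comp M' E') (h : E' ≤ X) : E' ≤ E := by
  have := comp_le hE hE'.perf hE'.gen 1 (by rwa [conjg_of_mem (one_mem _)])
  rwa [conjg_of_mem (one_mem _)] at this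

end L1

open L1

variable [IsSimpleGroup G]

namespace Loc
variable (h : Loc S c t s)
include h

theorem cent_zp {p : ℕ} (hp : pCoreOf p (UU t) ≠ ⊥) : 𝒞(𝒵(pCoreOf p (UU t))) ≤ 𝒞[t] := by
  rw [← h.norm_eq (zp_normal p t) (center_pcore_ne_bot hp)]; exact cent_le_norm _

theorem pcore_cent {N : Subgroup G} {r : ℕ} (tN : t ∈ N) (hr : pCoreOf r (UU t) ≠ ⊥)
    (ZN : 𝒵(pCoreOf r (UU t)) ≤ N) : pCoreOf r N ≤ 𝒞[t] := by
  have r2 := ne_two hr
  have := coprime_A_times_B (p := r) (A := zpowers t) (B := 𝒵(pCoreOf r (UU t))) (P := pCoreOf r N) (pcore_pGrp _ _)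
    ((pcore_pGrp _ _).of_le inf_le_left) ((two_zpowers h.inv.1).piGrp (by simpa using r2.symm))
    (zpowers_le.2 (pcore_norm _ N tN)) (ZN.trans (pcore_norm _ N))
    (le_cent_symm (by rw [cent_zpowers]; exact (zp_normal r t).1))
    (le_cent_symm (by rw [cent_zpowers]; exact inf_le_right.trans (h.cent_zp hr)))
  rw [← cent_zpowers]; exact le_cent_symm this

theorem T1 {N : Subgroup G} (hv : v ∈ 𝒞[t]) (iv : IsInv v) (ne : v ≠ t) (tN : t ∈ N) (vN : v ∈ N)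
    (ZN : 𝒵(FF t) ≤ N)
    (hw : ∀ w, w = v ∨ w = t * v → FF w ⊓ 𝒞[t] ≤ N ∨ ⁅UU w, zpowers t⁆ ≤ FF w) : OO N ≤ 𝒞[t] := by
  refine core_cent h.inv tN fun r hr r2 => ?_
  by_cases r0 : pCoreOf r (UU t) = ⊥
  swap
  · exact h.pcore_cent tN r0 ((zp_le r _).trans ZN)
  set R := pCoreOf r N with hR
  have pR : IsPGrp r R := pcore_pGrp _ _
  have oR : IsPiGrp {2}ᶜ R := odd_of_pGrp pR r2
  have nR : N ≤ 𝒩(R) := pcore_norm _ _
  have f := four_of h.inv hv iv ne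
  have key : ∀ w, w = v ∨ w = t * v → R ⊓ 𝒞[w] ≤ 𝒞[t] := fun w e => by
    have iw : IsInv w := by rcases e with rfl | rfl; exacts [iv, f.ts]
    have tw : t ∈ 𝒞[w] := by
      rcases e with rfl | rfl
      exacts [f.cs, f.left.cs]
    obtain ⟨g, rfl⟩ := h.exists_conj iw
    set w := g * t * g⁻¹ with hw'
    have r0' : pCoreOf r (UU w) = ⊥ := by rw [hw', ← pcore_conj, r0]; simp [conjg_def]
    have tn : t ∈ 𝒩(R ⊓ 𝒞[w]) := zpowers_le.1 (norm_inf (zpowers_le.2 (nR tN)) (norm_of_le (zpowers_le.2 tw)))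
    set P : Subgroup G := ⁅R ⊓ 𝒞[w], zpowers t⁆ with hP
    have P1 : P ≤ R ⊓ 𝒞[w] := comm_le_left (zpowers_le.2 tn)
    have PU : R ⊓ 𝒞[w] ≤ UU w := h.le_UU iw inf_le_right (oR.of_le inf_le_left)
    have pP : IsPGrp r P := pR.of_le (P1.trans inf_le_left)
    have PF : P ≤ FF w := by
      rcases hw w e with h1 | h1
      · refine le_trans (le_inf (P1.trans PU) ?_) (cent_sub_Fitting (UU_sol w))
        have co := coprime_fitting_of_pcore pR r0'
        refine cent_of_cent_fix (u := t) (fitting_nil _) (FF_odd w) h.inv.1 ((FF_normal w).2 tw)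
          (zpowers_le.1 (norm_comm (zpowers_le.2 tn) (norm_of_le le_rfl)))
          ((P1.trans inf_le_right).trans (FF_normal w).2) (co.coprime_dvd_right (card_dvd_of_le (P1.trans inf_le_left)))
          (comm_comm_zpowers (oR.of_le inf_le_left) h.inv.1 tn).ge ?_
        rw [← comm_eq_bot_iff, eq_bot_iff, ← inf_eq_bot_of_cop co]
        exact le_inf ((commutator_mono inf_le_left le_rfl).trans
          (comm_le_left ((P1.trans inf_le_right).trans (FF_normal w).2)))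
          ((commutator_mono h1 (P1.trans inf_le_left)).trans (comm_le_right nR))
      · exact (commutator_mono PU le_rfl).trans h1
    have P0 : P = ⊥ := eq_bot_iff.2 ((le_pcore_of_le_fitting PF pP).trans r0'.le)
    rw [← cent_zpowers t]; exact comm_eq_bot_iff.1 P0
  exact f.gen oR (nR tN) (nR vN) inf_le_right (key _ (.inl rfl)) (key _ (.inr rfl))

theorem T1' {N Y : Subgroup G} (hY : SC Y (UU t)) (YN : Y ≤ N) (tN : t ∈ N) (hv : v ∈ 𝒞[t]) (iv : IsInv v)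
    (ne : v ≠ t) (vN : v ∈ N) (c1 : ∃ g ∈ N, g * t * g⁻¹ = v) (c2 : ∃ g ∈ N, g * t * g⁻¹ = t * v) :
    OO N ≤ 𝒞[t] := by
  refine core_cent h.inv tN fun r hr r2 => ?_
  by_cases r0 : pCoreOf r (UU t) = ⊥
  swap
  · exact h.pcore_cent tN r0 (((hY.p_center_le r).trans (pcore_le _ _)).trans YN)
  set R := pCoreOf r N with hR
  have pR : IsPGrp r R := pcore_pGrp _ _
  have oR : IsPiGrp {2}ᶜ R := odd_of_pGrp pR r2
  have nR : N ≤ 𝒩(R) := pcore_norm _ _
  have f := four_of h.inv hv iv ne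
  have h1 : R ⊓ UU t = ⊥ := pcore_inf_eq_bot hY (by rw [layerOf_eq_bot_of_sol (UU_sol t)]; exact bot_le) YN r0
  have h2 : R ⊓ 𝒞[t] = ⊥ := eq_bot_iff.2 (h1 ▸ le_inf inf_le_left (h.le_UU h.inv inf_le_right (oR.of_le inf_le_left)))
  have h3 : ∀ g ∈ N, R ⊓ 𝒞[g * t * g⁻¹] = ⊥ := fun g hg => by
    rw [← conjg_cent1, ← conjg_of_mem_norm (nR hg), ← conjg_inf, h2]; simp [conjg_def]
  obtain ⟨g1, m1, e1⟩ := c1
  obtain ⟨g2, m2, e2⟩ := c2
  exact le_trans (f.gen oR (nR tN) (nR vN) h2.le (e1 ▸ h3 g1 m1).le (e2 ▸ h3 g2 m2).le) bot_le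

theorem T2 {N Y : Subgroup G} (sN : Group.IsSolvable N) (hY : SC Y (UU t)) (YN : Y ≤ N) (tN : t ∈ N)
    (hO : OO N ≤ 𝒞[t]) : N ≤ 𝒞[t] := by
  set T := pCoreOf 2 N with hT
  have pT : IsPGrp 2 T := pcore_pGrp _ _
  have nT : N ≤ 𝒩(T) := pcore_norm _ _
  obtain ⟨p, hp, p0⟩ := exists_pcore_ne_bot (UU_sol t) h.U1
  have zn := zp_normal p t
  have zo : IsPiGrp {2}ᶜ (𝒵(pCoreOf p (UU t))) := (UU_odd t).of_le (inf_le_left.trans (pcore_le _ _))
  have ZN : 𝒵(pCoreOf p (UU t)) ≤ N := ((hY.p_center_le p).trans (pcore_le _ _)).trans YN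
  have h1 := coprime_A_times_B (p := 2) (A := 𝒵(pCoreOf p (UU t))) (B := zpowers t) (P := T) pT
    (two_zpowers h.inv.1) zo (ZN.trans nT) (zpowers_le.2 (nT tN)) (by rw [cent_zpowers]; exact zn.1) (by
      rw [cent_zpowers]
      refine le_cent_of_norm_of_inf_eq_bot (inf_le_right.trans zn.2)
        (norm_inf (ZN.trans nT) (norm_of_le zn.1)) ?_
      rw [inf_comm]; exact (IsPiGrp.of_le pT inf_le_left).inf_eq_bot zo)
  have TH : T ≤ 𝒞[t] := (le_cent_symm h1).trans (h.cent_zp p0)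
  have tF : t ∈ fittingOf N := cent_sub_Fitting sN ⟨tN, mem_cent_iff_le_cent_singleton.2
    (fitting_le_of_forall_pcore fun r _ => by
      by_cases r2 : r = 2
      · subst r2; exact TH
      · exact (pcore_mono_pi (by simpa using Ne.symm r2) N).trans hO)⟩
  have tT : t ∈ T := zpowers_le.1 (le_pcore_of_le_fitting (zpowers_le.2 tF) (two_zpowers h.inv.1))
  have co := (IsPiGrp.coprime pT (FF_odd t)).symm
  have TF : T ≤ 𝒞(FF t) := hY.cent (TH.trans (FF_normal t).2) co (by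
    rw [← comm_eq_bot_iff, eq_bot_iff, ← inf_eq_bot_of_cop co]
    exact le_inf ((commutator_mono le_rfl hY.le).trans (comm_le_right (TH.trans (FF_normal t).2)))
      (comm_le_left (YN.trans nT)))
  intro g hg
  have m : g * t * g⁻¹ ∈ T := (mem_normalizer_iff.1 (nT hg) t).1 tT
  by_contra hc
  exact h.L0' (TH m) (h.inv.conj g) (fun e => hc (cent_of_conj_eq e)) (TF m)

/-- a proper subgroup containing a component through `t` and a self-centralizing part of `F` has a component -/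
theorem grow {N M' E' : Subgroup G} (hN : N ≠ ⊤) (hE : Comp M' E') (tE : t ∈ E') (EN : E' ≤ N)
    (hY : SC (FF t ⊓ N) (UU t)) :
    ∃ E, Comp N E ∧ E' ≤ E ∧ ((∃ K q r, Tor N E K t q r) ∨ TorA N E t) := by
  obtain ⟨b, bE, ib, bt, bc⟩ := hE.four t tE h.inv
  have f := four_of h.inv bc ib bt
  have h1 := h.T1' hY inf_le_right (EN tE) bc ib bt (EN bE)
    (by obtain ⟨g, m, e⟩ := hE.conj t tE b bE h.inv ib; exact ⟨g, EN m, e⟩)
    (by obtain ⟨g, m, e⟩ := hE.conj t tE _ (mul_mem tE bE) h.inv f.ts; exact ⟨g, EN m, e⟩)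
  obtain ⟨E, cE, hT⟩ := h.xc N hN (fun e => hE.nsol (sol_of_le e EN)) ⟨t, EN tE, h.inv, h1⟩
  have le := comp_le' cE hE EN
  exact ⟨E, cE, le, hT t (le tE) h.inv⟩

theorem cfg_of {D E : Subgroup G} (D0 : D ≠ ⊥) (DF : D ≤ FF t) (hE : Comp 𝒩(D) E) (tE : t ∈ E) :
    ∃ M E' K q r, Cfg t M E' K q r ∧ E ≤ E' := by
  have nt : ∀ D : Subgroup G, D ≠ ⊥ → D ≤ FF t → 𝒩(D) ≠ ⊤ := fun D a b =>
    norm_ne_top a (odd_ne_top h.inv ((FF_odd t).of_le b))
  obtain ⟨E', ⟨D', D0', DF', hE', le'⟩, mx⟩ := Set.Finite.exists_maximal (Set.toFinite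
    {E' : Subgroup G | ∃ D' : Subgroup G, D' ≠ ⊥ ∧ D' ≤ FF t ∧ Comp 𝒩(D') E' ∧ E ≤ E'}) ⟨E, D, D0, DF, hE, le_rfl⟩
  have tE' := le' tE
  have E0 : E' ≠ ⊥ := fun e => h.inv.2 (by rwa [e, mem_bot] at tE')
  have hM : 𝒩(E') ≠ ⊤ := norm_ne_top E0 fun e => nt D' D0' DF' (eq_top_iff.2 (e ▸ hE'.le))
  have sY : SC (FF t ⊓ 𝒩(E')) (UU t) := sc_of_norm' DF' hE'.norm
  obtain ⟨E2, c2, le2, hT⟩ := h.grow hM hE' tE' le_normalizer sY
  have e2 : E2 = E' := le_antisymm (c2.gen.trans ((closure_le _).2 fun a ha => by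
    obtain ⟨g, m, e⟩ := c2.conj t (le2 tE') a ha.1 h.inv ha.2
    exact e ▸ (mem_normalizer_iff.1 (c2.le m) t).1 tE')) le2
  subst e2
  have nD : ∀ D1 : Subgroup G, D1 ≤ FF t ⊓ OO 𝒩(E2) → D1 ≠ ⊥ → 𝒩(D1) ≤ 𝒩(E2) := fun D1 l1 n1 => by
    have l2 : E2 ≤ 𝒩(D1) := norm_of_cent' ((l1.trans inf_le_right).trans (c2.cent.ge.trans inf_le_right))
    obtain ⟨E3, c3, le3, -⟩ := h.grow (nt D1 n1 (l1.trans inf_le_left)) c2 tE' l2
      (sc_of_norm' (l1.trans inf_le_left) le_rfl)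
    have := le_antisymm (mx ⟨D1, n1, l1.trans inf_le_left, c3, le'.trans le3⟩ le3) le3
    exact this ▸ c3.norm
  rcases hT with ⟨K, q, r, hT⟩ | hT
  · refine ⟨_, E2, K, q, r, ⟨c2, hT, hM, fun e => D0' (eq_bot_iff.2 (e ▸ le_inf DF' ?_)), nD, fun x hx x1 g hg => ?_⟩,
      le'⟩
    · have : D' ≤ 𝒞(E2) := (pcore_max ⟨le_normalizer, le_rfl⟩ ((FF_odd t).of_le DF')).trans
        (hE'.cent.ge.trans inf_le_right)
      exact (le_inf (this.trans (cent_le_norm _)) this).trans c2.cent.le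
    · have l1 : E2 :^ g⁻¹ ≤ 𝒩(E2) := by
        refine le_trans ?_ (nD (zpowers x) (zpowers_le.2 hx) (by simpa using x1))
        refine le_trans ?_ (cent_le_norm _)
        rw [cent_zpowers, conjg_le_iff, inv_inv, conjg_cent1]
        exact mem_cent_iff_le_cent_singleton.1 (c2.cent.ge hg.2).2
      exact (inv_mem_iff).1 (mem_norm_of_conjg_le (comp_le c2 c2.perf c2.gen g⁻¹ l1))
  · obtain ⟨s1, m1, i1, n1, c1⟩ := hT.ex
    refine absurd (zpowers_le.1 (sY.cent (R := zpowers s1) (zpowers_le.2 ((FF_normal t).2 m1.2))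
      (co_zpowers i1.1 (FF_odd t)) (le_cent_symm ?_))) (h.L0' m1.2 i1 n1)
    rw [cent_zpowers]
    exact fun y hy => c1 y ⟨hy.2, (FF_normal t).1 hy.1⟩
      ((piNat_compl_singleton_iff Nat.prime_two).1 ((FF_odd t).piElt hy.1))

end Loc

end CA.GW
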