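/-
Groups with dihedral Sylow 2-subgroups: three lemmas for the second subcase of case B.
-/
import Cfsg.Agent.GW.B9
import Cfsg.Agent.GW.L1a

set_option autoImplicit false
set_option linter.unusedSectionVars false

namespace CA.GW

open Subgroup Cfsg CA.FG CA.BG CA.Dih
open scoped commutatorElement

universe u

variable {G : Type u} [Group G] [Finite G] {S M E K : Subgroup G} {c t s x y z v : G} {q r p : ℕ}

theorem qr_dvd (h : CfF t M E K q r) (hs : s ∈ E ⊓ 𝒞[t]) (is : IsInv s) (st : s ≠ t) : q * r ∣ nn t * kk t s := by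
  have e1 : (𝒞[t]).relIndex M * M.index = M.relIndex 𝒞[t] * (𝒞[t]).index := by
    rw [← inf_relIndex_right 𝒞[t], ← inf_relIndex_right M, relIndex_mul_index inf_le_right,
      relIndex_mul_index inf_le_right, inf_comm]
  rw [h.tor.idx] at e1
  refine (Dvd.intro _ e1).trans ?_
  rw [mul_comm]
  refine Nat.mul_dvd_mul_left _ ?_
  rw [kk, ← inf_relIndex_right 𝒞[s]]
  exact relIndex_dvd_of_le_left _ ((inf_comm _ _).le.trans (h.cV s hs is st))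

theorem cnt (h : CfF t M E K q r) (hp : p.Prime) (hx : x ∈ FF t ⊓ OO M) (xo : orderOf x = p)
    (ab : FF t ⊓ M ≤ 𝒞[x]) (nM : FF t ≤ 𝒩(FF t ⊓ M)) (idx : (𝒞[x]).relIndex (FF t) = p) :
    (p - 1) * (q * r * (q * r - 1 - Nat.card K)) ≤ nn t := by
  have inj : Set.InjOn zpowers {b | ∃ g ∈ FF t, g * x * g⁻¹ = b} := by
    rintro _ ⟨g, hg, rfl⟩ _ ⟨g', hg', rfl⟩ e
    rw [← conjg_zpowers, ← conjg_zpowers, conjg_eq_conjg_iff] at e
    have := conj_eq_of_cent (ab ⟨(FF t).mul_mem ((FF t).inv_mem hg') hg, h.nD _ (zpowers_le.2 hx)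
      (mt zpowers_eq_bot.1 (ne_one_of_orderOf hp xo)) e⟩)
    calc _ = g' * (g'⁻¹ * g * x * (g'⁻¹ * g)⁻¹) * g'⁻¹ := by group
      _ = _ := by rw [this]
  have x0 : x ∈ {b | ∃ g ∈ FF t, g * x * g⁻¹ = b} := ⟨1, one_mem _, by simp⟩
  have := h.count x hx (xo ▸ hp) (zpowers '' ({b | ∃ g ∈ FF t, g * x * g⁻¹ = b} \ {x})) (by
    rintro _ ⟨_, ⟨⟨g, hg, rfl⟩, h2⟩, rfl⟩
    exact ⟨fun e => h2 (inj ⟨g, hg, rfl⟩ x0 e), zpowers_le.2 (conj_mem_of_mem_norm (nM hg) ⟨hx.1, pcore_le _ M hx.2⟩).2,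
      g, (FF_normal t).1 hg, (conjg_zpowers x g).symm⟩)
  rwa [(inj.mono Set.sdiff_subset).ncard_image, Set.ncard_sdiff_singleton_of_mem x0, ncard_conj, idx] at this

theorem rank_sup_cyc {X Y : Subgroup G} (cX : IsCyclic X) (cY : IsCyclic Y) (n : Y ≤ 𝒩(X)) : rank (X ⊔ Y) ≤ 2 :=
  rank_le_iff.2 fun p hp => (p_rank_quotient hp (sup_le le_normalizer n)).trans (by
    rw [quot_sup_self_left n]
    exact add_le_add (pRank_le_one_of_cyclic hp (cyclic_of_le cX inf_le_left))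
      (pRank_le_one_of_cyclic hp (cyclic_quot X cY)))

theorem cyc_of_uniq {T : Subgroup G} (h : BA.Dh (⊤ : Subgroup G)) (pT : IsPGrp 2 T) (it : IsInv t) (ht : t ∈ T)
    (u : ∀ a ∈ T ⊓ 𝒞[t], IsInv a → a = t) : IsCyclic T := by
  refine (h T le_top pT).elim id fun ⟨d, hd⟩ => ?_
  by_cases h1 : t ∈ zpowers d
  · obtain ⟨a, ha, h2⟩ := SetLike.not_le_iff_exists.1 fun e : T ≤ zpowers d => by
      have := hd.index
      rw [relIndex_eq_one.2 e] at this; omega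
    have := u a ⟨ha, cent_of_conj_eq ((BA.dih_inv hd ha h2 h1).trans it.inv_eq)⟩ ⟨hd.sq a ha h2, fun e => h2 (e ▸ one_mem _)⟩
    exact absurd (this ▸ h1) h2
  by_cases h2 : d = 1
  · have := card_mul_relIndex (zpowers_le.2 hd.mem)
    rw [hd.index, h2, zpowers_one_eq_bot, card_bot] at this
    exact isCyclic_of_card_prime (this ▸ Nat.prime_two)
  · obtain ⟨a, ha, oa⟩ := exists_mem_orderOf_eq Nat.prime_two
      (IsPGrp.dvd_card (pT.of_le (zpowers_le.2 hd.mem)) (mt zpowers_eq_bot.1 h2))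
    have ia := isInv_of_ord oa
    have := u a ⟨zpowers_le.2 hd.mem ha, mem_cent_singleton_comm.1
      (cent_of_conj_eq ((BA.dih_inv hd ht h1 ha).trans ia.inv_eq))⟩ ia
    exact absurd (this ▸ ha) h1

theorem cy [IsSimpleGroup G] (l : Loc S c t s) (hp : p.Prime) (hz : z ∈ 𝒵(FF t)) (zo : orderOf z = p)
    (cZ : IsCyclic ↥𝒵(FF t)) (inv : ∀ a ∈ 𝒞[t], IsInv a → a ≠ t → ⁅UU t, zpowers a⁆ ≤ 𝒞(𝒵(FF t)) ∧
      UU t ⊓ 𝒞(𝒵(FF t)) ⊓ 𝒞[a] ≤ FF t)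
    (P1 : ∀ r : ℕ, r.Prime → ¬ r ∣ Nat.card (FF t) → ∀ X, X ≤ UU t ⊓ 𝒞(𝒵(FF t)) → IsPGrp r X →
      IsCyclic X ∧ (X ≠ ⊥ → r < p))
    (hy : y ∈ UU t ⊓ 𝒞(𝒵(FF t))) (yF : y ∉ FF t) (hv : v ∈ 𝒞[t]) (iv : IsInv v) (ne : v ≠ t)
    (e : v * y * v⁻¹ = y⁻¹) : ∀ a ∈ 𝒞[y], IsInv a → a = t := by
  have u : ∀ a ∈ 𝒞[y] ⊓ 𝒞[t], IsInv a → a = t := fun a ha ia => by_contra fun h =>
    yF ((inv a ha.2 ia h).2 ⟨hy, mem_cent_singleton_comm.1 ha.1⟩)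
  have tN : t ∈ 𝒞[y] := mem_cent_singleton_comm.1 (UU_le t hy.1)
  have ZN : 𝒵(FF t) ≤ 𝒞[y] := mem_cent_iff_le_cent_singleton.1 hy.2
  have vN : v ∈ 𝒩(𝒞[y]) := mem_norm_of_conjg_le (by
    rw [conjg_cent1, e]; exact fun g hg => BA.mem_c1.2 (Commute.inv_right_iff.1 (BA.mem_c1.1 hg)))
  suffices h : OO 𝒞[y] ≤ 𝒞[t] by
    obtain ⟨T, hT, h1⟩ := sylow_superset Nat.prime_two (two_zpowers l.inv.1) (zpowers_le.2 tN)
    have tT := h1 (mem_zpowers t)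
    have cT := cyc_of_uniq (BA.dh_of l.syl l.dih) hT.pGrp l.inv tT fun a ha => u a ⟨hT.le ha.1, ha.2⟩
    have := (cyclic_pdiv_normal_complement Nat.prime_two (fun q hq _ => hq.two_le) hT cT).sup_eq
    exact fun a ha => u a ⟨ha, (this.ge.trans (sup_le h fun b hb =>
      BA.mem_c1.2 (abelian_iff_forall.1 (abelian_of_cyclic cT) b hb t tT))) ha⟩
  refine L1.core_cent l.inv tN fun r hr r2 => ?_
  by_cases h0 : r ∣ Nat.card (FF t)
  · refine l.pcore_cent tN (fun e => ?_) ((L1.zp_le r _).trans ZN)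
    exact (pcore_sylow_fitting r (UU t)).ne_bot' hr h0 e
  by_contra hR
  set R := pCoreOf r 𝒞[y]
  have pR : IsPGrp r R := pcore_pGrp r _
  have oR := odd_of_pGrp pR r2
  have z1 := ne_one_of_orderOf hp zo
  have nZ : 𝒵(FF t) ⊲ 𝒞[t] := (charIn_center _).trans_normal (FF_normal t)
  have zH : 𝒞[z] ≤ 𝒞[t] := ((cent_zpowers z).ge.trans (cent_le_norm _)).trans
    (l.norm_eq ((charIn_of_cyclic cZ (zpowers_le.2 hz)).trans_normal nZ) (mt zpowers_eq_bot.1 z1)).le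
  have zR : z ∈ 𝒩(R) := pcore_norm _ _ (ZN hz)
  have tR : t ∈ 𝒩(R) := pcore_norm _ _ tN
  have vR : v ∈ 𝒩(R) := norm_pcore _ (zpowers_le.2 vN) (mem_zpowers v)
  have n1 : ∀ a ∈ 𝒞[t], a ∈ 𝒩(R) → a ∈ 𝒩(R ⊓ 𝒞[t]) ∧ a ∈ 𝒩(R ⊓ 𝒩(R ⊓ 𝒞[t])) := fun a ha h => by
    have h1 := norm_inf (zpowers_le.2 h) (norm_of_le (zpowers_le.2 ha))
    exact ⟨h1 (mem_zpowers a), norm_inf (zpowers_le.2 h) (norm_of_le h1) (mem_zpowers a)⟩
  have lt := nilpotent_proper_norm pR.nil (inf_lt_left.2 hR)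
  set R1 := R ⊓ 𝒞[t]
  set N := R ⊓ 𝒩(R1)
  have pN : IsPGrp r N := pR.inf_left _
  have oN : IsPiGrp {2}ᶜ N := oR.inf_left _
  obtain ⟨t1, tN1⟩ := n1 t (mem_cent_singleton_self t) tR
  obtain ⟨v1, vN1⟩ := n1 v hv vR
  obtain ⟨z1', zN1⟩ := n1 z ((FF_normal t).1 hz.1) zR
  have k : ∀ w ∈ 𝒞[t], IsInv w → w ≠ t → IsCyclic ↥⁅N ⊓ 𝒞[w], zpowers t⁆ ∧ (⁅N ⊓ 𝒞[w], zpowers t⁆ ≠ ⊥ → r < p) ∧
      ⁅N ⊓ 𝒞[w], zpowers t⁆ ≤ N ∧ N ⊓ 𝒞[w] ≤ ⁅N ⊓ 𝒞[w], zpowers t⁆ ⊔ R1 := fun w hw iw wt => by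
    have tw : t ∈ 𝒩(N ⊓ 𝒞[w]) := norm_inf (zpowers_le.2 tN1)
      (norm_of_le (zpowers_le.2 (mem_cent_singleton_comm.1 hw))) (mem_zpowers t)
    have h1 := comm_le_left (zpowers_le.2 tw)
    obtain ⟨g, rfl⟩ := l.exists_conj iw
    have h2 : (N ⊓ 𝒞[g * t * g⁻¹]) :^ g⁻¹ ≤ UU t := l.le_UU l.inv (by
      rw [conjg_le_iff, inv_inv, conjg_cent1]; exact inf_le_right) ((oN.inf_left _).conjg _)
    have h3 := (inv (g⁻¹ * t * g⁻¹⁻¹) (by
      rw [mem_cent_singleton_comm, ← conjg_cent1, mem_conjg]; simpa using hw) (l.inv.conj _) fun e => wt (by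
        conv_lhs => rw [← e]
        group)).1
    obtain ⟨h4, h5⟩ := P1 r hr h0 (⁅N ⊓ 𝒞[g * t * g⁻¹], zpowers t⁆ :^ g⁻¹) (le_inf ((conjg_mono _ h1).trans h2) (by
      rw [conjg_comm, conjg_zpowers]; exact (commutator_mono h2 le_rfl).trans h3))
      (((pN.inf_left _).of_le h1).conjg _)
    exact ⟨cyclic_conjg.1 h4, fun e => h5 (mt conjg_eq_bot.1 e), h1.trans inf_le_left,
      (comm_sup_cent (oN.inf_left _) l.inv.1 tw).ge.trans
        (sup_le_sup_left (inf_le_inf_right _ (inf_le_left.trans inf_le_left)) _)⟩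
  obtain ⟨c1, a1, b1, d1⟩ := k v hv iv ne
  obtain ⟨c2, a2, b2, d2⟩ := k (t * v) (mul_mem (mem_cent_singleton_self t) hv) (l.inv.mul iv hv ne) iv.mul_ne
  generalize ⁅N ⊓ 𝒞[v], zpowers t⁆ = X at *
  generalize ⁅N ⊓ 𝒞[t * v], zpowers t⁆ = Y at *
  have g : N ≤ R1 ⊔ (X ⊔ Y) := (L1.four_of l.inv hv iv ne).gen oN tN1 vN1
    (le_sup_of_le_left (inf_le_inf_right _ inf_le_left)) (d1.trans (sup_le (le_sup_of_le_right le_sup_left) le_sup_left))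
    (d2.trans (sup_le (le_sup_of_le_right le_sup_right) le_sup_left))
  have rp : r < p := by
    by_contra h
    rw [of_not_not (mt a1 h), of_not_not (mt a2 h), sup_bot_eq, sup_bot_eq] at g
    exact lt.not_ge g
  have nN : N ≤ 𝒩(R1) := inf_le_right
  have e1 : N /ₛ R1 = (X /ₛ R1) ⊔ (Y /ₛ R1) := by
    rw [← quot_sup (b1.trans nN) (b2.trans nN), ← quot_sup_self_left ((sup_le b1 b2).trans nN),
      le_antisymm g (sup_le lt.le (sup_le b1 b2))]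
  have ab : IsMulCommutative (N /ₛ R1) := abelian_of_fpf (coset_sq l.inv.1 t1) (coset_mem_norm t1 tN1) (by
    rw [← quot_cent1 oN l.inv.1 lt.le t1]; exact quot_eq_bot_of_le (inf_le_inf_right _ inf_le_left))
  have rk : rank (N /ₛ R1) ≤ 2 := by
    rw [e1]
    exact rank_sup_cyc (cyclic_quot _ c1) (cyclic_quot _ c2) ((quot_mono _ b2).trans
      ((abelian_iff_le_cent.1 ab).trans ((cent_anti (quot_mono _ b1)).trans (cent_le_norm _))))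
  have pr : p ≠ r := rp.ne'
  have pz : IsPGrp p (zpowers z) := piGrp_zpowers_iff.2 (pElt_of_pow_eq_one hp (zo ▸ pow_orderOf_eq_one z))
  have f : (N /ₛ R1) ⊓ 𝒞(zpowers z /ₛ R1) = ⊥ := by
    rw [← coprime_quotient_cent lt.le (zpowers_le.2 z1') (pN.coprime (pz.mono (by simpa using pr.symm)))
      (.inr (sol_zpowers z)), cent_zpowers]
    exact quot_eq_bot_of_le (inf_le_inf inf_le_left zH)
  have := (pi_norm_rank2_pgroup hr hp (pN.quot R1) (Nat.odd_iff.2 (by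
    have := (piGrp_compl_singleton_iff Nat.prime_two).1 (oN.quot R1); omega)) rk (quot_norm R1 (zpowers_le.2 zN1))
    (by
      obtain ⟨j, hj⟩ := (piNat_singleton_iff hp (relIndex_pos _ _).ne').1
        (PiNat.of_dvd (pz.quot R1) (relIndex_dvd_card 𝒞(N /ₛ R1) _))
      rcases j with _ | j
      · rw [inf_eq_left.2 (le_cent_symm (relIndex_eq_one.1 hj)), quot_eq_bot_iff nN] at f
        exact absurd f lt.not_ge
      · exact hj ▸ dvd_pow_self p j.succ_ne_zero) pr).2.1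
  omega

end CA.GW
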