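/-
The second case is impossible: counting involutions.
-/
import Cfsg.Agent.GW.B10
import Cfsg.Agent.GW.LB2c

set_option autoImplicit false
set_option linter.unusedSectionVars false

namespace CA.GW

open Subgroup Cfsg CA.FG CA.BG CA.Dih
open scoped commutatorElement

universe u v

variable {G : Type u} [Group G] [Finite G] {p q r : ℕ} {t x z y v c s : G} {M E K S : Subgroup G}

namespace BA

theorem inv_conj_H {g a : G} (hg : g ∈ 𝒞[t]) (e : UH t ⊓ 𝒞[a] ≤ FF t) : UH t ⊓ 𝒞[g * a * g⁻¹] ≤ FF t := by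
  rw [← conjg_cent1, ← conjg_of_mem_norm (UH_norm t hg), ← conjg_inf, ← conjg_of_mem_norm ((FF_normal t).2 hg)]
  exact conjg_mono _ e

theorem wc_Z [IsSimpleGroup G] (l : Loc S c t s) (cZ : IsCyclic ↥𝒵(FF t))
    (i : ∀ a ∈ 𝒞[t], IsInv a → a ≠ t → ∀ y ∈ 𝒵(FF t), a * y * a⁻¹ = y⁻¹) (hp : p.Prime)
    (d : p ∣ Nat.card ↥𝒵(FF t)) : ¬ p ∣ nn t := by
  obtain ⟨y, hy, yo⟩ := exists_mem_orderOf_eq hp d
  have y1 : y ≠ 1 := fun e => hp.one_lt.ne' (yo.symm.trans (orderOf_eq_one_iff.2 e))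
  refine l.WC hp (FF_H t hy.1) (pElt_of_pow_eq_one hp (yo ▸ pow_orderOf_eq_one y)) fun a ha ia => by_contra fun ne => ?_
  exact y1 (eq_one_of_fix_inv (FF_odd t) hy.1 (mem_cent_singleton_comm.1 ha) (i a ((l.norm_eq
    ((charIn_of_cyclic cZ (zpowers_le.2 hy)).trans_normal (ZF_normal t)) (ne_bot_of_mem (mem_zpowers y) y1)).le
      (norm_zpowers_of_cent le_rfl ha)) ia ne y hy))

namespace LC

variable (h : LC t M E K q r p x z)
include h

theorem cent_K {A : Subgroup G} (hA : A ≤ K) (pA : IsPiGrp {p}ᶜ A) : A ≤ 𝒞(WW p t) :=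
  h.es.cent pA (hA.trans ((cf_KH h.cf).trans (WW_norm p t)))
    (h.cZW (hA.trans ((abelian_iff_le_cent.1 (abelian_of_cyclic h.tor.cyc)).trans (cent_anti (h.ZK h.it)))))
    h.xW (fun e => h.W_nle ((mem_cent_iff_le_cent_singleton.1 e).trans h.cM))
    (hA.trans (h.tor.le.trans ((cf_EO h.cf).trans (cent_le_cent_singleton h.xF.2))))

theorem cardK (d : DS S c t s) : Nat.card K = Nat.card (pCoreOf 2 K) * Nat.card ↥𝒵(FF t) := by
  have nK := nil_of_cyclic h.tor.cyc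
  have U : OO K ≤ UH t := le_inf (d.le_UU d.inv ((pcore_le _ K).trans (cf_KH h.cf)) (pcore_piGrp _ K))
    ((pcore_le _ K).trans ((abelian_iff_le_cent.1 (abelian_of_cyclic h.tor.cyc)).trans (cent_anti (h.ZK h.it))))
  rw [← le_antisymm ((le_inf (le_of_forall_pElt fun a _ y hy py => ?_) (pcore_le _ K)).trans h.KZ)
    (nilpotent_le_pcore nK (h.ZK h.it) ((FF_odd t).inf_left _))]
  · exact (nilpotent_pcoreC {2} nK).card_mul.symm
  have h1 := zpowers_le.2 hy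
  by_cases ap : a = p
  · exact h.p_le (h1.trans U) (piGrp_zpowers_iff.2 (ap ▸ py)) (mem_zpowers y)
  · exact h.UH_cent ⟨U hy, h.cent_K (h1.trans (pcore_le _ K)) (IsPGrp.piGrp (piGrp_zpowers_iff.2 py) ap) (mem_zpowers y)⟩

theorem K2W : pCoreOf 2 K ≤ 𝒞(WW p t) := h.cent_K (pcore_le _ K) ((pcore_pGrp 2 K).piGrp (by simpa using h.p2.symm))

variable (hII : CfgII t) (hA : NoA t)
include hII hA

theorem comm_UH (hv : v ∈ 𝒞[t]) (iv : IsInv v) (ne : v ≠ t) : ⁅UU t, zpowers v⁆ ≤ UH t :=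
  le_inf (comm_le_left (zpowers_le.2 (UU_norm t hv)))
    (comm_le_cent_of_inv (h.invs hII hA hv iv ne).1 ((UU_le t).trans (ZF_normal t).2))

theorem card_fix (hv : v ∈ 𝒞[t]) (iv : IsInv v) (ne : v ≠ t) : Nat.card (𝒞[v] ⊓ FF t : Subgroup G) = p := by
  obtain ⟨-, a, -, ao, e⟩ := h.invs hII hA hv iv ne
  rw [inf_comm, e, Nat.card_zpowers, ao]

theorem idx_cen (hv : v ∈ 𝒞[t]) (iv : IsInv v) (ne : v ≠ t) (e : ⁅UH t, zpowers v⁆ ≤ FF t) :
    (𝒞[v]).relIndex (UU t) = Nat.card ↥𝒵(FF t) * p * 1 := by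
  rw [relIndex_of_comm_le (UU_odd t) iv.1 (UU_norm t hv) (fitting_normal _) ((comm_comm_zpowers (UU_odd t) iv.1
    (UU_norm t hv)).ge.trans ((commutator_mono (h.comm_UH hII hA hv iv ne) le_rfl).trans e))]
  refine Nat.eq_of_mul_eq_mul_left h.pp.pos ?_
  rw [← h.card_fix hII hA hv iv ne, card_inf_mul_relIndex, h.card_fix hII hA hv iv ne]
  exact h.cardF.trans (by ring)

theorem idx_inv (hv : v ∈ 𝒞[t]) (iv : IsInv v) (ne : v ≠ t) (e : UH t ⊓ 𝒞[v] ≤ FF t) :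
    (𝒞[v]).relIndex (UU t) = Nat.card ↥𝒵(FF t) * p * (FF t).relIndex (UH t) := by
  rw [relIndex_of_comm_le (UU_odd t) iv.1 (UU_norm t hv) ⟨inf_le_left, (UU_le t).trans (UH_norm t)⟩
    (h.comm_UH hII hA hv iv ne)]
  refine Nat.eq_of_mul_eq_mul_left h.pp.pos ?_
  have := card_inf_mul_relIndex 𝒞[v] (UH t)
  rw [le_antisymm (le_inf inf_le_left ((inf_comm _ _).le.trans e)) (inf_le_inf_left _ (F_UH t)),
    h.card_fix hII hA hv iv ne, ← card_mul_relIndex (F_UH t), h.cardF] at this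
  exact this.trans (by ring)

variable [IsSimpleGroup G] (l : Loc S c t s)
include l

theorem wc {a : ℕ} (ha : a.Prime) (d : a ∣ Nat.card ↥𝒵(FF t)) : ¬ a ∣ nn t :=
  wc_Z l h.cZ (fun _ ha ia ne => (h.invs hII hA ha ia ne).1) ha d

theorem mixed (n : ¬ UH t ≤ FF t) (e1 : ⁅UH t, zpowers s⁆ ≤ FF t) (e2 : UH t ⊓ 𝒞[s * c] ≤ FF t) : False := by
  have d := l.toDS
  obtain ⟨wS, iw, wt, sw⟩ := sc_facts d
  rcases d.m_cases with m | ⟨m, -⟩
  · refine n ((comm_sup_cent (UH_odd t) d.sInv.1 (UH_norm t d.sH)).ge.trans (sup_le e1 fun y hy => e2 ⟨hy.1, ?_⟩))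
    rw [d.c_eq m]
    exact Four.c_mul hy.2 (UH_H t hy.1)
  have k1 := d.two_kk d.sH d.sInv d.st
  have k2 := d.two_kk (d.le wS) iw wt
  rw [h.idx_cen hII hA d.sH d.sInv d.st e1] at k1
  rw [h.idx_inv hII hA (d.le wS) iw wt e2] at k2
  have o : ¬ 2 ∣ (FF t).relIndex (UH t) := (piNat_compl_singleton_iff Nat.prime_two).1 ((UH_odd t).relIndex _)
  have o1 := mt relIndex_eq_one.1 n
  have o0 := relIndex_pos (FF t) (UH t)
  have h1 := ((l.chA d).lemN m _ (Nat.odd_iff.2 (Nat.two_dvd_ne_zero.1 o)) (by omega)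
    (Nat.eq_of_mul_eq_mul_left two_pos (by rw [k2, mul_left_comm 2, k1]; ring))).2
  have cp : p.Coprime 2 := (Nat.coprime_primes h.pp Nat.prime_two).2 h.p2
  have h2 : p ∣ kk t s := cp.dvd_of_dvd_mul_left (by rw [k1]; exact ⟨orderOf c * Nat.card ↥𝒵(FF t), by ring⟩)
  refine h.wc hII hA l h.pp (h.zo ▸ orderOf_dvd_card_of_mem h.zZ) ((cp.pow_right 2).dvd_of_dvd_mul_left ?_)
  rcases h1 with ⟨-, e⟩ | ⟨-, e⟩ <;> exact (show 2 ^ 2 * nn t = _ from e) ▸ (h2.pow two_ne_zero).mul_left _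

theorem uniq (i : ∀ a ∈ 𝒞[t], IsInv a → a ≠ t → UH t ⊓ 𝒞[a] ≤ FF t) {a : ℕ} (ha : a.Prime) (hy : y ∈ UH t)
    (py : IsPiElt {a} y) (yF : y ∉ FF t) : ∀ b ∈ 𝒞[y], IsInv b → b = t := by
  have d := l.toDS
  obtain ⟨L, hL, sL⟩ := sol_coprime_Sylow_exists ha (.inl (sol_of_odd (UH_odd t))) (zpowers_le.2 (UH_norm t d.sH))
    (co_zpowers d.sInv.1 (UH_odd t))
  have py' := piGrp_zpowers_iff.2 py
  have ap : a ≠ p := fun e => yF (h.p_le (zpowers_le.2 hy) (e ▸ py') (mem_zpowers y))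
  obtain ⟨g, hg, e⟩ := sylow_subJ ha hL py' (zpowers_le.2 hy)
  have gH := UH_H t hg
  have f : L ⊓ 𝒞[s] = ⊥ := eq_bot_iff.2 ((le_inf inf_le_left (le_inf inf_le_right ((inf_le_inf_right _ hL.le).trans
    (i s d.sH d.sInv d.st)))).trans (inf_eq_bot_of_cop (hL.pGrp.coprime_of_ne
      (pGrp_of_card_eq h.pp (h.card_fix hII hA d.sH d.sInv d.st)) ap)).le)
  have h1 := inv_of_fpf d.sInv.1 (sL (mem_zpowers s)) f (mem_conjg.1 (e (mem_zpowers y)))
  refine cy l h.pp h.zZ h.zo h.cZ (fun a ha ia ne => ⟨(h.comm_UH hII hA ha ia ne).trans inf_le_right, i a ha ia ne⟩)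
    h.P1 hy yF (d.conjH gH).sH (d.conjH gH).sInv (d.conjH gH).st ?_
  rw [show g * s * g⁻¹ * y * (g * s * g⁻¹)⁻¹ = g * (s * (g⁻¹ * y * g) * s⁻¹) * g⁻¹ by group, h1]
  group

variable (sE : s ∈ E) (syl : IsSylowOf 2 (S ⊓ M) (M ⊓ 𝒞[t]))
include sE

theorem Fs : FF t ⊓ 𝒞[s] = zpowers x := (h.cs s ⟨sE, l.sH⟩ l.sInv l.st).trans h.F0_eq

theorem of_two (m : orderOf c = 2) (n : ¬ UH t ≤ FF t) (i : ∀ a ∈ 𝒞[t], IsInv a → a ≠ t → UH t ⊓ 𝒞[a] ≤ FF t)
    (co : (nn t).Coprime (kS c t s)) :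
    ∃ δ : ℤ, (δ = 1 ∨ δ = -1) ∧ (nn t : ℤ) = (2 * kS c t s + δ) * (kS c t s + δ) := by
  have d := l.toDS
  have Fs := h.Fs hII hA l sE
  have B : UU t ⊓ 𝒞[s] ≤ FF t := ((l.chA d).thmC (by rw [d.c_eq m]; exact mem_cent_iff_le_cent_singleton.2 (UU_le t)) (zpowers x)
    (Fs.ge.trans (inf_le_inf_right _ (FF_le t)))
    (fun y hy => Fs.le ⟨i s d.sH d.sInv d.st ⟨h.comm_UH hII hA d.sH d.sInv d.st hy.2, hy.1.2⟩, hy.1.2⟩)
    ((le_inf ((inf_le_inf_right _ (UU_le t)).trans (h.cV s ⟨sE, d.sH⟩ d.sInv d.st))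
      (inf_le_left.trans (UU_le t))).trans h.nx) fun m =>
    let ⟨σ, hσ, n⟩ := exists_sigma d h.cf sE m
    ⟨σ, ⟨hσ.1, norm_zpowers_of_cent le_rfl (cent_le_cent_singleton h.xF.2 (cf_EO h.cf hσ.2))⟩, n⟩).trans
      (zpowers_le.2 h.xF.1)
  have U : UU t ≤ UH t := (comm_sup_cent (UU_odd t) d.sInv.1 (UU_norm t d.sH)).ge.trans
    (sup_le (h.comm_UH hII hA d.sH d.sInv d.st) (B.trans (F_UH t)))
  refine (l.chA d).of3 m (FF t) (lt_of_le_of_ne (FF_le t) fun e => n (inf_le_left.trans e.ge)) (FF_normal t).2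
    (fun y hy => ?_) (fun y hy yF g hg => by_contra fun n => yF ?_) co
  · obtain ⟨a, ha, b, hb, rfl⟩ := exists_inv_mul (UU_odd t) d.sInv.1 (UU_norm t d.sH) hy
    rw [show s * (a * b) * s⁻¹ * (a * b) = s * a * s⁻¹ * (s * b * s⁻¹) * a * b by group, ha.2]
    exact mul_mem (conj_mem_of_le_norm' (fitting_norm _) ha.1 (conj_mem_of_mem_norm ((FF_normal t).2 d.sH) (B hb)))
      (B hb)
  · refine le_of_forall_pElt (H := zpowers y) (fun a ha w hw pw => by_contra fun wF => n ?_) (mem_zpowers y)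
    have h1 : g * w * g⁻¹ ∈ 𝒞[t] := zpowers_le.2 hg (conjg_zpowers y g ▸ conj_mem_conjg g hw)
    have := h.uniq hII hA l i ha (U (zpowers_le.2 hy hw)) pw wF (g⁻¹ * t * g⁻¹⁻¹)
      (by rw [inv_inv, ← mem_conjg, conjg_cent1]; exact mem_cent_singleton_comm.1 h1) (inv_conj d.inv _)
    exact (inv_mem_iff (H := 𝒞[t])).1 (conj_eq_iff.1 this)

include syl

theorem K2c : pCoreOf 2 K ≤ zpowers c := fun a ha => by_contra fun n => by
  have aS := (syl.le_of_norm_le (pcore_pGrp 2 K) ((pcore_le _ K).trans (le_inf (cf_KM h.cf) (cf_KH h.cf)))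
    (norm_pcore _ (syl.le.trans h.tor.norm)) ha).1
  have ia := l.isInv aS n
  have := Fintype.ofFinite G
  exact n (eq_of_cyclic_inv h.tor.cyc (pcore_le _ K ha) h.tor.tK ia.1 ia.2 h.it.1 h.it.2 ▸ l.tc)

theorem out {a b : G} (ha : a ∈ zpowers c ⊓ M) (hb : b ∈ zpowers c ⊓ M) (na : a ∉ pCoreOf 2 K)
    (nb : b ∉ pCoreOf 2 K) : a * b ∈ pCoreOf 2 K := by
  have two : ∀ a ∈ zpowers c, IsPiElt {2} a := fun a ha => l.pS.piElt (l.zle ha)
  have key : ∀ a ∈ zpowers c, a ∈ E → a ∈ pCoreOf 2 K := fun a ha aE => by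
    refine nilpotent_le_pcore (nil_of_cyclic h.tor.cyc) (zpowers_le.2 ?_) (piGrp_zpowers_iff.2 (two a ha)) (mem_zpowers a)
    by_cases e : a * a ∈ OO M
    · by_cases a1 : a = 1
      · rw [a1]; exact one_mem _
      · rw [l.uniq ha ⟨(two _ (mul_mem ha ha)).eq_one ((pcore_piGrp _ M).piElt e), a1⟩]; exact h.tor.tK
    obtain ⟨k, hk, o, ho, e'⟩ := (mem_sup_of_norm (.inl (norm_of_cent (h.tor.le.trans (cf_EO h.cf))))).1
      (h.tor.sq a ⟨mem_sup_left aE, l.le (l.zle ha)⟩ e)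
    have : o ^ orderOf a = 1 := (h.pow_split hk ho (by rw [e']; exact pow_orderOf_eq_one a)).2
    rwa [← e', IsPiElt.eq_one ((two a ha).of_dvd (orderOf_dvd_of_pow_eq_one this)) ((pcore_piGrp _ M).piElt ho), mul_one]
  have ab := mul_mem ha.1 hb.1
  exact key _ ab (h.comp.two _ (h.comp.out2 a ha.2 b hb.2 (two a ha.1) (two b hb.1) (mt (key a ha.1) na)
    (mt (key b hb.1) nb)) (two _ ab))

theorem bound (hc : ⁅UH t, zpowers c⁆ ≤ FF t) :
    (FF t).relIndex (UH t) * (pCoreOf 2 K).relIndex (zpowers c) ≤ p + 1 := by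
  have d := l.toDS
  obtain ⟨wS, iw, wt, sw⟩ := sc_facts d
  have c2 : IsPGrp 2 (zpowers c) := d.pS.of_le d.zle
  have cH := zpowers_le.2 d.cH
  obtain ⟨Q, hQ, cQ⟩ := h.hall cH c2
  have cZ : c ∈ 𝒞(𝒵(FF t)) :=
    sw ▸ mul_mem_cent_of_inv (h.invs hII hA d.sH d.sInv d.st).1 (h.invs hII hA (d.le wS) iw wt).1
  have AH := sup_le (hQ.le.trans (UH_H t)) cH
  have nC := norm_cent (AH.trans (WW_norm p t))
  have h1 := h.es.dvd (hQ.piGrp.sup (h.two (d.pS.piElt d.cS)) (.inr cQ)) (AH.trans (WW_norm p t))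
    (h.cZW (sup_le (hQ.le.trans inf_le_right) (zpowers_le.2 cZ))) (by
      rw [comm_sup_self cQ, der_eq_bot_iff.2 (abelian_zpowers c), sup_bot_eq]
      exact sup_le (h.Q_der hQ) (h.p'_W ((commutator_mono hQ.le le_rfl).trans hc) (hQ.piGrp.of_le (comm_le_left cQ))))
  have h2 := relIndex_dvd_of_le_norm le_sup_left nC
  rw [h.Q_idx hQ] at h2
  have o := (UH_odd t).relIndex (FF t)
  have p3 := h.pp.two_le
  by_cases e : c ∈ 𝒞(WW p t)
  · have cM : c ∈ zpowers c ⊓ M := ⟨mem_zpowers c, h.cM (cent_le_cent_singleton h.xW e)⟩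
    have j2 : (pCoreOf 2 K).relIndex (zpowers c) ≤ 2 := by
      by_cases e : c ∈ pCoreOf 2 K
      · rw [relIndex_eq_one.2 (zpowers_le.2 e)]; omega
      · exact (P04.relIndex_zpowers_eq Nat.prime_two e (pow_two c ▸ h.out hII hA l sE syl cM cM e e)).le
    have co := (piNat_compl_singleton_iff_coprime Nat.prime_two).1 o
    have := h.pp.eq_two_or_odd
    have := h.p2
    refine (Nat.mul_le_mul_left _ j2).trans ?_
    rcases h1 with h1 | h1 <;>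
      exact (Nat.le_of_dvd (by omega) (co.mul_dvd_of_dvd_of_dvd (h2.trans h1) (by omega))).trans (by omega)
  obtain ⟨k, hk⟩ := (pElt_iff Nat.prime_two).1 (d.pS.piElt d.cS)
  obtain ⟨i, n1, n2⟩ := P04.exists_pow_not_mem e hk
  have yc : c ^ 2 ^ i ∈ zpowers c := npow_mem_zpowers c _
  generalize c ^ 2 ^ i = y at n1 n2 yc
  have Fs := h.Fs hII hA l sE
  have yM : y ∈ M := h.nD _ (zpowers_le.2 h.xF) (ne_bot_of_mem (mem_zpowers x) h.x1) (mem_norm_of_forall fun a ha => by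
    have aF := Fs.ge ha
    refine Fs.le ⟨conj_mem_of_mem_norm ((FF_normal t).2 (cH yc)) aF.1, mem_cent_singleton_comm.1 (conj_eq_iff.1 ?_)⟩
    rw [show s * (y * a * y⁻¹) * s⁻¹ = s * y * s⁻¹ * (s * a * s⁻¹) * (s * y * s⁻¹)⁻¹ by group,
      d.inverts d.sS d.sc yc, conj_eq_iff.2 (mem_cent_singleton_comm.1 aF.2),
      show y⁻¹ * a * y⁻¹⁻¹ = y⁻¹ * (a * y ^ 2) * y⁻¹ by group, n2 a (zpowers_le.2 h.xW ha)]
    group)
  have e2 : 𝒞(WW p t) ⊓ zpowers c = pCoreOf 2 K := le_antisymm (fun a ha => by_contra fun n =>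
    n1 ((mul_mem_cancel_left ha.1).1 (h.K2W (h.out hII hA l sE syl ⟨ha.2, h.cM (cent_le_cent_singleton h.xW ha.1)⟩
      ⟨yc, yM⟩ n fun e => n1 (h.K2W e))))) (le_inf h.K2W (h.K2c hII hA l sE syl))
  have h3 := (PiNat.coprime' o (c2.relIndex _)).mul_dvd_of_dvd_of_dvd h2 (relIndex_dvd_of_le_norm le_sup_right nC)
  rw [← e2, inf_relIndex_right]
  rcases h1 with h1 | h1 <;> exact (Nat.le_of_dvd (by omega) (h3.trans h1)).trans (by omega)

theorem fin {b : ℕ} (hb : b ∣ (FF t).relIndex (UH t))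
    (k1 : (𝒞[s]).relIndex (UU t) = Nat.card ↥𝒵(FF t) * p * b)
    (k2 : (𝒞[s * c]).relIndex (UU t) = Nat.card ↥𝒵(FF t) * p * b) (hc : ⁅UH t, zpowers c⁆ ≤ FF t)
    (co : ∀ a, a.Prime → a ∣ b → ¬ a ∣ nn t)
    (m2 : orderOf c = 2 → b ≠ 1 → (nn t).Coprime (kS c t s) →
      ∃ δ : ℤ, (δ = 1 ∨ δ = -1) ∧ (nn t : ℤ) = (2 * kS c t s + δ) * (kS c t s + δ)) : False := by
  have d := l.toDS
  obtain ⟨wS, iw, wt, sw⟩ := sc_facts d
  have e1 := d.two_kk d.sH d.sInv d.st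
  have e2 := d.two_kk (d.le wS) iw wt
  rw [k1] at e1
  rw [k2] at e2
  have hm := card_mul_relIndex (h.K2c hII hA l sE syl)
  rw [Nat.card_zpowers] at hm
  have hj : PiNat {2} ((pCoreOf 2 K).relIndex (zpowers c)) := (d.pS.of_le d.zle).relIndex _
  have bd := (Nat.mul_le_mul_right _ (Nat.le_of_dvd (relIndex_pos _ _) hb)).trans (h.bound hII hA l sE syl hc)
  generalize (pCoreOf 2 K).relIndex (zpowers c) = j at hm hj bd
  have ek : kS c t s = orderOf c * (Nat.card ↥𝒵(FF t) * p * b) := by rw [kS]; omega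
  have ek' : kS c t s = p * (b * j) * Nat.card K := by rw [ek, h.cardK d, ← hm]; ring
  have pZ : p ∣ Nat.card ↥𝒵(FF t) := h.zo ▸ orderOf_dvd_card_of_mem h.zZ
  have c1 : (nn t).Coprime (kS c t s) := Nat.coprime_of_dvd fun a ha a1 a2 => by
    rw [ek, ha.dvd_mul, ha.dvd_mul, ha.dvd_mul] at a2
    rcases a2 with a2 | (a2 | a2) | a2
    · exact d.odd_nn ((show a = 2 from d.pS.piElt d.cS a ha a2) ▸ a1)
    exacts [h.wc hII hA l ha a2 a1, h.wc hII hA l ha (a2.trans pZ) a1, co a ha a2 a1]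
  have t2 : 2 ∣ Nat.card (pCoreOf 2 K) := d.inv.ord.symm.dvd.trans (orderOf_dvd_card_of_mem
    (nilpotent_le_pcore (nil_of_cyclic h.tor.cyc) (zpowers_le.2 h.tor.tK) (two_zpowers d.inv.1) (mem_zpowers t)))
  have hκ : 2 * p ∣ Nat.card K := h.cardK d ▸ mul_dvd_mul t2 pZ
  have K0 : 0 < Nat.card K := Nat.card_pos
  have big := h.big S c s d
  rw [ek', pow_two] at big
  have hD := Nat.lt_of_mul_lt_mul_right big
  obtain ⟨δ, hδ, hn⟩ : ∃ δ : ℤ, (δ = 1 ∨ δ = -1) ∧ (nn t : ℤ) = (2 * kS c t s + δ) * (kS c t s + δ) := by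
    rcases d.m_cases with m | ⟨m, -⟩
    · refine m2 m (fun b1 => ?_) c1
      have h1 := Nat.le_of_dvd K0 hκ
      have h2 := Nat.mul_le_mul_right j (Nat.le_of_dvd Nat.card_pos t2)
      rw [b1, one_mul] at hD
      have := Nat.mul_le_mul_left p (show j ≤ 1 by omega)
      omega
    · exact (l.chA d).of4 m c1
  have h1 := (qr_dvd h.toCfF ⟨sE, d.sH⟩ d.sInv d.st).trans (Nat.mul_dvd_mul_left _
    (show kk t s ∣ kS c t s from ⟨2, by rw [kS]; omega⟩))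
  rw [ek'] at hn c1 h1
  refine lb_arith h.pp h.p2 hκ K0.ne' bd (fun e => ?_) hD h.tor.hq h.tor.hr h.tor.pp hδ hn c1 h1
    (cnt h.toCfF h.pp h.xF h.xo h.FM_c (norm_of_comm_le inf_le_left (h.der.trans h.Z_le)) h.idx)
  rcases h.pp.dvd_mul.1 e with e | e
  exacts [h.idx_p' p h.pp (e.trans hb) rfl, h.p2 (hj p h.pp e)]

theorem false : False := by
  have d := l.toDS
  obtain ⟨wS, iw, wt, sw⟩ := sc_facts d
  have nF : UH t ≤ 𝒩(FF t) := (UH_H t).trans (FF_normal t).2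
  have cc : ⁅UH t, zpowers s⁆ ≤ FF t → ⁅UH t, zpowers (s * c)⁆ ≤ FF t → False := fun e1 e2 =>
    h.fin hII hA l sE syl (one_dvd _) (h.idx_cen hII hA d.sH d.sInv d.st e1) (h.idx_cen hII hA (d.le wS) iw wt e2)
      ((commutator_mono le_rfl (zpowers_le.2 ((mul_mem_cancel_left (mem_sup_left (mem_zpowers s))).1
        (mem_sup_right (mem_zpowers (s * c)))))).trans (comm_sup_right_le (zpowers_le.2 ((FF_normal t).2 d.sH))
        (zpowers_le.2 ((FF_normal t).2 (d.le wS))) e1 e2))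
      (fun a ha e => (ha.one_lt.ne' (Nat.dvd_one.1 e)).elim) fun _ e => (e rfl).elim
  by_cases n : UH t ≤ FF t
  · exact cc ((comm_le_left (zpowers_le.2 (UH_norm t d.sH))).trans n)
      ((comm_le_left (zpowers_le.2 (UH_norm t (d.le wS)))).trans n)
  rcases h.dich hII hA d.sH d.sInv d.st with e1 | e1 <;> rcases h.dich hII hA (d.le wS) iw wt with e2 | e2
  · have i : ∀ a ∈ 𝒞[t], IsInv a → a ≠ t → UH t ⊓ 𝒞[a] ≤ FF t := fun a ha ia ne => by
      obtain ⟨g, hg, rfl | rfl⟩ := d.classH ha ia ne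
      exacts [inv_conj_H hg e1, inv_conj_H hg e2]
    refine h.fin hII hA l sE syl dvd_rfl (h.idx_inv hII hA d.sH d.sInv d.st e1) (h.idx_inv hII hA (d.le wS) iw wt e2)
      ?_ (fun a ha e => ?_) fun m _ => h.of_two hII hA l sE m n i
    · have key : ∀ {a : G} (ha : a ∈ 𝒞[t]), IsInv a → a ≠ t → ∀ y ∈ UH t /ₛ FF t,
          coset _ ⟨a, (FF_normal t).2 ha⟩ * y * (coset _ ⟨a, (FF_normal t).2 ha⟩)⁻¹ = y⁻¹ := fun ha ia ne y hy =>
        inv_of_fpf (coset_sq ia.1 _) (coset_mem_norm _ (UH_norm t ha)) (by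
          rw [← quot_cent1 (UH_odd t) ia.1 (F_UH t)]; exact quot_eq_bot_of_le (i _ ha ia ne)) hy
      have := mul_mem_cent_of_inv (key d.sH d.sInv d.st) (key (d.le wS) iw wt)
      rw [← quot_cent_iff' (zpowers_le.2 ((FF_normal t).2 d.cH)) nF,
        quot_zpowers (K := FF t) ⟨c, (FF_normal t).2 d.cH⟩, zpowers_le]
      rwa [← map_mul, show (⟨s, _⟩ * ⟨s * c, _⟩ : 𝒩(FF t)) = ⟨c, (FF_normal t).2 d.cH⟩ from Subtype.ext sw] at this
    · obtain ⟨L, hL⟩ := sylow_exists ha (UH t)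
      obtain ⟨y, hy, yF⟩ := SetLike.not_le_iff_exists.1 fun e' : L ≤ FF t =>
        piNat_relIndex_of_le_left e' hL.index a ha e rfl
      exact d.WC ha (UH_H t (hL.le hy)) (hL.pGrp.piElt hy) (h.uniq hII hA l i ha (hL.le hy) (hL.pGrp.piElt hy) yF)
  · refine h.mixed hII hA (l.change d.swap) n e2 ?_
    have := inv_conj_H (inv_mem d.cH) e1
    rwa [d.conj_s (mem_zpowers c), ← mul_assoc] at this
  · exact h.mixed hII hA l n e1 e2
  · exact cc e1 e2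

end LC

end BA

open BA in
theorem Loc.noB [IsSimpleGroup G] (h : Loc S c t s) (hII : CfgII t) (hA : NoA t) (hc : CfF t M E K q r) : False := by
  obtain ⟨S, c, s, d, sE, syl⟩ := cf_DS hc.toCfg h.toDS
  obtain ⟨p, hp, pd⟩ := exists_prime_dvd_card hc.F0
  obtain ⟨x, hx, xo⟩ := exists_mem_orderOf_eq hp pd
  obtain ⟨z, b⟩ := exists_LB hA hc hp hx xo
  by_cases xW : x ∈ WW p t
  · exact LC.false ⟨b, xW, d.inv⟩ hII hA (h.change d) sE syl
  · exact lb1 (h.change d) hII hA b sE syl xW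

end CA.GW
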