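/-
Blocks with a prescribed Brauer correspondent in the centralizer of a `p`-element.
-/
import Cfsg.Agent.Blk.B2

set_option autoImplicit false
set_option linter.unusedSectionVars false

open Cfsg CA.Chr CA.Blk

namespace CA.GW

universe u

section Main

variable {G : Type u} [Group G] [Fintype G]
variable {Γ : Type*} [LinearOrderedCommGroupWithZero Γ] {v : Valuation ℂ Γ} {p : ℕ}
variable {C : Subgroup G} [Fintype C]

theorem second_gen (hp : p.Prime) (hv : v p < 1) {x : G} {k : ℕ} (hx : x ^ p ^ k = 1)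
    (hC : C = Subgroup.centralizer {x}) {f : G → ℂ} (hf : f ∈ CF G) (g : C)
    (hg : x ∈ Subgroup.zpowers (g : G)) {E : GA G} {e : GA C} (h3 : Sm v (res C E - e)) (iE : E ∈ IntR G v)
    (iC : e ∈ IntR C v) (mE : E * E = E) (mC : e * e = e) (cE : Cen E) (cC : Cen e) :
    ev f (dl (g : G) * E) = ev (f ∘ C.subtype) (dl g * e) := by
  rw [← ev_inc, map_mul (inc C), inc_single]
  have mE' : inc C e * inc C e = inc C e := by rw [← map_mul, mC]
  have cE' : ∀ c : C, Commute (dl (c : G)) (inc C e) := fun c => by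
    rw [dl, ← inc_single]
    exact Commute.map (cC.comm _).symm _
  have hxC : x ∈ C := hC ▸ Subgroup.mem_centralizer_singleton_iff.mpr rfl
  have key : ∀ a b : GA G, a * a = a → b * b = b → Commute a b → a ∈ IntR G v → b ∈ IntR G v →
      (∀ c : C, Commute (dl (c : G)) a) → (∀ c : C, Commute (dl (c : G)) b) →
      Sm v (res C a - e) → Sm v (res C b - e) → ev f (dl (g : G) * (a * (1 - b))) = 0 := by
    intro a b ma mb cab ia ib ca cb sa sb
    have i1 := sub_mem (one_mem _) ib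
    have c1 : ∀ c : C, Commute (dl (c : G)) (1 - b) := fun c => (Commute.one_right _).sub_right (cb c)
    refine ev_idem_zero hp hv hf ?_ (mul_mem ia i1) ((ca g).mul_right (c1 g)) fun h i hi c => ?_
    · have : (1 - b) * a = a * (1 - b) := ((Commute.one_left _).sub_left cab.symm).eq
      rw [mul_assoc, ← mul_assoc (1 - b), this, ← mul_assoc, ← mul_assoc, ma, mul_assoc]
      congr 1
      rw [mul_sub, sub_mul, sub_mul, mb]; simp
    · have hh : h ∈ C := by
        obtain ⟨j, hj⟩ := hg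
        have : Commute (x ^ i) h := by
          rw [← hj]
          simp only
          rw [← zpow_natCast, ← zpow_mul, mul_comm, zpow_mul, zpow_natCast]
          exact c.zpow_left j
        exact hC ▸ Subgroup.mem_centralizer_singleton_iff.mpr
          (commute_of_mem_zpowers (mem_zpowers_pow hp hx hi) this).eq.symm
      have s1 := res_mul hp hv hx hC ia i1 (ca ⟨x, hxC⟩) (c1 ⟨x, hxC⟩)
      have s2 : Sm v (res C a * res C (1 - b) - e * (1 - e)) :=
        sa.cong_mul (by rw [map_sub, res_one]; convert sb.neg using 1; abel) iC (res_int i1)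
      have := s1.trans s2
      rw [mul_sub e, mul_one, mC, sub_self, sub_zero] at this
      exact this ⟨h, hh⟩
  have cc : Commute E (inc C e) := cE.comm _
  have s0 : Sm v (res C (inc C e) - e) := by rw [res_inc]; simpa using Sm.zero
  have k1 := key E _ mE mE' cc iE (inc_int iC) (fun _ => (cE.comm _).symm) cE' h3 s0
  have k2 := key _ E mE' mE cc.symm (inc_int iC) iE cE' (fun _ => (cE.comm _).symm) s0 h3
  rw [mul_sub, mul_one, mul_sub, map_sub, sub_eq_zero] at k1 k2
  rw [k1, cc.eq, ← k2]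

/-- central elements acting on `f` as a scalar modulo the maximal ideal -/
def QR (hp : p.Prime) (hv : v p < 1) {x : G} {k : ℕ} (hx : x ^ p ^ k = 1)
    (hC : C = Subgroup.centralizer {x}) {f : GA C} (iC : f ∈ IntR C v) : Subring (((G → ℂ) → ℂ) × ℂ) where
  carrier := {a | zz a.1 ∈ IntR G v ∧ v a.2 ≤ 1 ∧ Sm v (res C (zz a.1) * f - a.2 • f)}
  zero_mem' := ⟨by simp, by simp, by simpa using Sm.zero⟩
  one_mem' := ⟨by simp, by simp, by simpa [res_one] using Sm.zero⟩
  add_mem' := fun {a b} ha hb => ⟨by rw [Prod.fst_add, map_add]; exact add_mem ha.1 hb.1,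
    val_add_le ha.2.1 hb.2.1, by
      convert ha.2.2.add hb.2.2 using 1
      rw [Prod.fst_add, Prod.snd_add, map_add, map_add, add_mul, add_smul]; abel⟩
  neg_mem' := fun {a} ha => ⟨by rw [Prod.fst_neg, map_neg]; exact neg_mem ha.1,
    by rw [Prod.snd_neg, Valuation.map_neg]; exact ha.2.1, by
      convert ha.2.2.neg using 1
      rw [Prod.fst_neg, Prod.snd_neg, map_neg, map_neg, neg_mul, neg_smul]; abel⟩
  mul_mem' := fun {a b} ha hb => ⟨by rw [Prod.fst_mul, map_mul]; exact mul_mem ha.1 hb.1,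
    val_mul_le ha.2.1 hb.2.1, by
      have h1 := (res_mul hp hv hx hC ha.1 hb.1 ((cen_zz _).comm _).symm ((cen_zz _).comm _).symm).mul_right iC
      have h2 := Sm.mul_left (res_int (C := C) ha.1) hb.2.2
      have h3 := Sm.smul hb.2.1 ha.2.2
      convert (h1.add h2).add h3 using 1
      rw [Prod.fst_mul, Prod.snd_mul, map_mul, sub_mul, mul_sub, smul_sub, mul_smul_comm, smul_smul, mul_assoc,
        mul_comm b.2]
      abel⟩

theorem exists_blk (hp : p.Prime) (hv : v p < 1) {x : G} {k : ℕ} (hx : x ^ p ^ k = 1)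
    (hC : C = Subgroup.centralizer {x}) {z : GA G} (cz : Cen z) (iz : z ∈ IntR G v)
    (mz : res C z * res C z = res C z) :
    ∃ B ⊆ irr G, eB B ∈ IntR G v ∧ Sm v (res C (eB B) - res C z) := by
  classical
  obtain ⟨w, rfl⟩ : ∃ w, z = zz w := ⟨_, cz.eq_zz⟩
  set e := res C (zz w) with he
  have ie : e ∈ IntR C v := res_int iz
  let B := (irr G).filter fun χ => v (w χ - 1) < 1
  have hu : ∀ χ ∈ irr G \ B, v (1 - w χ) = 1 := fun χ hχ => by
    obtain ⟨h1, h2⟩ := Finset.mem_sdiff.mp hχ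
    rw [← neg_sub, Valuation.map_neg]
    exact le_antisymm (val_sub_le (val_le_of_zz (mem_irr.1 h1) iz) (map_one v).le)
      (not_lt.1 fun e => h2 (Finset.mem_filter.2 ⟨h1, e⟩))
  let y : (G → ℂ) → ℂ := w * ∏ χ ∈ irr G \ B, (fun _ => (1 - w χ)⁻¹) * (w - fun _ => w χ)
  have hy : ∀ ψ ∈ B, v (y ψ - 1) < 1 := fun ψ hψ => by
    have h1 := (Finset.mem_filter.1 hψ).2
    have h2 : ∀ s ⊆ irr G \ B, v (∏ χ ∈ s, (1 - w χ)⁻¹ * (w ψ - w χ) - 1) < 1 := fun s => by
      induction s using Finset.induction_on with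
      | empty => simp
      | insert a s ha ih =>
        intro hs
        have h3 := ih ((Finset.subset_insert _ _).trans hs)
        have h4 := hu a (hs (Finset.mem_insert_self _ _))
        have h5 : v ((1 - w a)⁻¹ * (w ψ - 1)) < 1 := val_mul_lt (val_inv h4).le h1
        rw [Finset.prod_insert ha]
        have := val_ne_zero h4
        generalize ∏ χ ∈ s, (1 - w χ)⁻¹ * (w ψ - w χ) = P at *
        rw [show (1 - w a)⁻¹ * (w ψ - w a) * P - 1 =
          (1 - w a)⁻¹ * (w ψ - 1) * (P - 1) + (1 - w a)⁻¹ * (w ψ - 1) + (P - 1) by field_simp; ring]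
        exact val_add_lt (val_add_lt (val_mul_lt h5.le h3) h5) h3
    have h3 := h2 _ le_rfl
    simp only [y, Pi.mul_apply, Finset.prod_apply, Pi.sub_apply]
    generalize ∏ χ ∈ irr G \ B, (1 - w χ)⁻¹ * (w ψ - w χ) = P at *
    rw [show w ψ * P - 1 = (w ψ - 1) * (P - 1) + (w ψ - 1) + (P - 1) by ring]
    exact val_add_lt (val_add_lt (val_mul_lt h1.le h3) h1) h3
  have hy1 : ∀ ψ ∈ B, v (y ψ) = 1 := fun ψ hψ => val_eq_one_of_sub (map_one v) (hy ψ hψ)
  have eE : eB B = zz (1 - ∏ ψ ∈ B, (1 - (fun _ => (y ψ)⁻¹) * y)) := by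
    refine zz_congr fun χ hχ => ?_
    simp only [Pi.sub_apply, Pi.one_apply, Finset.prod_apply, Pi.mul_apply]
    split_ifs with h
    · rw [Finset.prod_eq_zero h (by rw [inv_mul_cancel₀ (val_ne_zero (hy1 χ h)), sub_self]), sub_zero]
    · have : y χ = 0 := by
        simp only [y, Pi.mul_apply, Finset.prod_apply]
        rw [Finset.prod_eq_zero (Finset.mem_sdiff.mpr ⟨mem_irr.mpr hχ, h⟩) (by simp), mul_zero]
      simp [this]
  have main : ∀ {f : GA C} (iC : f ∈ IntR C v) (α : ℂ), α * α = α → e * f = α • f →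
      (y, α) ∈ QR hp hv hx hC iC ∧
      (1 - ∏ ψ ∈ B, (1 - (fun _ => (y ψ)⁻¹) * y), 1 - ∏ ψ ∈ B, (1 - (y ψ)⁻¹ * α)) ∈ QR hp hv hx hC iC := by
    intro f iC α hα hf
    have cst : ∀ c : ℂ, v c ≤ 1 → ((fun _ => c), c) ∈ QR hp hv hx hC iC := fun c hc => ⟨smul_one_mem hc, hc, by
      have : zz (G := G) (fun _ => c) = c • 1 := by rw [← map_one zz, ← map_smul]; congr 1; ext; simp
      simp only [this, map_smul, res_one, smul_one_mul, sub_self]; exact Sm.zero⟩
    have a1 : v α ≤ 1 := by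
      rcases (IsIdempotentElem.iff_eq_zero_or_one.1 hα) with e | e <;> simp [e]
    have hw : (w, α) ∈ QR hp hv hx hC iC := ⟨iz, a1, by simp only [← he, hf, sub_self]; exact Sm.zero⟩
    have h1 := mul_mem hw (prod_mem fun χ hχ => mul_mem (cst _ (val_inv (hu χ hχ)).le) (sub_mem hw
      (cst _ (val_le_of_zz (mem_irr.1 (Finset.mem_sdiff.1 hχ).1) iz))))
    have h2 : (y, α) ∈ QR hp hv hx hC iC := by
      convert h1 using 1
      refine Prod.ext (by simp [y, Prod.fst_prod]) ?_
      simp only [Prod.snd_mul, Prod.snd_prod, Prod.snd_sub]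
      rcases (IsIdempotentElem.iff_eq_zero_or_one.1 hα) with e | e
      · simp [e]
      · rw [e, one_mul, Finset.prod_eq_one fun χ hχ => inv_mul_cancel₀ (val_ne_zero (hu χ hχ))]
    refine ⟨h2, ?_⟩
    convert sub_mem (one_mem _) (prod_mem fun ψ hψ => sub_mem (one_mem _) (mul_mem (cst _ (val_inv (hy1 ψ hψ)).le) h2))
      using 1
    exact Prod.ext (by simp [Prod.fst_prod]) (by simp [Prod.snd_prod])
  obtain ⟨a1, a2⟩ := main ie 1 (one_mul 1) (by rw [mz, one_smul])
  obtain ⟨-, b2⟩ := main (sub_mem (one_mem _) ie) 0 (zero_mul 0) (by rw [mul_sub, mul_one, mz, sub_self, zero_smul])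
  refine ⟨B, Finset.filter_subset _ _, eE ▸ a2.1, ?_⟩
  have c1 := a2.2.2
  have c2 := b2.2.2
  simp only [← eE, mul_zero, sub_zero, Finset.prod_const_one, sub_self, zero_smul, mul_one] at c1 c2
  have c3 : Sm v ((∏ ψ ∈ B, (1 - (y ψ)⁻¹)) • e) := by
    rcases B.eq_empty_or_nonempty with hB | ⟨ψ, hψ⟩
    · have y0 : zz y = 0 := by
        rw [← map_zero zz]
        refine zz_congr fun χ hχ => ?_
        simp only [y, Pi.mul_apply, Finset.prod_apply]
        rw [Finset.prod_eq_zero (Finset.mem_sdiff.mpr ⟨mem_irr.mpr hχ, by simp [hB]⟩) (by simp), mul_zero]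
        rfl
      have := a1.2.2.neg
      simp only [y0, map_zero, zero_mul, one_smul, zero_sub, neg_neg] at this
      simpa [hB] using this
    · refine Sm.smul' ?_ ie
      rw [← Finset.mul_prod_erase _ _ hψ]
      refine val_mul_lt' ?_ ?_
      · have := val_ne_zero (hy1 ψ hψ)
        rw [show 1 - (y ψ)⁻¹ = (y ψ)⁻¹ * (y ψ - 1) by field_simp]
        exact val_mul_lt (val_inv (hy1 ψ hψ)).le (hy ψ hψ)
      · rw [map_prod]
        exact Finset.prod_le_one' fun χ hχ => val_sub_le (map_one v).le (val_inv (hy1 χ (Finset.mem_of_mem_erase hχ))).le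
  convert (c1.add c2).sub c3 using 1
  rw [mul_sub, mul_one, sub_smul, one_smul]; abel

end Main

open Finset in
/-- constituents of a function fixed by the local projection are fixed by it -/
theorem constt_fixed {G : Type u} [Group G] [Fintype G] {t : G} (t2 : t * t = 1) [Fintype (Subgroup.centralizer {t})]
    {w : G → ℂ} (hw : w ∈ CF G) (iw : ∀ V : ValuationSubring ℂ, V.valuation (2 : ℕ) < 1 → ∀ g, V.valuation (w g) ≤ 1)
    (mw : ∀ g : Subgroup.centralizer {t}, ∑ h : Subgroup.centralizer {t}, w h * w (h⁻¹ * g) = w g)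
    {θ : G → ℂ} (hθ : θ ∈ CF G) (h0 : ∀ g, θ g ≠ 0 → 2 ∣ orderOf g)
    (hc : ∀ g : G, 2 ∣ orderOf g → ∃ x, t ∈ Subgroup.zpowers (x * g * x⁻¹))
    (h1 : ∀ g : G, t ∈ Subgroup.zpowers g → ∑ h : Subgroup.centralizer {t}, w h * θ (g * h) = θ g)
    {χ : G → ℂ} (hχ : Dirr χ) (h : ⟪θ, χ⟫ ≠ 0) {g : G} (hg : t ∈ Subgroup.zpowers g) :
    ∑ h : Subgroup.centralizer {t}, w h * χ (g * h) = χ g := by
  obtain ⟨V, hV⟩ := exists_val Nat.prime_two
  have hx : t ^ 2 ^ 1 = 1 := by rw [pow_one, pow_two, t2]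
  have me : res (Subgroup.centralizer {t}) (mk w) * res (Subgroup.centralizer {t}) (mk w) =
      res (Subgroup.centralizer {t}) (mk w) := ext_coeff fun g => by rw [coeff_mul]; exact mw g
  obtain ⟨B, hB, iB, sB⟩ := exists_blk Nat.prime_two hV hx rfl (z := mk w) hw (iw V hV) me
  have key : ∀ f ∈ CF G, ∀ g : G, t ∈ Subgroup.zpowers g →
      proj B f g = ∑ h : Subgroup.centralizer {t}, w h * f (g * h) := fun f hf g hg => by
    have hg' : g ∈ Subgroup.centralizer {t} :=
      Subgroup.mem_centralizer_singleton_iff.2 (commute_of_mem_zpowers hg (Commute.refl g)).eq.symm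
    have := second_gen Nat.prime_two hV hx rfl hf ⟨g, hg'⟩ hg sB iB (res_int (iw V hV)) (eB_mul B) me (cen_zz _)
      (CF_comp hw (Subgroup.centralizer {t}).subtype)
    rw [ev_dl_eB hB hf, ev_dl_mul] at this
    exact this
  have e : proj B θ = θ := funext fun g => by
    by_cases o : 2 ∣ orderOf g
    · obtain ⟨x, hx⟩ := hc g o
      rw [← CF_conj (proj_mem_CF hB θ) g x, key θ hθ _ hx, h1 _ hx, CF_conj hθ]
    · rw [proj_zero_of_int Nat.prime_two hV hB iB fun y hy => (sep_of_orderOf (k := 1) Nat.prime_two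
        (by simpa using h0 y hy) (by simpa using o)).symm, eq_comm]
      by_contra e; exact o (h0 g e)
  have irr : ∀ χ, IsIrrCharacter G χ → ⟪θ, χ⟫ ≠ 0 → ∑ h : Subgroup.centralizer {t}, w h * χ (g * h) = χ g :=
    fun χ hχ h => by
      rw [← e, dot_proj hB θ hχ] at h
      rw [← key χ (IsIrr.mem_CF hχ) g hg, proj_irr hB hχ, if_pos (by_contra fun e => h (if_neg e))]
  rcases hχ with hχ | hχ
  · exact irr χ hχ h
  · have := irr _ hχ (by rwa [dot_neg_right, neg_ne_zero])
    simpa using this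

end CA.GW
theorem CA.GW.realizeEqnsCh1 : True := by
  have := @CA.GW.QR.eq_1.{0,0}
  have := @CA.GW.QR.eq_def.{0,0}
  have := @CA.GW.QR.congr_simp.{0,0}
  trivial
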