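/-
Dihedral Sylow 2-subgroups: the induced virtual characters `β (1 - λ)^G`.
-/
import Cfsg.Agent.GW.Basic
import Cfsg.Agent.GW.Ch1
import Cfsg.Agent.Char.Inertia

set_option autoImplicit false
set_option linter.unusedSectionVars false

namespace CA.GW

open Subgroup Cfsg CA.FG CA.BG CA.Dih CA.Chr CA.Blk Finset
open scoped commutatorElement ComplexConjugate Classical

universe u

variable {G : Type u} [Group G] [Fintype G] {S : Subgroup G} {c t s a : G}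

/-- the subgroup `⟨c⟩ U` of index `2` in `C(t)` -/
abbrev KK (c t : G) : Subgroup G := zpowers c ⊔ UU t

/-- the involutions of `C(t)` other than `t` -/
noncomputable def JJ (t : G) : Finset G := univ.filter fun a => a ∈ 𝒞[t] ∧ IsInv a ∧ a ≠ t

theorem mem_JJ : a ∈ JJ t ↔ a ∈ 𝒞[t] ∧ IsInv a ∧ a ≠ t := by simp [JJ]

theorem conj_mem_JJ {g : G} (hg : g ∈ 𝒞[t]) (ha : a ∈ JJ t) : g * a * g⁻¹ ∈ JJ t := by
  obtain ⟨h1, h2, h3⟩ := mem_JJ.1 ha
  refine mem_JJ.2 ⟨mul_mem (mul_mem hg h1) (inv_mem hg), h2.conj g, fun e => h3 ?_⟩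
  rw [← conj_eq_of_cent hg] at e
  simpa using e

/-- extension by zero -/
noncomputable def exf {K : Subgroup G} (α : K → ℂ) : G → ℂ := Function.extend K.subtype α 0

theorem exf_mem {K : Subgroup G} (α : K → ℂ) {g : G} (hg : g ∈ K) : exf α g = α ⟨g, hg⟩ :=
  K.subtype_injective.extend_apply _ _ ⟨g, hg⟩

theorem exf_not {K : Subgroup G} (α : K → ℂ) {g : G} (hg : g ∉ K) : exf α g = 0 := by
  rw [exf, Function.extend_apply']
  · rfl
  · rintro ⟨a, rfl⟩; exact hg a.2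

/-- `β (1 - l)` induced to `G` -/
noncomputable def tt {K : Subgroup G} (β l : K →* ℂˣ) : G → ℂ := ind K.subtype (lin β - lin (β * l))

theorem tt_ZIrr {K : Subgroup G} (β l : K →* ℂˣ) : tt β l ∈ ZIrr G :=
  ZIrr.ind (sub_mem (lin_mem_ZIrr _) (lin_mem_ZIrr _)) _

theorem tt_CF {K : Subgroup G} (β l : K →* ℂˣ) : tt β l ∈ CF G := ZIrr.mem_CF (tt_ZIrr β l)

theorem dot_tt {K : Subgroup G} {ζ : G → ℂ} (hζ : ζ ∈ CF G) (β l : K →* ℂˣ) :
    ⟪ζ, tt β l⟫ = ⟪ζ ∘ K.subtype, lin β - lin (β * l)⟫ := frob_rec' _ _ hζ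

theorem tt_one {K : Subgroup G} (β : K →* ℂˣ) : tt β 1 = 0 := by
  funext g; exact ind_eq_zero fun x _ => by simp

theorem tt_deg {K : Subgroup G} (β l : K →* ℂˣ) : tt β l 1 = 0 := by
  rw [tt, ind_subtype_one]; simp [lin_apply]

theorem dot_tt_one {K : Subgroup G} (β l : K →* ℂˣ) :
    ⟪tt β l, 1⟫ = (if β = 1 then 1 else 0) - if β * l = 1 then 1 else 0 := by
  rw [tt, dot_ind_one, dot_sub_left, ← lin_one, dot_lin, dot_lin]

theorem tt_ne_zero {K : Subgroup G} {β l : K →* ℂˣ} {g : G} (hg : tt β l g ≠ 0) : ∃ y : K, l y ≠ 1 ∧ IsConj (y : G) g := by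
  by_contra! e
  refine hg (ind_eq_zero fun x hx => ?_)
  have : l x = 1 := by_contra fun e' => e x e' hx
  simp [lin_apply, this]

namespace DS

variable (h : DS S c t s)
include h

theorem K_le : KK c t ≤ 𝒞[t] := sup_le (h.zle.trans h.le) (UU_le t)

theorem tK : t ∈ KK c t := mem_sup_left h.tc

theorem mem_K {g : G} : g ∈ KK c t ↔ ∃ y ∈ UU t, ∃ x ∈ zpowers c, y * x = g :=
  mem_sup_of_left_le_norm' ((h.zle.trans h.le).trans (UU_norm t))

theorem mem_z (ha : a ∈ S) (hK : a ∈ KK c t) : a ∈ zpowers c := by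
  obtain ⟨y, hy, x, hx, rfl⟩ := h.mem_K.1 hK
  have : y ∈ S ⊓ UU t := ⟨(mul_mem_cancel_right (h.zle hx)).1 ha, hy⟩
  rw [h.inf, mem_bot] at this
  rwa [this, one_mul]

theorem sK : s ∉ KK c t := fun e => h.sc (h.mem_z h.sS e)

theorem cardK : Nat.card (KK c t) = orderOf c * Nat.card (UU t) := by
  rw [card_sup_of_inf_eq_bot (Or.inl ((h.zle.trans h.le).trans (UU_norm t)))
    ((h.pS.of_le h.zle).inf_eq_bot (UU_odd t)), Nat.card_zpowers]

theorem idxK : (KK c t).relIndex 𝒞[t] = 2 := by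
  have := card_mul_relIndex h.K_le
  rw [h.cardH, mul_assoc, ← h.cardK, mul_comm 2] at this
  exact Nat.eq_of_mul_eq_mul_left Nat.card_pos this

theorem normK : 𝒞[t] ≤ 𝒩(KK c t) := norm_of_relIndex_le_two h.K_le h.idxK.le

theorem mul_memK {a b : G} (ha : a ∈ 𝒞[t]) (hb : b ∈ 𝒞[t]) (ha' : a ∉ KK c t) (hb' : b ∉ KK c t) : a * b ∈ KK c t :=
  mul_mem_of_relIndex_two h.idxK ha hb ha' hb'

theorem uniqK (ha : a ∈ KK c t) (hi : IsInv a) : a = t := by
  by_contra e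
  obtain ⟨g, hg, e'⟩ := h.classH (h.K_le ha) hi e
  rcases e' with rfl | rfl
  · exact h.sK (by simpa [mul_assoc] using conj_mem_of_mem_norm' (h.normK hg) ha)
  · exact h.swap.sK (by simpa [mul_assoc] using conj_mem_of_mem_norm' (h.normK hg) ha)

theorem JK (ha : a ∈ JJ t) : a ∉ KK c t := fun e => (mem_JJ.1 ha).2.2 (h.uniqK e (mem_JJ.1 ha).2.1)

theorem sJ : s ∈ JJ t := mem_JJ.2 ⟨h.sH, h.sInv, h.st⟩

theorem card_JJ : (JJ t).card = kS c t s := by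
  rw [← h.ncard_invs, ← Set.ncard_coe_finset]; congr 1; ext; simp [mem_JJ]

theorem card_invs : (invs G).card = nn t := by
  rw [← h.ncard_all, ← Set.ncard_coe_finset]; congr 1; ext; simp [mem_invs, IsInv]

theorem tU : t ∉ UU t := fun e => h.inv.2 (eq_one_of_odd (UU_odd t) e h.inv.1)

theorem mem_zpow_iff {g : G} : t ∈ zpowers g ↔ g ∈ KK c t ∧ g ∉ UU t := by
  refine ⟨fun e => ⟨?_, fun e' => h.tU (zpowers_le.2 e' e)⟩, fun ⟨h1, h2⟩ => ?_⟩
  · have hg : g ∈ 𝒞[t] := cent_singleton_le_of_mem_zpowers e (mem_cent_singleton_self g)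
    by_contra hK
    obtain ⟨y, hy, x, hx, rfl⟩ := h.decomp hg
    have hx' : x ∉ zpowers c := fun e => hK (h.mem_K.2 ⟨y, hy, x, e, rfl⟩)
    have h2 : y * x * (y * x) ∈ UU t := by
      rw [show y * x * (y * x) = y * (x * y * x⁻¹) * (x * x) by group, (h.isInv hx hx').1, mul_one]
      exact mul_mem hy (conj_mem_of_mem_norm (UU_norm t (h.le hx)) hy)
    obtain ⟨i, hi⟩ := e
    obtain ⟨j, rfl | rfl⟩ := Int.even_or_odd' i
    · simp only [zpow_mul, zpow_two] at hi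
      have := zpow_mem h2 j
      rw [hi] at this
      exact h.tU this
    · refine hK ((mul_mem_cancel_left (mem_sup_right (zpow_mem h2 j))).1 ?_)
      simp only [zpow_add, zpow_mul, zpow_two, zpow_one] at hi
      exact hi ▸ h.tK
  · obtain ⟨y, hy, y2, y1⟩ := exists_inv_mem_zpowers (x := g) (by_contra fun o =>
      h2 (h.mem_UU h.inv (h.K_le h1) ((piNat_compl_singleton_iff Nat.prime_two).2 o)))
    rwa [h.uniqK (zpowers_le.2 h1 hy) ⟨y2, y1⟩] at hy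

theorem exists_zpow {g : G} (o : 2 ∣ orderOf g) : ∃ x, t ∈ zpowers (x * g * x⁻¹) := by
  obtain ⟨y, hy, y2, y1⟩ := exists_inv_mem_zpowers o
  obtain ⟨x, rfl⟩ := h.exists_conj ⟨y2, y1⟩
  exact ⟨x⁻¹, by rw [← conjg_zpowers, mem_conjg]; simpa using hy⟩

theorem ti0 {y g : G} (hy : y ∈ KK c t) (hy' : y ∉ UU t) (hg : g * y * g⁻¹ ∈ KK c t) : g ∈ 𝒞[t] :=
  cent_of_conj_eq (h.uniqK (zpowers_le.2 hg (by
    rw [← conjg_zpowers]; exact conj_mem_conjg g (h.mem_zpow_iff.2 ⟨hy, hy'⟩))) (h.inv.conj g))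

theorem commK : commutator (KK c t) ≤ (UU t).subgroupOf (KK c t) := by
  rw [commutator_def, commutator_le]
  rintro ⟨_, ha⟩ - ⟨_, hb⟩ -
  obtain ⟨y, hy, x, hx, rfl⟩ := h.mem_K.1 ha
  obtain ⟨z, hz, w, hw, rfl⟩ := h.mem_K.1 hb
  have e := abelian_iff_forall.1 (abelian_zpowers c) _ hx _ hw
  have n : ∀ x ∈ zpowers c, ∀ y ∈ UU t, x * y * x⁻¹ ∈ UU t := fun x hx y hy =>
    conj_mem_of_mem_norm (UU_norm t (h.le (h.zle hx))) hy
  change y * x * (z * w) * (y * x)⁻¹ * (z * w)⁻¹ ∈ UU t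
  rw [show y * x * (z * w) * (y * x)⁻¹ * (z * w)⁻¹ = y * (x * z * x⁻¹) * ((x * w) * x⁻¹ * y⁻¹ * w⁻¹) * z⁻¹ by group, e,
    mul_inv_cancel_right]
  exact mul_mem (mul_mem (mul_mem hy (n x hx z hz)) (n w hw _ (inv_mem hy))) (inv_mem hz)

theorem idxU : ((UU t).subgroupOf (KK c t)).index = orderOf c := by
  have := card_mul_relIndex (le_sup_right : UU t ≤ KK c t)
  rw [h.cardK, mul_comm (orderOf c)] at this
  exact Nat.eq_of_mul_eq_mul_left Nat.card_pos this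

/-- conjugation by `s` -/
def cj (y : KK c t) : KK c t := ⟨s * y * s⁻¹, conj_mem_of_mem_norm (h.normK h.sH) y.2⟩

theorem ind_apply {α : KK c t → ℂ} (hα : α ∈ CF (KK c t))
    (ti : ∀ y, α y ≠ 0 → ∀ g : G, g * y * g⁻¹ ∈ KK c t → g ∈ 𝒞[t]) (x : KK c t) :
    ind (KK c t).subtype α x = α x + α (h.cj x) := by
  rw [ind_apply_inj (KK c t).subtype_injective]
  have : ∀ g : G, Function.extend (KK c t).subtype α 0 (g⁻¹ * x * g) =
      (if g ∈ KK c t then α x else 0) + if g * s ∈ KK c t then α (h.cj x) else 0 := fun g => by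
    by_cases hg : g ∈ KK c t
    · rw [if_pos hg, if_neg fun e => h.sK ((mul_mem_cancel_left hg).1 e), add_zero, ← CF_conj' hα x ⟨g, hg⟩]
      exact (KK c t).subtype_injective.extend_apply _ _ (⟨g, hg⟩⁻¹ * x * ⟨g, hg⟩)
    by_cases hg' : g ∈ 𝒞[t]
    · have h1 := h.mul_memK h.sH hg' h.sK hg
      rw [if_neg hg, if_pos (h.mul_memK hg' h.sH hg h.sK), zero_add, ← CF_conj' hα (h.cj x) ⟨_, h1⟩,
        show g⁻¹ * x * g = (s * g)⁻¹ * (s * x * s⁻¹) * (s * g) by group]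
      exact (KK c t).subtype_injective.extend_apply _ _ (⟨_, h1⟩⁻¹ * h.cj x * ⟨_, h1⟩)
    · rw [if_neg hg, if_neg fun e => hg' ((mul_mem_cancel_right h.sH).1 (h.K_le e)), add_zero]
      by_cases h1 : g⁻¹ * x * g ∈ KK c t
      · refine (exf_mem α h1).trans (by_contra fun e => hg' (ti _ e g ?_))
        simp [mul_assoc]
      · exact exf_not α h1
  rw [sum_congr rfl fun g _ => this g, sum_add_distrib, ← Equiv.sum_comp (Equiv.mulRight s⁻¹) fun g =>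
    if g * s ∈ KK c t then α (h.cj x) else 0]
  simp only [Equiv.coe_mulRight, inv_mul_cancel_right]
  rw [← sum_filter, ← sum_filter, sum_const, sum_const, BSW.card_filter_K, nsmul_eq_mul, nsmul_eq_mul, ← mul_add,
    inv_mul_cancel_left₀ card_ne_zero]

theorem Phi_ind {α : KK c t → ℂ} (h1 : α 1 = 0)
    (ti : ∀ y, α y ≠ 0 → ∀ g : G, g * y * g⁻¹ ∈ KK c t → g ∈ 𝒞[t]) :
    Phi (ind (KK c t).subtype α) = 2 * nn t * ∑ a ∈ JJ t, ∑ b ∈ JJ t, exf α (a * b) := by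
  have r : (fun x : G => (rr x : ℂ)) ∈ CF G := mem_CF.2 fun x g => by simp only [rr_conj]
  have e1 := frob_rec (KK c t).subtype α r
  rw [dot_def, dot_def, h.cardG, h.cardK] at e1
  simp only [map_natCast, Function.comp, coe_subtype] at e1
  have e2 : ∑ y : KK c t, α y * rr (y : G) = ∑ a ∈ JJ t, ∑ b ∈ JJ t, exf α (a * b) := by
    have : ∀ y : KK c t, α y * rr (y : G) = ∑ a ∈ JJ t, if a * y ∈ JJ t then α y else 0 := fun y => by
      by_cases h0 : α y = 0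
      · simp [h0]
      rw [← sum_filter, sum_const, nsmul_eq_mul, mul_comm, rr]
      congr 3
      ext a
      simp only [mem_filter, mem_JJ, mem_invs]
      refine ⟨fun ⟨h2, h3⟩ => ?_, fun e => ⟨e.1.2.1, e.2.2.1⟩⟩
      have h4 := ti y h0 a (by rw [inv_of_mem_invs (mem_invs.2 h2) (mem_invs.2 h3)]; exact inv_mem y.2)
      have h5 : a ∉ KK c t := fun e => h0 (by
        have := h.uniqK (mul_mem e y.2) h3
        rw [h.uniqK e h2, mul_eq_left] at this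
        rwa [show y = 1 from Subtype.ext this])
      exact ⟨⟨h4, h2, fun e => h5 (e ▸ h.tK)⟩, mul_mem h4 (h.K_le y.2), h3,
        fun e => h5 ((mul_mem_cancel_right y.2).1 (by rw [e]; exact h.tK))⟩
    rw [sum_congr rfl fun y _ => this y, sum_comm]
    refine sum_congr rfl fun a ha => ?_
    have a2 := (mem_JJ.1 ha).2.1.1
    rw [← sum_filter]
    refine sum_bij (fun y _ => a * y) (fun y hy => (mem_filter.1 hy).2) (fun x _ y _ e => by simpa using e)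
      (fun b hb => ⟨⟨a * b, h.mul_memK (mem_JJ.1 ha).1 (mem_JJ.1 hb).1 (h.JK ha) (h.JK hb)⟩, ?_, ?_⟩) fun y _ => ?_
    · simpa [← mul_assoc, a2] using hb
    · simp [← mul_assoc, a2]
    · rw [← mul_assoc, a2, one_mul, exf_mem α y.2]
  rw [Phi, sum_pairs, ← e2, sum_congr rfl fun x _ => mul_comm _ _]
  have := card_ne_zero (G := UU t)
  have : (orderOf c : ℂ) ≠ 0 := Nat.cast_ne_zero.2 (orderOf_pos c).ne'
  have : (nn t : ℂ) ≠ 0 := Nat.cast_ne_zero.2 (index_pos _).ne'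
  push_cast at e1
  field_simp at e1
  linear_combination e1

/-- characters inverted by `s` with TI support -/
structure Lam (l : KK c t →* ℂˣ) : Prop where
  inv : ∀ y, l (h.cj y) = (l y)⁻¹
  ti : ∀ y, l y ≠ 1 → ∀ g : G, g * y * g⁻¹ ∈ KK c t → g ∈ 𝒞[t]

/-- characters of odd order fixed by `s` -/
structure Bet (β : KK c t →* ℂˣ) : Prop where
  inv : ∀ y, β (h.cj y) = β y
  hc : β ⟨c, mem_sup_left (mem_zpowers c)⟩ = 1

theorem bet_one : h.Bet 1 := ⟨fun _ => rfl, rfl⟩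

theorem lam_of {l : KK c t →* ℂˣ} (hl : l ∈ linOver ((UU t).subgroupOf (KK c t))) : h.Lam l := by
  have h1 := mem_linOver.1 hl
  refine ⟨fun y => ?_, fun y hy g => h.ti0 y.2 fun e => hy (h1 (mem_subgroupOf.2 e))⟩
  rw [eq_inv_iff_mul_eq_one, ← map_mul]
  refine h1 (mem_subgroupOf.2 ?_)
  obtain ⟨_, hy⟩ := y
  obtain ⟨z, hz, x, hx, rfl⟩ := h.mem_K.1 hy
  change s * (z * x) * s⁻¹ * (z * x) ∈ UU t
  rw [show s * (z * x) * s⁻¹ * (z * x) = s * z * s⁻¹ * (s * x * s⁻¹ * z * x) by group, h.inverts h.sS h.sc hx]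
  exact mul_mem (conj_mem_of_mem_norm (UU_norm t h.sH) hz) (conj_mem_of_mem_norm' (UU_norm t (h.le (h.zle hx))) hz)

end DS

namespace DS

variable {h : DS S c t s} {β β' l μ : KK c t →* ℂˣ}

theorem Lam.inv' (hl : h.Lam l) : h.Lam l⁻¹ :=
  ⟨fun y => by simp [hl.inv], fun y hy => hl.ti y (by simpa using hy)⟩

theorem Bet.z (hβ : h.Bet β) {y : KK c t} (hy : (y : G) ∈ zpowers c) : β y = 1 := by
  obtain ⟨i, hi⟩ := hy
  rw [show y = ⟨c, mem_sup_left (mem_zpowers c)⟩ ^ i from Subtype.ext hi.symm, map_zpow, hβ.hc, one_zpow]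

theorem Bet.odd (hβ : h.Bet β) {y : KK c t} (e : β y * β y = 1) : β y = 1 := by
  obtain ⟨_, hy⟩ := y
  obtain ⟨z, hz, x, hx, rfl⟩ := h.mem_K.1 hy
  obtain ⟨w, hw, rfl⟩ := exists_sqrt (UU_odd t) hz
  have e1 : β ⟨w * w * x, hy⟩ = β ⟨_, mem_sup_right hz⟩ := by
    rw [← mul_one (β ⟨w * w, _⟩), ← hβ.z (y := ⟨x, mem_sup_left hx⟩) hx, ← map_mul]; rfl
  rw [e1] at e ⊢
  obtain ⟨i, hi⟩ := hw
  have wK : w ∈ KK c t := mem_sup_right (zpowers_le.2 hz ⟨i, hi⟩)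
  have e2 : (⟨w, wK⟩ : KK c t) = ⟨_, mem_sup_right hz⟩ ^ i := Subtype.ext hi.symm
  rw [show (⟨_, mem_sup_right hz⟩ : KK c t) = ⟨w, wK⟩ * ⟨w, wK⟩ from rfl, map_mul]
  rw [e2, map_zpow, ← mul_zpow, e, one_zpow]

theorem cj_J (f : KK c t →* ℂˣ) (ha : a ∈ JJ t) (y : KK c t) (hy : a * y * a⁻¹ ∈ KK c t) :
    f ⟨_, hy⟩ = f (h.cj y) := by
  have h1 := h.mul_memK (mem_JJ.1 ha).1 h.sH (h.JK ha) h.sK
  rw [show (⟨_, hy⟩ : KK c t) = ⟨_, h1⟩ * h.cj y * ⟨_, h1⟩⁻¹ from Subtype.ext (by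
    change _ = a * s * (s * y * s⁻¹) * (a * s)⁻¹
    rw [show a * s * (s * y * s⁻¹) * (a * s)⁻¹ = a * (s * s) * y * (s * s)⁻¹ * a⁻¹ by group, h.sInv.1]; group),
    map_mul, map_mul, map_inv, mul_inv_cancel_comm]

theorem Bet.pair (hβ : h.Bet β) {b : G} (ha : a ∈ JJ t) (hb : b ∈ JJ t) (hab : a * b ∈ KK c t) : β ⟨_, hab⟩ = 1 := by
  have e : a * (a * b) * a⁻¹ = (a * b)⁻¹ := by
    rw [← mul_assoc, (mem_JJ.1 ha).2.1.1, one_mul, mul_inv_rev, (mem_JJ.1 hb).2.1.inv_eq]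
  have := cj_J (h := h) β ha ⟨_, hab⟩ (e ▸ inv_mem hab)
  rw [hβ.inv] at this
  refine hβ.odd ?_
  nth_rw 1 [← this]
  rw [← map_mul, ← map_one β]; congr 1; exact Subtype.ext (by simp [e])

theorem tt_ti (hl : h.Lam l) (y : KK c t) (hy : (lin β - lin (β * l)) y ≠ 0) (g : G) (hg : g * y * g⁻¹ ∈ KK c t) :
    g ∈ 𝒞[t] := hl.ti y (fun e => hy (by simp [lin_apply, e])) g hg

theorem tt_res (hβ : h.Bet β) (hl : h.Lam l) :
    tt β l ∘ (KK c t).subtype = lin β + lin β - lin (β * l) - lin (β * l⁻¹) := by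
  funext x
  refine (h.ind_apply (sub_mem (lin_mem_CF _) (lin_mem_CF _)) (tt_ti hl) x).trans ?_
  simp [lin_apply, hβ.inv, hl.inv]; ring

theorem tt_apply (hβ : h.Bet β) (hl : h.Lam l) (x : KK c t) :
    tt β l x = β x * (2 - l x - (l x : ℂ)⁻¹) := by
  refine (congrFun (tt_res hβ hl) x).trans ?_
  simp [lin_apply]; ring

theorem tt_inv (hβ : h.Bet β) (hl : h.Lam l) : tt β l⁻¹ = tt β l := by
  funext g
  by_cases hg : ∃ y : KK c t, IsConj (y : G) g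
  · obtain ⟨y, hy⟩ := hg
    rw [← CF_isConj (tt_CF _ _) hy, ← CF_isConj (tt_CF _ _) hy, tt_apply hβ hl, tt_apply hβ hl.inv']
    simp; ring_nf
  · rw [tt, tt, ind_eq_zero fun x hx => (hg ⟨x, hx⟩).elim, ind_eq_zero fun x hx => (hg ⟨x, hx⟩).elim]

theorem dot_tt_tt (hβ : h.Bet β) (hl : h.Lam l) (l1 : l ≠ 1) (m1 : μ ≠ 1) :
    ⟪tt β l, tt β μ⟫ = 2 + (if l = μ then 1 else 0) + if l⁻¹ = μ then 1 else 0 := by
  rw [dot_tt (tt_CF _ _), tt_res hβ hl]
  simp only [dot_sub_left, dot_add_left, dot_sub_right, dot_lin, if_true, mul_right_inj, mul_eq_left, left_eq_mul,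
    if_neg l1, if_neg m1, inv_eq_one]
  ring

theorem Phi_tt (hβ : h.Bet β) (hl : h.Lam l) : Phi (tt β l) = 2 * nn t * (kS c t s ^ 2 -
    (∑ a ∈ JJ t, exf (lin l) (a * s)) * ∑ b ∈ JJ t, exf (lin l) (s * b)) := by
  rw [tt, h.Phi_ind (by simp [lin_apply]) (tt_ti hl), sum_mul_sum, ← h.card_JJ, pow_two, ← nsmul_eq_mul, ← sum_const,
    ← sum_sub_distrib]
  congr 1
  refine sum_congr rfl fun a ha => ?_
  rw [← mul_one ((JJ t).card : ℂ), ← nsmul_eq_mul, ← sum_const, ← sum_sub_distrib]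
  refine sum_congr rfl fun b hb => ?_
  have h1 := h.mul_memK (mem_JJ.1 ha).1 (mem_JJ.1 hb).1 (h.JK ha) (h.JK hb)
  have h2 := h.mul_memK (mem_JJ.1 ha).1 h.sH (h.JK ha) h.sK
  have h3 := h.mul_memK h.sH (mem_JJ.1 hb).1 h.sK (h.JK hb)
  rw [exf_mem _ h1, exf_mem _ h2, exf_mem _ h3, ← lin_map_mul, Pi.sub_apply, lin_mul, Pi.mul_apply, lin_apply β,
    hβ.pair ha hb h1, Units.val_one, one_mul]
  congr 2
  exact Subtype.ext (by change _ = a * s * (s * b); rw [mul_assoc, ← mul_assoc s, h.sInv.1, one_mul])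

theorem exf_conj (hl : h.Lam l) (y : KK c t) {b : G} (hb : s * b ∈ KK c t) :
    exf (lin l) (s * (y * b * (y : G)⁻¹)) = ((l y * l y)⁻¹ : ℂˣ) * exf (lin l) (s * b) := by
  rw [show s * (y * b * (y : G)⁻¹) = (h.cj y * ⟨_, hb⟩ * y⁻¹ : KK c t) by
    change _ = s * y * s⁻¹ * (s * b) * (y : G)⁻¹; group, exf_mem _ (Subtype.property _), exf_mem _ hb]
  simp only [Subtype.coe_eta, lin_apply, map_mul, hl.inv, map_inv]
  push_cast; ring

theorem Phi_tt1 (hβ : h.Bet β) (hl : h.Lam l) (l2 : l⁻¹ ≠ l) : Phi (tt β l) = 2 * nn t * kS c t s ^ 2 := by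
  obtain ⟨y, hy⟩ : ∃ y, l y * l y ≠ 1 := by
    by_contra! e
    exact l2 (MonoidHom.ext fun y => inv_eq_of_mul_eq_one_right (e y))
  have yH := h.K_le y.2
  have e : ∑ b ∈ JJ t, exf (lin l) (s * b) = ∑ b ∈ JJ t, exf (lin l) (s * (y * b * (y : G)⁻¹)) := by
    symm
    refine sum_bij (fun b _ => y * b * (y : G)⁻¹) (fun b hb => conj_mem_JJ yH hb) (fun a _ b _ e => by simpa using e)
      (fun b hb => ⟨_, conj_mem_JJ (inv_mem yH) hb, by group⟩) fun _ _ => rfl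
  rw [sum_congr rfl fun b hb => exf_conj hl y (h.mul_memK h.sH (mem_JJ.1 hb).1 h.sK (h.JK hb)), ← mul_sum] at e
  have e2 : ∑ b ∈ JJ t, exf (lin l) (s * b) = 0 := by
    by_contra e0
    exact hy (inv_eq_one.1 (Units.val_eq_one.1 (mul_right_cancel₀ e0 (e.symm.trans (one_mul _).symm))))
  rw [Phi_tt hβ hl, e2, mul_zero, sub_zero]

theorem Phi_tt2 (hβ : h.Bet β) (hl : h.Lam l) (l2 : l⁻¹ = l) (lc : (l ⟨c, mem_sup_left (mem_zpowers c)⟩ : ℂ) = -1) :
    Phi (tt β l) = 8 * nn t * (kk t s * kk t (s * c)) := by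
  have l3 : ∀ y, l y * l y = 1 := fun y => by nth_rw 1 [← l2]; exact inv_mul_cancel (l y)
  have key : ∀ {s'}, DS S c t s' → ∀ g ∈ 𝒞[t], exf (lin l) (s * (g * s' * g⁻¹)) = exf (lin l) (s * s') :=
    fun {s'} d g hg => by
      have h1 := h.mul_memK h.sH d.sH h.sK d.sK
      by_cases gK : g ∈ KK c t
      · simpa [l3] using exf_conj hl ⟨g, gK⟩ h1
      · have := exf_conj hl ⟨_, h.mul_memK hg d.sH gK d.sK⟩ h1
        simp only [l3, inv_one, Units.val_one, one_mul] at this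
        rw [← this]; congr 2; group
  have e : ∑ b ∈ JJ t, exf (lin l) (s * b) = kk t s - kk t (s * c) := by
    let P := fun b => ∃ g ∈ 𝒞[t], g * s * g⁻¹ = b
    have c1 : ((JJ t).filter P).card = kk t s := by
      rw [kk, ← ncard_conj, ← Set.ncard_coe_finset]; congr 1; ext b
      simp only [coe_filter, Set.mem_setOf_eq, and_iff_right_iff_imp, P]
      rintro ⟨g, hg, rfl⟩; exact conj_mem_JJ hg h.sJ
    have c2 := card_filter_add_card_filter_not (s := JJ t) P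
    rw [c1, h.card_JJ, kS, add_right_inj] at c2
    rw [← sum_filter_add_sum_filter_not _ P, sum_congr rfl (g := fun _ => 1), sum_congr rfl (g := fun _ => -1)
      (s₁ := filter _ _) (f := fun b => exf (lin l) (s * b)), sum_const, sum_const, c1, c2]
    · simp; ring
    · intro b hb
      obtain ⟨h1, h2⟩ := mem_filter.1 hb
      obtain ⟨g, hg, e | rfl⟩ := h.classH (mem_JJ.1 h1).1 (mem_JJ.1 h1).2.1 (mem_JJ.1 h1).2.2
      · exact (h2 ⟨g, hg, e⟩).elim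
      · rw [key h.swap g hg, ← mul_assoc, h.sInv.1, one_mul, exf_mem _ (mem_sup_left (mem_zpowers c)), lin_apply, lc]
    · intro b hb
      obtain ⟨g, hg, rfl⟩ := (mem_filter.1 hb).2
      rw [key h g hg, h.sInv.1, exf_mem _ (one_mem _)]
      exact congrArg Units.val (map_one l)
  have e' : ∑ a ∈ JJ t, exf (lin l) (a * s) = ∑ b ∈ JJ t, exf (lin l) (s * b) := sum_congr rfl fun a ha => by
    have h2 := h.mul_memK (mem_JJ.1 ha).1 h.sH (h.JK ha) h.sK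
    have h3 := h.mul_memK h.sH (mem_JJ.1 ha).1 h.sK (h.JK ha)
    rw [exf_mem _ h2, exf_mem _ h3, lin_apply, lin_apply, ← l2, MonoidHom.inv_apply, l2, ← map_inv]
    congr 2
    exact Subtype.ext (by change (a * s)⁻¹ = s * a; rw [mul_inv_rev, h.sInv.inv_eq, (mem_JJ.1 ha).2.1.inv_eq])
  rw [Phi_tt hβ hl, e', e, kS]
  push_cast; ring

end DS

end CA.GW
theorem CA.GW.realizeEqnsCh2 : True := by
  have := @CA.GW.KK.eq_1.{0}
  have := @CA.GW.KK.eq_def.{0}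
  have := @CA.GW.KK.congr_simp.{0}
  have := @CA.GW.tt.eq_1.{0}
  have := @CA.GW.tt.eq_def.{0}
  have := @CA.GW.tt.congr_simp.{0}
  have := @CA.GW.DS.cj.eq_1.{0}
  have := @CA.GW.DS.cj.eq_def.{0}
  have := @CA.GW.DS.cj.congr_simp.{0}
  have := @CA.GW.exf.eq_1.{0}
  have := @CA.GW.exf.eq_def.{0}
  have := @CA.GW.exf.congr_simp.{0}
  have := @CA.GW.JJ.eq_1.{0}
  have := @CA.GW.JJ.eq_def.{0}
  have := @CA.GW.JJ.congr_simp.{0}
  trivial
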