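/-
Dihedral Sylow 2-subgroups: values of the constituents of `β (1 - λ)^G` on the `2`-singular elements.
-/
import Cfsg.Agent.GW.Ch2

set_option autoImplicit false
set_option linter.unusedSectionVars false

namespace CA.GW

open Subgroup Cfsg CA.FG CA.BG CA.Dih CA.Chr CA.Blk Finset
open scoped commutatorElement ComplexConjugate Classical

universe u

variable {G : Type u} [Group G] [Fintype G] {S : Subgroup G} {c t s a : G}

/-- the linear characters of `K/U` -/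
noncomputable abbrev LL (c t : G) : Finset (KK c t →* ℂˣ) := linOver ((UU t).subgroupOf (KK c t))

/-- the inclusion `U → K` -/
abbrev iU (c t : G) : UU t →* KK c t := inclusion le_sup_right

/-- `c` as an element of `K` -/
abbrev cK (c t : G) : KK c t := ⟨c, mem_sup_left (mem_zpowers c)⟩

theorem LL_U {l : KK c t →* ℂˣ} (hl : l ∈ LL c t) {y : KK c t} (hy : (y : G) ∈ UU t) : l y = 1 :=
  mem_linOver.1 hl (mem_subgroupOf.2 hy)

theorem mem_LL {l : KK c t →* ℂˣ} (hl : ∀ y : KK c t, (y : G) ∈ UU t → l y = 1) : l ∈ LL c t :=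
  mem_linOver.2 fun y hy => hl y (mem_subgroupOf.1 hy)

theorem LL_mul {l μ : KK c t →* ℂˣ} (hl : l ∈ LL c t) (hμ : μ ∈ LL c t) : l * μ ∈ LL c t :=
  mem_LL fun y hy => by simp [LL_U hl hy, LL_U hμ hy]

theorem LL_inv {l : KK c t →* ℂˣ} (hl : l ∈ LL c t) : l⁻¹ ∈ LL c t :=
  mem_LL fun y hy => by simp [LL_U hl hy]

theorem conj_lin {H : Type*} [Group H] [Finite H] (l : H →* ℂˣ) (y : H) : conj (l y : ℂ) = (l y : ℂ)⁻¹ := by
  rw [← lin_apply, ← lin_inv_apply, lin_apply, lin_apply, map_inv, Units.val_inv_eq_inv_val]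

theorem sum_sub {A B : Subgroup G} (hA : A ≤ B) (F : G → ℂ) (hF : ∀ x ∈ B, x ∉ A → F x = 0) :
    ∑ x : B, F x = ∑ x : A, F x := by
  symm
  refine sum_of_injOn (inclusion hA) (inclusion_injective hA).injOn (by simp) (fun x _ hx => hF x x.2 fun e => hx ?_)
    fun _ _ => rfl
  exact ⟨⟨x, e⟩, by simp, rfl⟩

/-- the expansion of `ζ` on `K - U` -/
def Exp (c t : G) (B : Finset (KK c t →* ℂˣ)) (ζ : G → ℂ) : Prop :=
  ∀ v : KK c t, (v : G) ∉ UU t → ζ v = -∑ γ ∈ B, γ v * ∑ μ ∈ LL c t, ⟪ζ, tt γ μ⟫ * μ v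

namespace DS

variable (h : DS S c t s)
include h

theorem ext_K {β γ : KK c t →* ℂˣ} (hc : β (cK c t) = γ (cK c t)) (hU : ∀ u, β (iU c t u) = γ (iU c t u)) : β = γ := by
  ext ⟨_, hy⟩ : 1
  obtain ⟨y, hy', _, ⟨i, rfl⟩, rfl⟩ := h.mem_K.1 hy
  rw [show (⟨_, hy⟩ : KK c t) = iU c t ⟨y, hy'⟩ * cK c t ^ i from rfl, map_mul, map_mul, map_zpow, map_zpow, hc, hU]

theorem ext_L {l μ : KK c t →* ℂˣ} (hl : l ∈ LL c t) (hμ : μ ∈ LL c t) (hc : l (cK c t) = μ (cK c t)) : l = μ :=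
  h.ext_K hc fun u => by rw [LL_U hl u.2, LL_U hμ u.2]

theorem sum_LL (v : KK c t) : ∑ μ ∈ LL c t, (μ v : ℂ) = if (v : G) ∈ UU t then (orderOf c : ℂ) else 0 := by
  rw [sum_linOver_apply h.commK, h.idxU]; simp [mem_subgroupOf]

theorem expand {ζ : G → ℂ} (hζ : ζ ∈ CF G) (γ : KK c t →* ℂˣ) (v : KK c t) (hv : (v : G) ∉ UU t) :
    ∑ u : UU t, (γ (iU c t u) : ℂ)⁻¹ * ζ (v * u) =
      -Nat.card (UU t) * (γ v * ∑ μ ∈ LL c t, ⟪ζ, tt γ μ⟫ * μ v) := by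
  have e : ∀ μ, ⟪ζ, tt γ μ⟫ * μ v = (Nat.card (KK c t) : ℂ)⁻¹ *
      ∑ x : KK c t, ζ (v * x) * (γ (v * x) : ℂ)⁻¹ * (μ v - μ x⁻¹) := fun μ => by
    rw [dot_tt hζ, dot_def, mul_assoc, sum_mul, ← Equiv.sum_comp (Equiv.mulLeft v)]
    congr 1
    refine sum_congr rfl fun x _ => ?_
    simp only [Pi.sub_apply, lin_apply, map_sub, conj_lin, Equiv.coe_mulLeft, Function.comp, coe_subtype, Subgroup.coe_mul,
      MonoidHom.mul_apply, map_mul, Units.val_mul, map_inv, Units.val_inv_eq_inv_val]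
    field_simp
  rw [sum_congr rfl fun μ _ => e μ, ← mul_sum, sum_comm]
  simp only [← mul_sum, sum_sub_distrib, h.sum_LL, if_neg hv, Subgroup.coe_inv, inv_mem_iff]
  have e2 := sum_sub (le_sup_right : UU t ≤ KK c t) (fun x => if x ∈ UU t then ζ (v * x) * (exf (lin γ) x)⁻¹ else 0)
    fun x _ hx => if_neg hx
  rw [sum_congr rfl (g := fun x : KK c t => -(orderOf c : ℂ) * (γ v : ℂ)⁻¹ *
    if (x : G) ∈ UU t then ζ (v * x) * (exf (lin γ) x)⁻¹ else 0) fun x _ => by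
      rw [exf_mem _ x.2]; split_ifs <;> simp [lin_apply]; ring, ← mul_sum, e2, h.cardK]
  have := card_ne_zero (G := UU t)
  have : (orderOf c : ℂ) ≠ 0 := Nat.cast_ne_zero.2 (orderOf_pos c).ne'
  rw [sum_congr rfl (f := fun x : UU t => ite _ _ _) (g := fun x : UU t => (γ (iU c t x) : ℂ)⁻¹ * ζ (v * x)) fun x _ => by
    rw [if_pos x.2, exf_mem _ (mem_sup_right x.2), mul_comm]; rfl]
  push_cast; field_simp

variable {h}

theorem Bet.sum {β γ : KK c t →* ℂˣ} (hγ : h.Bet γ) (hβ : h.Bet β) :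
    ∑ u : UU t, (γ (iU c t u) : ℂ)⁻¹ * β (iU c t u) = if γ = β then (Nat.card (UU t) : ℂ) else 0 := by
  split_ifs with e
  · simp [e]
  · rw [← sum_lin_eq_zero (l := (γ⁻¹ * β).comp (iU c t)) fun e' => e (h.ext_K (hγ.hc.trans hβ.hc.symm) fun u =>
      inv_mul_eq_one.1 (DFunLike.congr_fun e' u))]
    simp

theorem blk {B : Finset (KK c t →* ℂˣ)} (hB : ∀ γ ∈ B, h.Bet γ) (fus : ∀ (x y : UU t) (g : G), g * x * g⁻¹ = y →
    ∑ γ ∈ B, (γ (iU c t x) : ℂ)⁻¹ = ∑ γ ∈ B, (γ (iU c t y) : ℂ)⁻¹) {β l : KK c t →* ℂˣ} (hβ : β ∈ B)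
    (hl : l ∈ LL c t) {χ : G → ℂ} (hχ : Dirr χ) (h0 : ⟪tt β l, χ⟫ ≠ 0) : Exp c t B χ := by
  have u0 := card_ne_zero (G := UU t)
  let ω : UU t → ℂ := fun x => (Nat.card (UU t) : ℂ)⁻¹ * ∑ γ ∈ B, (γ (iU c t x) : ℂ)⁻¹
  let w : G → ℂ := fun g => if e : ∃ x : UU t, IsConj (x : G) g then ω e.choose else 0
  have w1 : ∀ (x : UU t) (g : G), IsConj (x : G) g → w g = ω x := fun x g e => by
    have e' : ∃ x : UU t, IsConj (x : G) g := ⟨x, e⟩
    obtain ⟨y, hy⟩ := isConj_iff.1 (e'.choose_spec.trans e.symm)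
    simp only [w, dif_pos e', ω, fus _ _ y hy]
  have w2 : ∀ g ∈ 𝒞[t], g ∉ UU t → w g = 0 := fun g hg hg' => dif_neg fun ⟨x, e⟩ => hg' (by
    obtain ⟨y, rfl⟩ := isConj_iff.1 e
    exact h.mem_UU h.inv hg (((UU_odd t).piElt x.2).conj y))
  have key : ∀ F : G → ℂ, ∑ x : 𝒞[t], w x * F x =
      (Nat.card (UU t) : ℂ)⁻¹ * ∑ γ ∈ B, ∑ u : UU t, (γ (iU c t u) : ℂ)⁻¹ * F u := fun F => by
    rw [sum_sub (UU_le t) (fun x => w x * F x) fun x hx hx' => by rw [w2 x hx hx', zero_mul], sum_comm, mul_sum]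
    exact sum_congr rfl fun u _ => by rw [w1 u _ (IsConj.refl _), mul_assoc, sum_mul]
  intro v hv
  have := constt_fixed h.inv.1 (w := w) (mem_CF.2 fun g x => ?_) (fun V hV g => ?_) (fun g => ?_) (tt_CF β l)
    (fun g hg => ?_) (fun g => h.exists_zpow) (fun g hg => ?_) hχ h0 (h.mem_zpow_iff.2 ⟨v.2, hv⟩)
  · rw [← this, key fun x => χ (v * x), sum_congr rfl fun γ _ => h.expand (ZIrr.mem_CF hχ.mem_ZIrr) γ v hv, ← mul_sum]
    field_simp
  · by_cases e : ∃ y : UU t, IsConj (y : G) g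
    · obtain ⟨y, hy⟩ := e
      rw [w1 y _ hy, w1 y _ (hy.trans (isConj_iff.2 ⟨x, rfl⟩))]
    · rw [show w g = 0 from dif_neg e]
      exact dif_neg fun ⟨y, hy⟩ => e ⟨y, hy.trans (isConj_iff.2 ⟨x, rfl⟩).symm⟩
  · simp only [w]
    split_ifs
    · refine val_mul_le (val_inv (val_nat_eq_one Nat.prime_two hV
        ((piNat_compl_singleton_iff Nat.prime_two).1 (UU_odd t)))).le (val_sum_le fun γ _ => val_le_of_integral _ ?_)
      rw [← Units.val_inv_eq_inv_val, ← map_inv]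
      exact ZIrr.isIntegral (lin_mem_ZIrr γ) _
    · simp
  · refine (key fun x => w (x⁻¹ * g)).trans ?_
    by_cases hg : (g : G) ∈ UU t
    · rw [w1 ⟨_, hg⟩ _ (IsConj.refl _)]
      congr 1
      refine sum_congr rfl fun γ hγ => ?_
      rw [sum_congr rfl (g := fun u : UU t => ∑ δ ∈ B, (Nat.card (UU t) : ℂ)⁻¹ * (δ (iU c t ⟨_, hg⟩) : ℂ)⁻¹ *
        ((γ (iU c t u) : ℂ)⁻¹ * δ (iU c t u))) fun u _ => by
          rw [w1 (u⁻¹ * ⟨_, hg⟩) ((u : G)⁻¹ * g) (IsConj.refl _)]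
          simp only [ω, mul_sum]
          exact sum_congr rfl fun δ _ => by
            simp only [map_mul, map_inv, Units.val_mul, Units.val_inv_eq_inv_val, mul_inv, inv_inv]; ring, sum_comm]
      simp only [← mul_sum]
      rw [sum_congr rfl fun δ hδ => by rw [(hB γ hγ).sum (hB δ hδ)], sum_eq_single γ (fun δ _ e => by simp [e.symm])
        fun e => (e hγ).elim, if_pos rfl]
      field_simp
    · rw [w2 _ g.2 hg, sum_eq_zero fun γ _ => sum_eq_zero fun u _ => by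
        rw [w2 _ (mul_mem (inv_mem (UU_le t u.2)) g.2) fun e => hg ((mul_mem_cancel_left (inv_mem u.2)).1 e), mul_zero],
        mul_zero]
  · obtain ⟨y, hy, e⟩ := tt_ne_zero hg
    obtain ⟨x, rfl⟩ := isConj_iff.1 e
    rw [orderOf_conj, ← h.inv.ord]
    exact orderOf_dvd_of_mem_zpowers (h.mem_zpow_iff.2 ⟨y.2, fun e => hy (LL_U hl e)⟩)
  · obtain ⟨h1, -⟩ := h.mem_zpow_iff.1 hg
    rw [key fun x => tt β l (g * x), sum_congr rfl (g := fun γ => tt β l g * if γ = β then (Nat.card (UU t) : ℂ) else 0)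
      fun γ hγ => by
        rw [← (hB γ hγ).sum (hB β hβ), mul_sum]
        refine sum_congr rfl fun u _ => ?_
        have e1 := tt_apply (hB β hβ) (h.lam_of hl) (⟨g, h1⟩ * iU c t u)
        have e2 := tt_apply (hB β hβ) (h.lam_of hl) ⟨g, h1⟩
        rw [map_mul l, LL_U hl (y := iU c t u) u.2, mul_one, map_mul, Units.val_mul] at e1
        rw [show tt β l (g * u) = _ from e1, show tt β l g = _ from e2]; ring,
      sum_eq_single β (fun δ _ e => by simp [e]) fun e => (e hβ).elim, if_pos rfl]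
    field_simp

theorem blk_one {l : KK c t →* ℂˣ} (hl : l ∈ LL c t) {χ : G → ℂ} (hχ : Dirr χ) (h0 : ⟪tt 1 l, χ⟫ ≠ 0) :
    Exp c t {1} χ :=
  blk (h := h) (fun γ hγ => by rw [mem_singleton.1 hγ]; exact h.bet_one) (fun _ _ _ _ => by simp) (mem_singleton_self _)
    hl hχ h0

end DS

end CA.GW
theorem CA.GW.realizeEqnsCh3 : True := by
  have := @CA.GW.Exp.eq_1.{0}
  have := @CA.GW.Exp.eq_def.{0}
  have := @CA.GW.Exp.congr_simp.{0}
  have := @CA.GW.iU.eq_1.{0}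
  have := @CA.GW.iU.eq_def.{0}
  have := @CA.GW.iU.congr_simp.{0}
  have := @CA.GW.LL.eq_1.{0}
  have := @CA.GW.LL.eq_def.{0}
  have := @CA.GW.LL.congr_simp.{0}
  have := @CA.GW.cK.eq_1.{0}
  have := @CA.GW.cK.eq_def.{0}
  have := @CA.GW.cK.congr_simp.{0}
  trivial
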