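/-
Dihedral Sylow 2-subgroups: the exceptional characters.
-/
import Cfsg.Agent.GW.Ch3

set_option autoImplicit false
set_option linter.unusedSectionVars false

namespace CA.GW

open Subgroup Cfsg CA.FG CA.BG CA.Dih CA.Chr CA.Blk Finset
open scoped commutatorElement ComplexConjugate Classical

universe u

variable {G : Type u} [Group G] [Fintype G] {S : Subgroup G} {c t s a : G}

theorem nrm_sub2 {A x y : G → ℂ} (hx : Dirr x) (hy : Dirr y) (xy : ⟪x, y⟫ = 0) (h1 : ⟪A, x⟫ = 1) (h2 : ⟪A, y⟫ = 1) :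
    nrm (A - x - y) = nrm A - 2 := by
  rw [nrm_sub_of_dot_one hy.dot_self (by rw [dot_sub_left, h2, xy, sub_zero]), nrm_sub_of_dot_one hx.dot_self h1]; ring

theorem dirr_sub2 {A x y : G → ℂ} (hA : A ∈ ZIrr G) (hn : nrm A = 3) (hx : Dirr x) (hy : Dirr y) (xy : ⟪x, y⟫ = 0)
    (h1 : ⟪A, x⟫ = 1) (h2 : ⟪A, y⟫ = 1) : Dirr (A - x - y) :=
  ZIrr.dirr_of_nrm_one (sub_mem (sub_mem hA hx.mem_ZIrr) hy.mem_ZIrr) (by rw [nrm_sub2 hx hy xy h1 h2, hn]; norm_num)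

theorem dirr_orth {A x y : G → ℂ} (hx : Dirr x) (hy : Dirr y) (h : ⟪A, x⟫ = 1) (h1 : ⟪A, y⟫ = 0) : ⟪y, x⟫ = 0 := by
  rcases hy.dot_cases hx with ⟨rfl, -⟩ | ⟨rfl, -⟩ | e
  · simp [h1] at h
  · simp [dot_neg_right, h] at h1
  · exact e.2.2

theorem split3 {A : G → ℂ} (hA : A ∈ ZIrr G) (hn : nrm A = 3) :
    ∃ x y z, Dirr x ∧ Dirr y ∧ Dirr z ∧ ⟪x, y⟫ = 0 ∧ ⟪x, z⟫ = 0 ∧ ⟪y, z⟫ = 0 ∧ A = x + y + z := by
  obtain ⟨x, hx, h⟩ := ZIrr.exists_point hA (by rintro rfl; simp [nrm_zero] at hn) (by rw [hn]; norm_num)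
  have n2 : nrm (A - x) = 2 := by rw [nrm_sub_of_dot_one hx.dot_self h, hn]; norm_num
  obtain ⟨y, z, hy, hz, yz, e⟩ := ZIrr.exists_of_nrm_two (sub_mem hA hx.mem_ZIrr) n2
  have e0 : ⟪y + z, x⟫ = 0 := by rw [← e, dot_sub_left, h, hx.dot_self, sub_self]
  refine ⟨x, y, z, hx, hy, hz, dirr_orth hy hx ?_ e0, dirr_orth hz hx ?_ e0, yz, by rw [add_assoc, ← e, add_sub_cancel]⟩
  · rw [dot_add_left, hy.dot_self, dot_comm_zero yz, add_zero]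
  · rw [dot_add_left, hz.dot_self, yz, zero_add]

/-- a signed irreducible character of degree `d` of absolute value `1` on the `2`-singular elements -/
def Dg (c t : G) (d e : ℤ) : Prop :=
  ∃ ζ : G → ℂ, Dirr ζ ∧ ζ 1 = d ∧ ζ t = e ∧ ∀ v : KK c t, (v : G) ∉ UU t → ‖ζ v‖ = 1

/-- the character of order `2` of `K/U` -/
structure Rho (ρ : KK c t →* ℂˣ) : Prop where
  mem : ρ ∈ LL c t
  hc : (ρ (cK c t) : ℂ) = -1

theorem Rho.ne {ρ : KK c t →* ℂˣ} (r : Rho ρ) : ρ ≠ 1 := fun e => by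
  have := r.hc; rw [e] at this; norm_num at this

/-- the numerical results for `m ≥ 4` -/
structure Ar4 (m n k l : ℕ) (x y z w : ℤ) : Prop where
  cx : (2 * m : ℤ) ∣ x - 1
  cy : (2 * m : ℤ) ∣ y - 1
  cz : (2 * m : ℤ) ∣ z - (m - 1)
  cw : (2 * m : ℤ) ∣ w - (m - 1)
  sum : x + y + z + w = 0
  ne : x + y ≠ 0
  e1 : (2 * (k + l) ^ 2 : ℚ) = n * (1 / x + 1 / y - 4 / (x + y))
  e2 : (8 * (k * l) : ℚ) = n * (1 / x + 1 / y + 1 / z + 1 / w)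

/-- the numerical results for `m = 2` -/
structure Ar2 (n k : ℕ) (x y z w : ℤ) : Prop where
  cx : 4 ∣ x - 1
  cy : 4 ∣ y - 1
  cz : 4 ∣ z - 1
  cw : 4 ∣ w - 1
  sum : x + y + z + w = 0
  e : (2 * k ^ 2 : ℚ) = n * (1 / x + 1 / y + 1 / z + 1 / w)

namespace DS

variable (h : DS S c t s)
include h

theorem n0 : (nn t : ℂ) ≠ 0 := Nat.cast_ne_zero.2 (index_pos _).ne'

theorem Phi_q {ζ : G → ℂ} (hζ : Dirr ζ) {d e : ℤ} (hd : ζ 1 = d) (he : ζ t = e) :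
    Phi ζ = nn t * ((nn t * (e ^ 2 / d) : ℚ) : ℂ) := by
  have := Phi_dirr (fun u a b => h.one u ⟨a, b⟩) hζ
  have d0 := hζ.deg_ne_zero
  rw [hd] at d0
  rw [hd, he, h.card_invs] at this
  push_cast; field_simp; linear_combination this

theorem sumS {ζ : G → ℂ} (hζ : ζ ∈ ZIrr G) {f : zpowers c → ℂ} (hf : ∀ x : zpowers c, x ≠ 1 → ζ x = f x) :
    ∃ z : ℤ, ζ 1 - f 1 + ∑ x, f x + orderOf c * ζ t = 2 * orderOf c * z := by
  obtain ⟨z, hz⟩ := ZIrr.dot_int (ZIrr.comp hζ S.subtype) (one_mem _)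
  have e1 := sum_eq_dot (ζ ∘ S.subtype)
  have e2 := sum_sub h.zle (fun x => ζ x - ζ t) fun x hx hx' =>
    sub_eq_zero.2 (CF_isConj (ZIrr.mem_CF hζ) (h.one x (h.isInv hx hx'))).symm
  have e3 : ∑ x : zpowers c, (ζ x - f x) = ζ 1 - f 1 := sum_eq_single 1 (fun x _ hx => sub_eq_zero.2 (hf x hx)) (by simp)
  rw [hz, h.cardS] at e1
  simp only [sum_sub_distrib, sum_const, card_univ, ← Nat.card_eq_fintype_card, h.cardS, Nat.card_zpowers, nsmul_eq_mul,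
    Function.comp, coe_subtype] at e1 e2 e3
  refine ⟨z, ?_⟩
  push_cast at e1 e2
  linear_combination e1 - e2 - e3

theorem zU (x : zpowers c) (hx : x ≠ 1) : (x : G) ∉ UU t := fun e => hx (Subtype.ext (by
  have : (x : G) ∈ S ⊓ UU t := ⟨h.zle x.2, e⟩
  rwa [h.inf, mem_bot] at this))

theorem deg_cong {ζ : G → ℂ} (hζ : ζ ∈ ZIrr G) {d e : ℤ} (hd : ζ 1 = d)
    (he : ∀ x : zpowers c, x ≠ 1 → ζ x = e) : (2 * orderOf c : ℤ) ∣ d - e := by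
  obtain ⟨z, hz⟩ := h.sumS hζ he
  rw [hd, he ⟨t, h.tc⟩ fun e => h.inv.2 (congrArg Subtype.val e), sum_const, card_univ, ← Nat.card_eq_fintype_card,
    Nat.card_zpowers, nsmul_eq_mul] at hz
  exact ⟨z - e, Int.cast_injective (α := ℂ) (by push_cast; linear_combination hz)⟩

theorem lin_t (l : KK c t →* ℂˣ) : ((l ⟨t, h.tK⟩ : ℂ) = 1 ∨ (l ⟨t, h.tK⟩ : ℂ) = -1) ∧
    (l ⟨t, h.tK⟩ : ℂ)⁻¹ = l ⟨t, h.tK⟩ := by
  have : (l ⟨t, h.tK⟩ : ℂ) * l ⟨t, h.tK⟩ = 1 := by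
    rw [← Units.val_mul, ← map_mul, show (⟨t, h.tK⟩ * ⟨t, h.tK⟩ : KK c t) = 1 from Subtype.ext h.inv.1, map_one,
      Units.val_one]
  exact ⟨mul_self_eq_one_iff.1 this, inv_eq_of_mul_eq_one_right this⟩

theorem exists_mu : ∃ μ ∈ LL c t, (μ ⟨t, h.tK⟩ : ℂ) = -1 := by
  by_contra! e
  have := h.sum_LL ⟨t, h.tK⟩
  rw [if_neg h.tU, sum_congr rfl fun μ hμ => (h.lin_t μ).1.resolve_right (e μ hμ), sum_const, card_linOver h.commK,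
    h.idxU] at this
  exact (orderOf_pos c).ne' (by simpa using this)

theorem tK_eq : (⟨t, h.tK⟩ : KK c t) = cK c t ^ (orderOf c / 2) := Subtype.ext h.pow_half.symm

theorem exists_rho : ∃ ρ : KK c t →* ℂˣ, Rho ρ := by
  obtain ⟨μ, h1, h2⟩ := h.exists_mu
  exact ⟨μ ^ (orderOf c / 2), mem_LL fun y hy => by simp [LL_U h1 hy], by rwa [h.tK_eq, map_pow] at h2⟩

variable {ρ β : KK c t →* ℂˣ}

theorem rho_inv (r : Rho ρ) : ρ⁻¹ = ρ := h.ext_L (LL_inv r.mem) r.mem (Units.ext (by simp [r.hc]))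

theorem rho_uniq (r : Rho ρ) {l : KK c t →* ℂˣ} (hl : l ∈ LL c t) (e : l⁻¹ = l) : l = 1 ∨ l = ρ := by
  have : (l (cK c t) : ℂ) * l (cK c t) = 1 := by nth_rw 1 [← e]; simp
  exact (mul_self_eq_one_iff.1 this).imp (fun e => h.ext_L hl (one_mem_linOver _) (Units.ext e))
    fun e => h.ext_L hl r.mem (Units.ext (e.trans r.hc.symm))

theorem rho_t (r : Rho ρ) (h4 : 4 ∣ orderOf c) : (ρ ⟨t, h.tK⟩ : ℂ) = 1 := by
  obtain ⟨i, hi⟩ := h4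
  rw [h.tK_eq, map_pow, Units.val_pow_eq_pow_val, r.hc, show orderOf c / 2 = 2 * i by omega, pow_mul]; simp

variable {h}

theorem Bet.mul_ne (hβ : h.Bet β) {l : KK c t →* ℂˣ} (hl : l ∈ LL c t) (l1 : l ≠ 1) : β * l ≠ 1 := fun e =>
  l1 (h.ext_L hl (one_mem_linOver _) (by simpa [hβ.hc] using DFunLike.congr_fun e (cK c t)))

theorem Bet.dot_one (hβ : h.Bet β) {l : KK c t →* ℂˣ} (hl : l ∈ LL c t) (l1 : l ≠ 1) :
    ⟪tt β l, 1⟫ = if β = 1 then 1 else 0 := by rw [dot_tt_one, if_neg (hβ.mul_ne hl l1), sub_zero]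

theorem Bet.nrm4 (hβ : h.Bet β) (r : Rho ρ) : nrm (tt β ρ) = 4 :=
  nrm_eq_of_dot (by rw [dot_tt_tt hβ (h.lam_of r.mem) r.ne r.ne, if_pos rfl, if_pos (h.rho_inv r)]; norm_num)

theorem Bet.nrm3 (hβ : h.Bet β) {l : KK c t →* ℂˣ} (hl : h.Lam l) (l2 : l⁻¹ ≠ l) : nrm (tt β l) = 3 := by
  have l1 : l ≠ 1 := fun e => l2 (by simp [e])
  exact nrm_eq_of_dot (by rw [dot_tt_tt hβ hl l1 l1, if_pos rfl, if_neg l2]; norm_num)

theorem Bet.dot2 (hβ : h.Bet β) {l μ : KK c t →* ℂˣ} (hl : h.Lam l) (l1 : l ≠ 1) (m1 : μ ≠ 1) (e : l ≠ μ)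
    (e' : l⁻¹ ≠ μ) : ⟪tt β l, tt β μ⟫ = 2 := by rw [dot_tt_tt hβ hl l1 m1, if_neg e, if_neg e']; norm_num

theorem Bet.tt_t (hβ : h.Bet β) {l : KK c t →* ℂˣ} (hl : h.Lam l) : tt β l t = 2 - 2 * l ⟨t, h.tK⟩ := by
  rw [show tt β l t = _ from tt_apply hβ hl ⟨t, h.tK⟩, (h.lin_t l).2, hβ.z h.tc]; simp; ring

theorem Bet.parity (hβ : h.Bet β) (r : Rho ρ) {ζ : G → ℂ} (hζ : ζ ∈ ZIrr G) (e : Exp c t {β} ζ) (h1 : ⟪tt β ρ, ζ⟫ = 1) :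
    ∃ n : ℤ, ζ t = 2 * n + 1 := by
  let F : (KK c t →* ℂˣ) → ℤ := fun μ => zdot ζ (tt β μ) * if (μ ⟨t, h.tK⟩ : ℂ) = 1 then 1 else -1
  have e1 : ∀ μ, ⟪ζ, tt β μ⟫ * μ ⟨t, h.tK⟩ = F μ := fun μ => by
    simp only [F, Int.cast_mul, ZIrr.coe_zdot hζ (tt_ZIrr β μ)]
    rcases (h.lin_t μ).1 with e | e <;> rw [e] <;> norm_num
  have e2 : ∀ μ ∈ LL c t, F μ⁻¹ = F μ := fun μ hμ => by
    simp only [F, tt_inv hβ (h.lam_of hμ), MonoidHom.inv_apply, Units.val_inv_eq_inv_val, (h.lin_t μ).2]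
  have e3 : ((∑ μ ∈ (LL c t).erase ρ, F μ : ℤ) : ZMod 2) = 0 := by
    push_cast
    refine sum_involution (fun μ _ => μ⁻¹) (fun μ hμ => ?_) (fun μ hμ h0 e => ?_) (fun μ hμ => ?_) fun _ _ => inv_inv _
    · rw [e2 μ (mem_of_mem_erase hμ), CharTwo.add_self_eq_zero]
    · rcases h.rho_uniq r (mem_of_mem_erase hμ) e with rfl | rfl
      · exact h0 (by simp [F, tt_one, zdot_eq (θ := ζ) (φ := 0) (n := 0) (by simp [dot_zero_right])])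
      · exact ne_of_mem_erase hμ rfl
    · exact mem_erase.2 ⟨fun e => ne_of_mem_erase hμ (by rw [← inv_inv μ, e, h.rho_inv r]), LL_inv (mem_of_mem_erase hμ)⟩
  obtain ⟨i, hi⟩ := (ZMod.intCast_zmod_eq_zero_iff_dvd _ 2).1 e3
  have e4 := e ⟨t, h.tK⟩ h.tU
  rw [sum_singleton, hβ.z h.tc, ← add_sum_erase _ _ r.mem, sum_congr rfl fun μ _ => e1 μ, ← Int.cast_sum, hi,
    ZIrr.dot_comm hζ (tt_ZIrr _ _), h1] at e4
  rcases (h.lin_t ρ).1 with e | e <;> rw [e] at e4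
  · exact ⟨-i - 1, by push_cast at e4 ⊢; linear_combination e4⟩
  · exact ⟨-i, by push_cast at e4 ⊢; linear_combination e4⟩

theorem Bet.val_one (hβ : h.Bet β) {ζ : G → ℂ} (hζ : ζ ∈ ZIrr G) (e : Exp c t {β} ζ)
    (h1 : ∀ μ ∈ LL c t, μ ≠ 1 → ⟪tt β μ, ζ⟫ = 1) (v : KK c t) (hv : (v : G) ∉ UU t) : ζ v = β v := by
  have e1 := h.sum_LL v
  rw [if_neg hv, ← add_sum_erase _ _ (one_mem_linOver _)] at e1
  rw [e v hv, sum_singleton, ← add_sum_erase _ _ (one_mem_linOver _), tt_one, dot_zero_right, sum_congr rfl fun μ hμ => by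
    rw [ZIrr.dot_comm hζ (tt_ZIrr _ _), h1 μ (mem_of_mem_erase hμ) (ne_of_mem_erase hμ), one_mul]]
  simp only [MonoidHom.one_apply, Units.val_one] at e1
  linear_combination -(β v : ℂ) * e1

theorem Bet.common (hβ : h.Bet β) (r : Rho ρ) (h4 : 4 ∣ orderOf c)
    (hx : ∀ l ∈ LL c t, ∀ χ, Dirr χ → ⟪tt β l, χ⟫ ≠ 0 → Exp c t {β} χ) {x y : G → ℂ} (dx : Dirr x) (dy : Dirr y)
    (xy : ⟪x, y⟫ = 0) (rx : ⟪tt β ρ, x⟫ = 1) (ry : ⟪tt β ρ, y⟫ = 1) {l : KK c t →* ℂˣ} (hl : l ∈ LL c t)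
    (lt : (l ⟨t, h.tK⟩ : ℂ) = -1) (lx : ⟪tt β l, x⟫ = 1) (ly : ⟪tt β l, y⟫ = 1) :
    ∀ μ ∈ LL c t, μ ≠ 1 → ⟪tt β μ, x⟫ = 1 ∧ ⟪tt β μ, y⟫ = 1 := by
  have Z := tt_ZIrr β
  have ni : ∀ μ ∈ LL c t, μ ≠ 1 → μ ≠ ρ → μ⁻¹ ≠ μ := fun μ hμ a b e => (h.rho_uniq r hμ e).elim a b
  have dρ : ∀ μ, μ ≠ 1 → μ ≠ ρ → ⟪tt β ρ, tt β μ⟫ = 2 := fun μ a b =>
    hβ.dot2 (h.lam_of r.mem) r.ne a b.symm (by rw [h.rho_inv r]; exact b.symm)
  have A : ∀ μ ∈ LL c t, μ ≠ 1 → μ ≠ ρ → ⟪tt β μ, x⟫ = 1 ∧ ⟪tt β μ, y⟫ = 1 → ∀ ν ∈ LL c t, ν ≠ 1 → ν ≠ ρ →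
      (μ ⟨t, h.tK⟩ : ℂ) ≠ ν ⟨t, h.tK⟩ → ⟪tt β ν, x⟫ = 1 ∧ ⟪tt β ν, y⟫ = 1 := fun μ hμ m1 m2 ⟨mx, my⟩ ν hν n1 n2 ne => by
    have m3 := hβ.nrm3 (h.lam_of hμ) (ni μ hμ m1 m2)
    have n3 := hβ.nrm3 (h.lam_of hν) (ni ν hν n1 n2)
    have d2 := hβ.dot2 (h.lam_of hν) n1 m1 (fun e => ne (by rw [e])) fun e => ne (by
      rw [← e, MonoidHom.inv_apply, Units.val_inv_eq_inv_val, (h.lin_t ν).2])
    have bad : ∀ {x y : G → ℂ}, Dirr x → Dirr y → ⟪x, y⟫ = 0 → ⟪tt β ρ, x⟫ = 1 → ⟪tt β ρ, y⟫ = 1 → ⟪tt β μ, x⟫ = 1 →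
        ⟪tt β μ, y⟫ = 1 → ⟪tt β ν, x⟫ = 1 → ⟪tt β ν, y⟫ ≠ 0 := fun {x y} dx dy xy rx ry mx my nx ny => by
      have dp := dirr_sub2 (Z μ) m3 dx dy xy mx my
      have dq := dirr_sub2 (Z ν) n3 dx dp (by
        rw [dot_sub_right, dot_sub_right, dot_comm_of_int (n := 1) (by simpa using mx), dx.dot_self, xy]; simp) nx
        (by rw [dot_sub_right, dot_sub_right, d2, nx, ny]; norm_num)
      set q := tt β ν - x - (tt β μ - x - y) with hq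
      have rq : ⟪tt β ρ, q⟫ = 1 := by simp only [hq, dot_sub_right, dρ μ m1 m2, dρ ν n1 n2, rx, ry]; norm_num
      have p1 := Phi_dirr (fun u a b => h.one u ⟨a, b⟩) dy
      have p2 := Phi_dirr (fun u a b => h.one u ⟨a, b⟩) dq
      rw [show q 1 = y 1 by simp [hq, tt_deg], show Phi q = Phi y by
        simp only [hq, Dih.Phi_sub, Phi_tt1 hβ (h.lam_of hμ) (ni μ hμ m1 m2), Phi_tt1 hβ (h.lam_of hν) (ni ν hν n1 n2)]; ring,
        p1, h.card_invs, mul_right_inj' (pow_ne_zero 2 h.n0)] at p2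
      obtain ⟨i, hi⟩ := hβ.parity r dy.mem_ZIrr (hx ρ r.mem y dy (by simp [ry])) ry
      simp only [hq, Pi.sub_apply, hβ.tt_t (h.lam_of hμ), hβ.tt_t (h.lam_of hν), hi] at p2
      rcases (h.lin_t μ).1 with e | e <;> rcases (h.lin_t ν).1 with e' | e' <;> rw [e, e'] at ne p2
      · exact ne rfl
      · have : ((2 * i + 1 : ℤ) : ℂ) = (-2 : ℤ) := by push_cast; linear_combination -p2 / 8
        have := Int.cast_injective this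
        omega
      · have : ((2 * i + 1 : ℤ) : ℂ) = (2 : ℤ) := by push_cast; linear_combination p2 / 8
        have := Int.cast_injective this
        omega
      · exact ne rfl
    have b1 := bad dx dy xy rx ry mx my
    have b2 := bad dy dx (dot_comm_zero xy) ry rx my mx
    have d3 := ZIrr.dot_cases_of_nrm_lt_four (Z ν) (by rw [n3]; norm_num) (dirr_sub2 (Z μ) m3 dx dy xy mx my)
    rw [dot_sub_right, dot_sub_right, d2] at d3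
    rcases ZIrr.dot_cases_of_nrm_lt_four (Z ν) (by rw [n3]; norm_num) dx with e | e | e <;>
      rcases ZIrr.dot_cases_of_nrm_lt_four (Z ν) (by rw [n3]; norm_num) dy with e' | e' | e' <;>
      rw [e, e'] at b1 b2 d3 ⊢ <;> revert b1 b2 d3 <;> norm_num
  have rt := h.rho_t r h4
  have l1 : l ≠ 1 := fun e => by rw [e] at lt; norm_num at lt
  have l2 : l ≠ ρ := fun e => by rw [e, rt] at lt; norm_num at lt
  intro μ hμ m1
  by_cases m2 : μ = ρ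
  · rw [m2]; exact ⟨rx, ry⟩
  rcases (h.lin_t μ).1 with e | e
  · exact A l hl l1 l2 ⟨lx, ly⟩ μ hμ m1 m2 (by rw [e, lt]; norm_num)
  have B : ∀ κ ∈ LL c t, (κ ⟨t, h.tK⟩ : ℂ) = 1 → κ ≠ 1 → κ ≠ ρ → ⟪tt β μ, x⟫ = 1 ∧ ⟪tt β μ, y⟫ = 1 := fun κ hκ kt k1 k2 =>
    A κ hκ k1 k2 (A l hl l1 l2 ⟨lx, ly⟩ κ hκ k1 k2 (by rw [kt, lt]; norm_num)) μ hμ m1 m2 (by rw [kt, e]; norm_num)
  by_cases a1 : l * μ = 1
  · rw [← inv_eq_of_mul_eq_one_right a1, tt_inv hβ (h.lam_of hl)]; exact ⟨lx, ly⟩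
  by_cases a2 : l * μ⁻¹ = 1
  · rw [← mul_inv_eq_one.1 a2]; exact ⟨lx, ly⟩
  by_cases a3 : l * μ = ρ
  · refine B _ (LL_mul hl (LL_inv hμ)) (by simp [lt, e]) a2 fun a4 => ni μ hμ m1 m2 ?_
    exact mul_left_cancel (a4.trans a3.symm)
  · exact B _ (LL_mul hl hμ) (by simp [lt, e]) a1 a3

theorem Bet.ex4 (hβ : h.Bet β) (h4 : 4 ∣ orderOf c)
    (hx : ∀ l ∈ LL c t, ∀ χ, Dirr χ → ⟪tt β l, χ⟫ ≠ 0 → Exp c t {β} χ) :
    ∃ x y z w, Ar4 (orderOf c) (nn t) (kk t s) (kk t (s * c)) x y z w ∧ (β = 1 → x = 1) ∧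
      (⁅(⊤ : Subgroup G), (⊤ : Subgroup G)⁆ = ⊤ → y ≠ 1 ∧ (β ≠ 1 → x ≠ 1)) ∧ Dg c t z (-1) := by
  obtain ⟨ρ, r⟩ := h.exists_rho
  obtain ⟨l, hl, lt⟩ := h.exists_mu
  have Z := tt_ZIrr β
  have rt := h.rho_t r h4
  have n4 := hβ.nrm4 r
  have ni : ∀ μ ∈ LL c t, μ ≠ 1 → μ ≠ ρ → μ⁻¹ ≠ μ := fun μ hμ a b e => (h.rho_uniq r hμ e).elim a b
  have dρ : ∀ μ, μ ≠ 1 → μ ≠ ρ → ⟪tt β ρ, tt β μ⟫ = 2 := fun μ a b =>
    hβ.dot2 (h.lam_of r.mem) r.ne a b.symm (by rw [h.rho_inv r]; exact b.symm)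
  have l1 : l ≠ 1 := fun e => by rw [e] at lt; norm_num at lt
  have l2 : l ≠ ρ := fun e => by rw [e, rt] at lt; norm_num at lt
  have n3 := hβ.nrm3 (h.lam_of hl) (ni l hl l1 l2)
  obtain ⟨a, b, da, db, ab, ra, rb, la, lb⟩ : ∃ a b, Dirr a ∧ Dirr b ∧ ⟪a, b⟫ = 0 ∧ ⟪tt β ρ, a⟫ = 1 ∧ ⟪tt β ρ, b⟫ = 1 ∧
      ⟪tt β l, a⟫ = 1 ∧ ⟪tt β l, b⟫ = 1 := by
    obtain ⟨x, y, z, dx, dy, dz, xy, xz, yz, e⟩ := split3 (Z l) n3
    have d := dρ l l1 l2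
    have ex : ⟪tt β l, x⟫ = 1 := by rw [e, dot_add_left, dot_add_left, dx.dot_self, dot_comm_zero xy, dot_comm_zero xz]; simp
    have ey : ⟪tt β l, y⟫ = 1 := by rw [e, dot_add_left, dot_add_left, dy.dot_self, xy, dot_comm_zero yz]; simp
    have ez : ⟪tt β l, z⟫ = 1 := by rw [e, dot_add_left, dot_add_left, dz.dot_self, xz, yz]; simp
    rw [e, dot_add_right, dot_add_right] at d
    have C := fun {x} (hx : Dirr x) => ZIrr.dot_cases_of_nrm_le_four (Z ρ) n4.le (tt_deg _ _) hx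
    by_cases e1 : ⟪tt β ρ, x⟫ = 1
    · by_cases e2 : ⟪tt β ρ, y⟫ = 1
      · exact ⟨x, y, dx, dy, xy, e1, e2, ex, ey⟩
      · refine ⟨x, z, dx, dz, xz, e1, ?_, ex, ez⟩
        rcases C dy with e | e | e <;> rcases C dz with e' | e' | e' <;> rw [e1, e, e'] at d <;>
          first | exact e' | exact (e2 e).elim | norm_num at d
    · refine ⟨y, z, dy, dz, yz, ?_, ?_, ey, ez⟩ <;>
      rcases C dx with e0 | e0 | e0 <;> rcases C dy with e | e | e <;> rcases C dz with e' | e' | e' <;>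
        rw [e0, e, e'] at d <;> first | exact e | exact e' | exact (e1 e0).elim | norm_num at d
  obtain ⟨a, b, da, db, ab, ra, rb, la, lb, a1, b1⟩ : ∃ a b, Dirr a ∧ Dirr b ∧ ⟪a, b⟫ = 0 ∧ ⟪tt β ρ, a⟫ = 1 ∧
      ⟪tt β ρ, b⟫ = 1 ∧ ⟪tt β l, a⟫ = 1 ∧ ⟪tt β l, b⟫ = 1 ∧ ⟪a, 1⟫ = (if β = 1 then 1 else 0) ∧ ⟪b, 1⟫ = 0 := by
    have o1 := hβ.dot_one r.mem r.ne
    split_ifs at o1 ⊢ with e
    · have dp := dirr_sub2 (Z l) n3 da db ab la lb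
      have := dirr_orth (IsIrr.dirr one_irr) dp o1 (by rw [dot_sub_right, dot_sub_right, dρ l l1 l2, ra, rb]; norm_num)
      rw [dot_sub_left, dot_sub_left, hβ.dot_one hl l1, if_pos e] at this
      rcases two_split (one_mem _) (by rw [IsIrr.nrm one_irr]; norm_num) da db (by
        rw [dot_add_right, ZIrr.dot_comm (one_mem _) da.mem_ZIrr, ZIrr.dot_comm (one_mem _) db.mem_ZIrr]
        linear_combination -this) with ⟨e1, e2⟩ | ⟨e1, e2⟩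
      · exact ⟨a, b, da, db, ab, ra, rb, la, lb, by rwa [ZIrr.dot_comm da.mem_ZIrr (one_mem _)], dot_comm_zero e2⟩
      · exact ⟨b, a, db, da, dot_comm_zero ab, rb, ra, lb, la, by rwa [ZIrr.dot_comm db.mem_ZIrr (one_mem _)],
          dot_comm_zero e1⟩
    · exact ⟨a, b, da, db, ab, ra, rb, la, lb, dirr_orth_one da ra o1, dirr_orth_one db rb o1⟩
  have cm := hβ.common r h4 hx da db ab ra rb hl lt la lb
  have va := hβ.val_one da.mem_ZIrr (hx ρ r.mem a da (by simp [ra])) fun μ hμ m1 => (cm μ hμ m1).1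
  have vb := hβ.val_one db.mem_ZIrr (hx ρ r.mem b db (by simp [rb])) fun μ hμ m1 => (cm μ hμ m1).2
  obtain ⟨p, q, dp, dq, pq, e⟩ := ZIrr.exists_of_nrm_two (sub_mem (sub_mem (Z ρ) da.mem_ZIrr) db.mem_ZIrr)
    (by rw [nrm_sub2 da db ab ra rb, n4]; norm_num)
  have vz : ∀ {p q}, Dirr p → ⟪q, p⟫ = 0 → tt β ρ - a - b = p + q → ∀ v : KK c t, (v : G) ∉ UU t → p v = -(β v * ρ v) :=
    fun {p q} dp pq e v hv => by
      have e1 : ⟪p + q, p⟫ = 1 := by rw [dot_add_left, dp.dot_self, pq, add_zero]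
      have pa := dirr_orth dp da e1 (by rw [← e, dot_sub_left, dot_sub_left, ra, da.dot_self, dot_comm_zero ab]; simp)
      have pb := dirr_orth dp db e1 (by rw [← e, dot_sub_left, dot_sub_left, rb, db.dot_self, ab]; simp)
      rw [← e, dot_sub_left, dot_sub_left, pa, pb, sub_zero, sub_zero] at e1
      rw [hx ρ r.mem p dp (by simp [e1]) v hv, sum_singleton, sum_eq_single ρ (fun μ hμ m2 => ?_) fun e => (e r.mem).elim,
        ZIrr.dot_comm dp.mem_ZIrr (Z _), e1, one_mul]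
      by_cases m1 : μ = 1
      · rw [m1, tt_one, dot_zero_right, zero_mul]
      have := dirr_orth dp (dirr_sub2 (Z μ) (hβ.nrm3 (h.lam_of hμ) (ni μ hμ m1 m2)) da db ab (cm μ hμ m1).1 (cm μ hμ m1).2)
        e1 (by rw [dot_sub_right, dot_sub_right, dρ μ m1 m2, ra, rb]; norm_num)
      rw [dot_sub_left, dot_sub_left, pa, pb, sub_zero, sub_zero] at this
      rw [dot_comm_zero this, zero_mul]
  have vp := vz dp (dot_comm_zero pq) e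
  have vq := vz dq pq (e.trans (add_comm _ _))
  have bt : β ⟨t, h.tK⟩ = 1 := hβ.z h.tc
  have c1 : ∀ {a : G → ℂ} {x : ℤ}, Dirr a → a 1 = x → (∀ v : KK c t, (v : G) ∉ UU t → a v = β v) →
      (2 * orderOf c : ℤ) ∣ x - 1 ∧ a t = (1 : ℤ) := fun da hx va =>
    ⟨h.deg_cong da.mem_ZIrr hx fun y hy => by
      rw [show _ = _ from va ⟨y, mem_sup_left y.2⟩ (h.zU y hy), hβ.z y.2]; simp,
    by rw [show _ = _ from va ⟨t, h.tK⟩ h.tU, bt]; simp⟩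
  have c2 : ∀ {a : G → ℂ} {x : ℤ}, Dirr a → a 1 = x → (∀ v : KK c t, (v : G) ∉ UU t → a v = -(β v * ρ v)) →
      (2 * orderOf c : ℤ) ∣ x - (orderOf c - 1) ∧ a t = (-1 : ℤ) := fun {a x} da hx va => by
    have e1 : a t = (-1 : ℤ) := by rw [show _ = _ from va ⟨t, h.tK⟩ h.tU, bt, rt]; simp
    let σ := ρ.comp (inclusion (le_sup_left : zpowers c ≤ KK c t))
    obtain ⟨z, hz⟩ := h.sumS da.mem_ZIrr (f := fun y => -(σ y : ℂ)) fun y hy => by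
      rw [show _ = _ from va ⟨y, mem_sup_left y.2⟩ (h.zU y hy), hβ.z y.2]; simp [σ]; rfl
    rw [sum_neg_distrib, sum_lin_eq_zero (l := σ) fun e => by
      have := r.hc
      rw [show ρ (cK c t) = σ ⟨c, mem_zpowers c⟩ from rfl, e] at this; norm_num at this, e1, hx] at hz
    exact ⟨⟨z, Int.cast_injective (α := ℂ) (by push_cast at hz ⊢; simp only [map_one, Units.val_one] at hz; linear_combination hz)⟩, e1⟩
  obtain ⟨x, -, hx⟩ := da.deg_int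
  obtain ⟨y, -, hy⟩ := db.deg_int
  obtain ⟨z, -, hz⟩ := dp.deg_int
  obtain ⟨w, -, hw⟩ := dq.deg_int
  have d3 := dirr_sub2 (Z l) n3 da db ab la lb
  have p1 : (tt β l - a - b) 1 = (-(x + y) : ℤ) := by simp [tt_deg, hx, hy]; ring
  have p2 : (tt β l - a - b) t = (2 : ℤ) := by
    simp only [Pi.sub_apply, hβ.tt_t (h.lam_of hl), lt, (c1 da hx va).2, (c1 db hy vb).2]; norm_num
  have q1 := h.Phi_q da hx (c1 da hx va).2
  have q2 := h.Phi_q db hy (c1 db hy vb).2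
  have q3 := h.Phi_q d3 p1 p2
  have q4 := congrArg Phi e
  have q5 := congrFun e 1
  rw [Dih.Phi_sub, Dih.Phi_sub, q1, q2, Phi_tt1 hβ (h.lam_of hl) (ni l hl l1 l2)] at q3
  rw [Dih.Phi_sub, Dih.Phi_sub, Phi_add, q1, q2, h.Phi_q dp hz (c2 dp hz vp).2, h.Phi_q dq hw (c2 dq hw vq).2,
    Phi_tt2 hβ (h.lam_of r.mem) (h.rho_inv r) r.hc] at q4
  simp only [Pi.sub_apply, Pi.add_apply, tt_deg, hx, hy, hz, hw] at q5
  refine ⟨x, y, z, w, ⟨(c1 da hx va).1, (c1 db hy vb).1, (c2 dp hz vp).1, (c2 dq hw vq).1,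
    Int.cast_injective (α := ℂ) (by push_cast; linear_combination -q5), fun e => d3.deg_ne_zero (by rw [p1, e]; simp),
    Rat.cast_injective (α := ℂ) (mul_left_cancel₀ h.n0 ?_), Rat.cast_injective (α := ℂ) (mul_left_cancel₀ h.n0 ?_)⟩,
    fun e => ?_, fun hG => ⟨fun e => (dirr_deg hG db b1).1 (by simp [hy, e]),
      fun e e' => (dirr_deg hG da (a1.trans (if_neg e))).1 (by simp [hx, e'])⟩, p, dp, hz, (c2 dp hz vp).2, fun v hv => ?_⟩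
  · simp only [kS] at q3; push_cast at q3 ⊢; rw [div_neg] at q3; linear_combination q3
  · push_cast at q4 ⊢; linear_combination q4
  · rw [da.eq_of_dot_eq_one (IsIrr.dirr one_irr) (a1.trans (if_pos e))] at hx
    exact Int.cast_injective (α := ℂ) (by simpa using hx.symm)
  · rw [vp v hv, norm_neg, norm_mul, show ‖(β v : ℂ)‖ = 1 from norm_lin β v, show ‖(ρ v : ℂ)‖ = 1 from norm_lin ρ v, mul_one]

theorem LL2 (h2 : orderOf c = 2) (r : Rho ρ) : LL c t = {1, ρ} := by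
  ext l
  simp only [mem_insert, mem_singleton]
  refine ⟨fun hl => h.rho_uniq r hl (h.ext_L (LL_inv hl) hl ?_), by rintro (rfl | rfl); exacts [one_mem_linOver _, r.mem]⟩
  rw [MonoidHom.inv_apply, inv_eq_iff_mul_eq_one, ← map_mul, show cK c t * cK c t = 1 from
    Subtype.ext (by have := pow_orderOf_eq_one c; rwa [h2, pow_two] at this), map_one]

theorem exp2 (h2 : orderOf c = 2) (r : Rho ρ) {B : Finset (KK c t →* ℂˣ)} {ζ : G → ℂ} (hζ : ζ ∈ ZIrr G)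
    (e : Exp c t B ζ) (v : KK c t) (hv : (v : G) ∉ UU t) : ζ v = ∑ γ ∈ B, γ v * ⟪tt γ ρ, ζ⟫ := by
  have e1 := h.sum_LL v
  rw [if_neg hv, LL2 (h := h) h2 r, sum_pair r.ne.symm] at e1
  rw [e v hv, ← sum_neg_distrib]
  refine sum_congr rfl fun γ _ => ?_
  rw [LL2 (h := h) h2 r, sum_pair r.ne.symm, tt_one, dot_zero_right, ZIrr.dot_comm hζ (tt_ZIrr _ _)]
  simp only [MonoidHom.one_apply, Units.val_one] at e1
  linear_combination -(γ v : ℂ) * ⟪tt γ ρ, ζ⟫ * e1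

theorem cong4 (h2 : orderOf c = 2) {ζ : G → ℂ} (hζ : ζ ∈ ZIrr G) {d e : ℤ} (hd : ζ 1 = d) (he : ζ t = e) :
    4 ∣ d - e := by
  have := h.deg_cong hζ hd (e := e) fun x hx => by
    rwa [h.uniq x.2 ⟨?_, fun e => hx (Subtype.ext e)⟩]
    rw [← pow_two, ← h2]
    exact orderOf_dvd_iff_pow_eq_one.1 (orderOf_dvd_of_mem_zpowers x.2)
  rwa [h2] at this

theorem kk2 (h2 : orderOf c = 2) : kk t (s * c) = kk t s := by
  have e1 := h.two_kk h.sH h.sInv h.st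
  have e2 := h.two_kk h.swap.sH h.swap.sInv h.swap.st
  rw [← inf_relIndex_right, show 𝒞[s * c] ⊓ UU t = 𝒞[s] ⊓ UU t from ?_, inf_relIndex_right] at e2
  · omega
  ext x
  refine and_congr_left fun hx => ?_
  change x ∈ 𝒞[s * c] ↔ x ∈ 𝒞[s]
  rw [h.c_eq h2, mem_cent_singleton_comm, mem_cent_singleton_comm (y := s)]
  exact mul_mem_cancel_right (mem_cent_singleton_comm.1 (UU_le t hx))

theorem Bet.Phi2 (hβ : h.Bet β) (h2 : orderOf c = 2) (r : Rho ρ) : Phi (tt β ρ) = nn t * (2 * kS c t s ^ 2) := by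
  rw [Phi_tt2 hβ (h.lam_of r.mem) (h.rho_inv r) r.hc, kS, h.kk2 h2]; push_cast; ring

theorem Bet.four (hβ : h.Bet β) (r : Rho ρ) : ∃ a b p q, Dirr a ∧ Dirr b ∧ Dirr p ∧ Dirr q ∧ tt β ρ = a + b + p + q ∧
    ⟪tt β ρ, a⟫ = 1 ∧ ⟪tt β ρ, b⟫ = 1 ∧ ⟪tt β ρ, p⟫ = 1 ∧ ⟪tt β ρ, q⟫ = 1 ∧ ⟪a, 1⟫ = (if β = 1 then 1 else 0) ∧
    ⟪b, 1⟫ = 0 ∧ ⟪p, 1⟫ = 0 ∧ ⟪q, 1⟫ = 0 ∧ ⟪a, b⟫ = 0 ∧ ⟪a, p⟫ = 0 ∧ ⟪a, q⟫ = 0 ∧ ⟪b, p⟫ = 0 ∧ ⟪b, q⟫ = 0 ∧ ⟪p, q⟫ = 0 := by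
  have Z := tt_ZIrr β ρ
  have n4 := hβ.nrm4 r
  have o1 := hβ.dot_one r.mem r.ne
  obtain ⟨a, da, ra, a1⟩ : ∃ a, Dirr a ∧ ⟪tt β ρ, a⟫ = 1 ∧ (β = 1 → a = 1) := by
    split_ifs at o1 with e
    · exact ⟨1, IsIrr.dirr one_irr, o1, fun _ => rfl⟩
    obtain ⟨x, hx, e'⟩ := CF_exists_constt (tt_CF β ρ) (by rintro e; rw [e, nrm_zero] at n4; norm_num at n4)
    rcases ZIrr.dot_cases_of_nrm_le_four Z n4.le (tt_deg _ _) (IsIrr.dirr hx) with e1 | e1 | e1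
    · exact ⟨-x, (IsIrr.dirr hx).neg, by rw [dot_neg_right, e1, neg_neg], fun e' => (e e').elim⟩
    · exact (e' e1).elim
    · exact ⟨x, IsIrr.dirr hx, e1, fun e' => (e e').elim⟩
  obtain ⟨b, p, q, db, dp, dq, bp, bq, pq, e⟩ := split3 (sub_mem Z da.mem_ZIrr)
    (by rw [nrm_sub_of_dot_one da.dot_self ra, n4]; norm_num)
  have e0 : ⟪b + p + q, a⟫ = 0 := by rw [← e, dot_sub_left, ra, da.dot_self, sub_self]
  have e1 : ⟪b + p + q, b⟫ = 1 := by rw [dot_add_left, dot_add_left, db.dot_self, dot_comm_zero bp, dot_comm_zero bq]; simp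
  have e2 : ⟪b + p + q, p⟫ = 1 := by rw [dot_add_left, dot_add_left, dp.dot_self, bp, dot_comm_zero pq]; simp
  have e3 : ⟪b + p + q, q⟫ = 1 := by rw [dot_add_left, dot_add_left, dq.dot_self, bq, pq]; simp
  have ab := dirr_orth db da e1 e0
  have ap := dirr_orth dp da e2 e0
  have aq := dirr_orth dq da e3 e0
  rw [← e, dot_sub_left] at e1 e2 e3
  rw [ab, sub_zero] at e1
  rw [ap, sub_zero] at e2
  rw [aq, sub_zero] at e3
  have o : ∀ {x}, Dirr x → ⟪tt β ρ, x⟫ = 1 → ⟪a, x⟫ = 0 → ⟪x, 1⟫ = 0 := fun dx e1 e2 => by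
    split_ifs at o1 with e
    · exact dot_comm_zero (a1 e ▸ e2)
    · exact dirr_orth_one dx e1 o1
  refine ⟨a, b, p, q, da, db, dp, dq, by rw [add_assoc, add_assoc, ← add_assoc b, ← e, add_sub_cancel], ra, e1, e2, e3, ?_,
    o db e1 ab, o dp e2 ap, o dq e3 aq, ab, ap, aq, bp, bq, pq⟩
  split_ifs at o1 ⊢ with e
  · rw [a1 e, dot_one_one]
  · exact dirr_orth_one da ra o1

theorem Bet.ex2 (hβ : h.Bet β) (h2 : orderOf c = 2)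
    (hx : ∀ l ∈ LL c t, ∀ χ, Dirr χ → ⟪tt β l, χ⟫ ≠ 0 → Exp c t {β} χ) :
    ∃ x y z w, Ar2 (nn t) (kS c t s) x y z w ∧ (β = 1 → x = 1) ∧
      (⁅(⊤ : Subgroup G), (⊤ : Subgroup G)⁆ = ⊤ → y ≠ 1 ∧ z ≠ 1 ∧ w ≠ 1 ∧ (β ≠ 1 → x ≠ 1)) ∧
      Dg c t y 1 ∧ Dg c t z 1 ∧ Dg c t w 1 := by
  obtain ⟨ρ, r⟩ := h.exists_rho
  obtain ⟨a, b, p, q, da, db, dp, dq, e, ra, rb, rp, rq, a1, b1, p1, q1, -⟩ := hβ.four r
  have c1 : ∀ {a : G → ℂ}, Dirr a → ⟪tt β ρ, a⟫ = 1 → ∃ x : ℤ, a 1 = x ∧ 4 ∣ x - 1 ∧ Dg c t x 1 ∧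
      Phi a = nn t * ((nn t * (1 / x) : ℚ) : ℂ) := fun {a} da ra => by
    obtain ⟨x, -, hx'⟩ := da.deg_int
    have v := fun v hv => exp2 (h := h) h2 r da.mem_ZIrr (hx ρ r.mem a da (by simp [ra])) v hv
    simp only [sum_singleton, ra, mul_one] at v
    have e : a t = (1 : ℤ) := by rw [show _ = _ from v ⟨t, h.tK⟩ h.tU, hβ.z h.tc]; simp
    exact ⟨x, hx', cong4 (h := h) h2 da.mem_ZIrr hx' e, ⟨a, da, hx', e, fun u hu => by rw [v u hu]; exact norm_lin β u⟩,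
      by simpa using h.Phi_q da hx' e⟩
  obtain ⟨x, hx, cx, -, fx⟩ := c1 da ra
  obtain ⟨y, hy, cy, gy, fy⟩ := c1 db rb
  obtain ⟨z, hz, cz, gz, fz⟩ := c1 dp rp
  obtain ⟨w, hw, cw, gw, fw⟩ := c1 dq rq
  have q4 := congrArg Phi e
  have q5 := congrFun e 1
  rw [Phi_add, Phi_add, Phi_add, fx, fy, fz, fw, hβ.Phi2 h2 r] at q4
  simp only [Pi.add_apply, tt_deg, hx, hy, hz, hw] at q5
  refine ⟨x, y, z, w, ⟨cx, cy, cz, cw, Int.cast_injective (α := ℂ) (by push_cast; linear_combination -q5),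
    Rat.cast_injective (α := ℂ) (mul_left_cancel₀ h.n0 ?_)⟩, fun e => ?_, fun hG =>
    ⟨fun e => (dirr_deg hG db b1).1 (by simp [hy, e]), fun e => (dirr_deg hG dp p1).1 (by simp [hz, e]),
      fun e => (dirr_deg hG dq q1).1 (by simp [hw, e]),
      fun e e' => (dirr_deg hG da (a1.trans (if_neg e))).1 (by simp [hx, e'])⟩, gy, gz, gw⟩
  · push_cast at q4 ⊢; linear_combination q4
  · rw [da.eq_of_dot_eq_one (IsIrr.dirr one_irr) (a1.trans (if_pos e))] at hx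
    exact Int.cast_injective (α := ℂ) (by simpa using hx.symm)

end DS

end CA.GW
theorem CA.GW.realizeEqnsCh4 : True := by
  have := @CA.GW.Dg.eq_1.{0}
  have := @CA.GW.Dg.eq_def.{0}
  have := @CA.GW.Dg.congr_simp.{0}
  trivial
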