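/-
Dihedral Sylow 2-subgroups: arithmetic of the character degrees.
-/
import Cfsg.Agent.GW.Ch4

set_option autoImplicit false

namespace CA.GW

open CA.Dih

variable {m n k l : ℕ} {x y z w : ℤ}

theorem of_key (hn : ¬ 2 ∣ n) (co : n.Coprime k) (e : (2 * k ^ 2 * (y * (y + 1)) : ℤ) = n * (y - 1) ^ 2) :
    ∃ δ : ℤ, (δ = 1 ∨ δ = -1) ∧ (n : ℤ) = (2 * k + δ) * (k + δ) := by
  rcases Nat.eq_zero_or_pos k with rfl | k0
  · exact ⟨1, .inl rfl, by simp [Nat.coprime_zero_right n |>.1 co]⟩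
  have : (k : ℤ) ^ 2 ∣ (y - 1) ^ 2 := (Nat.isCoprime_iff_coprime.2 co.symm).pow_left.dvd_of_dvd_mul_left
    ⟨2 * (y * (y + 1)), by linear_combination -e⟩
  obtain ⟨j, hj⟩ := (Int.pow_dvd_pow_iff two_ne_zero).1 this
  obtain rfl : y = 1 + j * k := by linear_combination hj
  have k1 : (k : ℤ) ^ 2 ≠ 0 := by positivity
  have e2 : (n : ℤ) * j ^ 2 = 2 * (1 + j * k) * (2 + j * k) := mul_left_cancel₀ k1 (by linear_combination -e)
  rcases int_aux (by exact_mod_cast hn) e2 with rfl | rfl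
  · exact ⟨1, .inl rfl, by linarith⟩
  · exact ⟨-1, .inr rfl, by linarith⟩

theorem key_of (y0 : y ≠ 0) (y1 : 1 + y ≠ 0) (e : (2 * k ^ 2 : ℚ) = n * (1 / (1 : ℤ) + 1 / y - 4 / ((1 : ℤ) + y))) :
    (2 * k ^ 2 * (y * (y + 1)) : ℤ) = n * (y - 1) ^ 2 := by
  have a : (y : ℚ) ≠ 0 := by exact_mod_cast y0
  have b : (1 + y : ℚ) ≠ 0 := by exact_mod_cast y1
  refine Int.cast_injective (α := ℚ) ?_
  push_cast at e ⊢
  rw [e]; field_simp; ring

namespace Ar4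

theorem c8 (m4 : 4 ∣ m) (h : (2 * m : ℤ) ∣ x - 1) : 8 ∣ x - 1 := by
  obtain ⟨i, rfl⟩ := m4
  exact Dvd.dvd.trans ⟨i, by push_cast; ring⟩ h

theorem c4 (m4 : 4 ∣ m) (m0 : m ≠ 0) (h : (2 * m : ℤ) ∣ x - (m - 1)) : 4 ∣ x - 3 ∧ x ≠ -1 := by
  obtain ⟨i, rfl⟩ := m4
  obtain ⟨j, hj⟩ := h
  refine ⟨⟨2 * i * j + i - 1, by push_cast at hj; linear_combination hj⟩, fun e => ?_⟩
  have : ((4 * i : ℕ) : ℤ) * (2 * j + 1) = 0 := by linear_combination e - hj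
  rcases mul_eq_zero.1 this with e | e <;> omega

theorem key (h : Ar4 m n k l 1 y z w) (m4 : 4 ∣ m) :
    (2 * (k + l : ℕ) ^ 2 * (y * (y + 1)) : ℤ) = n * (y - 1) ^ 2 :=
  key_of (by have := c8 m4 h.cy; omega) h.ne (by simpa using h.e1)

theorem b3 (h : Ar4 m n k l 1 y z w) (m4 : 4 ∣ m) : 3 * (k + l) ^ 2 ≤ 4 * n := by
  have e := h.key m4
  have := c8 m4 h.cy
  have h1 : 0 < y * (y + 1) ∧ 3 * (y - 1) ^ 2 ≤ 8 * (y * (y + 1)) := by
    rcases (by omega : 1 ≤ y ∨ y ≤ -7) with e | e <;> constructor <;> nlinarith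
  generalize k + l = j at e ⊢
  zify
  nlinarith [mul_le_mul_of_nonneg_left h1.2 (Int.natCast_nonneg n)]

theorem b45 (h : Ar4 m n k l 1 y z w) (m4 : 4 ∣ m) (y1 : y ≠ 1) : 16 * n ≤ 45 * (k + l) ^ 2 := by
  have e := h.key m4
  have := c8 m4 h.cy
  have h1 : 0 < y * (y + 1) ∧ 32 * (y * (y + 1)) ≤ 45 * (y - 1) ^ 2 := by
    rcases (by omega : 9 ≤ y ∨ y ≤ -7) with e | e <;> constructor <;> nlinarith
  generalize k + l = j at e ⊢
  zify
  nlinarith [mul_le_mul_of_nonneg_left h1.2 (Int.natCast_nonneg n)]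

theorem enum {ρ : ℤ} (hx : 8 ∣ x - 1) (x1 : x ≠ 1) (hz : 3 ≤ z ∨ z ≤ -5) (hw : 3 ≤ w ∨ w ≤ -5) (hs : 1 + x + z + w = 0)
    (o : ρ % 2 = 1) (r3 : 3 ≤ ρ) (e : 4 * ρ * (z * w) * (x - 1) ^ 2 = (1 + ρ) ^ 2 * (x + 1) ^ 2 * (z * w - x)) :
    (x = -7 ∧ ρ = 5) ∨ (x = -15 ∧ ρ = 3 ∧ z * w = -735) := by
  have hT : 16 * ρ ≤ 3 * (1 + ρ) ^ 2 := by nlinarith
  rcases (by omega : 9 ≤ x ∨ x ≤ -7) with x9 | x7
  · exfalso
    have p1 : 0 < (x - 1) ^ 2 := by nlinarith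
    have p2 : (x - 1) ^ 2 < (x + 1) ^ 2 := by nlinarith
    have h1 : z * w < 0 ∨ 5 * x - 20 ≤ z * w := by
      rcases hz with hz | hz <;> rcases hw with hw | hw
      · omega
      · left; nlinarith
      · left; nlinarith
      · right; nlinarith
    generalize z * w = W at e h1
    rcases h1 with h1 | h1
    · have : 4 * ρ * (x - 1) ^ 2 ≤ (1 + ρ) ^ 2 * (x + 1) ^ 2 := mul_le_mul (by nlinarith) p2.le p1.le (by positivity)
      have : 0 < (1 + ρ) ^ 2 * (x + 1) ^ 2 * x := by positivity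
      nlinarith
    · have h2 := mul_le_mul_of_nonneg_right hT (by positivity : 0 ≤ (x + 1) ^ 2)
      have h3 := mul_le_mul_of_nonneg_right h2 (by omega : 0 ≤ W - x)
      have h4 : 4 * (x + 1) ^ 2 * (W - x) ≤ 3 * W * (x - 1) ^ 2 := le_of_mul_le_mul_left (by nlinarith) (by omega : 0 < 4 * ρ)
      have h5 := mul_le_mul_of_nonneg_right h1 (by positivity : 0 ≤ x ^ 2 + 14 * x + 1)
      nlinarith [mul_nonneg (sub_nonneg.2 x9) (sq_nonneg x)]
  have p1 : 9 * (x - 1) ^ 2 ≤ 16 * (x + 1) ^ 2 := by nlinarith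
  have p2 : 0 < (x + 1) ^ 2 := by nlinarith
  have p3 : 0 < (1 + ρ) ^ 2 * (x + 1) ^ 2 := by positivity
  have h1 : (0 < z * w ∧ (x = -7 → z * w ≤ 9)) ∨ z * w ≤ 5 * x - 20 := by
    rcases hz with hz | hz <;> rcases hw with hw | hw
    · left; exact ⟨by positivity, fun e => by nlinarith⟩
    · right; nlinarith
    · right; nlinarith
    · omega
  generalize z * w = W at e h1
  rcases h1 with ⟨h1, h1'⟩ | h1
  · exfalso
    have h2 : (1 + ρ) ^ 2 * (x + 1) ^ 2 < 4 * ρ * (x - 1) ^ 2 := lt_of_mul_lt_mul_right (by nlinarith) h1.le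
    have h3 : 9 * (1 + ρ) ^ 2 < 64 * ρ := lt_of_mul_lt_mul_right (by nlinarith) p2.le
    obtain rfl : ρ = 3 := by
      have : ρ < 5 := by nlinarith
      omega
    obtain rfl : x = -7 := by
      have : -14 < x := by nlinarith
      omega
    omega
  · have h2 : (1 + ρ) ^ 2 * (x + 1) ^ 2 < 5 * ρ * (x - 1) ^ 2 := lt_of_mul_lt_mul_right (a := -W)
      (by nlinarith [mul_le_mul_of_nonneg_left h1 p3.le]) (by omega)
    have h3 : 9 * (1 + ρ) ^ 2 < 80 * ρ := lt_of_mul_lt_mul_right (by nlinarith) p2.le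
    have : ρ < 7 := by nlinarith
    rcases (by omega : ρ = 3 ∨ ρ = 5) with rfl | rfl
    · have h4 : W * (x ^ 2 + 14 * x + 1) = 4 * x * (x + 1) ^ 2 := by linarith
      have : -48 < x := by
        by_contra! h5
        nlinarith [mul_le_mul_of_nonneg_right h1 (by nlinarith : 0 ≤ x ^ 2 + 14 * x + 1), mul_nonneg (sub_nonneg.2 h5) (sq_nonneg x)]
      interval_cases x <;> omega
    · have : -11 < x := by nlinarith
      omega

theorem lemN (h : Ar4 m n k l 1 y z w) (m4 : 4 ∣ m) (m0 : m ≠ 0) (y1 : y ≠ 1) (k0 : k ≠ 0) {ρ : ℕ} (o : Odd ρ)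
    (r3 : 3 ≤ ρ) (e : l = ρ * k) : m = 4 ∧ ((ρ = 3 ∧ 4 * n = 105 * k ^ 2) ∨ (ρ = 5 ∧ 4 * n = 189 * k ^ 2)) := by
  subst e
  have e1 := h.key m4
  have y8 := c8 m4 h.cy
  have cz := c4 m4 m0 h.cz
  have cw := c4 m4 m0 h.cw
  have hs := h.sum
  have e2 : (8 * (k * (ρ * k)) * (y * (z * w)) : ℤ) = n * ((y + 1) * (z * w - y)) := by
    have a : (y : ℚ) ≠ 0 := by exact_mod_cast (by omega : y ≠ 0)
    have b : (z : ℚ) ≠ 0 := by exact_mod_cast (by omega : z ≠ 0)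
    have c : (w : ℚ) ≠ 0 := by exact_mod_cast (by omega : w ≠ 0)
    have d : (1 + y + z + w : ℚ) = 0 := by exact_mod_cast hs
    have := h.e2
    refine Int.cast_injective (α := ℚ) ?_
    push_cast at this ⊢
    rw [this]; field_simp; linear_combination (n * y : ℚ) * d
  obtain ⟨j, hj⟩ := o
  have e3 := enum (ρ := ρ) y8 y1 (by omega) (by omega) hs (by omega) (by omega) (mul_left_cancel₀
    (by positivity : 2 * (k : ℤ) ^ 2 ≠ 0) (mul_left_cancel₀ (by omega : y ≠ 0) (by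
      push_cast at e1; linear_combination (y - 1) ^ 2 * e2 - (y + 1) * (z * w - y) * e1)))
  have := Nat.le_of_dvd (Nat.pos_of_ne_zero m0) m4
  rcases e3 with ⟨rfl, e⟩ | ⟨rfl, e, e'⟩
  · obtain rfl : ρ = 5 := by omega
    have := Int.le_of_dvd (by norm_num) (dvd_neg.2 h.cy)
    exact ⟨by omega, .inr ⟨rfl, by zify; push_cast at e1; linarith⟩⟩
  · obtain rfl : ρ = 3 := by omega
    have := Int.le_of_dvd (by norm_num) (dvd_neg.2 h.cy)
    refine ⟨by_contra fun m4' => ?_, .inl ⟨rfl, by zify; push_cast at e1; linarith⟩⟩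
    obtain rfl : m = 8 := by omega
    obtain ⟨i, hi⟩ := h.cz
    obtain rfl : z = 7 + 16 * i := by omega
    obtain rfl : w = 7 - 16 * i := by omega
    have : 256 * (i * i) = 784 := by linarith
    omega

theorem three (h : Ar4 m n k k x y z w) (m4 : 4 ∣ m) (m0 : m ≠ 0) (n0 : n ≠ 0) (x1 : x ≠ 1) (y1 : y ≠ 1)
    (b : 16 * n ≤ 45 * (k + k) ^ 2) : z = 3 := by
  have x8 := c8 m4 h.cx
  have y8 := c8 m4 h.cy
  have cz := c4 m4 m0 h.cz
  have cw := c4 m4 m0 h.cw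
  have hs := h.sum
  have n1 : (0 : ℚ) < n := by positivity
  have e1 := h.e1
  have e2 := h.e2
  have b' : (16 * n : ℚ) ≤ 45 * (k + k) ^ 2 := by exact_mod_cast b
  have e3 : (32 / 45 : ℚ) ≤ 1 / x + 1 / y - 4 / (x + y) := le_of_mul_le_mul_left (by linarith) n1
  have e4 : (-4 / (x + y) : ℚ) = 1 / z + 1 / w := mul_left_cancel₀ n1.ne' (by linear_combination e2 - e1)
  have f : ∀ x : ℤ, 8 ∣ x - 1 → x ≠ 1 → (1 / x : ℚ) ≤ 1 / 9 := fun x a b => by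
    rcases (by omega : 9 ≤ x ∨ x < 0) with e | e
    · exact one_div_le_one_div_of_le (by norm_num) (by exact_mod_cast e)
    · exact (one_div_neg.2 (by exact_mod_cast e)).le.trans (by norm_num)
  have f1 := f x x8 x1
  have f2 := f y y8 y1
  have e5 : x + y = -6 := by
    by_contra e
    rcases (by omega : 0 < x + y ∨ x + y ≤ -14) with e | e
    · have : (0 : ℚ) < 4 / (x + y) := div_pos (by norm_num) (by exact_mod_cast e)
      linarith
    · have e' : (x + y : ℚ) ≤ -14 := by exact_mod_cast e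
      have : (-2 / 7 : ℚ) ≤ 4 / (x + y) := by rw [le_div_iff_of_neg (by linarith)]; linarith
      linarith
  obtain rfl : w = 6 - z := by omega
  have a : (z : ℚ) ≠ 0 := by exact_mod_cast (by omega : z ≠ 0)
  have c : (6 - z : ℚ) ≠ 0 := by exact_mod_cast (by omega : 6 - z ≠ 0)
  rw [show (x + y : ℚ) = -6 by exact_mod_cast e5] at e4
  push_cast at e4
  field_simp at e4
  have : (z - 3 : ℚ) ^ 2 = 0 := by linear_combination -e4 / 4
  exact_mod_cast sub_eq_zero.1 (pow_eq_zero_iff two_ne_zero |>.1 this)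

end Ar4

theorem inv_cases (h : 4 ∣ x - 1) : (x = 1 ∧ (1 / x : ℚ) = 1) ∨ (x = 5 ∧ (1 / x : ℚ) = 1 / 5) ∨
    (x = 9 ∧ (1 / x : ℚ) = 1 / 9) ∨ (x = 13 ∧ (1 / x : ℚ) = 1 / 13) ∨ (17 ≤ x ∧ (0 : ℚ) < 1 / x ∧ (1 / x : ℚ) ≤ 1 / 17) ∨
    (x = -3 ∧ (1 / x : ℚ) = -1 / 3) ∨ (x = -7 ∧ (1 / x : ℚ) = -1 / 7) ∨ (x ≤ -11 ∧ (1 / x : ℚ) < 0 ∧ (-1 / 11 : ℚ) ≤ 1 / x) := by
  rcases (by omega : x = 1 ∨ x = 5 ∨ x = 9 ∨ x = 13 ∨ 17 ≤ x ∨ x = -3 ∨ x = -7 ∨ x ≤ -11) with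
    rfl | rfl | rfl | rfl | e | rfl | rfl | e
  iterate 4 norm_num
  · have e' : (17 : ℚ) ≤ x := by exact_mod_cast e
    exact .inr (.inr (.inr (.inr (.inl ⟨e, one_div_pos.2 (by linarith), one_div_le_one_div_of_le (by norm_num) e'⟩))))
  iterate 2 norm_num
  · have e' : (x : ℚ) ≤ -11 := by exact_mod_cast e
    refine .inr (.inr (.inr (.inr (.inr (.inr (.inr ⟨e, one_div_neg.2 (by linarith), ?_⟩))))))
    rw [le_div_iff_of_neg (by linarith)]; linarith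

namespace Ar2

set_option maxHeartbeats 4000000 in
theorem bds (hy : 4 ∣ y - 1) (hz : 4 ∣ z - 1) (hw : 4 ∣ w - 1) (hs : 1 + y + z + w = 0) :
    (1 / y + 1 / z + 1 / w : ℚ) ≤ 5 / 3 ∧ (y ≠ 1 → z ≠ 1 → w ≠ 1 → (-7 / 15 : ℚ) ≤ 1 / y + 1 / z + 1 / w ∧
      (y ≠ -3 → z ≠ -3 → w ≠ -3 → (-3 / 11 : ℚ) < 1 / y + 1 / z + 1 / w ∧ ((1 / y + 1 / z + 1 / w : ℚ) < 1 / 7 ∨
        (5 ≤ y ∧ 5 ≤ z) ∨ (5 ≤ y ∧ 5 ≤ w) ∨ (5 ≤ z ∧ 5 ≤ w)))) := by
  have a := inv_cases hy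
  have b := inv_cases hz
  have c := inv_cases hw
  generalize (1 / y : ℚ) = p at *
  generalize (1 / z : ℚ) = q at *
  generalize (1 / w : ℚ) = r at *
  rcases a with a | a | a | a | a | a | a | a <;> rcases b with b | b | b | b | b | b | b | b <;>
    rcases c with c | c | c | c | c | c | c | c <;>
    first
    | (exfalso; omega)
    | (obtain ⟨a, a'⟩ := a; obtain ⟨b, b'⟩ := b; obtain ⟨c, c'⟩ := c
       refine ⟨by linarith [a'], fun _ _ _ => ?_⟩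
       first
       | (exfalso; omega)
       | (refine ⟨by linarith, fun _ _ _ => ?_⟩
          first
          | (exfalso; omega)
          | exact ⟨by linarith, by first | (right; omega) | (left; linarith)⟩))

theorem no7 (hy : 4 ∣ y - 1) (hz : 4 ∣ z - 1) (y5 : 5 ≤ y) (z5 : 5 ≤ z) (hs : 1 + y + z + w = 0) :
    (1 / y + 1 / z + 1 / w : ℚ) ≠ 1 / 7 := fun e => by
  wlog l : y ≤ z generalizing y z
  · exact this hz hy z5 y5 (by omega) (by rw [← e]; ring) (by omega)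
  obtain rfl : w = -(1 + y + z) := by omega
  have a : (y : ℚ) ≠ 0 := by exact_mod_cast (by omega : y ≠ 0)
  have b : (z : ℚ) ≠ 0 := by exact_mod_cast (by omega : z ≠ 0)
  have c : (1 + y + z : ℚ) ≠ 0 := by exact_mod_cast (by omega : 1 + y + z ≠ 0)
  push_cast at e
  field_simp at e
  have e' : 7 * ((y + z) * (1 + y + z) - y * z) = y * z * (1 + y + z) := Int.cast_injective (α := ℚ) (by
    push_cast; linear_combination e)
  have : y < 14 := by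
    by_contra! h
    nlinarith [mul_le_mul_of_nonneg_right h (by positivity : 0 ≤ z * (1 + y + z)), mul_nonneg (sub_nonneg.2 l)
      (by positivity : 0 ≤ 1 + y + z)]
  rcases (by omega : y = 5 ∨ y = 9 ∨ y = 13) with rfl | rfl | rfl
  · nlinarith
  · rcases (by omega : z ≤ 13 ∨ 14 ≤ z) with e | e <;> nlinarith
  · have : 6 * (z * z + 14 * z) = 1274 := by linarith
    omega

theorem b3 (h : Ar2 n k 1 y z w) : 3 * k ^ 2 ≤ 4 * n := by
  have := (bds h.cy h.cz h.cw h.sum).1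
  have e := h.e
  have : (3 * k ^ 2 : ℚ) ≤ 4 * n := by
    push_cast at e; nlinarith [mul_le_mul_of_nonneg_left this (Nat.cast_nonneg (α := ℚ) n)]
  exact_mod_cast this

theorem b15 (h : Ar2 n k 1 y z w) (y1 : y ≠ 1) (z1 : z ≠ 1) (w1 : w ≠ 1) : 4 * n ≤ 15 * k ^ 2 := by
  have := ((bds h.cy h.cz h.cw h.sum).2 y1 z1 w1).1
  have e := h.e
  have : (4 * n : ℚ) ≤ 15 * k ^ 2 := by
    push_cast at e; nlinarith [mul_le_mul_of_nonneg_left this (Nat.cast_nonneg (α := ℚ) n)]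
  exact_mod_cast this

theorem b11 (h : Ar2 n k 1 y z w) (n0 : n ≠ 0) (y1 : y ≠ 1) (z1 : z ≠ 1) (w1 : w ≠ 1) (y3 : y ≠ -3) (z3 : z ≠ -3)
    (w3 : w ≠ -3) : 4 * n < 11 * k ^ 2 ∧ 4 * n ≠ 7 * k ^ 2 := by
  obtain ⟨h1, h2⟩ := ((bds h.cy h.cz h.cw h.sum).2 y1 z1 w1).2 y3 z3 w3
  have e := h.e
  have hs := h.sum
  have n1 : (0 : ℚ) < n := by positivity
  refine ⟨?_, fun e' => ?_⟩
  · have : (4 * n : ℚ) < 11 * k ^ 2 := by push_cast at e; nlinarith [mul_lt_mul_of_pos_left h1 n1]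
    exact_mod_cast this
  have e'' : (4 * n : ℚ) = 7 * k ^ 2 := by exact_mod_cast e'
  have e3 : (1 / y + 1 / z + 1 / w : ℚ) = 1 / 7 := mul_left_cancel₀ n1.ne' (by
    push_cast at e; linear_combination -e - 2 / 7 * e'')
  rcases h2 with h2 | h2 | h2 | h2
  · exact h2.ne e3
  · exact no7 h.cy h.cz h2.1 h2.2 hs e3
  · exact no7 (w := z) h.cy h.cw h2.1 h2.2 (by omega) (by rw [← e3]; ring)
  · exact no7 (w := y) h.cz h.cw h2.1 h2.2 (by omega) (by rw [← e3]; ring)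

theorem lt (h : Ar2 n k x y z w) (x1 : x ≠ 1) (y1 : y ≠ 1) (z1 : z ≠ 1) (w1 : w ≠ 1) : 10 * k ^ 2 ≤ 3 * n := by
  have f : ∀ x : ℤ, 4 ∣ x - 1 → x ≠ 1 → (0 < x ∧ (1 / x : ℚ) ≤ 1 / 5) ∨ (1 / x : ℚ) ≤ 0 := fun x a b => by
    rcases (by omega : 5 ≤ x ∨ x < 0) with e | e
    · exact .inl ⟨by omega, one_div_le_one_div_of_le (by norm_num) (by exact_mod_cast e)⟩
    · exact .inr (one_div_neg.2 (by exact_mod_cast e)).le
  have hs := h.sum
  have : (1 / x + 1 / y + 1 / z + 1 / w : ℚ) ≤ 3 / 5 := by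
    rcases f x h.cx x1 with ⟨a, a'⟩ | a <;> rcases f y h.cy y1 with ⟨b, b'⟩ | b <;> rcases f z h.cz z1 with ⟨c, c'⟩ | c <;>
      rcases f w h.cw w1 with ⟨d, d'⟩ | d <;> first | omega | linarith
  have e := h.e
  have : (10 * k ^ 2 : ℚ) ≤ 3 * n := by nlinarith [mul_le_mul_of_nonneg_left this (Nat.cast_nonneg (α := ℚ) n)]
  exact_mod_cast this

end Ar2

end CA.GW
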