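/-
Dihedral Sylow 2-subgroups: characters of degree three, the order formula, fusion in the core.
-/
import Cfsg.Agent.GW.Ch5

set_option autoImplicit false
set_option linter.unusedSectionVars false

namespace CA.GW

open Subgroup Cfsg CA.FG CA.BG CA.Dih CA.Chr CA.Blk Finset
open scoped commutatorElement ComplexConjugate Classical

universe u

variable {G : Type u} [Group G] [Fintype G] {S : Subgroup G} {c t s a : G}

theorem Dg.neg {d e : ℤ} (h : Dg c t d e) : Dg c t (-d) (-e) := by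
  obtain ⟨ζ, h1, h2, h3, h4⟩ := h
  exact ⟨-ζ, h1.neg, by simp [h2], by simp [h3], fun v hv => by simpa using h4 v hv⟩

theorem faithful [IsSimpleGroup G] {ζ : G → ℂ} (h : Dirr ζ) (h3 : ζ 1 = (3 : ℤ)) : IsIrrCharacter G ζ ∧ cfker ζ = ⊥ := by
  have i := h.irr_of_deg_pos (by simp [h3])
  refine ⟨i, (cfker_normal (IsIrr.mem_CF i)).eq_bot_or_eq_top.resolve_right (IsIrr.cfker_ne_top i fun e => ?_)⟩
  rw [e] at h3; norm_num at h3

theorem norm_three {e1 e2 e3 f1 f2 f3 b1 b2 b3 : ℂ} (h1 : e1 * e1 = 1) (h2 : e2 * e2 = 1) (h3 : e3 * e3 = 1)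
    (k1 : f1 * f1 = 1) (k2 : f2 * f2 = 1) (k3 : f3 * f3 = 1) (s1 : e1 + (e2 + e3) = -1) (s2 : f1 + (f2 + f3) = -1)
    (s3 : e1 * f1 + (e2 * f2 + e3 * f3) = -1) (n1 : ‖b1‖ = 1) (n2 : ‖b2‖ = 1) (n3 : ‖b3‖ = 1)
    (m1 : ‖e1 * b1 + (e2 * b2 + e3 * b3)‖ = 1) (m2 : ‖f1 * b1 + (f2 * b2 + f3 * b3)‖ = 1)
    (m3 : ‖e1 * f1 * b1 + (e2 * f2 * b2 + e3 * f3 * b3)‖ = 1) : ‖b1 + (b2 + b3)‖ = 3 := by
  have f : ∀ {z : ℂ}, ‖z‖ = 1 → z * conj z = 1 := fun h => by rw [Complex.mul_conj', h]; simp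
  have : (‖b1 + (b2 + b3)‖ : ℂ) ^ 2 = 3 ^ 2 := by
    rw [← Complex.mul_conj']
    have m1 := f m1
    have m2 := f m2
    have m3 := f m3
    rcases mul_self_eq_one_iff.1 h1 with rfl | rfl <;> rcases mul_self_eq_one_iff.1 h2 with rfl | rfl <;>
      rcases mul_self_eq_one_iff.1 h3 with rfl | rfl <;> (try (exfalso; revert s1; norm_num; done)) <;>
      rcases mul_self_eq_one_iff.1 k1 with rfl | rfl <;> rcases mul_self_eq_one_iff.1 k2 with rfl | rfl <;>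
      rcases mul_self_eq_one_iff.1 k3 with rfl | rfl <;>
      first
      | (exfalso; revert s2 s3; norm_num; done)
      | (simp only [map_add, map_mul, map_neg, map_one] at m1 m2 m3 ⊢
         linear_combination 4 * (f n1 + f n2 + f n3) - m1 - m2 - m3)
  exact (pow_left_inj₀ (norm_nonneg _) (by norm_num) two_ne_zero).1 (by exact_mod_cast this)

theorem exists_lin_ext {K B W : Subgroup G} (hW : K ≤ 𝒩(W)) (hs : ∀ x ∈ K, ∃ b ∈ B, x * b⁻¹ ∈ W) (γ : B →* ℂˣ)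
    (hγ : ∀ b : B, (b : G) ∈ W → γ b = 1) : ∃ β : K →* ℂˣ, ∀ (x : K) (b : B), (x : G) * (b : G)⁻¹ ∈ W → β x = γ b := by
  choose f f1 f2 using hs
  have e : ∀ (x : K) (b : B), (x : G) * (b : G)⁻¹ ∈ W → γ ⟨_, f1 x x.2⟩ = γ b := fun x b hb => by
    rw [← mul_inv_eq_one, ← map_inv, ← map_mul]
    refine hγ _ ?_
    have := mul_mem (inv_mem (f2 x x.2)) hb
    simpa [mul_assoc] using this
  refine ⟨MonoidHom.mk' (fun x => γ ⟨_, f1 x x.2⟩) fun x y => ?_, e⟩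
  rw [← map_mul]
  refine e _ _ ?_
  have := mul_mem (conj_mem_of_mem_norm (hW x.2) (f2 y y.2)) (f2 x x.2)
  simpa [mul_assoc] using this

theorem parity_res {ζ : G → ℂ} (hζ : ζ ∈ ZIrr G) {B : Subgroup G} (t2 : t * t = 1) (hB : B ≤ 𝒞[t]) (γ : B →* ℂˣ) :
    ∃ n : ℤ, ⟪ζ ∘ B.subtype, lin γ⟫ - ⟪fun b : B => ζ (t * b), lin γ⟫ = 2 * n := by
  let τ : ℤˣ →* G := MonoidHom.mk' (fun u => if u = 1 then 1 else t) fun u v => by
    rcases Int.units_eq_one_or u with rfl | rfl <;> rcases Int.units_eq_one_or v with rfl | rfl <;> simp [t2]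
  let f : ℤˣ × B →* G := τ.noncommCoprod B.subtype fun u b => by
    rcases Int.units_eq_one_or u with rfl | rfl
    · simp
    · exact (mem_centralizer_singleton_iff.1 (hB b.2)).symm
  obtain ⟨n, hn⟩ := ZIrr.dot_int (ZIrr.comp hζ f) (lin_mem_ZIrr ((Units.map (Int.castRingHom ℂ : ℤ →* ℂ)).coprod γ))
  refine ⟨n, ?_⟩
  rw [← hn, dot_def, dot_def, dot_def, Fintype.sum_prod_type, UnitsInt.univ, sum_pair (by decide), Nat.card_prod,
    Nat.card_eq_fintype_card (α := ℤˣ), Fintype.card_units_int]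
  have := card_ne_zero (G := B)
  simp [f, τ, lin_apply, -Nat.card_eq_fintype_card]
  field_simp
  ring

theorem eq_four {A a b p q : G → ℂ} (hA : A ∈ ZIrr G) (n4 : nrm A = 4) (da : Dirr a) (db : Dirr b) (dp : Dirr p)
    (dq : Dirr q) (ab : ⟪a, b⟫ = 0) (ap : ⟪a, p⟫ = 0) (aq : ⟪a, q⟫ = 0) (bp : ⟪b, p⟫ = 0) (bq : ⟪b, q⟫ = 0)
    (pq : ⟪p, q⟫ = 0) {i j k l : ℤ} (hi : ⟪A, a⟫ = i) (hj : ⟪A, b⟫ = j) (hk : ⟪A, p⟫ = k) (hl : ⟪A, q⟫ = l)
    (i1 : i = 1 ∨ i = -1) (j1 : j = 1 ∨ j = -1) (k1 : k = 1 ∨ k = -1) (l1 : l = 1 ∨ l = -1) :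
    A = i • a + j • b + k • p + l • q := by
  have f : ∀ {i : ℤ}, i = 1 ∨ i = -1 → (i : ℂ) * i = 1 := by rintro _ (rfl | rfl) <;> simp
  refine sub_eq_zero.1 (dot_self_eq_zero.1 ?_)
  simp only [dot_sub_left, dot_sub_right, dot_add_left, dot_add_right, dot_zsmul_left, dot_zsmul_right, dot_self A, n4,
    hi, hj, hk, hl, dot_comm_of_int hi, dot_comm_of_int hj, dot_comm_of_int hk, dot_comm_of_int hl, da.dot_self,
    db.dot_self, dp.dot_self, dq.dot_self, ab, ap, aq, bp, bq, pq, dot_comm_zero ab, dot_comm_zero ap, dot_comm_zero aq,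
    dot_comm_zero bp, dot_comm_zero bq, dot_comm_zero pq]
  push_cast
  linear_combination -f i1 - f j1 - f k1 - f l1

theorem had_ar {n k : ℕ} {x y z w e1 e2 e3 e4 f1 f2 f3 f4 : ℤ} (h1 : e1 = 1 ∨ e1 = -1) (h2 : e2 = 1 ∨ e2 = -1)
    (h3 : e3 = 1 ∨ e3 = -1) (h4 : e4 = 1 ∨ e4 = -1) (k1 : f1 = 1 ∨ f1 = -1) (k2 : f2 = 1 ∨ f2 = -1)
    (k3 : f3 = 1 ∨ f3 = -1) (k4 : f4 = 1 ∨ f4 = -1) (s1 : e1 + e2 + e3 + e4 = 0) (s2 : f1 + f2 + f3 + f4 = 0)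
    (s3 : e1 * f1 + e2 * f2 + e3 * f3 + e4 * f4 = 0) (d1 : x + y + z + w = 0) (d2 : e1 * x + e2 * y + e3 * z + e4 * w = 0)
    (d3 : f1 * x + f2 * y + f3 * z + f4 * w = 0) (cx : 4 ∣ x - (1 + e1 + f1)) (nx : x = 3 → 1 + e1 + f1 ≠ 3)
    (ny : y = 3 → 1 + e2 + f2 ≠ 3) (nz : z = 3 → 1 + e3 + f3 ≠ 3) (nw : w = 3 → 1 + e4 + f4 ≠ 3)
    (e : (2 * k ^ 2 : ℚ) = n * ((1 + e1 + f1) ^ 2 / x + (1 + e2 + f2) ^ 2 / y + (1 + e3 + f3) ^ 2 / z + (1 + e4 + f4) ^ 2 / w)) :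
    ∃ g : ℤ, 4 ∣ g - 3 ∧ g ≠ 3 ∧ k ^ 2 * g = 4 * n := by
  have A : y = e1 * f1 * e2 * f2 * x ∧ z = e1 * f1 * e3 * f3 * x ∧ w = e1 * f1 * e4 * f4 * x ∧ 4 ∣ e1 * f1 * x - 3 ∧
      e1 * f1 * x ≠ 3 := by
    clear e
    rcases h1 with rfl | rfl <;> rcases h2 with rfl | rfl <;> rcases h3 with rfl | rfl <;> rcases h4 with rfl | rfl <;>
      (try omega) <;> rcases k1 with rfl | rfl <;> rcases k2 with rfl | rfl <;> rcases k3 with rfl | rfl <;>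
      rcases k4 with rfl | rfl <;> omega
  obtain ⟨rfl, rfl, rfl, a1, a2⟩ := A
  have x0 : (x : ℚ) ≠ 0 := by exact_mod_cast (by rintro rfl; omega : x ≠ 0)
  refine ⟨_, a1, a2, Int.cast_injective (α := ℚ) ?_⟩
  clear a1 a2 nx ny nz nw cx d1 d2 d3
  rcases h1 with rfl | rfl <;> rcases h2 with rfl | rfl <;> rcases h3 with rfl | rfl <;> rcases h4 with rfl | rfl <;>
    (try omega) <;> rcases k1 with rfl | rfl <;> rcases k2 with rfl | rfl <;> rcases k3 with rfl | rfl <;>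
    rcases k4 with rfl | rfl <;>
    first
    | omega
    | (push_cast at e ⊢; field_simp at e; linarith)

namespace DS

variable (h : DS S c t s)
include h

theorem three [IsSimpleGroup G] (nab : ¬ IsMulCommutative G) (d : Dg c t 3 (-1)) : UU t ⊓ 𝒞[s] = ⊥ := by
  obtain ⟨ζ, hζ, d1, d2, d3⟩ := d
  obtain ⟨i, fa⟩ := faithful hζ d1
  have cf := IsIrr.mem_CF i
  refine eq_bot_iff.2 fun b ⟨b1, b2⟩ => ?_
  have e1 := mem_centralizer_singleton_iff.1 (UU_le t b1)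
  have e2 := mem_centralizer_singleton_iff.1 b2
  have e3 := mem_centralizer_singleton_iff.1 h.sH
  have its := h.inv.mul h.sInv h.sH h.st
  have N : ∀ v, IsInv v → b * v = v * b → ‖ζ (v * b)‖ = 1 := fun v iv e => by
    obtain ⟨x, hx⟩ := h.exists_zpow (g := v * b) (by
      by_contra o
      obtain ⟨j, hj⟩ := Nat.odd_iff.2 (Nat.two_dvd_ne_zero.1 o)
      have := pow_orderOf_eq_one (v * b)
      rw [Commute.mul_pow e.symm, hj, pow_succ, pow_mul, pow_two, iv.1, one_pow, one_mul, mul_eq_one_iff_eq_inv] at this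
      exact iv.2 (eq_one_of_odd (UU_odd t) (this ▸ inv_mem (pow_mem b1 _)) iv.1))
    rw [← CF_conj cf _ x]
    exact d3 ⟨_, (h.mem_zpow_iff.1 hx).1⟩ (h.mem_zpow_iff.1 hx).2
  have V : ∀ v, IsInv v → ζ v = -1 := fun v iv => by rw [← CF_isConj cf (h.one v iv), d2]; simp
  have : IsMulCommutative (closure {t, s, b} : Subgroup G) := isMulCommutative_closure (by simp [e1, e2, e3])
  obtain ⟨M, m1, m2⟩ := IsChar.exists_multiset_lin (IsIrr.isChar i) (closure {t, s, b}).subtype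
  obtain ⟨l1, l2, l3, rfl⟩ := Multiset.card_eq_three.1 (show M.card = 3 by rw [d1] at m1; exact_mod_cast m1.symm)
  let t' : closure {t, s, b} := ⟨t, subset_closure (by simp)⟩
  let s' : closure {t, s, b} := ⟨s, subset_closure (by simp)⟩
  let b' : closure {t, s, b} := ⟨b, subset_closure (by simp)⟩
  simp only [Multiset.insert_eq_cons, Multiset.map_cons, Multiset.sum_cons, Multiset.map_singleton, Multiset.sum_singleton,
    coe_subtype] at m2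
  have sq : ∀ (l : closure {t, s, b} →* ℂˣ) (x : closure {t, s, b}), (x : G) * x = 1 → (l x : ℂ) * l x = 1 := fun l x e => by
    rw [← Units.val_mul, ← map_mul, show x * x = 1 from Subtype.ext e, map_one, Units.val_one]
  have := norm_three (sq l1 t' h.inv.1) (sq l2 t' h.inv.1) (sq l3 t' h.inv.1) (sq l1 s' h.sInv.1) (sq l2 s' h.sInv.1)
    (sq l3 s' h.sInv.1) ((m2 t').symm.trans (V t h.inv)) ((m2 s').symm.trans (V s h.sInv))
    (by simpa using (m2 (t' * s')).symm.trans (V _ its)) (norm_lin l1 b') (norm_lin l2 b') (norm_lin l3 b')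
    (by simpa [lin_apply] using (congrArg norm (m2 (t' * b'))).symm.trans (N t h.inv e1))
    (by simpa [lin_apply] using (congrArg norm (m2 (s' * b'))).symm.trans (N s h.sInv e2))
    (by simpa [lin_apply] using (congrArg norm (m2 (t' * s' * b'))).symm.trans (N (t * s) its (by
      rw [← mul_assoc, e1, mul_assoc, e2, mul_assoc])))
  obtain ⟨z, -, hz⟩ := IsChar.exists_scalar_of_norm (IsIrr.isChar i) (g := b) (by
    rw [show ζ b = _ from m2 b', deg_eq (n := 3) (by simpa using d1)]; exact_mod_cast this)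
  have : b ∈ center G := mem_center_iff.2 fun x => by
    have : b * (x * b⁻¹ * x⁻¹) ∈ cfker ζ := (IsIrr.mem_cfker i).2 (by
      rw [hz, CF_conj cf, ← hz, mul_inv_cancel])
    rw [fa, mem_bot, ← mul_assoc, mul_inv_eq_one, ← mul_assoc, mul_inv_eq_iff_eq_mul] at this
    exact this.symm
  rcases (inferInstance : (center G).Normal).eq_bot_or_eq_top with e | e
  · rwa [e] at this
  · exact (nab ⟨⟨fun x y => mem_center_iff.1 (e ▸ mem_top y) x⟩⟩).elim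

theorem of3 (h2 : orderOf c = 2) {D : Subgroup G} (hD : D < UU t) (nD : 𝒞[t] ≤ 𝒩(D))
    (inv : ∀ y ∈ UU t, s * y * s⁻¹ * y ∈ D) (ti : ∀ y ∈ UU t, y ∉ D → ∀ g : G, g * y * g⁻¹ ∈ 𝒞[t] → g ∈ 𝒞[t])
    (co : (nn t).Coprime (kS c t s)) : ∃ δ : ℤ, (δ = 1 ∨ δ = -1) ∧ (nn t : ℤ) = (2 * kS c t s + δ) * (kS c t s + δ) := by
  have ct := h.c_eq h2
  have K1 : ∀ y ∈ KK c t, ∃ u ∈ UU t, ∃ x, x * x = 1 ∧ (∀ g ∈ 𝒞[t], x * g = g * x) ∧ u * x = y := fun y hy => by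
    obtain ⟨u, hu, x, hx, rfl⟩ := h.mem_K.1 hy
    refine ⟨u, hu, x, ?_, fun g hg => (mem_centralizer_singleton_iff.1 (cent_singleton_le_of_mem_zpowers (ct ▸ hx) hg)).symm, rfl⟩
    rw [← pow_two, ← h2]
    exact orderOf_dvd_iff_pow_eq_one.1 (orderOf_dvd_of_mem_zpowers hx)
  have inv' : ∀ y ∈ KK c t, s * y * s⁻¹ * y ∈ D := fun y hy => by
    obtain ⟨u, hu, x, x2, xc, rfl⟩ := K1 y hy
    rw [show s * (u * x) * s⁻¹ * (u * x) = s * u * (x * (s⁻¹ * u)) * x by group, xc _ (mul_mem (inv_mem h.sH) (UU_le t hu)),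
      show s * u * (s⁻¹ * u * x) * x = s * u * s⁻¹ * u * (x * x) by group, x2, mul_one]
    exact inv u hu
  have cm : commutator (KK c t) ≤ D.subgroupOf (KK c t) := by
    rw [commutator_def, commutator_le]
    intro y _ z _
    have e1 := inv' _ (mul_mem (inv_mem y.2) (inv_mem z.2))
    have e2 := conj_mem_of_mem_norm (nD (h.K_le y.2)) (inv' _ (inv_mem z.2))
    have := mul_mem (inv_mem (mul_mem (inv' _ (inv_mem y.2)) e2)) e1
    refine mem_subgroupOf.2 ?_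
    convert this using 1
    simp only [commutatorElement_def, Subgroup.coe_mul, Subgroup.coe_inv]; group
  obtain ⟨y, yU, yD⟩ := SetLike.exists_of_lt hD
  let y' : KK c t := iU c t ⟨y, yU⟩
  obtain ⟨l, hl, lt, ly⟩ : ∃ l ∈ linOver (D.subgroupOf (KK c t)), l ⟨t, h.tK⟩ ≠ 1 ∧ l y' ≠ 1 := by
    by_contra! e
    have : ∑ l ∈ linOver (D.subgroupOf (KK c t)), ((l 1 : ℂ) - l ⟨t, h.tK⟩ - l y' + l (⟨t, h.tK⟩ * y')) = 0 :=
      sum_eq_zero fun l hl => by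
        by_cases e1 : l ⟨t, h.tK⟩ = 1
        · simp [e1]
        · simp [e l hl e1]
    rw [sum_add_distrib, sum_sub_distrib, sum_sub_distrib, sum_linOver_apply cm, sum_linOver_apply cm, sum_linOver_apply cm,
      sum_linOver_apply cm, if_pos (one_mem _), if_neg fun e => h.tU (hD.le (mem_subgroupOf.1 e)),
      if_neg fun e => yD (mem_subgroupOf.1 e),
      if_neg fun e => h.tU ((mul_mem_cancel_right yU).1 (hD.le (mem_subgroupOf.1 e)))] at this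
    exact index_ne_zero_of_finite (by simpa using this)
  have lD : ∀ x : KK c t, (x : G) ∈ D → l x = 1 := fun x hx => mem_linOver.1 hl (mem_subgroupOf.2 hx)
  have la : h.Lam l := ⟨fun x => eq_inv_iff_mul_eq_one.2 (by rw [← map_mul]; exact lD _ (inv' x x.2)), fun x hx g hg => by
    by_cases e : (x : G) ∈ UU t
    · exact ti x e (fun e => hx (lD x e)) g (h.K_le hg)
    · exact h.ti0 x.2 e hg⟩
  have l2 : l⁻¹ ≠ l := fun e => ly (by
    obtain ⟨z, hz, e'⟩ := exists_sqrt (UU_odd t) yU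
    let z' : KK c t := iU c t ⟨z, zpowers_le.2 yU hz⟩
    rw [show y' = z' * z' from Subtype.ext e'.symm, map_mul]
    nth_rw 1 [← e]; simp)
  obtain ⟨ρ, r⟩ := h.exists_rho
  have l1 : l ≠ 1 := fun e => ly (by simp [e])
  have o1 : ⟪tt 1 l, 1⟫ = 1 := by rw [dot_tt_one, one_mul, if_pos rfl, if_neg l1, sub_zero]
  have o2 : ⟪tt 1 ρ, 1⟫ = 1 := by rw [h.bet_one.dot_one r.mem r.ne, if_pos rfl]
  have ry := LL_U r.mem (y := y') yU
  have o3 := h.bet_one.dot2 (h.lam_of r.mem) r.ne l1 (fun e => ly (e ▸ ry)) fun e => ly (by rw [← e]; simp [ry])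
  have Z := fun l : KK c t →* ℂˣ => sub_mem (tt_ZIrr 1 l) (one_mem (ZIrr G))
  obtain ⟨p, q, dp, dq, e, p1⟩ : ∃ p q, Dirr p ∧ Dirr q ∧ tt 1 l - 1 = p + q ∧ ⟪tt 1 ρ - 1, p⟫ = 1 := by
    obtain ⟨p, q, dp, dq, -, e⟩ := ZIrr.exists_of_nrm_two (Z l)
      (by rw [nrm_sub_of_dot_one dot_one_one o1, h.bet_one.nrm3 la l2]; norm_num)
    rcases two_split (Z ρ) (by rw [nrm_sub_of_dot_one dot_one_one o2, h.bet_one.nrm4 r]; norm_num) dp dq (by
      rw [← e, dot_sub_left, dot_sub_right, dot_sub_right, o2, o3, dot_one_one, ZIrr.dot_comm (one_mem _) (tt_ZIrr 1 l), o1]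
      norm_num) with e' | e'
    · exact ⟨p, q, dp, dq, e, e'.1⟩
    · exact ⟨q, p, dq, dp, e.trans (add_comm _ _), e'.2⟩
  have p0 := dot_comm_zero (dirr_orth_one dp p1 (by rw [dot_sub_left, o2, dot_one_one, sub_self]))
  rw [dot_sub_left, p0, sub_zero] at p1
  have pt : p t = (1 : ℤ) := by
    simpa [p1] using exp2 (h := h) h2 r dp.mem_ZIrr (blk_one (h := h) r.mem dp (by simp [p1])) ⟨t, h.tK⟩ h.tU
  have e1 := congrFun e 1
  have e2 := congrFun e t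
  obtain ⟨x, x0, hx⟩ := dp.deg_int
  simp only [Pi.sub_apply, Pi.add_apply, Pi.one_apply, tt_deg, hx, pt, h.bet_one.tt_t la,
    (h.lin_t l).1.resolve_left fun e => lt (Units.ext e)] at e1 e2
  have q1 : q 1 = (-(1 + x) : ℤ) := by push_cast; linear_combination -e1
  have e3 := congrArg Phi e
  rw [Dih.Phi_sub, Phi_add, Phi_one, h.card_invs, Phi_tt1 h.bet_one la l2, h.Phi_q dp hx pt,
    h.Phi_q dq q1 (e := 2) (by push_cast at e2 ⊢; linear_combination -e2)] at e3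
  refine of_key h.odd_nn co (key_of x0 (fun e => dq.deg_ne_zero (by rw [q1, e]; simp))
    (Rat.cast_injective (α := ℂ) (mul_left_cancel₀ h.n0 ?_)))
  push_cast at e3 ⊢; rw [div_neg] at e3; linear_combination e3

theorem fus0 (hc : c ∈ 𝒞(UU t)) {x g : G} (hx : x ∈ UU t) (hy : g * x * g⁻¹ ∈ UU t) :
    ∃ z ∈ 𝒞[x], ∃ k, c ∈ S :^ k ∧ (g * z)⁻¹ * c * (g * z)⁻¹⁻¹ ∈ S :^ k := by
  have c1 : c ∈ 𝒞[x] := mem_centralizer_singleton_iff.2 (hc x hx).symm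
  have c2 : g⁻¹ * c * g⁻¹⁻¹ ∈ 𝒞[x] := mem_centralizer_singleton_iff.2 (by
    have := hc _ hy
    rw [show g⁻¹ * c * g⁻¹⁻¹ * x = g⁻¹ * (c * (g * x * g⁻¹)) * g by group, ← this]; group)
  obtain ⟨T, hT, T1⟩ := sylow_superset Nat.prime_two (h.pS.of_le h.zle) (zpowers_le.2 c1)
  obtain ⟨z, hz, T2⟩ := sylow_subJ Nat.prime_two hT ((h.conj g⁻¹).pS.of_le (h.conj g⁻¹).zle) (zpowers_le.2 c2)
  obtain ⟨k, -, T3⟩ := sylow_subJ Nat.prime_two h.syl hT.pGrp le_top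
  refine ⟨z, hz, k, T3 (T1 (mem_zpowers c)), T3 ?_⟩
  have := mem_conjg.1 (T2 (mem_zpowers _))
  simpa [mul_assoc] using this

theorem fus4 (h4 : 4 ≤ orderOf c) (hc : c ∈ 𝒞(UU t)) {x g : G} (hx : x ∈ UU t) (hy : g * x * g⁻¹ ∈ UU t) :
    ∃ k ∈ 𝒞[t], k * x * k⁻¹ = g * x * g⁻¹ := by
  obtain ⟨z, hz, k, e1, e2⟩ := h.fus0 hc hx hy
  have A : ∀ {S' c' t' s'}, DS S' c' t' s' → c' ∈ S :^ k → t' = k * t * k⁻¹ := fun {S' c' t' s'} d e => by
    refine (h.conj k).uniq (zpowers_le.2 (by_contra fun e' => ?_) d.tc) d.inv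
    have := ((h.conj k).isInv e e').ord
    rw [h.ord_eq d] at this; omega
  refine ⟨g * z, inv_mem_iff.1 (cent_of_conj_eq ((A (h.conj _) e2).trans (A h e1).symm)), ?_⟩
  rw [show g * z * x * (g * z)⁻¹ = g * (z * x * z⁻¹) * g⁻¹ by group, conj_eq_of_cent hz]

theorem sig3 (h2 : orderOf c = 2) {σ : G} (hσ : σ ∈ 𝒩(S)) (h1 : σ ∉ 𝒞[t]) :
    ∃ τ ∈ zpowers σ, τ * t * τ⁻¹ = s ∧ τ * s * τ⁻¹ = t * s := by
  have e3 := mem_centralizer_singleton_iff.1 h.sH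
  have t2 := h.inv.1
  have s2 := h.sInv.1
  have A : ∀ a ∈ S, IsInv a → σ * a * σ⁻¹ = t ∨ σ * a * σ⁻¹ = s ∨ σ * a * σ⁻¹ = t * s := fun a ha ia =>
    (h.mem_S_cent (conj_mem_of_mem_norm hσ ha) (h.abel2 h2 h.sS (conj_mem_of_mem_norm hσ ha))).resolve_left (ia.conj σ).2
  obtain ⟨g, g1, g2⟩ := h.FV h.sH h.sInv h.st
  have g3 : g * (t * s) * g⁻¹ = t := by
    rw [show g * (t * s) * g⁻¹ = g * t * g⁻¹ * (g * s * g⁻¹) by group, g1, g2, ← e3, ← mul_assoc, s2, one_mul]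
  have nc : ∀ k, k * t * k⁻¹ = t → k * s * k⁻¹ ≠ t * s := fun k e => by
    have := h.not_conj (cent_of_conj_eq e)
    rwa [h.c_eq h2, e3] at this
  have ne : σ * s * σ⁻¹ ≠ σ * t * σ⁻¹ := by simpa using h.st
  have m : σ * (t * s) * σ⁻¹ = σ * t * σ⁻¹ * (σ * s * σ⁻¹) := by group
  rcases A t h.tS h.inv with e | e | e
  · exact (h1 (cent_of_conj_eq e)).elim
  · rcases A s h.sS h.sInv with e' | e' | e'
    · rw [e, e', e3] at m
      refine (nc (g * σ * g⁻¹) ?_ ?_).elim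
      · nth_rw 1 [← g3]
        rw [show g * σ * g⁻¹ * (g * (t * s) * g⁻¹) * (g * σ * g⁻¹)⁻¹ = g * (σ * (t * s) * σ⁻¹) * g⁻¹ by group, m, g3]
      · nth_rw 1 [← g1]
        rw [show g * σ * g⁻¹ * (g * t * g⁻¹) * (g * σ * g⁻¹)⁻¹ = g * (σ * t * σ⁻¹) * g⁻¹ by group, e, g2]
    · exact (ne (e'.trans e.symm)).elim
    · exact ⟨σ, mem_zpowers σ, e, e'⟩
  · rcases A s h.sS h.sInv with e' | e' | e'
    · rw [e, e', mul_assoc t s t, e3, ← mul_assoc t t s, t2, one_mul] at m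
      exact ⟨σ⁻¹, inv_mem (mem_zpowers σ), by rw [← e']; group, by nth_rw 1 [← m]; group⟩
    · rw [e, e', mul_assoc t s s, s2, mul_one] at m
      refine (nc (g⁻¹ * σ * g) ?_ ?_).elim
      · rw [show g⁻¹ * σ * g * t * (g⁻¹ * σ * g)⁻¹ = g⁻¹ * (σ * (g * t * g⁻¹) * σ⁻¹) * g by group, g1, e', ← g1]; group
      · rw [show g⁻¹ * σ * g * s * (g⁻¹ * σ * g)⁻¹ = g⁻¹ * (σ * (g * s * g⁻¹) * σ⁻¹) * g by group, g2, m]
        nth_rw 1 [← g3]; group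
    · exact (ne (e'.trans e.symm)).elim

theorem sig_norm {σ : G} (e1 : σ * t * σ⁻¹ = s) (e2 : σ * s * σ⁻¹ = t * s) : σ ∈ 𝒩(UU t ⊓ 𝒞[s]) := by
  refine mem_norm_of_forall fun b ⟨b1, b2⟩ => ?_
  have h1 : σ * b * σ⁻¹ ∈ 𝒞[s] := by rw [← e1, ← conjg_cent1]; exact conj_mem_conjg σ (UU_le t b1)
  have h2 : σ * b * σ⁻¹ ∈ 𝒞[t * s] := by rw [← e2, ← conjg_cent1]; exact conj_mem_conjg σ b2
  rw [mem_cent_singleton_comm, mul_mem_cancel_right (mem_cent_singleton_comm.1 h1), mem_cent_singleton_comm] at h2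
  exact ⟨h.mem_UU h.inv h2 (((UU_odd t).piElt b1).conj σ), h1⟩

theorem fus2 (h2 : orderOf c = 2) {σ : G} (e1 : σ * t * σ⁻¹ = s) (e2 : σ * s * σ⁻¹ = t * s) (ω : UU t → ℂ)
    (hH : ∀ (x y : UU t), ∀ g ∈ 𝒞[t], g * x * g⁻¹ = y → ω x = ω y)
    (hσ : ∀ (x y : UU t), (x : G) ∈ 𝒞[s] → σ * x * σ⁻¹ = y → ω x = ω y) (x y : UU t) (g : G) (e : g * x * g⁻¹ = y) :
    ω x = ω y := by
  have ct := h.c_eq h2
  obtain ⟨z, hz, k, c1, c2⟩ := h.fus0 (fun y hy => ct ▸ mem_centralizer_singleton_iff.1 (UU_le t hy)) x.2 (e ▸ y.2)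
  have e' : g * z * x * (g * z)⁻¹ = y := by
    rw [show g * z * x * (g * z)⁻¹ = g * (z * x * z⁻¹) * g⁻¹ by group, conj_eq_of_cent hz, e]
  generalize g * z = g at e' c2
  rw [ct] at c1 c2
  by_cases v : g⁻¹ * t * g⁻¹⁻¹ = t
  · exact hH x y g (inv_mem_iff.1 (cent_of_conj_eq v)) e'
  have nB := h.sig_norm e1 e2
  have vx : (x : G) ∈ 𝒞[g⁻¹ * t * g⁻¹⁻¹] := by
    rw [← conjg_cent1, mem_conjg, inv_inv, e']; exact UU_le t y.2
  obtain ⟨w, hw, e3⟩ := h.classH ((h.conj k).abel2 (by rwa [orderOf_conj]) c1 c2) (h.inv.conj _) v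
  have x1 := conj_mem_of_mem_norm' (UU_norm t hw) x.2
  have A : ∀ τ : G, (∀ x y : UU t, (y : G) ∈ 𝒞[s] → τ * x * τ⁻¹ = y → ω x = ω y) → τ ∈ 𝒩(UU t ⊓ 𝒞[s]) →
      w⁻¹ * x * w ∈ 𝒞[s] → w * (τ * t * τ⁻¹) * w⁻¹ = g⁻¹ * t * g⁻¹⁻¹ → ω x = ω y := fun τ hτ nτ x2 e4 => by
    have x3 := conj_mem_of_mem_norm' nτ (mem_inf.2 ⟨x1, x2⟩)
    rw [hH x ⟨_, x1⟩ w⁻¹ (inv_mem hw) (by simp), ← hτ ⟨_, x3.1⟩ ⟨_, x1⟩ x2 (by group)]
    refine hH _ y (g * w * τ) (cent_of_conj_eq ?_) (by rw [← e']; group)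
    rw [show g * w * τ * t * (g * w * τ)⁻¹ = g * (w * (τ * t * τ⁻¹) * w⁻¹) * g⁻¹ by group, e4]; group
  have B : ∀ x y : UU t, (y : G) ∈ 𝒞[s] → σ * x * σ⁻¹ = y → ω x = ω y := fun x y hy e => hσ x y (by
    have := (conj_mem_of_mem_norm' nB (mem_inf.2 ⟨y.2, hy⟩)).2
    rwa [← e, show σ⁻¹ * (σ * x * σ⁻¹) * σ = x by group] at this) e
  rcases e3 with e3 | e3
  · exact A σ B nB (by rwa [← e3, ← conjg_cent1, mem_conjg] at vx) (by rw [e1, e3])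
  · refine A (σ * σ) (fun x y hy e => ?_) (mul_mem nB nB) ?_ ?_
    · have y1 := conj_mem_of_mem_norm' nB (mem_inf.2 ⟨y.2, hy⟩)
      exact (B x ⟨_, y1.1⟩ y1.2 (by change σ * x * σ⁻¹ = σ⁻¹ * y * σ; rw [← e]; group)).trans (B _ y hy (by group))
    · rw [← e3, ← conjg_cent1, mem_conjg, ct, mem_cent_singleton_comm,
        mul_mem_cancel_right (mem_cent_singleton_comm.1 (UU_le t x1)), mem_cent_singleton_comm] at vx
      exact vx
    · rw [← e3, show σ * σ * t * (σ * σ)⁻¹ = σ * (σ * t * σ⁻¹) * σ⁻¹ by group, e1, e2, ct,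
        mem_centralizer_singleton_iff.1 h.sH]

end DS

end CA.GW
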