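/-
Dihedral Sylow 2-subgroups: the results of character theory.
-/
import Cfsg.Agent.GW.Ch6

set_option autoImplicit false
set_option linter.unusedSectionVars false

namespace CA.GW

open Subgroup Cfsg CA.FG CA.BG CA.Dih CA.Chr CA.Blk Finset
open scoped commutatorElement ComplexConjugate Classical

universe u

variable {G : Type u} [Group G] [Fintype G] {S : Subgroup G} {c t s a : G}

/-- the inclusion `C_U(s) → K` -/
abbrev iB (c t s : G) : (UU t ⊓ 𝒞[s] : Subgroup G) →* KK c t := inclusion (inf_le_left.trans le_sup_right)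

namespace DS

variable (h : DS S c t s)
include h

theorem kkc (hc : c ∈ 𝒞(UU t)) : kk t (s * c) = kk t s := by
  have e1 := h.two_kk h.sH h.sInv h.st
  have e2 := h.two_kk h.swap.sH h.swap.sInv h.swap.st
  rw [← inf_relIndex_right, show 𝒞[s * c] ⊓ UU t = 𝒞[s] ⊓ UU t from ?_, inf_relIndex_right] at e2
  · omega
  ext x
  refine and_congr_left fun hx => ?_
  change x ∈ 𝒞[s * c] ↔ x ∈ 𝒞[s]
  rw [mem_cent_singleton_comm, mem_cent_singleton_comm (y := s)]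
  exact mul_mem_cancel_right (mem_centralizer_singleton_iff.2 (hc x hx).symm)

theorem extB (hc : c ∈ 𝒞(UU t)) (γ : (UU t ⊓ 𝒞[s] : Subgroup G) →* ℂˣ)
    (hγ : ∀ b : (UU t ⊓ 𝒞[s] : Subgroup G), (b : G) ∈ ⁅UU t, zpowers s⁆ → γ b = 1) :
    ∃ β, h.Bet β ∧ β.comp (iB c t s) = γ := by
  have n1 : ⁅UU t, zpowers s⁆ ≤ UU t := comm_le_left (zpowers_le.2 (UU_norm t h.sH))
  have n2 : zpowers c ≤ 𝒩(⁅UU t, zpowers s⁆) := zpowers_le.2 (centralizer_le_normalizer _ (centralizer_le n1 hc))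
  have n3 : UU t ≤ 𝒩(zpowers c) := fun x hx => mem_norm_of_forall fun y ⟨i, e⟩ => by
    rw [← e, ← conj_zpow, hc x hx, mul_inv_cancel_right]; exact zpow_mem (mem_zpowers c) i
  have n4 : s ∈ 𝒩(zpowers c ⊔ ⁅UU t, zpowers s⁆) := norm_sup (A := zpowers s) (zpowers_le.2 (mem_norm_of_forall
    fun y hy => h.inverts h.sS h.sc hy ▸ inv_mem hy)) (normalizer_commutator_ge_right _ _) (mem_zpowers s)
  refine (exists_lin_ext (K := KK c t) (W := zpowers c ⊔ ⁅UU t, zpowers s⁆) (sup_le (norm_sup le_normalizer n2)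
    (norm_sup n3 (normalizer_commutator_ge_left _ _))) (fun x hx => ?_) γ fun b hb => hγ b ?_).elim fun β hβ => ?_
  rotate_right
  · refine ⟨β, ⟨fun y => ?_, (hβ _ 1 (by simpa using mem_sup_left (mem_zpowers c))).trans (map_one γ)⟩,
      MonoidHom.ext fun b => hβ _ b (by simp [one_mem])⟩
    obtain ⟨u, hu, x, hx, e⟩ := h.mem_K.1 y.2
    have e1 : ⁅s, (y : G)⁆ ∈ zpowers c ⊔ ⁅UU t, zpowers s⁆ := by
      rw [← e, show ⁅s, u * x⁆ = ⁅u, s⁆⁻¹ * (u * (s * x * s⁻¹ * x⁻¹) * u⁻¹) by simp only [commutatorElement_def]; group,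
        h.inverts h.sS h.sc hx]
      exact mul_mem (mem_sup_right (inv_mem (commutator_mem_commutator hu (mem_zpowers s))))
        (mem_sup_left (conj_mem_of_mem_norm (n3 hu) (mul_mem (inv_mem hx) (inv_mem hx))))
    rw [← mul_inv_eq_one, ← map_inv, ← map_mul, ← map_one γ]
    exact hβ _ 1 (by rw [OneMemClass.coe_one, inv_one, mul_one]; exact e1)
  · obtain ⟨u, hu, y, hy, rfl⟩ := h.mem_K.1 hx
    obtain ⟨i, ⟨i1, i2⟩, b, hb, rfl⟩ := exists_inv_mul (UU_odd t) h.sInv.1 (UU_norm t h.sH) hu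
    obtain ⟨z, hz, rfl⟩ := exists_sqrt (UU_odd t) i1
    refine ⟨b, hb, ?_⟩
    rw [show z * z * b * y * b⁻¹ = z * (z⁻¹)⁻¹ * (b * y * b⁻¹) by group, ← inv_of_mem_zpowers i2 hz,
      show z * (s * z * s⁻¹)⁻¹ = ⁅z, s⁆ by simp only [commutatorElement_def]; group]
    exact mul_mem (mem_sup_right (commutator_mem_commutator (zpowers_le.2 i1 hz) (mem_zpowers s)))
      (mem_sup_left (conj_mem_of_mem_norm (n3 hb.1) hy))
  · obtain ⟨y, hy, x, hx, e⟩ := (mem_sup_of_left_le_norm' n2).1 hb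
    have : x ∈ S ⊓ UU t := ⟨h.zle hx, (mul_mem_cancel_left (n1 hy)).1 (e ▸ b.2.1)⟩
    rw [h.inf, mem_bot] at this
    rwa [← e, this, mul_one]

variable {h} {ρ β : KK c t →* ℂˣ}

theorem Bet.conj (hβ : h.Bet β) {g : G} (hg : g ∈ 𝒞[t]) {x y : KK c t} (e : g * x * g⁻¹ = y) : β x = β y := by
  by_cases gK : g ∈ KK c t
  · rw [show y = ⟨g, gK⟩ * x * ⟨g, gK⟩⁻¹ from Subtype.ext e.symm, map_mul, map_mul, map_inv, mul_inv_cancel_comm]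
  · have h1 := h.mul_memK hg (inv_mem h.sH) gK (by simpa using h.sK)
    rw [show y = ⟨_, h1⟩ * h.cj x * ⟨_, h1⟩⁻¹ from Subtype.ext (by
      rw [← e]; change _ = g * s⁻¹ * (s * x * s⁻¹) * (g * s⁻¹)⁻¹; group), map_mul, map_mul, map_inv, mul_inv_cancel_comm,
      hβ.inv]

theorem Bet.dot0 (hβ : h.Bet β) {γ : KK c t →* ℂˣ} (hγ : h.Bet γ) (ne : β ≠ γ) (r : Rho ρ) : ⟪tt β ρ, tt γ ρ⟫ = 0 := by
  have A : ∀ {β γ}, h.Bet β → h.Bet γ → β * ρ ≠ γ := fun a b e => by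
    have := r.hc
    rw [show ρ (cK c t) = 1 by simpa [a.hc, b.hc] using DFunLike.congr_fun e (cK c t)] at this
    norm_num at this
  rw [dot_tt (tt_CF _ _), tt_res hβ (h.lam_of r.mem), h.rho_inv r]
  simp [dot_sub_left, dot_add_left, dot_sub_right, dot_lin, ne, A hβ hγ, (A hγ hβ).symm]

theorem had [IsSimpleGroup G] (h2 : orderOf c = 2) (r : Rho ρ) {β₂ β₃ : KK c t →* ℂˣ} (b1 : h.Bet β) (b2 : h.Bet β₂)
    (b3 : h.Bet β₃) (n1 : β ≠ β₂) (n2 : β ≠ β₃) (n3 : β₂ ≠ β₃)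
    (hx : ∀ χ, Dirr χ → ⟪tt β ρ, χ⟫ = 1 → Exp c t {β, β₂, β₃} χ ∧ (∃ i : ℤ, ⟪tt β₂ ρ, χ⟫ = 1 + 2 * i) ∧
      ∃ i : ℤ, ⟪tt β₃ ρ, χ⟫ = 1 + 2 * i) : ∃ g : ℤ, 4 ∣ g - 3 ∧ g ≠ 3 ∧ kS c t s ^ 2 * g = 4 * nn t := by
  obtain ⟨a, b, p, q, da, db, dp, dq, e, ra, rb, rp, rq, -, -, -, -, ab, ap, aq, bp, bq, pq⟩ := b1.four r
  have sg : ∀ {γ}, h.Bet γ → ∀ {χ}, Dirr χ → (∃ i : ℤ, ⟪tt γ ρ, χ⟫ = 1 + 2 * i) →
      ∃ e : ℤ, (e = 1 ∨ e = -1) ∧ ⟪tt γ ρ, χ⟫ = e := fun hγ χ dχ ⟨i, hi⟩ => by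
    rcases ZIrr.dot_cases_of_nrm_le_four (tt_ZIrr _ _) (hγ.nrm4 r).le (tt_deg _ _) dχ with e | e | e
    · exact ⟨-1, .inr rfl, by simpa using e⟩
    · have : ((1 + 2 * i : ℤ) : ℂ) = (0 : ℤ) := by push_cast; rw [← hi, e]
      have := Int.cast_injective this
      omega
    · exact ⟨1, .inl rfl, by simpa using e⟩
  have c1 : ∀ {a : G → ℂ}, Dirr a → ⟪tt β ρ, a⟫ = 1 → ∃ x e f : ℤ, (e = 1 ∨ e = -1) ∧ (f = 1 ∨ f = -1) ∧ a 1 = x ∧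
      ⟪tt β₂ ρ, a⟫ = e ∧ ⟪tt β₃ ρ, a⟫ = f ∧ 4 ∣ x - (1 + e + f) ∧ (x = 3 → 1 + e + f ≠ 3) ∧
      Phi a = nn t * ((nn t * ((1 + e + f) ^ 2 / x) : ℚ) : ℂ) := fun {a} da ra => by
    obtain ⟨x, -, hx'⟩ := da.deg_int
    obtain ⟨v, v2, v3⟩ := hx a da ra
    obtain ⟨e, e1, e2⟩ := sg b2 da v2
    obtain ⟨f, f1, f2⟩ := sg b3 da v3
    have e3 : a t = (1 + e + f : ℤ) := by
      rw [show _ = _ from exp2 (h := h) h2 r da.mem_ZIrr v ⟨t, h.tK⟩ h.tU, sum_insert (by simp [n1, n2]), sum_pair n3,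
        b1.z h.tc, b2.z h.tc, b3.z h.tc, ra, e2, f2]
      push_cast; ring
    refine ⟨x, e, f, e1, f1, hx', e2, f2, cong4 (h := h) h2 da.mem_ZIrr hx' e3, fun e4 e5 => ?_,
      by simpa using h.Phi_q da hx' e3⟩
    obtain ⟨i, fa⟩ := faithful da (e4 ▸ hx')
    have := (IsIrr.mem_cfker i).2 (e3.trans (by rw [hx', e4, e5]))
    rw [fa, mem_bot] at this
    exact h.inv.2 this
  obtain ⟨x, e1, f1, h1, k1, hx, a2, a3, cx, nx, fx⟩ := c1 da ra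
  obtain ⟨y, e2, f2, h2', k2, hy, b2', b3', -, ny, fy⟩ := c1 db rb
  obtain ⟨z, e3, f3, h3, k3, hz, p2, p3, -, nz, fz⟩ := c1 dp rp
  obtain ⟨w, e4, f4, h4, k4, hw, q2, q3, -, nw, fw⟩ := c1 dq rq
  have E2 := eq_four (tt_ZIrr _ _) (b2.nrm4 r) da db dp dq ab ap aq bp bq pq a2 b2' p2 q2 h1 h2' h3 h4
  have E3 := eq_four (tt_ZIrr _ _) (b3.nrm4 r) da db dp dq ab ap aq bp bq pq a3 b3' p3 q3 k1 k2 k3 k4
  have s1 := b2.dot0 b1 n1.symm r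
  have s2 := b3.dot0 b1 n2.symm r
  have s3 := b3.dot0 b2 n3.symm r
  rw [e, dot_add_right, dot_add_right, dot_add_right] at s1 s2
  rw [E2, dot_add_right, dot_add_right, dot_add_right, dot_zsmul_right, dot_zsmul_right, dot_zsmul_right, dot_zsmul_right,
    a3, b3', p3, q3] at s3
  rw [a2, b2', p2, q2] at s1
  rw [a3, b3', p3, q3] at s2
  have q4 := congrArg Phi e
  have q5 := congrFun e 1
  have q6 := congrFun E2 1
  have q7 := congrFun E3 1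
  rw [Phi_add, Phi_add, Phi_add, fx, fy, fz, fw, b1.Phi2 h2 r] at q4
  simp only [Pi.add_apply, Pi.smul_apply, tt_deg, hx, hy, hz, hw] at q5 q6 q7
  simp only [zsmul_eq_mul] at q6 q7
  refine had_ar h1 h2' h3 h4 k1 k2 k3 k4 (by exact_mod_cast s1) (by exact_mod_cast s2) (by exact_mod_cast s3)
    (by exact_mod_cast q5.symm) (by exact_mod_cast q6.symm) (by exact_mod_cast q7.symm) cx nx ny nz nw
    (Rat.cast_injective (α := ℂ) (mul_left_cancel₀ h.n0 ?_))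
  push_cast at q4 ⊢; linear_combination q4

variable (h)

theorem k0 : kk t s ≠ 0 := (relIndex_pos _ _).ne'

theorem pr4 (h4 : 4 ∣ orderOf c) : ∃ y z w, Ar4 (orderOf c) (nn t) (kk t s) (kk t (s * c)) 1 y z w ∧
    (⁅(⊤ : Subgroup G), (⊤ : Subgroup G)⁆ = ⊤ → y ≠ 1) := by
  obtain ⟨x, y, z, w, a, e, p, -⟩ := h.bet_one.ex4 h4 fun l hl χ => blk_one (h := h) hl
  exact ⟨y, z, w, e rfl ▸ a, fun e => (p e).1⟩

theorem pr2 (h2 : orderOf c = 2) : ∃ y z w, Ar2 (nn t) (kS c t s) 1 y z w ∧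
    (⁅(⊤ : Subgroup G), (⊤ : Subgroup G)⁆ = ⊤ → y ≠ 1 ∧ z ≠ 1 ∧ w ≠ 1) ∧ Dg c t y 1 ∧ Dg c t z 1 ∧ Dg c t w 1 := by
  obtain ⟨x, y, z, w, a, e, p, d⟩ := h.bet_one.ex2 h2 fun l hl χ => blk_one (h := h) hl
  exact ⟨y, z, w, e rfl ▸ a, fun e => ⟨(p e).1, (p e).2.1, (p e).2.2.1⟩, d⟩

theorem thmC [IsSimpleGroup G] (nab : ¬ IsMulCommutative G) (hc : c ∈ 𝒞(UU t)) (N : Subgroup G)
    (h1 : UU t ⊓ 𝒞[s] ⊓ ⁅UU t, zpowers s⁆ ≤ N) (nN : UU t ⊓ 𝒞[s] ≤ 𝒩(N))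
    (hσ : orderOf c = 2 → ∃ σ ∈ 𝒩(S) ⊓ 𝒩(N), σ ∉ 𝒞[t]) : UU t ⊓ 𝒞[s] ≤ N := by
  by_contra hN
  have pf := der_top_eq nab
  have n0 : nn t ≠ 0 := (index_pos _).ne'
  have B0 : ¬ Dg c t 3 (-1) := fun d => hN (h.three nab d ▸ bot_le)
  obtain ⟨γ, γ1, γN⟩ : ∃ γ : (UU t ⊓ 𝒞[s] : Subgroup G) →* ℂˣ, γ ≠ 1 ∧
      ∀ b : (UU t ⊓ 𝒞[s] : Subgroup G), (b : G) ∈ N → γ b = 1 := by
    have : (N.subgroupOf (UU t ⊓ 𝒞[s])).Normal := normal_subgroupOf_of_le_normalizer nN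
    obtain ⟨n, hn⟩ := odd_sol ((UU_odd t).of_le (inf_le_left : UU t ⊓ 𝒞[s] ≤ _))
    obtain ⟨γ, a, b⟩ := exists_lin_ne_one_of_ne_top le_sup_right (sup_commutator_ne_top (N := N.subgroupOf (UU t ⊓ 𝒞[s]))
      ⟨n, hn.le.trans bot_le⟩ fun e => hN (subgroupOf_eq_top.1 e))
    exact ⟨γ, a, fun x hx => b (mem_sup_left (mem_subgroupOf.2 hx))⟩
  have ext := fun γ (e : ∀ b : (UU t ⊓ 𝒞[s] : Subgroup G), (b : G) ∈ N → γ b = 1) =>
    h.extB hc γ fun b hb => e b (h1 ⟨b.2, hb⟩)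
  obtain ⟨β, hβ, eβ⟩ := ext γ γN
  have β1 : β ≠ 1 := fun e => γ1 (by rw [← eβ, e, MonoidHom.one_comp])
  rcases h.m_cases with h2 | ⟨h4, h4'⟩
  swap
  · obtain ⟨y, z, w, a, p⟩ := h.pr4 h4'
    obtain ⟨x', y', z', w', a', -, p', d⟩ := hβ.ex4 h4' fun l hl χ => blk (h := h)
      (fun γ hγ => by rw [mem_singleton.1 hγ]; exact hβ) (fun x y g e => by
        obtain ⟨k, hk, e'⟩ := h.fus4 h4 hc x.2 (e ▸ y.2)
        rw [sum_singleton, sum_singleton, hβ.conj hk (x := iU c t x) (y := iU c t y) (e'.trans e)]) (mem_singleton_self _) hl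
    have b := a.b45 h4' (p pf)
    rw [h.kkc hc] at a' b
    exact B0 (a'.three h4' (by omega) n0 ((p' pf).2 β1) (p' pf).1 b ▸ d)
  obtain ⟨σ', ⟨σ1, σ2⟩, σ3⟩ := hσ h2
  obtain ⟨σ, σ4, e1, e2⟩ := h.sig3 h2 σ1 σ3
  replace σ2 := zpowers_le.2 σ2 σ4
  obtain ⟨y, z, w, a, p, dy, dz, dw⟩ := h.pr2 h2
  obtain ⟨b11, b7⟩ := a.b11 n0 (p pf).1 (p pf).2.1 (p pf).2.2 (fun e => B0 (by simpa [e] using dy.neg))
    (fun e => B0 (by simpa [e] using dz.neg)) fun e => B0 (by simpa [e] using dw.neg)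
  let φ := (UU t ⊓ 𝒞[s]).normalizerMonoidHom ⟨σ, h.sig_norm e1 e2⟩
  have φ1 : ∀ b, (φ b : G) = σ * b * σ⁻¹ := fun _ => rfl
  have F : ∀ B : Finset (KK c t →* ℂˣ), (∀ γ ∈ B, h.Bet γ) → β ∈ B → (∀ b, ∑ γ ∈ B, (γ (iB c t s b) : ℂ)⁻¹ =
      ∑ γ ∈ B, (γ (iB c t s (φ b)) : ℂ)⁻¹) → ∀ l ∈ LL c t, ∀ χ, Dirr χ → ⟪tt β l, χ⟫ ≠ 0 → Exp c t B χ :=
    fun B hB hβ e l hl χ => blk (h := h) hB (h.fus2 h2 e1 e2 _ (fun x y g hg e => sum_congr rfl fun γ hγ => by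
      rw [(hB γ hγ).conj hg (x := iU c t x) (y := iU c t y) e]) fun x y hx e' => by
        rw [show iU c t y = iB c t s (φ ⟨x, x.2, hx⟩) from Subtype.ext e'.symm]; exact e ⟨x, x.2, hx⟩) hβ hl
  have eβ' : ∀ b, β (iB c t s b) = γ b := DFunLike.congr_fun eβ
  by_cases e : γ.comp φ.toMonoidHom = γ
  · obtain ⟨x', y', z', w', a', -, p', -⟩ := hβ.ex2 h2 (F {β} (fun γ hγ => by rw [mem_singleton.1 hγ]; exact hβ)
      (mem_singleton_self _) fun b => by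
        rw [sum_singleton, sum_singleton, eβ', eβ', show γ (φ b) = γ b from DFunLike.congr_fun e b])
    have := a'.lt ((p' pf).2.2.2 β1) (p' pf).1 (p' pf).2.1 (p' pf).2.2.1
    omega
  obtain ⟨β₂, b2, eβ₂⟩ := ext (γ.comp φ.toMonoidHom) fun b hb => γN _ (conj_mem_of_mem_norm σ2 hb)
  obtain ⟨β₃, b3, eβ₃⟩ := ext ((γ.comp φ.toMonoidHom).comp φ.toMonoidHom) fun b hb =>
    γN _ (conj_mem_of_mem_norm σ2 (conj_mem_of_mem_norm σ2 hb))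
  have e3 : ∀ b, γ (φ (φ (φ b))) = γ b := fun b => by
    rw [← eβ', ← eβ']
    refine (hβ.conj (g := σ * σ * σ) (cent_of_conj_eq ?_) 
      (by change σ * σ * σ * b * _ = σ * (σ * (σ * b * σ⁻¹) * σ⁻¹) * σ⁻¹; group)).symm
    rw [show σ * σ * σ * t * (σ * σ * σ)⁻¹ = σ * (σ * (σ * t * σ⁻¹) * σ⁻¹) * σ⁻¹ by group, e1, e2,
      show σ * (t * s) * σ⁻¹ = σ * t * σ⁻¹ * (σ * s * σ⁻¹) by group, e1, e2, ← mem_centralizer_singleton_iff.1 h.sH,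
      ← mul_assoc, h.sInv.1, one_mul]
  have eβ₂' : ∀ b, β₂ (iB c t s b) = γ (φ b) := DFunLike.congr_fun eβ₂
  have eβ₃' : ∀ b, β₃ (iB c t s b) = γ (φ (φ b)) := DFunLike.congr_fun eβ₃
  have m1 : γ ≠ γ.comp φ.toMonoidHom := fun e' => e e'.symm
  have m2 : γ ≠ (γ.comp φ.toMonoidHom).comp φ.toMonoidHom := fun e' => e (MonoidHom.ext fun b =>
    (DFunLike.congr_fun e' (φ b)).trans (e3 b))
  have m3 : γ.comp φ.toMonoidHom ≠ (γ.comp φ.toMonoidHom).comp φ.toMonoidHom := fun e' => e (MonoidHom.ext fun b => by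
    simpa using (DFunLike.congr_fun e' (φ.symm b)).symm)
  have n1 : β ≠ β₂ := fun e' => m1 (by rw [← eβ₂, ← e', eβ])
  have n2 : β ≠ β₃ := fun e' => m2 (by rw [← eβ₃, ← e', eβ])
  have n3 : β₂ ≠ β₃ := fun e' => m3 (by rw [← eβ₃, ← e', eβ₂])
  obtain ⟨ρ, r⟩ := h.exists_rho
  obtain ⟨g, g1, g2, g3⟩ := had h2 r hβ b2 b3 n1 n2 n3 fun χ dχ e => by
    have X := F {β, β₂, β₃} (by simp [hβ, b2, b3]) (by simp) (fun b => by
      rw [sum_insert (by simp [n1, n2]), sum_pair n3, sum_insert (by simp [n1, n2]), sum_pair n3]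
      simp only [eβ', eβ₂', eβ₃', e3]; ring) ρ r.mem χ dχ (by simp [e])
    have Y : (fun b : (UU t ⊓ 𝒞[s] : Subgroup G) => χ (t * b)) = lin γ + ⟪tt β₂ ρ, χ⟫ • lin (γ.comp φ.toMonoidHom) +
        ⟪tt β₃ ρ, χ⟫ • lin ((γ.comp φ.toMonoidHom).comp φ.toMonoidHom) := funext fun b => by
      rw [show χ (t * b) = _ from exp2 (h := h) h2 r dχ.mem_ZIrr X (⟨t, h.tK⟩ * iB c t s b) fun e =>
        h.tU ((mul_mem_cancel_right (mem_inf.1 b.2).1).1 e), sum_insert (by simp [n1, n2]), sum_pair n3]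
      simp [hβ.z (y := ⟨t, h.tK⟩) h.tc, b2.z (y := ⟨t, h.tK⟩) h.tc, b3.z (y := ⟨t, h.tK⟩) h.tc, eβ', eβ₂', eβ₃', e, lin_apply]
      ring
    have I : ∀ δ, ⟪χ ∘ (UU t ⊓ 𝒞[s]).subtype, lin (δ.comp φ.toMonoidHom)⟫ = ⟪χ ∘ (UU t ⊓ 𝒞[s]).subtype, lin δ⟫ := fun δ => by
      rw [← dot_comp_mulEquiv φ _ (lin δ)]
      congr 1
      exact funext fun b => (CF_conj (ZIrr.mem_CF dχ.mem_ZIrr) _ σ).symm
    have P := parity_res dχ.mem_ZIrr h.inv.1 (inf_le_left.trans (UU_le t) : UU t ⊓ 𝒞[s] ≤ _)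
    obtain ⟨i, hi⟩ := P γ
    obtain ⟨j, hj⟩ := P (γ.comp φ.toMonoidHom)
    obtain ⟨k, hk⟩ := P ((γ.comp φ.toMonoidHom).comp φ.toMonoidHom)
    simp only [I, Y, dot_add_left, dot_smul_left, dot_lin, if_true, if_neg m1, if_neg m2, if_neg m3, if_neg m1.symm,
      if_neg m2.symm, if_neg m3.symm] at hi hj hk
    exact ⟨X, ⟨i - j, by push_cast; linear_combination hi - hj⟩, i - k, by push_cast; linear_combination hi - hk⟩
  generalize kS c t s = k at b11 b7 g3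
  zify at b11 b7
  have : (0 : ℤ) < nn t := by positivity
  rcases (by omega : g ≤ 0 ∨ g = 7 ∨ 11 ≤ g) with e | rfl | e
  · nlinarith [sq_nonneg (k : ℤ)]
  · exact b7 (by linarith)
  · nlinarith [sq_nonneg (k : ℤ)]

end DS

theorem ch : Ch.{u} := fun L _ _ S c t s h => by
  have := Fintype.ofFinite L
  refine ⟨⟨?_⟩, fun _ nab => ?_⟩
  · rcases h.m_cases with h2 | ⟨-, h4⟩
    · obtain ⟨y, z, w, a, -⟩ := h.pr2 h2
      exact a.b3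
    · obtain ⟨y, z, w, a, -⟩ := h.pr4 h4
      exact a.b3 h4
  have pf := der_top_eq nab
  have m4 : 4 ≤ orderOf c → 4 ∣ orderOf c := fun e => (h.m_cases.resolve_left (by omega)).2
  have b45 : 4 ≤ orderOf c → 16 * nn t ≤ 45 * kS c t s ^ 2 := fun e => by
    obtain ⟨y, z, w, a, p⟩ := h.pr4 (m4 e)
    exact a.b45 (m4 e) (p pf)
  refine ⟨?_, b45, fun e ρ o r3 e' => ?_, fun e co => ?_, fun h2 D => h.of3 h2, fun hc N _ => h.thmC nab hc N⟩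
  · rcases h.m_cases with h2 | ⟨h4, -⟩
    · obtain ⟨y, z, w, a, p, -⟩ := h.pr2 h2
      exact a.b15 (p pf).1 (p pf).2.1 (p pf).2.2
    · have := b45 h4
      omega
  · obtain ⟨y, z, w, a, p⟩ := h.pr4 (m4 e)
    exact a.lemN (m4 e) (by omega) (p pf) h.k0 o r3 e'
  · obtain ⟨y, z, w, a, -⟩ := h.pr4 (m4 e)
    exact of_key h.odd_nn co (a.key (m4 e))

end CA.GW
theorem CA.GW.realizeEqnsCh7 : True := by
  have := @CA.GW.iB.eq_1.{0}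
  have := @CA.GW.iB.eq_def.{0}
  have := @CA.GW.iB.congr_simp.{0}
  trivial
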