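/-
Groups with dihedral Sylow 2-subgroups: the cases I and II of the local analysis.
-/
import Cfsg.Agent.GW.L1a

set_option autoImplicit false
set_option linter.unusedSectionVars false

namespace CA.GW

open Subgroup Cfsg CA.FG CA.BG CA.Dih L1
open scoped commutatorElement

universe u

variable {G : Type u} [Group G] [Finite G] {S : Subgroup G} {c t s a v : G}

/-- every involution of `C(t)` other than `t` centralizes or inverts each `O_p(U)` -/
def CaseI (t : G) : Prop := ∀ v ∈ 𝒞[t], IsInv v → v ≠ t → ∀ p : ℕ, p.Prime →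
  pCoreOf p (UU t) ⊓ 𝒞[v] = ⊥ ∨ v ∈ 𝒞(pCoreOf p (UU t))

namespace L1

theorem inf_c1 {X : Subgroup G} (hX : X ≤ 𝒞[t]) (v : G) : X ⊓ 𝒞[t * v] = X ⊓ 𝒞[v] := by
  ext x
  simp only [mem_inf, BA.mem_c1, and_congr_right_iff]
  intro hx
  rw [← mul_assoc, BA.mem_c1.1 (hX hx), mul_assoc, mul_assoc, mul_right_inj]

theorem CaseI.inv (hI : CaseI t) (hv : v ∈ 𝒞[t]) (iv : IsInv v) (ne : v ≠ t) {p : ℕ} (hp : p.Prime) :
    (∀ y ∈ pCoreOf p (UU t), v * y * v⁻¹ = y⁻¹) ∨ v ∈ 𝒞(pCoreOf p (UU t)) :=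
  (hI v hv iv ne p hp).imp_left fun e _ hy => inv_of_fpf iv.1 ((pcore_UU_normal p t).2 hv) e hy

theorem CaseI.comm (hI : CaseI t) (hv : v ∈ 𝒞[t]) (iv : IsInv v) (ne : v ≠ t) : ⁅UU t, zpowers v⁆ ≤ 𝒵(FF t) := by
  have h1 : ⁅UU t, zpowers v⁆ ≤ 𝒞(FF t) := le_cent_symm (fitting_le_of_forall_pcore fun p hp => le_cent_symm (by
    rcases CaseI.inv hI hv iv ne hp with e | e
    · exact comm_le_cent_of_inv e (pcore_norm _ _)
    · exact (commutator_mono le_rfl (zpowers_le.2 e)).trans (comm_le_right (norm_cent (pcore_norm _ _)))))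
  exact le_inf ((le_inf (comm_le_left (zpowers_le.2 (UU_norm t hv))) h1).trans (cent_sub_Fitting (UU_sol t))) h1

theorem CaseI.ti (hI : CaseI t) (hv : v ∈ 𝒞[t]) (iv : IsInv v) (ne : v ≠ t) : ⁅UU t, zpowers v⁆ ⊓ 𝒞[v] = ⊥ := by
  have n : v ∈ 𝒩(UU t) := UU_norm t hv
  have l : ⁅UU t, zpowers v⁆ ≤ UU t := comm_le_left (zpowers_le.2 n)
  have := coprime_abel_cent_TI (A := zpowers v) (H := ⁅UU t, zpowers v⁆)
    (norm_comm (zpowers_le.2 n) (norm_of_le le_rfl)) (co_zpowers iv.1 ((UU_odd t).of_le l))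
    (abelian_of_le (abelian_inf_cent _) (CaseI.comm hI hv iv ne))
  rwa [comm_comm_zpowers (UU_odd t) iv.1 n, cent_zpowers] at this

theorem pm_sq {Q : Subgroup G} {a b : G} (ha : (∀ y ∈ Q, a * y * a⁻¹ = y⁻¹) ∨ a ∈ 𝒞(Q))
    (hb : (∀ y ∈ Q, b * y * b⁻¹ = y⁻¹) ∨ b ∈ 𝒞(Q)) : a * b * (a * b) ∈ 𝒞(Q) := by
  have cv : ∀ {a : G}, a ∈ 𝒞(Q) → ∀ y ∈ Q, a * y * a⁻¹ = y := fun ha y hy => by
    rw [← mem_centralizer_iff.1 ha y hy, mul_inv_cancel_right]
  refine mem_centralizer_iff.2 fun y hy => ?_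
  have e : a * b * (a * b) * y * (a * b * (a * b))⁻¹ = a * (b * (a * (b * y * b⁻¹) * a⁻¹) * b⁻¹) * a⁻¹ := by group
  have hy' := inv_mem hy
  have : a * b * (a * b) * y * (a * b * (a * b))⁻¹ = y := by
    rw [e]
    rcases ha with ha | ha <;> rcases hb with hb | hb
    · rw [hb y hy, ha _ hy', inv_inv, hb y hy, ha _ hy', inv_inv]
    · rw [cv hb y hy, ha _ hy, cv hb _ hy', ha _ hy', inv_inv]
    · rw [hb y hy, cv ha _ hy', hb _ hy', inv_inv, cv ha y hy]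
    · rw [cv hb y hy, cv ha y hy, cv hb y hy, cv ha y hy]
  exact (mul_inv_eq_iff_eq_mul.1 this).symm

theorem ps_le (h : DS S c t s) (hv : v ∈ 𝒞[t]) (iv : IsInv v) (ne : v ≠ t) {p : ℕ} (hs : v ∈ 𝒞(pCoreOf p (UU t))) :
    pCoreOf p (UU v) ≤ UU t ∧ pCoreOf p (UU (t * v)) ≤ UU t := by
  obtain ⟨g, g1, g2, g3⟩ := FV3 h hv iv ne
  have tP : t ∈ 𝒞(pCoreOf p (UU t)) := mem_cent_iff_le_cent_singleton.2 (pcore_UU_normal p t).1
  have a1 := conj_mem_conjg g (mul_mem tP hs)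
  rw [conjg_cent, pcore_conj, g1, g3] at a1
  have a2 := conj_mem_conjg g (conj_mem_conjg g hs)
  rw [conjg_cent, conjg_cent, pcore_conj, pcore_conj, g1, g2, g3] at a2
  exact ⟨h.le_UU h.inv (mem_cent_iff_le_cent_singleton.1 a1) ((UU_odd _).of_le (pcore_le _ _)),
    h.le_UU h.inv (mem_cent_iff_le_cent_singleton.1 a2) ((UU_odd _).of_le (pcore_le _ _))⟩

theorem sr_lt (h : DS S c t s) (hC : ∀ x ∈ FF t, x ≠ 1 → 𝒞[x] ≤ 𝒞[t]) (hv : v ∈ 𝒞[t]) (iv : IsInv v) (ne : v ≠ t)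
    {p q : ℕ} (hs : v ∈ 𝒞(pCoreOf p (UU t))) (h0 : pCoreOf q (UU t) ≠ ⊥) (hq : pCoreOf q (UU t) ⊓ 𝒞[v] = ⊥) :
    Nat.card (pCoreOf p (UU t)) < Nat.card (pCoreOf q (UU t)) := by
  have l := (ps_le h hv iv ne hs).1
  obtain ⟨g, rfl⟩ := h.exists_conj iv
  have h1 := regular_norm_dvd_pred (K := pCoreOf q (UU t)) (l.trans (pcore_norm _ _)) fun x hx x1 => by
    rw [← pcore_conj, mem_conjg'] at hx
    obtain ⟨y, hy, rfl⟩ := hx
    refine eq_bot_iff.2 (hq ▸ inf_le_inf_left _ ?_)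
    rw [← conjg_cent1, ← conjg_cent1]
    exact conjg_mono g (hC y (pcore_le_fitting _ _ hy) (by rintro rfl; simp at x1))
  rw [← pcore_conj, card_conjg] at h1
  have h2 : 1 < Nat.card (pCoreOf q (UU t)) := (one_lt_card_iff_ne_bot _).2 h0
  have := Nat.le_of_dvd (by omega) h1
  omega

end L1

variable [IsSimpleGroup G]

namespace Loc
variable (h : Loc S c t s)
include h

theorem II (hv : v ∈ 𝒞[t]) (iv : IsInv v) (ne : v ≠ t) {p : ℕ} (X0 : pCoreOf p (UU t) ⊓ 𝒞[v] ≠ ⊥)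
    (vP : v ∉ 𝒞(pCoreOf p (UU t))) : ∃ M E K q r, Cfg t M E K q r ∧
      ∃ w ∈ E ⊓ 𝒞[t], IsInv w ∧ w ≠ t ∧ pCoreOf p (UU t) ⊓ 𝒞[v] ≤ 𝒞[w] := by
  set P := pCoreOf p (UU t) with hP
  have nP := pcore_UU_normal p t
  have p2 : p ≠ 2 := ne_two fun e => X0 (by rw [hP, e, bot_inf_eq])
  have f := four_of h.inv hv iv ne
  set X := P ⊓ 𝒞[v] with hX
  have XF : X ≤ FF t := inf_le_left.trans (pcore_le_fitting _ _)
  have VN : 𝒞[t] ⊓ 𝒞[v] ≤ 𝒩(X) := norm_inf (inf_le_left.trans nP.2) (norm_of_le inf_le_right)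
  have tN : t ∈ 𝒩(X) := VN ⟨mem_cent_singleton_self t, f.cs⟩
  have vN : v ∈ 𝒩(X) := VN ⟨hv, mem_cent_singleton_self v⟩
  have hO : OO 𝒩(X) ≤ 𝒞[t] := h.T1 hv iv ne tN vN ((inf_le_right.trans (cent_anti XF)).trans (cent_le_norm _))
    fun w e => .inl (le_trans (le_inf inf_le_right (by
      rcases e with rfl | rfl
      · exact inf_le_left.trans (FF_normal _).1
      · rw [inf_comm]
        exact (inf_le_inf_left _ (FF_normal _).1).trans ((inf_c1 le_rfl v).le.trans inf_le_right))) VN)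
  have nH : ¬ 𝒩(X) ≤ 𝒞[t] := fun e => by
    obtain ⟨g, g1, -, g3⟩ := FV3 h.toDS hv iv ne
    have := coprime_A_times_B (p := p) (A := zpowers t) (B := X) (P := pCoreOf p (UU (t * v))) (pcore_pGrp _ _)
      ((pcore_pGrp _ _).of_le inf_le_left) ((two_zpowers h.inv.1).piGrp (by simpa using p2.symm))
      (zpowers_le.2 ((pcore_UU_normal p _).2 f.left.cs))
      (((inf_c1 nP.1 v).ge.trans inf_le_right).trans (pcore_UU_normal p _).2)
      (le_cent_symm (by rw [cent_zpowers]; exact inf_le_left.trans nP.1))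
      (le_cent_symm (by rw [cent_zpowers]; exact (inf_le_right.trans (cent_le_norm _)).trans e))
    have h2 := conj_mem_conjg g (zpowers_le.1 this)
    rw [conjg_cent, pcore_conj, g1, g3] at h2
    exact vP h2
  have sY : SC (FF t ⊓ 𝒩(X)) (UU t) := sc_of_norm' XF le_rfl
  obtain ⟨E, cE, -⟩ := h.xc 𝒩(X) (norm_ne_top X0 (odd_ne_top h.inv ((FF_odd t).of_le XF)))
    (fun e => nH (h.T2 e sY inf_le_right tN hO)) ⟨t, tN, h.inv, hO⟩
  have tE : t ∈ E := by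
    by_contra tE
    rcases h.m_cases with m2 | ⟨m4, -⟩
    · obtain ⟨g, -, d⟩ := h.exists_of hv iv ne
      exact odd_relIndex d.syl ((le_inf d.le (d.abel2 ((orderOf_conj c g).trans m2) d.sS)).trans VN) d.le
        (cE.out t tN h.inv tE)
    · obtain ⟨g, m, e⟩ := h.swapV m4 hv iv ne
      have gN : g ∈ 𝒩(X) := conjg_eq_self_iff.1 (by
        rw [hX, conjg_inf, conjg_of_mem_norm (nP.2 m), conjg_cent1, e, inf_c1 nP.1])
      have iff : v ∈ E ↔ t * v ∈ E := e ▸ mem_normalizer_iff.1 (cE.norm gN) v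
      by_cases vE : v ∈ E
      · exact tE ((mul_mem_cancel_right vE).1 (iff.1 vE))
      · have := cE.out2 _ (mul_mem tN vN) v vN f.ts.two iv.two (fun e => vE (iff.2 e)) vE
        rw [mul_assoc, iv.1, mul_one] at this
        exact tE (cE.two t this h.inv.two)
  obtain ⟨M, E', K, q, r, hc, le⟩ := h.cfg_of X0 XF cE tE
  obtain ⟨b, bE, ib, bt, bc⟩ := cE.four t tE h.inv
  exact ⟨M, E', K, q, r, hc, b, ⟨le bE, bc⟩, ib, bt, ((pcore_max ⟨le_normalizer, le_rfl⟩ ((FF_odd t).of_le XF)).trans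
    (cE.cent.ge.trans inf_le_right)).trans (cent_le_cent_singleton bE)⟩

theorem I (hI : CaseI t) {x : G} (hx : x ∈ FF t) (x1 : x ≠ 1) (hc : ¬ 𝒞[x] ≤ 𝒞[t]) :
    ∃ M E K q r, Cfg t M E K q r := by
  obtain ⟨y, hy, hp⟩ := exists_prime_orderOf_mem_zpowers x1
  have yF : zpowers y ≤ FF t := zpowers_le.2 (zpowers_le.2 hx hy)
  have yP : y ∈ pCoreOf (orderOf y) (UU t) :=
    zpowers_le.1 (le_pcore_of_le_fitting yF (pGrp_of_card_eq hp (Nat.card_zpowers y)))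
  have y0 : zpowers y ≠ ⊥ := by
    rw [ne_eq, zpowers_eq_bot]; rintro rfl; simp at hp; exact Nat.not_prime_one hp
  have cN : 𝒞[y] ≤ 𝒩(zpowers y) := norm_zpowers_of_cent le_rfl
  have nH : ¬ 𝒩(zpowers y) ≤ 𝒞[t] := fun e => hc (((cent_singleton_le_of_mem_zpowers hy).trans cN).trans e)
  have iN : ∀ a ∈ S, a ∉ zpowers c → a ∈ 𝒩(zpowers y) := fun a ha ha' => by
    rcases CaseI.inv hI (h.le ha) (h.isInv ha ha') (fun e => ha' (e ▸ h.tc)) hp with e | e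
    · exact mem_norm_of_conjg_le (by rw [conjg_zpowers, e y yP]; simp)
    · exact cN (cent_le_cent_singleton yP e)
  have SN : S ≤ 𝒩(zpowers y) := fun a ha => by
    by_cases e : a ∈ zpowers c
    · have := iN _ (mul_mem h.sS ha) fun e' => h.sc ((mul_mem_cancel_right e).1 e')
      exact (mul_mem_cancel_left (iN s h.sS h.sc)).1 this
    · exact iN a ha e
  have f := four_of h.inv h.sH h.sInv h.st
  have hO : OO 𝒩(zpowers y) ≤ 𝒞[t] := h.T1 h.sH h.sInv h.st (SN h.tS) (SN h.sS)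
    ((inf_le_right.trans (cent_anti yF)).trans (cent_le_norm _)) fun w e => .inr (by
      obtain ⟨g, g1, g2, g3⟩ := FV3 h.toDS h.sH h.sInv h.st
      have a1 := conjg_mono g ((CaseI.comm hI f.left.ct f.ts h.sInv.mul_ne).trans inf_le_left)
      rw [conjg_comm, UU_conj, FF_conj, conjg_zpowers, g1, g3] at a1
      have a2 := conjg_mono g (conjg_mono g ((CaseI.comm hI h.sH h.sInv h.st).trans inf_le_left))
      simp only [conjg_comm, UU_conj, FF_conj, conjg_zpowers, g1, g2, g3] at a2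
      rcases e with rfl | rfl
      exacts [a1, a2])
  obtain ⟨E, cE, -⟩ := h.xc _ (norm_ne_top y0 (odd_ne_top h.inv ((FF_odd t).of_le yF)))
    (fun e => nH (h.T2 e (sc_of_norm' yF le_rfl) inf_le_right (SN h.tS) hO)) ⟨t, SN h.tS, h.inv, hO⟩
  have tE : t ∈ E := by
    by_contra tE
    exact odd_relIndex h.syl SN h.le (cE.out t (SN h.tS) h.inv tE)
  obtain ⟨M, E', K, q, r, hc, -⟩ := h.cfg_of y0 yF cE tE
  exact ⟨M, E', K, q, r, hc⟩

theorem Q2a (hI : CaseI t) (hC : ∀ x ∈ FF t, x ≠ 1 → 𝒞[x] ≤ 𝒞[t]) (cU : c ∈ 𝒞(UU t)) : ∃ K, BSW K t := by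
  have B := (h.toCx.chA h.toDS).thmC cU ⊥ bot_le (by
    rw [← CaseI.ti hI h.sH h.sInv h.st]; exact le_inf inf_le_right (inf_le_left.trans inf_le_right))
    (norm_bot _) fun m2 => by
      obtain ⟨g, g1, -⟩ := h.FV h.sH h.sInv h.st
      obtain ⟨x, hx, e⟩ := h.FV2 m2 le_top (mem_top g) (g1 ▸ h.sS)
      exact ⟨x, ⟨hx.2, norm_bot ⊤ (mem_top x)⟩, fun e' => h.st (by rw [← g1, ← e, conj_eq_of_cent e'])⟩
  have B0 := eq_bot_iff.2 B
  have sU := UU_norm t h.sH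
  haveI := Fintype.ofFinite G
  have UF : UU t ≤ FF t := fitting_max (normalIn_refl _) (nil_of_abelian (abelian_of_fpf h.sInv.1 sU B0))
  refine ⟨_, BSW.of_core (der_top_eq h.nab) h.syl h.inv.ord h.le (h.hall h.inv) (UU_norm t) h.zle (cyclic_zpowers c)
    h.dih.index h.tc (zpowers_le.2 cU) (fun a ha ha' => (h.isInv ha ha').1) (fun a ha ha' y hy => ?_)
    fun y hy y1 => hC y (UF hy) y1⟩
  rcases h.mem_cases ha with e | ⟨z, hz, rfl⟩
  · exact absurd e ha'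
  · have := (mem_cent_iff_le_cent_singleton.1 (zpowers_le.2 cU hz)) hy
    rw [mul_inv_rev, show s * z * y * (z⁻¹ * s⁻¹) = s * (z * y * z⁻¹) * s⁻¹ by group, ← BA.mem_c1.1 this,
      mul_inv_cancel_right, inv_of_fpf h.sInv.1 sU B0 hy]

theorem Q2b (hI : CaseI t) (hC : ∀ x ∈ FF t, x ≠ 1 → 𝒞[x] ≤ 𝒞[t]) {p : ℕ} (hp : p.Prime)
    (cP : c ∉ 𝒞(pCoreOf p (UU t))) (sP : s ∈ 𝒞(pCoreOf p (UU t))) : False := by
  have tP : t ∈ 𝒞(pCoreOf p (UU t)) := mem_cent_iff_le_cent_singleton.2 (pcore_UU_normal p t).1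
  have P0 : pCoreOf p (UU t) ≠ ⊥ := fun e => cP (by rw [e, cent_bot]; trivial)
  have m4 : 4 ≤ orderOf c := (h.m_cases.resolve_left fun e => cP (h.c_eq e ▸ tP)).1
  have d := h.swap
  have f := four_of h.inv h.sH h.sInv h.st
  have scP : pCoreOf p (UU t) ⊓ 𝒞[s * c] = ⊥ := (hI _ d.sH d.sInv d.st p hp).resolve_right fun e =>
    cP ((mul_mem_cancel_left sP).1 e)
  have ec : s * (s * c) = c := by rw [← mul_assoc, h.sInv.1, one_mul]
  have c2 : c * c ∈ 𝒞(UU t) := cent_UU_of_FF (mul_mem h.cH h.cH) (h.pS.piElt (mul_mem h.cS h.cS))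
    (mem_cent_iff_le_cent_singleton.2 (fitting_le_of_forall_pcore fun q hq => mem_cent_iff_le_cent_singleton.1 (by
      have := pm_sq (CaseI.inv hI h.sH h.sInv h.st hq) (CaseI.inv hI d.sH d.sInv d.st hq)
      rwa [ec] at this)))
  obtain ⟨l1, -⟩ := ps_le h.toDS h.sH h.sInv h.st sP
  have neP : pCoreOf p (UU s) ≠ pCoreOf p (UU (t * s)) := fun e => by
    obtain ⟨g, g1, g2, -⟩ := FV3 h.toDS h.sH h.sInv h.st
    have e1 : pCoreOf p (UU t) = pCoreOf p (UU s) := by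
      rw [← g2, ← pcore_conj] at e
      conv at e => lhs; rw [← g1, ← pcore_conj]
      have := congrArg (· :^ g⁻¹) e
      simpa [← conjg_mul, conjg_of_mem (one_mem _)] using this
    have e2 := h.norm_eq (pcore_UU_normal p t) P0
    have e3 : 𝒩(pCoreOf p (UU s)) = 𝒞[s] := by rw [← g1, ← pcore_conj, ← conjg_norm, e2, conjg_cent1]
    have : c ∈ 𝒞[s] := by rw [← e3, ← e1, e2]; exact h.cH
    rcases h.mem_S_cent h.cS this with e | e | e | e
    · exact cP (e ▸ one_mem _)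
    · exact cP (e ▸ tP)
    · exact cP (e ▸ sP)
    · exact cP (e ▸ mul_mem tP sP)
  have m : orderOf c = 4 := by
    obtain ⟨e, he⟩ := h.exists_pow
    rcases e with _ | _ | e
    · omega
    · exact he
    exfalso
    have y2 : (c * c) ^ 2 ^ e * (c * c) ^ 2 ^ e = t := by
      rw [← h.pow_half, he, ← pow_two c, ← pow_mul, ← pow_add]; congr 1; omega
    have y3 := h.conj_s (y := (c * c) ^ 2 ^ e) (pow_mem (mul_mem (mem_zpowers c) (mem_zpowers c)) _)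
    rw [y2, BA.mem_c1.1 h.sH] at y3
    refine neP ?_
    rw [← y3, ← pcore_conj, conjg_of_mem_cent (inv_mem (cent_anti l1 (pow_mem c2 _)))]
  have ct : c * c = t := by rw [← h.pow_half, m, pow_two]
  set W : Subgroup G := ⁅UU t, zpowers s⁆ with hW
  have W1 := CaseI.ti hI h.sH h.sInv h.st
  have W2 := CaseI.comm hI h.sH h.sInv h.st
  have Wq : ∀ y ∈ W, (orderOf y).Prime → y ∈ pCoreOf (orderOf y) (UU t) ∧ pCoreOf (orderOf y) (UU t) ⊓ 𝒞[s] = ⊥ ∧
      pCoreOf (orderOf y) (UU t) ⊓ 𝒞[s * c] = ⊥ := fun y hy hq => by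
    have y1 : y ≠ 1 := ne_one_of_orderOf hq rfl
    have yP : y ∈ pCoreOf (orderOf y) (UU t) := zpowers_le.1
      (le_pcore_of_le_fitting (zpowers_le.2 (W2 hy).1) (pGrp_of_card_eq hq (Nat.card_zpowers y)))
    have a1 := (hI _ h.sH h.sInv h.st _ hq).resolve_right fun e =>
      y1 (mem_bot.1 (W1 ▸ mem_inf.2 ⟨hy, mem_cent_iff_le_cent_singleton.1 e yP⟩))
    refine ⟨yP, a1, (hI _ d.sH d.sInv d.st _ hq).resolve_right fun e => ?_⟩
    have q0 : pCoreOf (orderOf y) (UU t) ≠ ⊥ := fun e => y1 (by rwa [e, mem_bot] at yP)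
    exact lt_asymm (sr_lt h.toDS hC h.sH h.sInv h.st sP q0 a1) (sr_lt h.toDS hC d.sH d.sInv d.st e P0 scP)
  have W3 : W ⊓ 𝒞[s * c] = ⊥ := by
    by_contra e
    obtain ⟨q, hq, hd⟩ := exists_prime_dvd_card e
    obtain ⟨y, hy, rfl⟩ := exists_mem_orderOf_eq hq hd
    obtain ⟨a1, -, a3⟩ := Wq y hy.1 hq
    exact ne_one_of_orderOf hq rfl (mem_bot.1 (a3 ▸ mem_inf.2 ⟨a1, hy.2⟩))
  have sB : s ∈ 𝒩(UU t ⊓ 𝒞[s * c]) := conjg_eq_self_iff.1 (by
    rw [conjg_inf, conjg_of_mem_norm (UU_norm t h.sH), conjg_cent1, ← inf_c1 (UU_le t) (s * c)]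
    congr 3
    rw [mul_assoc s, mul_assoc s, ← mul_assoc s c, h.inverts h.sS h.sc (mem_zpowers c), ← mul_assoc t,
      ← BA.mem_c1.1 h.sH, mul_assoc, mul_right_inj, ← ct, eq_comm, ← mul_eq_one_iff_eq_inv]
    have := pow_orderOf_eq_one c
    rw [m] at this
    rw [← this]; simp [pow_succ, mul_assoc])
  have B21 : UU t ⊓ 𝒞[s * c] ≤ UU t ⊓ 𝒞[s] := le_inf inf_le_left (by
    rw [← cent_zpowers s, ← comm_eq_bot_iff, eq_bot_iff, ← W3]
    exact le_inf (commutator_mono inf_le_left le_rfl) ((comm_le_left (zpowers_le.2 sB)).trans inf_le_right))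
  set ρ := (UU t ⊓ 𝒞[s * c]).relIndex (UU t ⊓ 𝒞[s]) with hρ
  have ρo : ¬ 2 ∣ ρ := (piNat_compl_singleton_iff Nat.prime_two).1 (((UU_odd t).of_le inf_le_left).relIndex _)
  have ρ1 : ρ ≠ 1 := fun e => P0 (eq_bot_iff.2 (scP ▸ le_inf le_rfl
    (((le_inf (pcore_le _ _) (mem_cent_iff_le_cent_singleton.1 sP)).trans (relIndex_eq_one.1 e)).trans inf_le_right)))
  have k1 := h.two_kk h.sH h.sInv h.st
  have k2 := h.two_kk d.sH d.sInv d.st
  have k3 := relIndex_mul_relIndex _ _ _ B21 (inf_le_left : UU t ⊓ 𝒞[s] ≤ UU t)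
  rw [← hρ, inf_relIndex_left, inf_relIndex_left] at k3
  set j := (𝒞[s]).relIndex (UU t) with hj
  have k4 : kk t (s * c) = ρ * kk t s := by
    have : 2 * kk t (s * c) = 2 * (ρ * kk t s) := by rw [k2, ← k3, mul_left_comm 2, k1]; ring
    omega
  have k5 : kk t s = 2 * j := by rw [m] at k1; omega
  have hN := ((h.toCx.chA h.toDS).lemN m4 ρ (Nat.not_even_iff_odd.1 fun e => ρo e.two_dvd) (by omega) k4).2
  have jn : j ∣ nn t := by
    rw [k5] at hN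
    rcases hN with ⟨-, e⟩ | ⟨-, e⟩
    · exact ⟨105 * j, by nlinarith⟩
    · exact ⟨189 * j, by nlinarith⟩
  have W0 : W ≠ ⊥ := fun e => h.L0 h.sH h.sInv h.st (zpowers_le.1 (comm_eq_bot_iff'.1 e))
  obtain ⟨l, hl, hd⟩ := exists_prime_dvd_card W0
  obtain ⟨y, hy, rfl⟩ := exists_mem_orderOf_eq hl hd
  obtain ⟨a1, a2, a3⟩ := Wq y hy hl
  have WU : W ≤ UU t := comm_le_left (zpowers_le.2 (UU_norm t h.sH))
  have Wj : Nat.card W ∣ j := by
    have e1 := card_sup_of_inf_eq_bot (H := UU t ⊓ 𝒞[s]) (K := W)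
      (.inl (inf_le_left.trans (comm_normalIn_left (zpowers_le.2 (UU_norm t h.sH))).2))
      (eq_bot_iff.2 (W1 ▸ le_inf inf_le_right (inf_le_left.trans inf_le_right)))
    have e2 := card_dvd_of_le (sup_le (inf_le_left : UU t ⊓ 𝒞[s] ≤ UU t) WU)
    rw [e1, ← card_inf_mul_relIndex 𝒞[s] (UU t), inf_comm] at e2
    exact Nat.dvd_of_mul_dvd_mul_left Nat.card_pos e2
  have y1 : y ≠ 1 := ne_one_of_orderOf hl rfl
  refine h.WC hl ((pcore_UU_normal _ t).1 a1) ((pcore_pGrp _ _).piElt a1) (fun a ha ia => ?_) ((hd.trans Wj).trans jn)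
  have aH := hC y (W2 hy).1 y1 ha
  by_contra ne
  obtain ⟨g, hg, e⟩ := h.classH aH ia ne
  have key : ∀ b : G, pCoreOf (orderOf y) (UU t) ⊓ 𝒞[b] = ⊥ → g * b * g⁻¹ ≠ a := fun b hb e => by
    have := congrArg (· :^ g) hb
    simp only [conjg_inf, conjg_cent1, conjg_of_mem_norm ((pcore_UU_normal _ t).2 hg), e] at this
    have h2 : y ∈ (⊥ : Subgroup G) :^ g := this ▸ mem_inf.2 ⟨a1, mem_cent_singleton_comm.1 ha⟩
    exact y1 (by simpa [conjg_def] using h2)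
  rcases e with e | e
  exacts [key _ a2 e, key _ a3 e]

theorem main0 : (∃ K, BSW K t) ∨ ∃ M E K q r, Cfg t M E K q r := by
  by_cases hI : CaseI t
  swap
  · simp only [CaseI, not_forall, not_or] at hI
    obtain ⟨v, hv, iv, ne, p, -, h1, h2⟩ := hI
    obtain ⟨M, E, K, q, r, hc, -⟩ := h.II hv iv ne h1 h2
    exact .inr ⟨M, E, K, q, r, hc⟩
  by_cases hC : ∀ x ∈ FF t, x ≠ 1 → 𝒞[x] ≤ 𝒞[t]
  swap
  · simp only [not_forall] at hC
    obtain ⟨x, hx, x1, hc⟩ := hC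
    exact .inr (h.I hI hx x1 hc)
  refine .inl (h.Q2a hI hC (cent_UU_of_FF h.cH (h.pS.piElt h.cS) (mem_cent_iff_le_cent_singleton.2
    (fitting_le_of_forall_pcore fun p hp => mem_cent_iff_le_cent_singleton.1 ?_))))
  by_contra cP
  have d := h.swap
  rcases CaseI.inv hI h.sH h.sInv h.st hp with e1 | e1
  · rcases CaseI.inv hI d.sH d.sInv d.st hp with e2 | e2
    · refine cP (mem_centralizer_iff.2 fun y hy => ?_)
      have e3 := e2 y hy
      rw [← e1 y hy, mul_inv_rev] at e3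
      have : c * y * c⁻¹ = y := by
        rw [← mul_assoc, mul_left_inj, mul_assoc s, mul_assoc s, mul_right_inj] at e3; exact e3
      exact (mul_inv_eq_iff_eq_mul.1 this).symm
    · exact (h.change d).Q2b hI hC hp cP e2
  · exact h.Q2b hI hC hp cP e1

end Loc

theorem realizeEqns_GW_L1b : True := by
  have := @CA.GW.CaseI.eq_1.{0}
  have := @CA.GW.CaseI.eq_def.{0}
  have := @CA.GW.CaseI.congr_simp.{0}
  trivial

end CA.GW
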