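/-
Groups with dihedral Sylow 2-subgroups: first consequences of the TI configuration.
-/
import Cfsg.Agent.GW.L1b

set_option autoImplicit false
set_option linter.unusedSectionVars false

namespace CA.GW

open Subgroup Cfsg CA.FG CA.BG CA.Dih L1
open scoped commutatorElement

universe u

variable {G : Type u} [Group G] [Finite G] {S M E K : Subgroup G} {c t s a v : G} {q r : ℕ}

namespace Cfg
variable (hc : Cfg t M E K q r)
include hc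

theorem OE : OO M ≤ 𝒞(E) := hc.comp.cent.ge.trans inf_le_right
theorem tE : t ∈ E := hc.tor.le hc.tor.tK
theorem OH : OO M ≤ 𝒞[t] := hc.OE.trans (cent_le_cent_singleton hc.tE)
theorem KH : K ≤ 𝒞[t] := (abelian_iff_le_cent.1 (abelian_of_cyclic hc.tor.cyc)).trans (cent_le_cent_singleton hc.tor.tK)
theorem KM : K ≤ M := hc.tor.le.trans hc.comp.le
theorem OM : OO M ≤ M := pcore_le _ _
theorem KO : K ⊔ OO M ≤ M ⊓ 𝒞[t] := sup_le (le_inf hc.KM hc.KH) (le_inf hc.OM hc.OH)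
theorem comm {b : G} (ha : a ∈ E) (hb : b ∈ OO M) : a * b = b * a := mem_centralizer_iff.1 (hc.OE hb) a ha
theorem fix {b : G} (ha : a ∈ E) (hb : b ∈ OO M) : a * b * a⁻¹ = b := by rw [hc.comm ha hb, mul_inv_cancel_right]
theorem invK (hv : v ∈ E ⊓ 𝒞[t]) (iv : IsInv v) (ne : v ≠ t) (ha : a ∈ K) : v * a * v⁻¹ = a⁻¹ :=
  hc.tor.inv v ⟨hc.comp.le hv.1, hv.2⟩ iv ne a ha

theorem exv (it : IsInv t) : ∃ v ∈ E ⊓ 𝒞[t], IsInv v ∧ v ≠ t := by
  obtain ⟨b, h1, h2, h3, h4⟩ := hc.comp.four t hc.tE it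
  exact ⟨b, ⟨h1, h4⟩, h2, h3⟩

theorem split0 {x : G} (hx : x ∈ K ⊔ OO M) : ∃ a ∈ K, ∃ b ∈ OO M, a * b = x :=
  (mem_sup_of_left_le_norm (hc.KM.trans (pcore_norm _ _))).1 hx

theorem split (hv : v ∈ E ⊓ 𝒞[t]) (iv : IsInv v) (ne : v ≠ t) {X : Subgroup G} (nX : v ∈ 𝒩(X)) {x : G} (hx : x ∈ X)
    (hx' : x ∈ K ⊔ OO M) : ∃ a ∈ X ⊓ K, ∃ b ∈ X ⊓ OO M, x = a * b := by
  obtain ⟨a, ha, b, hb, rfl⟩ := hc.split0 hx'
  have e : a * b * (v * (a * b) * v⁻¹) = b * b := by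
    rw [show v * (a * b) * v⁻¹ = (v * a * v⁻¹) * (v * b * v⁻¹) by group, hc.invK hv iv ne ha, hc.fix hv.1 hb,
      hc.comm (hc.tor.le ha) hb]
    group
  have m : b * b ∈ X := e ▸ mul_mem hx ((mem_normalizer_iff.1 nX _).1 hx)
  obtain ⟨z, hz, e2⟩ := exists_sqrt (pcore_piGrp _ M) (mul_mem hb hb)
  have zO : z ∈ OO M := zpowers_le.2 (mul_mem hb hb) hz
  have cz : z * b = b * z := by
    have : zpowers (b * b) ≤ 𝒞[b] := zpowers_le.2 (mul_mem (mem_cent_singleton_self b) (mem_cent_singleton_self b))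
    exact BA.mem_c1.1 (this hz)
  have e3 : z * b⁻¹ = 1 := eq_one_of_odd (pcore_piGrp _ M) (mul_mem zO (inv_mem hb)) (by
    rw [show z * b⁻¹ * (z * b⁻¹) = z * (b⁻¹ * (z * b) * b⁻¹) * b⁻¹ by group, cz,
      show z * (b⁻¹ * (b * z) * b⁻¹) * b⁻¹ = z * z * (b * b)⁻¹ by group, e2, mul_inv_cancel])
  have bX : b ∈ X := by rw [← mul_inv_eq_one.1 e3]; exact zpowers_le.2 m hz
  exact ⟨a, ⟨(mul_mem_cancel_right bX).1 hx, ha⟩, b, ⟨bX, hb⟩, rfl⟩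

/-- an odd order element of `K O(M)` centralized by an involution inverting `K` lies in `O(M)` -/
theorem mem_O (hv : v ∈ E ⊓ 𝒞[t]) (iv : IsInv v) (ne : v ≠ t) {x : G} (ox : IsPiElt {2}ᶜ x) (hx : x ∈ K ⊔ OO M)
    (cx : x ∈ 𝒞[v]) : x ∈ OO M := by
  obtain ⟨a, ha, b, hb, rfl⟩ := hc.split hv iv ne (X := zpowers x)
    (norm_zpowers_of_cent le_rfl (mem_cent_singleton_comm.1 cx)) (mem_zpowers x) hx
  have e := hc.invK hv iv ne ha.2
  rw [← BA.mem_c1.1 (zpowers_le.2 cx ha.1), mul_inv_cancel_right] at e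
  have : a = 1 := BA.eq_one_of_inv (ox.of_mem_zpowers ha.1) e
  rw [this, one_mul]; exact hb.2

theorem ncard_E (it : IsInv t) : {a | a ∈ E ∧ IsInv a}.ncard = q * r := by
  rw [← hc.tor.idx, ← ncard_conj]
  congr 1
  ext a
  exact ⟨fun ha => by
    obtain ⟨g, m, e⟩ := hc.comp.conj t hc.tE a ha.1 it ha.2
    exact ⟨g, hc.comp.le m, e⟩, by
    rintro ⟨g, m, rfl⟩
    exact ⟨(mem_normalizer_iff.1 (hc.comp.norm m) t).1 hc.tE, it.conj g⟩⟩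

theorem ncard_J (it : IsInv t) : {a | (a ∈ E ∧ IsInv a) ∧ a ∉ 𝒞[t]}.ncard = q * r - 1 - Nat.card K := by
  have e : {a | (a ∈ E ∧ IsInv a) ∧ a ∉ 𝒞[t]} =
      {a | a ∈ E ∧ IsInv a} \ insert t {a | a ∈ E ⊓ 𝒞[t] ∧ IsInv a ∧ a ≠ t} := by
    ext a
    simp only [Set.mem_setOf_eq, Set.mem_diff, Set.mem_insert_iff, mem_inf, and_congr_right_iff]
    rintro ⟨h1, h2⟩
    refine ⟨fun h3 => ?_, fun h3 h4 => h3 ?_⟩
    · rintro (rfl | h4)
      exacts [h3 (mem_cent_singleton_self _), h3 h4.1.2]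
    · by_cases e : a = t
      exacts [.inl e, .inr ⟨⟨h1, h4⟩, h2, e⟩]
  rw [e, Set.ncard_diff (by
    rintro a (rfl | ha)
    exacts [⟨hc.tE, it⟩, ⟨ha.1.1, ha.2.1⟩]), Set.ncard_insert_of_notMem (by simp), hc.tor.cnt, hc.ncard_E it]
  omega

end Cfg

variable [IsSimpleGroup G]

namespace Loc
variable (h : Loc S c t s) (hc : Cfg t M E K q r)
include h hc

theorem notle : ¬ 𝒞[t] ≤ M := fun e => by
  have : M = 𝒞[t] := by
    by_contra ne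
    exact hc.ne (h.max.2 M (lt_of_le_of_ne e (Ne.symm ne)))
  exact hc.comp.nsol (sol_of_le (h.solH h.inv) (this ▸ hc.comp.le))

theorem FM_le : FF t ⊓ M ≤ K ⊔ OO M := nil_le_of_forall_pcore (nil_of_le (fitting_nil _) inf_le_left) fun p hp => by
  by_cases p2 : p = 2
  · subst p2
    rw [show pCoreOf 2 (FF t ⊓ M) = ⊥ from pcore_eq_bot_of_piGrp ((FF_odd t).of_le inf_le_left)]; exact bot_le
  have nP := pcore_UU_normal p t
  have l : pCoreOf p (UU t) ⊓ M ≤ M ⊓ 𝒞[t] := le_inf inf_le_right (inf_le_left.trans nP.1)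
  refine le_trans (le_inf (le_pcore_of_le_fitting ((pcore_le _ _).trans inf_le_left) (pcore_pGrp _ _))
    ((pcore_le _ _).trans inf_le_right)) (hc.tor.tl p hp p2 _ ((pcore_pGrp _ _).of_le inf_le_left) l ?_)
  exact le_cent_of_norm_of_coprime ((pcore_le _ _).trans (norm_inf (hc.KH.trans nP.2) (norm_of_le hc.KM)))
    (norm_pcore _ (l.trans hc.tor.norm))
    (IsPiGrp.coprime (IsPiGrp.of_le (pcore_pGrp p _) inf_le_left) (pcore_piGrp _ _))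

theorem star {x : G} (hx : x ∈ FF t ⊓ M) : ∃ a ∈ FF t ⊓ K, ∃ b ∈ FF t ⊓ OO M, x = a * b := by
  obtain ⟨v, hv, iv, ne⟩ := hc.exv h.inv
  exact hc.split hv iv ne ((FF_normal t).2 hv.2) hx.1 (h.FM_le hc hx)

theorem zp {p : ℕ} (hp : p.Prime) (hd : p ∣ Nat.card (FF t)) : ∃ z ∈ K ⊓ FF t ⊓ 𝒞(FF t), orderOf z = p := by
  obtain ⟨v, hv, iv, ne⟩ := hc.exv h.inv
  have p0 : pCoreOf p (UU t) ≠ ⊥ := fun e => by
    obtain ⟨y, hy, o⟩ := exists_mem_orderOf_eq hp hd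
    have := zpowers_le.1 (le_pcore_of_le_fitting (zpowers_le.2 hy) (pGrp_of_card_eq hp ((Nat.card_zpowers y).trans o)))
    exact ne_one_of_orderOf hp o (by rwa [show piCoreOf {p} (UU t) = ⊥ from e, mem_bot] at this)
  have zn := zp_normal p t
  have zl := zp_le p (UU t)
  have z0 := center_pcore_ne_bot p0
  have zM : 𝒵(pCoreOf p (UU t)) ≤ M :=
    ((zl.trans inf_le_right).trans ((cent_anti inf_le_left).trans (cent_le_norm _))).trans (hc.nD _ le_rfl hc.F0)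
  have zO : ¬ 𝒵(pCoreOf p (UU t)) ≤ OO M := fun e =>
    h.notle hc (h.norm_eq zn z0 ▸ hc.nD _ (le_inf (zl.trans inf_le_left) e) z0)
  obtain ⟨x, hx, xO⟩ := SetLike.not_le_iff_exists.1 zO
  obtain ⟨a, ha, b, hb, rfl⟩ := hc.split hv iv ne (zn.2 hv.2) hx (h.FM_le hc ⟨(zl hx).1, zM hx⟩)
  have a1 : zpowers a ≠ ⊥ := by
    rw [ne_eq, zpowers_eq_bot]; rintro rfl; exact xO (by simpa using hb.2)
  obtain ⟨z, hz, o⟩ := IsPGrp.exists_orderOf_eq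
    (((pcore_pGrp p (UU t)).of_le inf_le_left).of_le (zpowers_le.2 ha.1)) a1
  have := zl (zpowers_le.2 ha.1 hz)
  exact ⟨z, ⟨⟨zpowers_le.2 ha.2 hz, this.1⟩, this.2⟩, o⟩

theorem cs (hv : v ∈ E ⊓ 𝒞[t]) (iv : IsInv v) (ne : v ≠ t) : FF t ⊓ 𝒞[v] = FF t ⊓ OO M :=
  (nilpotent_sub_norm (nil_of_le (fitting_nil _) inf_le_left)
    (inf_le_inf_left _ (hc.OE.trans (cent_le_cent_singleton hv.1))) fun _ hx => ⟨hx.1.1, hc.mem_O hv iv ne
      ((FF_odd t).piElt hx.1.1) (h.FM_le hc ⟨hx.1.1, hc.nD _ le_rfl hc.F0 hx.2⟩) hx.1.2⟩).symm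

theorem cV (hv : v ∈ E ⊓ 𝒞[t]) (iv : IsInv v) (ne : v ≠ t) : 𝒞[t] ⊓ 𝒞[v] ≤ M := by
  refine le_trans ?_ (hc.nD _ le_rfl hc.F0)
  rw [← h.cs hc hv iv ne]
  exact norm_inf (inf_le_left.trans (FF_normal t).2) (norm_of_le inf_le_right)

theorem exh : ∃ g ∈ 𝒞[t], (FF t ⊓ OO M) :^ g ≤ FF t ⊓ M ∧ (FF t ⊓ OO M) ⊓ (FF t ⊓ OO M) :^ g = ⊥ := by
  obtain ⟨g, g1, g2, g3⟩ : ∃ g ∈ 𝒞[t], g ∈ 𝒩(FF t ⊓ M) ∧ g ∉ M := by
    by_cases e : FF t ≤ M
    · obtain ⟨g, g1, g2⟩ := SetLike.not_le_iff_exists.1 (h.notle hc)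
      exact ⟨g, g1, by rw [inf_eq_left.2 e]; exact (FF_normal t).2 g1, g2⟩
    · obtain ⟨g, g1, g2⟩ := SetLike.exists_of_lt (nilpotent_proper_norm (fitting_nil (UU t))
        (lt_of_le_of_ne (inf_le_left : FF t ⊓ M ≤ FF t) fun e' => e (inf_eq_left.1 e')))
      exact ⟨g, (FF_normal t).1 g1.1, g1.2, fun e' => g2 ⟨g1.1, e'⟩⟩
  refine ⟨g, g1, conjg_le_of_mem_norm (inf_le_inf_left _ hc.OM) g2, eq_bot_iff.2 fun x hx => ?_⟩
  obtain ⟨y, hy, rfl⟩ := mem_conjg'.1 hx.2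
  by_cases y1 : y = 1
  · simp [y1]
  · exact absurd (hc.ti y hy y1 g hx.1) g3

theorem FM_eq : FF t ⊓ M ≤ (FF t ⊓ K) ⊔ (FF t ⊓ OO M) := fun x hx => by
  obtain ⟨a, ha, b, hb, rfl⟩ := h.star hc hx
  exact mul_mem_sup ha hb

theorem nF0 : FF t ⊓ M ≤ 𝒩(FF t ⊓ OO M) :=
  norm_inf (norm_of_le inf_le_left) (inf_le_right.trans (pcore_norm _ _))

theorem cyc_dvd : IsCyclic (FF t ⊓ OO M : Subgroup G) ∧
    Nat.card (FF t ⊓ OO M : Subgroup G) ∣ Nat.card (FF t ⊓ K : Subgroup G) := by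
  obtain ⟨g, -, g2, g3⟩ := h.exh hc
  have n := g2.trans (h.nF0 hc)
  have l : ((FF t ⊓ OO M) :^ g) /ₛ (FF t ⊓ OO M) ≤ (FF t ⊓ K) /ₛ (FF t ⊓ OO M) := by
    refine (quot_mono _ (g2.trans (h.FM_eq hc))).trans ?_
    rw [quot_sup_self_right ((inf_le_inf_left _ hc.KM).trans (h.nF0 hc))]
  obtain ⟨e⟩ := quot_equiv n g3
  refine ⟨?_, ?_⟩
  · have := cyclic_of_le (cyclic_quot _ (cyclic_of_le hc.tor.cyc inf_le_right)) l
    have := isCyclic_of_surjective _ e.symm.surjective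
    exact (cyclic_map_iff_of_inj (MulAut.conj g).injective).1 this
  · rw [← card_conjg _ g, ← card_quot_of_inf_eq_bot n g3]
    exact (card_dvd_of_le l).trans (card_quot_dvd _ _)

theorem nconj {g x : G} (hg : g ∈ 𝒞[t]) (hx : x ∈ FF t ⊓ OO M) (hK : g * x * g⁻¹ ∈ K) : x = 1 := by
  by_contra x1
  obtain ⟨v, hv, iv, ne⟩ := hc.exv h.inv
  have l : M ⊓ 𝒞[t] ≤ (M ⊓ 𝒞[t]) :^ g := by
    rw [conjg_inf, conjg_of_mem hg]
    refine le_inf ?_ inf_le_right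
    refine (hc.tor.norm.trans (norm_le_norm_of_cyclic hc.tor.cyc (zpowers_le.2 hK))).trans ?_
    rw [← conjg_zpowers, ← conjg_norm]
    exact conjg_mono g (hc.nD _ (zpowers_le.2 hx) (by simpa using x1))
  have e := eq_of_le_of_card_ge l (card_conjg _ g).le
  have m : g * v * g⁻¹ ∈ M ⊓ 𝒞[t] := e ▸ conj_mem_conjg g (mem_inf.2 ⟨hc.comp.le hv.1, hv.2⟩)
  have e2 := hc.tor.inv _ m (iv.conj g) (fun e' => ne (by
    rw [← conj_eq_of_cent hg] at e'; simpa using e')) _ hK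
  rw [show g * v * g⁻¹ * (g * x * g⁻¹) * (g * v * g⁻¹)⁻¹ = g * (v * x * v⁻¹) * g⁻¹ by group, hc.fix hv.1 hx.2] at e2
  have := BA.eq_one_of_inv (((FF_odd t).piElt hx.1).conj g) e2
  exact x1 (by simpa using this)

theorem F0_le (ha : a ∈ E) (ia : IsInv a) : FF t ⊓ OO M ≤ FF a := by
  obtain ⟨e, m, rfl⟩ := hc.comp.conj t hc.tE a ha h.inv ia
  rw [← FF_conj, ← conjg_of_mem_cent (X := FF t ⊓ OO M) (le_cent_symm (inf_le_right.trans hc.OE) m)]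
  exact conjg_mono e inf_le_left

theorem count {x : G} (hx : x ∈ FF t ⊓ OO M) (hp : (orderOf x).Prime) (T : Set (Subgroup G))
    (hT : ∀ X ∈ T, X ≠ zpowers x ∧ X ≤ M ∧ ∃ g ∈ 𝒞[t], X = zpowers x :^ g) :
    T.ncard * (q * r * (q * r - 1 - Nat.card K)) ≤ nn t := by
  classical
  set p := orderOf x with hpx
  have p2 : p ≠ 2 := fun e => (piNat_compl_singleton_iff Nat.prime_two).1 ((FF_odd t).piElt hx.1) (e ▸ dvd_rfl)
  choose! g gH gX using fun X (hX : X ∈ T) => (hT X hX).2.2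
  choose! e eE ea using fun a (ha : a ∈ E ∧ IsInv a) => hc.comp.conj t hc.tE a ha.1 h.inv ha.2
  have oy : ∀ k : G, orderOf (k * x * k⁻¹) = p := fun k => orderOf_conj x k
  have yX : ∀ X ∈ T, X = zpowers (g X * x * (g X)⁻¹) := fun X hX => by rw [← conjg_zpowers]; exact gX X hX
  have yF : ∀ X ∈ T, g X * x * (g X)⁻¹ ∈ FF t ⊓ M := fun X hX =>
    ⟨(mem_normalizer_iff.1 ((FF_normal t).2 (gH X hX)) x).1 hx.1, (hT X hX).2.1 ((yX X hX).ge (mem_zpowers _))⟩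
  have yO : ∀ X ∈ T, g X * x * (g X)⁻¹ ∉ OO M := fun X hX m => (hT X hX).1 (by
    rw [yX X hX]
    exact eq_of_cyclic_of_card_eq (h.cyc_dvd hc).1 (zpowers_le.2 ⟨(yF X hX).1, m⟩) (zpowers_le.2 hx)
      (by rw [Nat.card_zpowers, Nat.card_zpowers, oy]))
  have inP : ∀ k b : G, b ∈ E → IsInv b → k * x * k⁻¹ ∈ pCoreOf p (UU (k * b * k⁻¹)) := fun k b h1 h2 =>
    zpowers_le.1 (le_pcore_of_le_fitting (zpowers_le.2 (by
      have := conj_mem_conjg k (h.F0_le hc h1 h2 hx)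
      rwa [FF_conj] at this)) (pGrp_of_card_eq hp ((Nat.card_zpowers _).trans (oy k))))
  rw [← hc.ncard_J h.inv, ← hc.ncard_E h.inv, ← h.ncard_all, ← Set.ncard_prod, ← Set.ncard_prod]
  refine Set.ncard_le_ncard_of_injOn (fun z => e z.2.1 * g z.1 * z.2.2 * (e z.2.1 * g z.1)⁻¹)
    (fun z hz => hz.2.2.1.2.conj _) ?_
  rintro ⟨X1, a1, b1⟩ ⟨hX1, ha1, hb1, nb1⟩ ⟨X2, a2, b2⟩ ⟨hX2, ha2, hb2, nb2⟩ eq
  simp only at hX1 hX2 ha1 ha2 hb1 hb2 nb1 nb2 eq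
  have EM := hc.comp.le
  have nO : M ≤ 𝒩(OO M) := pcore_norm _ _
  have KE : K ⊔ OO M ≤ E ⊔ OO M := sup_le_sup_right hc.tor.le _
  have ea12 : a1 = a2 := by
    set k := (e a1)⁻¹ * e a2 with hk
    have kE : k ∈ E := mul_mem (inv_mem (eE a1 ha1)) (eE a2 ha2)
    have eq' : g X1 * b1 * (g X1)⁻¹ = k * g X2 * b2 * (k * g X2)⁻¹ := by
      rw [hk, show (e a1)⁻¹ * e a2 * g X2 * b2 * ((e a1)⁻¹ * e a2 * g X2)⁻¹ =
        (e a1)⁻¹ * (e a2 * g X2 * b2 * (e a2 * g X2)⁻¹) * e a1 by group, ← eq]; group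
    have m1 := inP (g X1) b1 hb1.1 hb1.2
    have m2 := inP (k * g X2) b2 hb2.1 hb2.2
    rw [← eq'] at m2
    have y2 : k * g X2 * x * (k * g X2)⁻¹ = k * (g X2 * x * (g X2)⁻¹) * k⁻¹ := by group
    have m3 : k * g X2 * x * (k * g X2)⁻¹ ∈ E ⊔ OO M := by
      rw [y2]
      exact mul_mem (mul_mem (mem_sup_left kE) (KE (h.FM_le hc (yF X2 hX2)))) (inv_mem (mem_sup_left kE))
    have m4 := hc.tor.pcyc p hp p2 (pCoreOf p (UU (g X1 * b1 * (g X1)⁻¹)) ⊓ (E ⊔ OO M))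
      ((pcore_pGrp _ _).of_le inf_le_left) inf_le_right _ ⟨m1, KE (h.FM_le hc (yF X1 hX1))⟩
      (h.FM_le hc (yF X1 hX1)) (yO X1 hX1) ⟨m2, m3⟩
    have m5 : k * g X2 * x * (k * g X2)⁻¹ ∉ OO M := fun m =>
      yO X2 hX2 ((mem_normalizer_iff.1 (nO (EM kE)) _).2 (y2 ▸ m))
    have c1 : k * g X2 * x * (k * g X2)⁻¹ ∈ 𝒞[k * t * k⁻¹] := by
      rw [y2, ← conjg_cent1]; exact conj_mem_conjg k ((FF_normal t).1 (yF X2 hX2).1)
    have tE : k * t * k⁻¹ ∈ E := mul_mem (mul_mem kE hc.tE) (inv_mem kE)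
    have c2 := hc.tor.ti _ m4 m5 ⟨EM tE, mem_cent_singleton_comm.1 c1⟩
    have c3 : k * t * k⁻¹ = t := by
      by_contra ne
      exact m5 (hc.mem_O ⟨tE, c2⟩ (h.inv.conj k) ne (((FF_odd t).piElt hx.1).conj _) m4 c1)
    rw [← ea a1 ha1, ← ea a2 ha2]
    conv_lhs => rw [← c3, hk]
    group
  subst ea12
  have eq' : g X1 * b1 * (g X1)⁻¹ = g X2 * b2 * (g X2)⁻¹ := by
    have := congrArg (fun z => (e a1)⁻¹ * z * e a1) eq
    simpa [mul_assoc] using this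
  have eX : X1 = X2 := by
    by_contra ne
    have m1 := (pcore_UU_normal p _).1 (inP (g X1) b1 hb1.1 hb1.2)
    have m2 := (pcore_UU_normal p _).1 (inP (g X2) b2 hb2.1 hb2.2)
    rw [← eq'] at m2
    obtain ⟨u1, hu1, w1, hw1, e1⟩ := h.star hc (yF X1 hX1)
    obtain ⟨u2, hu2, w2, hw2, e2⟩ := h.star hc (yF X2 hX2)
    have ou : ∀ X ∈ T, ∀ u ∈ FF t ⊓ K, ∀ w ∈ FF t ⊓ OO M, g X * x * (g X)⁻¹ = u * w → Nat.card (zpowers u) = p :=
      fun X hX u hu w hw e => by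
        have e3 := pow_orderOf_eq_one (g X * x * (g X)⁻¹)
        rw [oy, e, Commute.mul_pow (hc.comm (hc.tor.le hu.2) hw.2), mul_eq_one_iff_eq_inv] at e3
        have : u ^ p ∈ K ⊓ OO M := mem_inf.2 ⟨K.pow_mem hu.2 _, by rw [e3]; exact (OO M).inv_mem ((OO M).pow_mem hw.2 _)⟩
        rw [hc.tor.inf, mem_bot] at this
        exact card_zpowers_of_pow_prime hp this fun u1 => yO X hX (by rw [e, u1, one_mul]; exact hw.2)
    have e4 := eq_of_cyclic_of_card_eq hc.tor.cyc (zpowers_le.2 hu1.2) (zpowers_le.2 hu2.2)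
      ((ou X1 hX1 u1 hu1 w1 hw1 e1).trans (ou X2 hX2 u2 hu2 w2 hw2 e2).symm)
    obtain ⟨j, hj⟩ : u2 ∈ zpowers u1 := e4 ▸ mem_zpowers u2
    simp only at hj
    have e5 : (g X1 * x * (g X1)⁻¹) ^ (-j) * (g X2 * x * (g X2)⁻¹) = w1 ^ (-j) * w2 := by
      rw [e1, e2, hc.comm (hc.tor.le hu1.2) hw1.2, Commute.mul_zpow (hc.comm (hc.tor.le hu1.2) hw1.2).symm, ← hj]
      group
    have w0 : w1 ^ (-j) * w2 ≠ 1 := fun e6 => ne (by
      rw [← e5, zpow_neg, inv_mul_eq_one] at e6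
      rw [yX X1 hX1, yX X2 hX2]
      exact (eq_of_le_of_card_ge (zpowers_le.2 (mem_zpowers_iff.2 ⟨j, e6⟩)) (by rw [Nat.card_zpowers, Nat.card_zpowers, oy, oy])).symm)
    have wF : w1 ^ (-j) * w2 ∈ FF t ⊓ OO M := mul_mem (zpow_mem hw1 _) hw2
    have uM : g X1 * b1 * (g X1)⁻¹ ∈ M := hc.nD _ (zpowers_le.2 wF) (by simpa using w0)
      (norm_zpowers_of_cent le_rfl (mem_cent_singleton_comm.1 (e5 ▸ mul_mem (zpow_mem m1 _) m2)))
    have := hc.tor.ti _ (h.FM_le hc (yF X1 hX1)) (yO X1 hX1) ⟨uM, mem_cent_singleton_comm.1 m1⟩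
    exact nb1 ((mem_normalizer_iff.1 (le_normalizer (gH X1 hX1)) b1).2 this)
  subst eX
  have : b1 = b2 := by simpa using eq'
  rw [this]

theorem big (S' : Subgroup G) (c' s' : G) (d : DS S' c' t s') : Nat.card K ^ 2 < kS c' t s' := by
  obtain ⟨v, hv, iv, ne⟩ := hc.exv h.inv
  obtain ⟨p, hp, hd⟩ := exists_prime_dvd_card hc.F0
  obtain ⟨x, hx, rfl⟩ := exists_mem_orderOf_eq hp hd
  have x1 := ne_one_of_orderOf hp rfl
  obtain ⟨g, g1, g2, g3⟩ := h.exh hc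
  have yF := g2 (conj_mem_conjg g hx)
  have yO : g * x * g⁻¹ ∉ OO M := fun m => x1 (by
    have : g * x * g⁻¹ ∈ (⊥ : Subgroup G) := g3 ▸ mem_inf.2 ⟨⟨yF.1, m⟩, conj_mem_conjg g hx⟩
    simpa using this)
  have vx : zpowers x :^ v = zpowers x := by rw [conjg_zpowers, hc.fix hv.1 hx.2]
  have n1 : zpowers x :^ g ≠ zpowers x := fun e =>
    yO (zpowers_le.2 hx.2 (e ▸ conj_mem_conjg g (mem_zpowers x)))
  have l1 : zpowers x :^ g ≤ M := by rw [conjg_zpowers]; exact zpowers_le.2 yF.2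
  have n2 : zpowers x :^ g ≠ zpowers x :^ (v * g) := fun e => by
    rw [conjg_mul, eq_comm, conjg_eq_self_iff, conjg_zpowers] at e
    rcases inf_eq_bot_or_le_of_card_prime (X := zpowers (g * x * g⁻¹))
      (by rw [Nat.card_zpowers, orderOf_conj]; exact hp) 𝒞[v] with e1 | e1
    · have e2 := inv_of_fpf iv.1 e e1 (mem_zpowers _)
      obtain ⟨a, ha, b, hb, e3⟩ := h.star hc yF
      rw [e3, show v * (a * b) * v⁻¹ = (v * a * v⁻¹) * (v * b * v⁻¹) by group, hc.invK hv iv ne ha.2, hc.fix hv.1 hb.2,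
        hc.comm (hc.tor.le ha.2) hb.2, mul_inv_rev, mul_right_inj] at e2
      have := BA.eq_one_of_inv ((FF_odd t).piElt hb.1) e2
      exact x1 (h.nconj hc g1 hx (by rw [e3, this, mul_one]; exact ha.2))
    · exact yO (((h.cs hc hv iv ne).le ⟨yF.1, zpowers_le.1 e1⟩).2)
  have ct := h.count hc hx hp {zpowers x :^ g, zpowers x :^ (v * g)} (by
    rintro X (rfl | rfl)
    · exact ⟨n1, l1, g, g1, rfl⟩
    · refine ⟨fun e => n1 ?_, by rw [conjg_mul]; exact conjg_le_of_mem l1 (hc.comp.le hv.1), v * g,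
        mul_mem hv.2 g1, rfl⟩
      rw [conjg_mul, conjg_eq_iff, iv.inv_eq, vx] at e
      exact e)
  rw [Set.ncard_pair n2] at ct
  have b := (h.toCx.chA d).b15
  have p2 : orderOf x ≠ 2 := fun e => (piNat_compl_singleton_iff Nat.prime_two).1 ((FF_odd t).piElt hx.1) (e ▸ dvd_rfl)
  have k1 : orderOf x ∣ Nat.card K := (hd.trans (h.cyc_dvd hc).2).trans (card_dvd_of_le inf_le_right)
  have k2 : 2 ∣ Nat.card K := h.inv.ord ▸ orderOf_dvd_card_of_mem hc.tor.tK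
  have k3 := Nat.le_of_dvd Nat.card_pos (Nat.Coprime.mul_dvd_of_dvd_of_dvd
    ((Nat.coprime_primes Nat.prime_two hp).2 p2.symm) k2 k1)
  have p3 := hp.two_le
  obtain ⟨n, hn⟩ : ∃ n, Nat.card K = n + 6 := ⟨Nat.card K - 6, by omega⟩
  have hq := hc.tor.hq
  have hr : n + 5 ≤ r := by rcases hc.tor.hr with e | e <;> omega
  rw [hn] at ct hq ⊢
  have q1 : (2 * n + 11) * (n + 5) ≤ q * r := Nat.mul_le_mul (by omega) hr
  have q2 : 2 * n ^ 2 + 20 * n + 48 ≤ q * r - 1 - (n + 6) := by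
    have : (2 * n + 11) * (n + 5) = 2 * n ^ 2 + 21 * n + 55 := by ring
    omega
  have q3 := Nat.mul_le_mul q1 q2
  by_contra lt
  have q4 : kS c' t s' ^ 2 ≤ ((n + 6) ^ 2) ^ 2 := Nat.pow_le_pow_left (by omega) 2
  have q5 : 8 * ((2 * n + 11) * (n + 5) * (2 * n ^ 2 + 20 * n + 48)) ≤ 15 * ((n + 6) ^ 2) ^ 2 := by omega
  nlinarith [Nat.zero_le (n ^ 4), Nat.zero_le (n ^ 3), Nat.zero_le (n ^ 2)]

theorem cfF : CfF t M E K q r where
  toCfg := hc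
  notle := h.notle hc
  star := fun _ hx => h.star hc hx
  zp := fun _ hp hd => h.zp hc hp hd
  cs := fun _ hv iv ne => h.cs hc hv iv ne
  cV := fun _ hv iv ne => h.cV hc hv iv ne
  cyc := (h.cyc_dvd hc).1
  dvd := (h.cyc_dvd hc).2
  nconj := fun _ hg _ hx hK => h.nconj hc hg hx hK
  count := fun _ hx hp T hT => h.count hc hx hp T hT
  big := h.big hc

omit hc in
theorem cfgII : CfgII t := fun v hv iv ne p _ X0 vP => by
  obtain ⟨M, E, K, q, r, hc, w, hw, iw, wt, l⟩ := h.II hv iv ne X0 vP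
  exact ⟨M, E, K, q, r, h.cfF hc,
    ((le_inf (inf_le_left.trans (pcore_le_fitting _ _)) l).trans (h.cs hc hw iw wt).le).trans inf_le_right⟩

omit hc in
theorem main : (∃ K, BSW K t) ∨ ∃ M E K q r, CfF t M E K q r :=
  h.main0.imp_right fun ⟨M, E, K, q, r, hc⟩ => ⟨M, E, K, q, r, h.cfF hc⟩

end Loc

end CA.GW
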