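/-
Groups with dihedral Sylow 2-subgroups: proper overgroups of `C(t)`.
-/
import Cfsg.Agent.GW.Basic

set_option autoImplicit false
set_option linter.unusedSectionVars false

namespace CA.GW

open Subgroup Cfsg CA.FG CA.BG CA.Dih
open scoped commutatorElement

universe u

variable {G : Type u} [Group G] [Finite G] [IsSimpleGroup G] {S X : Subgroup G} {c t s : G}

theorem Cx.se' (h : Cx S c t s) (h1 : X ≠ ⊤) (h2 : 𝒞[t] < X) :
    ¬ ∀ a ∈ S, IsInv a → ∃ g ∈ X, g * t * g⁻¹ = a := fun one => h.se h1 h2 fun a ha ia => by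
  obtain ⟨x, hx, e⟩ := sylow_subJ Nat.prime_two (h.syl.of_le (h.le.trans h2.le) le_top) (two_zpowers ia.1)
    (zpowers_le.2 ha)
  obtain ⟨g, hg, e'⟩ := one _ (mem_conjg.1 (e (mem_zpowers a))) (by simpa using ia.conj x⁻¹)
  exact ⟨x * g, mul_mem hx hg, by rw [show x * g * t * (x * g)⁻¹ = x * (g * t * g⁻¹) * x⁻¹ by group, e']; group⟩

theorem DS.odd_relIndex (h : DS S c t s) (h2 : 𝒞[t] ≤ X) : ¬ 2 ∣ (𝒞[t]).relIndex X := fun e =>
  h.odd_nn (e.trans (Dvd.intro _ (relIndex_mul_index h2)))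

theorem Cx.og_sol (h : Cx S c t s) (hA : ClaimA G) (h1 : X ≠ ⊤) (h2 : 𝒞[t] < X) (sol : Group.IsSolvable X) :
    orderOf c = 4 ∧ (𝒞[t]).relIndex X = 3 ∧ ∃ v ∈ S, v ∉ zpowers c ∧ UU t ≤ 𝒞[v] ∧
      ∀ g ∈ X, g * t * g⁻¹ = t ∨ g * t * g⁻¹ = v ∨ g * t * g⁻¹ = t * v := by
  have hS := h.le.trans h2.le
  have TS : pCoreOf 2 X ≤ S := (h.syl.of_le hS le_top).pcore_le
  have tT : t ∈ pCoreOf 2 X := by
    refine le_pcore_of_le_fitting (zpowers_le.2 (cent_sub_Fitting sol ⟨hS h.tS, ?_⟩)) (two_zpowers h.inv.1)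
      (mem_zpowers t)
    refine mem_cent_iff_le_cent_singleton.2 (fitting_le_of_forall_pcore fun p hp => ?_)
    by_cases e : p = 2
    · exact e ▸ TS.trans h.le
    · exact (pcore_mono_pi (by simpa using Ne.symm e) X).trans (hA t h.inv X h1 h2.le)
  have cT : ∀ g ∈ X, ∀ y ∈ pCoreOf 2 X, g * y * g⁻¹ ∈ pCoreOf 2 X := fun g hg y hy =>
    conj_mem_of_mem_norm (pcore_norm _ X hg) hy
  obtain ⟨g0, hg0, hg0'⟩ := SetLike.exists_of_lt h2
  obtain ⟨v, hv⟩ : ∃ v, g0 * t * g0⁻¹ = v := ⟨_, rfl⟩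
  have vT : v ∈ pCoreOf 2 X := hv ▸ cT g0 hg0 t tT
  have iv : IsInv v := hv ▸ h.inv.conj g0
  have vt : v ≠ t := fun e => hg0' (cent_of_conj_eq (hv.trans e))
  have vc : v ∉ zpowers c := fun e => vt (h.uniq e iv)
  have d := h.toDS.change (TS vT) vc
  have hT : ∀ y ∈ pCoreOf 2 X, y = 1 ∨ y = t ∨ y = v ∨ y = t * v := fun y hy => d.mem_S_cent (TS hy) (by
    have := mem_centralizer_singleton_iff.1 (h.le (TS (cT _ (inv_mem hg0) y hy)))
    rw [mem_centralizer_singleton_iff, ← hv]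
    calc _ = g0 * (g0⁻¹ * y * g0⁻¹⁻¹ * t) * g0⁻¹ := by group
      _ = _ := by rw [this]; group)
  have h3 : ∀ g ∈ X, g * t * g⁻¹ = t ∨ g * t * g⁻¹ = v ∨ g * t * g⁻¹ = t * v := fun g hg =>
    (hT _ (cT g hg t tT)).resolve_left (h.inv.conj g).2
  have sub : {b | ∃ g ∈ X, g * t * g⁻¹ = b} ⊆ {t, v, t * v} := fun _ ⟨g, hg, e⟩ => e ▸ h3 g hg
  have c3 : ({t, v, t * v} : Set G).ncard ≤ 3 :=
    (Set.ncard_insert_le _ _).trans (Nat.succ_le_succ ((Set.ncard_insert_le _ _).trans (by simp)))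
  have i3 : (𝒞[t]).relIndex X = 3 := by
    have e1 := (Set.ncard_le_ncard sub).trans c3
    rw [ncard_conj] at e1
    have e2 := h.odd_relIndex h2.le
    have e3 : (𝒞[t]).relIndex X ≠ 1 := fun e => h2.not_ge (relIndex_eq_one.1 e)
    omega
  refine ⟨?_, i3, v, TS vT, vc, fun y hy => ?_, h3⟩
  · rcases h.m_cases with h2' | h4
    · refine absurd (fun a ha ia => ?_) (h.se' h1 h2)
      have := Set.eq_of_subset_of_ncard_le sub (by rw [ncard_conj, i3]; exact c3)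
      exact this.ge ((d.mem_S_cent ha (d.abel2 h2' d.sS ha)).resolve_left ia.2)
    · have e1 := cT _ (inv_mem (hS h.cS)) v vT
      rw [d.conj_s (mem_zpowers c), mul_mem_cancel_left vT] at e1
      have e2 : c ^ 4 = 1 := by
        rw [show c ^ 4 = c * c * (c * c) by simp only [pow_succ, pow_zero, one_mul, mul_assoc]]
        rcases hT _ e1 with e | e | e | e <;> rw [e]
        exacts [mul_one 1, h.inv.1, iv.1, (h.inv.mul iv d.sH vt).1]
      exact Nat.dvd_antisymm (orderOf_dvd_of_pow_eq_one e2) h4.2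
  · have e1 := mul_mem (cT y (h2.le (UU_le t hy)) v vT) (inv_mem vT)
    have e2 : y * v * y⁻¹ * v⁻¹ ∈ S ⊓ UU t := ⟨TS e1, by
      rw [show y * v * y⁻¹ * v⁻¹ = y * (v * y⁻¹ * v⁻¹) by group]
      exact mul_mem hy (conj_mem_of_mem_norm (UU_norm t d.sH) (inv_mem hy))⟩
    rw [h.inf, mem_bot, mul_inv_eq_one, mul_inv_eq_iff_eq_mul] at e2
    exact mem_centralizer_singleton_iff.2 e2

omit [IsSimpleGroup G] in
theorem Tor.card_Iset {E K : Subgroup G} {q r : ℕ} (hc : Comp X E) (h : Tor X E K t q r) {W : Subgroup G}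
    (oW : IsPiGrp {2}ᶜ W) (h2 : W ≤ X ⊓ 𝒞[t]) (hO : OO X ≤ W) {w : G} (hw : w ∈ X ⊓ 𝒞[t]) (iw : IsInv w)
    (wt : w ≠ t) : (Iset W w).ncard = Nat.card (K ⊓ W : Subgroup G) * (𝒞[w]).relIndex (OO X) := by
  have cO : ∀ a ∈ K, ∀ b ∈ OO X, Commute a b := fun a ha b hb => (hc.cent.ge hb).2 a (h.le ha)
  have iK := h.inv w hw iw wt
  rw [← CA.GW.card_Iset (pcore_piGrp _ X) iw.1 (pcore_norm _ X hw.1), ← Nat.card_coe_set_eq, ← Nat.card_coe_set_eq,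
    ← Nat.card_prod]
  refine (Nat.card_eq_of_bijective (fun x : (K ⊓ W : Subgroup G) × Iset (OO X) w =>
    (⟨x.1.1 * x.2.1, mul_mem x.1.2.2 (hO x.2.2.1), by
      rw [← conj_mul, iK _ x.1.2.1, x.2.2.2, (cO _ x.1.2.1 _ x.2.2.1).eq, mul_inv_rev]⟩ : Iset W w))
    ⟨?_, fun ⟨y, hy, iy⟩ => ?_⟩).symm
  · rintro ⟨⟨a, ha⟩, ⟨b, hb⟩⟩ ⟨⟨a', ha'⟩, ⟨b', hb'⟩⟩ e
    have e1 : a * b = a' * b' := congrArg Subtype.val e
    have e2 : a'⁻¹ * a ∈ K ⊓ OO X := mem_inf.2 ⟨K.mul_mem (K.inv_mem ha'.1) ha.1, by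
      rw [show a'⁻¹ * a = a'⁻¹ * (a * b) * b⁻¹ by group, e1, inv_mul_cancel_left]
      exact (OO X).mul_mem hb'.1 ((OO X).inv_mem hb.1)⟩
    rw [h.inf, mem_bot, inv_mul_eq_one] at e2
    subst e2
    obtain rfl := mul_left_cancel e1
    rfl
  · obtain ⟨z, hz, e⟩ := exists_sqrt oW hy
    have zX := (h2 (zpowers_le.2 hy hz)).1
    have h3 : y ∈ E ⊔ OO X := hc.der (by
      have := commutator_mem_commutator zX hw.1
      rwa [commutatorElement_def, mul_assoc, mul_assoc, ← mul_assoc w, ← conj_inv, inv_of_mem_zpowers iy hz, inv_inv,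
        e] at this)
    have h4 : y ∈ K ⊔ OO X := by
      by_cases h5 : y * y ∈ OO X
      · obtain ⟨j, hj⟩ : ∃ j, orderOf y + 1 = 2 * j := ⟨(orderOf y + 1) / 2, by
          have := (piNat_compl_singleton_iff Nat.prime_two).1 (oW.piElt hy); omega⟩
        have := pow_mem h5 j
        rw [← pow_two, ← pow_mul, ← hj, pow_succ, pow_orderOf_eq_one, one_mul] at this
        exact mem_sup_right this
      · exact h.sq y ⟨h3, (h2 hy).2⟩ h5
    obtain ⟨a, ha, b, hb, rfl⟩ := (mem_sup_of_left_le_norm ((h.le.trans hc.le).trans (pcore_norm _ X))).1 h4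
    refine ⟨⟨⟨a, ha, (mul_mem_cancel_right (hO hb)).1 hy⟩, ⟨b, hb, ?_⟩⟩, rfl⟩
    rwa [← conj_mul, iK a ha, (cO a ha b hb).eq, mul_inv_rev, mul_right_inj] at iy

theorem Cx.og_ns (h : Cx S c t s) (hA : ClaimA G) (h1 : X ≠ ⊤) (h2 : 𝒞[t] < X) (ns : ¬ Group.IsSolvable X) :
    4 ≤ orderOf c ∧ ∃ E K q r, Comp X E ∧ Tor X E K t q r ∧ (s ∈ E ∨ s * c ∈ E) ∧
      ∀ v ∈ S, v ∈ E → v ∉ zpowers c → kk t v = Nat.card K ∧ ∃ ρ, Odd ρ ∧ kk t (v * c) = ρ * kk t v := by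
  have hS := h.le.trans h2.le
  have hO := hA t h.inv X h1 h2.le
  obtain ⟨E, hc, hE⟩ := h.xc X h1 ns ⟨t, hS h.tS, h.inv, hO⟩
  have tE : t ∈ E := by_contra fun e => h.odd_relIndex h2.le (hc.out t (hS h.tS) h.inv e)
  have cE : ∀ g ∈ 𝒞[t], ∀ a, g * a * g⁻¹ ∈ E ↔ a ∈ E := fun g hg a => (mem_normalizer_iff.1 (hc.norm (h2.le hg)) a).symm
  have one : ¬ ∀ a ∈ S, IsInv a → a ∈ E := fun H => h.se' h1 h2 fun a ha ia =>
    let ⟨g, hg, e⟩ := hc.conj t tE a (H a ha ia) h.inv ia; ⟨g, hc.le hg, e⟩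
  obtain ⟨K, q, r, hT⟩ := (hE t tE h.inv).resolve_right fun H => one fun a ha => H.inn a (hS ha)
  have out : ∀ v ∈ S, v ∈ E → v ∉ zpowers c → v * c ∉ E := fun v hv vE vc e => one fun a ha ia => by
    by_cases e' : a = t
    · exact e' ▸ tE
    · obtain ⟨g, hg, rfl | rfl⟩ := (h.toDS.change hv vc).classH (h.le ha) ia e'
      exacts [(cE g hg _).2 vE, (cE g hg _).2 e]
  have sE : s ∈ E ∨ s * c ∈ E := by
    obtain ⟨b, bE, ib, bt, hb⟩ := hc.four t tE h.inv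
    obtain ⟨g, hg, rfl | rfl⟩ := h.classH hb ib bt
    exacts [.inl ((cE g hg _).1 bE), .inr ((cE g hg _).1 bE)]
  refine ⟨(h.m_cases.resolve_left fun h2' => ?_).1, E, K, q, r, hc, hT, sE, fun v hv vE vc => ⟨?_, ?_⟩⟩
  · have cE' : c ∈ E := h.c_eq h2' ▸ tE
    rcases sE with e | e
    exacts [out s h.sS e h.sc (mul_mem e cE'), out _ h.swap.sS e h.swap.sc (mul_mem e cE')]
  · have d := h.toDS.change hv vc
    rw [kk, ← ncard_conj, ← hT.cnt]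
    congr 1
    ext a
    refine ⟨?_, fun ⟨h3, ia, e⟩ => ?_⟩
    · rintro ⟨g, hg, rfl⟩
      exact ⟨⟨(cE g hg _).2 vE, (d.conjH hg).sH⟩, (d.conjH hg).sInv, (d.conjH hg).st⟩
    · obtain ⟨g, hg, rfl | rfl⟩ := d.classH h3.2 ia e
      exacts [⟨g, hg, rfl⟩, absurd ((cE g hg _).1 h3.1) (out v hv vE vc)]
  · have d := h.toDS.change hv vc
    have hU := h.le_UU h.inv hO (pcore_piGrp _ X)
    have hW : UU t ≤ X ⊓ 𝒞[t] := le_inf ((UU_le t).trans h2.le) (UU_le t)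
    have e1 := d.two_kk' d.sH d.sInv d.st
    have e2 := d.two_kk' d.swap.sH d.swap.sInv d.swap.st
    rw [hT.card_Iset hc (UU_odd t) hW hU ⟨h2.le d.sH, d.sH⟩ d.sInv d.st, relIndex_eq_one.2 fun b hb =>
      mem_centralizer_singleton_iff.2 ((hc.cent.ge hb).2 v vE).symm, mul_one] at e1
    rw [hT.card_Iset hc (UU_odd t) hW hU ⟨h2.le d.swap.sH, d.swap.sH⟩ d.swap.sInv d.swap.st, ← mul_assoc, ← e1] at e2
    refine ⟨(𝒞[v * c]).relIndex (OO X), Nat.not_even_iff_odd.1 fun e => ?_, by linarith⟩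
    exact (piGrp_compl_singleton_iff Nat.prime_two).1 (pcore_piGrp _ X) (e.two_dvd.trans (relIndex_dvd_card _ _))

end CA.GW
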