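/-
Groups with dihedral Sylow 2-subgroups: case A of the TI configuration is impossible.
-/
import Cfsg.Agent.GW.OG1

set_option autoImplicit false
set_option linter.unusedSectionVars false

namespace CA.GW

open Subgroup Cfsg CA.FG CA.BG CA.Dih
open scoped commutatorElement

universe u

variable {G : Type u} [Group G] [Finite G] {S M E K : Subgroup G} {c t s x : G} {q r p : ℕ}

namespace CfF

variable (hc : CfF t M E K q r)
include hc

theorem la_KH : K ≤ 𝒞[t] := fun a ha =>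
  mem_centralizer_singleton_iff.2 (abelian_iff_forall.1 (abelian_of_cyclic hc.tor.cyc) a ha t hc.tor.tK)

theorem la_cEO {a b : G} (ha : a ∈ E) (hb : b ∈ OO M) : Commute a b := (hc.comp.cent.ge hb).2 a ha

theorem la_OU (d : DS S c t s) : OO M ≤ UU t :=
  d.le_UU d.inv (fun _ hb => mem_centralizer_singleton_iff.2 (hc.la_cEO (hc.tor.le hc.tor.tK) hb).symm) (pcore_piGrp _ M)

theorem la_KO {a : G} (ha : a ∈ K) (hb : a ∈ OO M) : a = 1 := mem_bot.1 (hc.tor.inf.le ⟨ha, hb⟩)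

theorem la_abel {y z : G} (hy : y ∈ FF t ⊓ M) (hz : z ∈ FF t ⊓ M) : Commute y z := by
  obtain ⟨a, ha, b, hb, rfl⟩ := hc.star y hy
  obtain ⟨a', ha', b', hb', rfl⟩ := hc.star z hz
  exact Commute.mul_left (Commute.mul_right (abelian_iff_forall.1 (abelian_of_cyclic hc.tor.cyc) a ha.2 a' ha'.2)
    (hc.la_cEO (hc.tor.le ha.2) hb'.2)) (Commute.mul_right (hc.la_cEO (hc.tor.le ha'.2) hb.2).symm
      (abelian_iff_forall.1 (abelian_of_cyclic hc.cyc) b hb b' hb'))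

omit hc in
theorem la_n0 : M ⊓ 𝒞[t] ≤ 𝒩(FF t ⊓ OO M) :=
  norm_inf (inf_le_right.trans (FF_normal t).2) (inf_le_left.trans (pcore_norm _ M))

theorem la_cx (hx : x ∈ FF t ⊓ OO M) (x1 : x ≠ 1) {g : G} (hg : Commute g x) : g ∈ M :=
  hc.ti x hx x1 g (by rwa [hg.eq, mul_inv_cancel_right])

theorem la_split (hp : p.Prime) (hx : x ∈ FF t ⊓ OO M) (ox : orderOf x = p) (hΩ : OmN t M p) {g : G}
    (hg : g ∈ 𝒞[t]) : ∃ a ∈ K, a ^ p = 1 ∧ ∃ y ∈ FF t ⊓ OO M, g * y * g⁻¹ = a * x := by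
  have xp : x ^ p = 1 := ox ▸ pow_orderOf_eq_one x
  obtain ⟨a, ha, b, hb, e⟩ := hc.star (g * x * g⁻¹) ⟨conj_mem_of_mem_norm ((FF_normal t).2 hg) hx.1,
    hΩ g hg x ⟨hx.1, pcore_le _ M hx.2⟩ xp⟩
  have ab := hc.la_cEO (hc.tor.le ha.2) hb.2
  have e1 : a ^ p * b ^ p = 1 := by rw [← ab.mul_pow, ← e, conj_pow, xp]; group
  have ap : a ^ p = 1 := hc.la_KO (pow_mem ha.2 p) (by
    rw [eq_inv_of_mul_eq_one_left e1]; exact (OO M).inv_mem ((OO M).pow_mem hb.2 p))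
  rw [ap, one_mul] at e1
  have b1 : b ≠ 1 := fun e' => ne_one_of_orderOf hp ox (hc.nconj g hg x hx (by rw [e, e', mul_one]; exact ha.2))
  have := Fact.mk hp
  obtain ⟨j, hj⟩ := (eq_of_cyclic_of_card_eq hc.cyc (zpowers_le.2 hx) (zpowers_le.2 hb) (by
    rw [Nat.card_zpowers, Nat.card_zpowers, ox, orderOf_eq_prime e1 b1])).le (mem_zpowers x)
  refine ⟨a ^ j, K.zpow_mem ha.2 j, by rw [← zpow_natCast, ← zpow_mul, mul_comm, zpow_mul, zpow_natCast, ap, one_zpow],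
    x ^ j, zpow_mem hx j, ?_⟩
  rw [← conj_zpow, e, ab.mul_zpow, show b ^ j = x from hj]

theorem la_u (hp : p.Prime) (hx : x ∈ FF t ⊓ OO M) (ox : orderOf x = p) (hΩ : OmN t M p) :
    M.relIndex 𝒞[t] ≤ p := by
  choose f h1 h2 y h3 h4 using fun g : 𝒞[t] => hc.la_split hp hx ox hΩ g.2
  refine le_trans (Nat.card_le_card_of_injective (fun z : 𝒞[t] ⧸ M.subgroupOf 𝒞[t] =>
    (⟨f z.out, mem_ohm1 (h1 _) (h2 _)⟩ : ohm1 p K)) fun z z' e => ?_)
    (Nat.le_of_dvd hp.pos (card_ohm1_dvd_of_cyclic hc.tor.cyc p))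
  have e1 : f z.out = f z'.out := congrArg Subtype.val e
  rw [← z.out_eq', ← z'.out_eq', QuotientGroup.eq, mem_subgroupOf]
  generalize z.out = g at *
  generalize z'.out = g' at *
  refine hc.ti _ (h3 g') (fun e' => ne_one_of_orderOf hp ox (hc.la_KO ?_ hx.2)) _ ?_
  · have := h4 g'
    rw [e', mul_one, mul_inv_cancel, eq_comm, mul_eq_one_iff_inv_eq] at this
    exact this ▸ inv_mem (h1 g')
  · rw [coe_mul, coe_inv, show (g : G)⁻¹ * g' * y g' * ((g : G)⁻¹ * g')⁻¹ = (g : G)⁻¹ * (g' * y g' * (g' : G)⁻¹) * g by group,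
      h4, ← e1, ← h4]
    simpa [mul_assoc] using h3 g

theorem la_S (d : DS S c t s) (hp : p.Prime) (hx : x ∈ FF t ⊓ OO M) (ox : orderOf x = p) (hΩ : OmN t M p) :
    ∃ S c s, DS S c t s ∧ S ≤ M ∧ s ∈ E := by
  obtain ⟨v, vE, iv, vt, hv⟩ := hc.comp.four t (hc.tor.le hc.tor.tK) d.inv
  have vM : v ∈ M ⊓ 𝒞[t] := ⟨hc.comp.le vE, hv⟩
  obtain ⟨T, hT, e⟩ := sylow_superset Nat.prime_two (two_zpowers iv.1) (zpowers_le.2 vM)
  obtain ⟨z, -, h1, d'⟩ := d.exists_of_le hT.pGrp (hT.le.trans inf_le_right) (e (mem_zpowers v)) iv vt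
  refine ⟨_, _, _, d', ?_, vE⟩
  rw [← nilpotent_sub_norm d'.pS.nil h1 fun g hg => ?_]
  · exact hT.le.trans inf_le_left
  refine (hT.eq_of_le (d'.pS.inf_left M) (le_inf h1 (hT.le.trans inf_le_left))
    (le_inf inf_le_right (inf_le_left.trans d'.le))).le ⟨hg.1, ?_⟩
  obtain ⟨a, ha, -, y, hy, e1⟩ := hc.la_split hp hx ox hΩ (d'.le hg.1)
  have h2 := conj_mem_of_mem_norm (la_n0 (hT.le (conj_mem_of_mem_norm' hg.2 (e (mem_zpowers v))))) hy
  have e2 : g * (y * (g⁻¹ * v * g * y * (g⁻¹ * v * g)⁻¹)) * g⁻¹ = x * x := by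
    calc _ = g * y * g⁻¹ * (v * (g * y * g⁻¹) * v⁻¹) := by group
      _ = _ := by
        rw [e1, ← conj_mul, hc.tor.inv v vM iv vt a ha, (hc.la_cEO vE hx.2).eq, mul_inv_cancel_right,
          (hc.la_cEO (hc.tor.le ha) hx.2).eq]
        group
  refine hc.ti _ (mul_mem hy h2) (fun e' => ?_) g (e2 ▸ mul_mem hx hx)
  rw [e', mul_one, mul_inv_cancel] at e2
  exact ne_one_of_orderOf hp ox (eq_one_of_odd (FF_odd t) hx.1 e2.symm)

theorem la_C3 (hp : p.Prime) (hx : x ∈ FF t ⊓ OO M) (ox : orderOf x = p) (hΩ : OmN t M p) :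
    𝒞[t] ≤ 𝒩(FF t ⊓ M) ∧ UU t ⊓ 𝒞(FF t ⊓ M) ≤ FF t ⊓ M := by
  have x1 := ne_one_of_orderOf hp ox
  have xM : x ∈ FF t ⊓ M := ⟨hx.1, pcore_le _ M hx.2⟩
  have h1 : 𝒞[t] ≤ 𝒩(FF t ⊓ M) := fun g hg => mem_norm_of_forall fun y hy =>
    ⟨conj_mem_of_mem_norm ((FF_normal t).2 hg) hy.1, hc.la_cx hx x1 (by
      have := hc.la_abel hy ⟨conj_mem_of_mem_norm ((FF_normal t).2 (inv_mem hg)) hx.1,
        hΩ _ (inv_mem hg) x xM (ox ▸ pow_orderOf_eq_one x)⟩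
      show _ = _
      calc _ = g * (y * (g⁻¹ * x * g⁻¹⁻¹)) * g⁻¹ := by group
        _ = _ := by rw [this.eq]; group)⟩
  have h2 := inf_cent_normalIn_of_norm ((UU_le t).trans h1)
  have h3 : fittingOf (UU t ⊓ 𝒞(FF t ⊓ M)) ≤ FF t ⊓ M := fun y hy =>
    ⟨h2.fitting_le hy, hc.la_cx hx x1 ((fitting_le _ hy).2 x xM).symm⟩
  exact ⟨h1, ((le_inf le_rfl (inf_le_right.trans (centralizer_le h3))).trans
    (cent_sub_Fitting (sol_of_le (UU_sol t) inf_le_left))).trans h3⟩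

theorem la_kk {v : G} (hv : v ∈ E ⊓ 𝒞[t]) (iv : IsInv v) (vt : v ≠ t) : kk t v ≤ M.relIndex 𝒞[t] * Nat.card K := by
  have e := relIndex_inf_mul_relIndex 𝒞[v] M 𝒞[t]
  rw [← inf_relIndex_right (𝒞[v] ⊓ M), show 𝒞[v] ⊓ M ⊓ 𝒞[t] = 𝒞[v] ⊓ 𝒞[t] from
    le_antisymm (inf_le_inf_right _ inf_le_left) (le_inf (le_inf inf_le_left
      ((inf_comm _ _).le.trans (hc.cV v hv iv vt))) inf_le_right), inf_relIndex_right] at e
  rw [kk, ← e, mul_comm, ← ncard_conj, ← hc.tor.cnt]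
  refine Nat.mul_le_mul_left _ (Set.ncard_le_ncard ?_)
  rintro _ ⟨g, hg, rfl⟩
  refine ⟨⟨conj_mem_of_mem_norm (hc.comp.norm hg.1) hv.1, 𝒞[t].mul_mem (𝒞[t].mul_mem hg.2 hv.2) (𝒞[t].inv_mem hg.2)⟩, iv.conj g,
    fun e => vt ?_⟩
  rw [← conj_eq_of_cent hg.2] at e
  simpa using e

theorem la_I (d : DS S c t s) (hp : p.Prime) (hx : x ∈ FF t ⊓ OO M) (ox : orderOf x = p) (hΩ : OmN t M p) {w : G}
    (hw : w ∈ M ⊓ 𝒞[t]) (iw : IsInv w) (wt : w ≠ t) :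
    (𝒞[w]).relIndex (UU t) ≤ Nat.card (K ⊓ UU t : Subgroup G) ^ 2 := by
  obtain ⟨n3, C3⟩ := hc.la_C3 hp hx ox hΩ
  have iK := hc.tor.inv w hw iw wt
  have o0 : IsPiGrp {2}ᶜ (FF t ⊓ OO M : Subgroup G) := (FF_odd t).inf_left _
  have c1 : Nat.card (FF t ⊓ K : Subgroup G) ≤ Nat.card (K ⊓ UU t : Subgroup G) :=
    card_le_of_le (le_inf inf_le_right (inf_le_left.trans (FF_le t)))
  have c0 := (Nat.le_of_dvd Nat.card_pos hc.dvd).trans c1
  have sq : ∀ {W A : Subgroup G}, IsPiGrp {2}ᶜ W → W ≤ A → w ∈ A → ∀ y ∈ Iset W w, ∃ z ∈ A, y = ⁅z, w⁆ :=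
    fun oW hW _ y hy => by
      obtain ⟨z, hz, e⟩ := exists_sqrt oW hy.1
      exact ⟨z, hW (zpowers_le.2 hy.1 hz), by
        rw [commutatorElement_def, mul_assoc, mul_assoc, ← mul_assoc w, ← conj_inv, inv_of_mem_zpowers hy.2 hz,
          inv_inv, e]⟩
  by_cases h0 : FF t ⊓ OO M ⊓ 𝒞[w] = ⊥
  · have h1 : ∀ y ∈ FF t ⊓ M, w * y * w⁻¹ = y⁻¹ := fun y hy => by
      obtain ⟨a, ha, b, hb, rfl⟩ := hc.star y hy
      rw [← conj_mul, iK a ha.2, inv_of_fpf iw.1 (la_n0 hw) h0 hb, (hc.la_cEO (hc.tor.le ha.2) hb.2).eq, mul_inv_rev]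
    have h2 : Iset (UU t) w ⊆ (FF t ⊓ K ⊔ FF t ⊓ OO M : Subgroup G) := fun y hy => by
      obtain ⟨z, hz, e⟩ := sq (UU_odd t) (UU_le t) hw.2 y hy
      obtain ⟨a, ha, b, hb, rfl⟩ := hc.star y (C3 ⟨hy.1, e ▸ comm_le_cent_of_inv h1 n3
        (commutator_mem_commutator hz (mem_zpowers w))⟩)
      exact mul_mem (mem_sup_left ha) (mem_sup_right hb)
    have h3 := Set.ncard_le_ncard h2
    rw [card_Iset (UU_odd t) iw.1 (UU_norm t hw.2), ← Nat.card_coe_set_eq, SetLike.coe_sort_coe,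
      card_sup_of_inf_eq_bot (.inl ((le_inf (inf_le_right.trans (hc.tor.le.trans hc.comp.le))
        (inf_le_right.trans hc.la_KH)).trans la_n0))
        (le_bot_iff.1 ((inf_le_inf inf_le_right inf_le_right).trans hc.tor.inf.le))] at h3
    exact h3.trans (by rw [pow_two]; exact Nat.mul_le_mul c1 c0)
  · obtain ⟨l, hl, x', hx', ox'⟩ : ∃ l : ℕ, l.Prime ∧ ∃ x' ∈ FF t ⊓ OO M ⊓ 𝒞[w], orderOf x' = l := by
      obtain ⟨⟨y, hy⟩, y1⟩ := ne_bot_iff_exists_ne_one.1 h0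
      obtain ⟨z, hz, e⟩ := exists_prime_orderOf_mem_zpowers (x := y) (by simpa using y1)
      exact ⟨_, e, z, zpowers_le.2 hy hz, rfl⟩
    have x1 := ne_one_of_orderOf hl ox'
    have hΩ' : OmN t M l := fun g hg y hy e => by
      by_cases e' : l = p
      · exact hΩ g hg y hy (e' ▸ e)
      · refine hc.la_cx hx (ne_one_of_orderOf hp ox) (nil_comm_of_coprime (fitting_nil _)
          (conj_mem_of_mem_norm ((FF_normal t).2 hg) hy.1) hx.1 ?_)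
        rw [orderOf_conj, ox]
        exact ((Nat.coprime_primes hl hp).2 e').coprime_dvd_left (orderOf_dvd_of_pow_eq_one e)
    have h1 : 𝒞[w] ⊓ UU t ≤ M := fun g hg => by
      have gH := UU_le t hg.2
      obtain ⟨a, ha, b, hb, e⟩ := hc.star (g * x' * g⁻¹) ⟨conj_mem_of_mem_norm ((FF_normal t).2 gH) hx'.1.1,
        hΩ' g gH x' ⟨hx'.1.1, pcore_le _ M hx'.1.2⟩ (ox' ▸ pow_orderOf_eq_one x')⟩
      have e1 : w * (a * b) * w⁻¹ = a * b :=
        conj_eq_of_cent (mem_cent_singleton_comm.1 (e ▸ mul_mem (mul_mem hg.1 hx'.2) (inv_mem hg.1)))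
      rw [← conj_mul, iK a ha.2] at e1
      have e2 : a * a = 1 := hc.la_KO (K.mul_mem ha.2 ha.2) (by
        rw [show a * a = a * (a * b) * b⁻¹ by group, ← e1, mul_inv_cancel_left]
        exact (OO M).mul_mem (conj_mem_of_mem_norm (pcore_norm _ M hw.1) hb.2) ((OO M).inv_mem hb.2))
      rw [eq_one_of_odd (FF_odd t) ha.1 e2, one_mul] at e
      exact hc.ti x' hx'.1 x1 g (e ▸ hb)
    have e := relIndex_inf_mul_relIndex 𝒞[w] M (UU t)
    rw [← inf_relIndex_right (𝒞[w] ⊓ M), show 𝒞[w] ⊓ M ⊓ UU t = 𝒞[w] ⊓ UU t from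
      le_antisymm (inf_le_inf_right _ inf_le_left) (le_inf (le_inf inf_le_left h1) inf_le_right), inf_relIndex_right,
      ← card_Iset ((UU_odd t).inf_right M) iw.1 (norm_inf (norm_of_le (zpowers_le.2 hw.1))
        (zpowers_le.2 (UU_norm t hw.2)) (mem_zpowers w)),
      hc.tor.card_Iset hc.comp ((UU_odd t).inf_right M) (inf_le_inf_left _ (UU_le t))
        (le_inf (pcore_le _ M) (hc.la_OU d)) hw iw wt] at e
    have h2 : M.relIndex (UU t) ≤ l :=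
      (relIndex_le_of_le_right (UU_le t) (index_pos _).ne').trans (hc.la_u hl hx'.1 ox' hΩ')
    have h3 : (𝒞[w]).relIndex (OO M) ≤ (𝒞[w]).relIndex (FF t ⊓ OO M) := by
      rw [← card_Iset (pcore_piGrp _ M) iw.1 (pcore_norm _ M hw.1), ← card_Iset o0 iw.1 (la_n0 hw)]
      refine Set.ncard_le_ncard fun y hy => ⟨⟨(C3 ⟨hc.la_OU d hy.1, fun z hz => ?_⟩).1, hy.1⟩, hy.2⟩
      obtain ⟨y', hy', e⟩ := sq (pcore_piGrp _ M) (le_inf (pcore_le _ M) ((hc.la_OU d).trans (UU_le t))) hw y hy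
      obtain ⟨a, ha, b, hb, rfl⟩ := hc.star z hz
      exact (hc.la_cEO (hc.tor.le ha.2) hy.1).mul_left
        (CA.FG.der_le_cent_of_cyclic hc.cyc la_n0 (e ▸ commutator_mem_commutator hy' hw) b hb)
    have h4 := card_inf_mul_relIndex 𝒞[w] (FF t ⊓ OO M)
    have h5 : l ≤ Nat.card (𝒞[w] ⊓ (FF t ⊓ OO M) : Subgroup G) :=
      ox' ▸ Nat.le_of_dvd Nat.card_pos (orderOf_dvd_card_of_mem ⟨hx'.2, hx'.1⟩)
    have h6 : Nat.card (K ⊓ (M ⊓ UU t) : Subgroup G) ≤ Nat.card (K ⊓ UU t : Subgroup G) :=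
      card_le_of_le (inf_le_inf_left _ inf_le_right)
    rw [← e, pow_two, mul_assoc]
    refine Nat.mul_le_mul h6 (le_trans ?_ c0)
    rw [← h4, mul_comm]
    exact Nat.mul_le_mul (h2.trans h5) h3

end CfF

theorem DS.noA (d0 : DS S c t s) : NoA t := fun M E K q r hc p hp hd hΩ => by
  obtain ⟨x, hx, ox⟩ := exists_mem_orderOf_eq hp hd
  obtain ⟨S, c, s, d, hS, sE⟩ := hc.la_S d0 hp hx ox hΩ
  have big := hc.big S c s d
  have hu := hc.la_u hp hx ox hΩ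
  have oK : ¬ 2 ∣ Nat.card (K ⊓ UU t : Subgroup G) := (piGrp_compl_singleton_iff Nat.prime_two).1 ((UU_odd t).inf_right K)
  have dK := card_dvd_of_le (inf_le_left : K ⊓ UU t ≤ K)
  have h1 : 2 * Nat.card (K ⊓ UU t : Subgroup G) ≤ Nat.card K := Nat.le_of_dvd Nat.card_pos
    ((Nat.prime_two.coprime_iff_not_dvd.2 oK).mul_dvd_of_dvd_of_dvd (d.inv.ord ▸ orderOf_dvd_card_of_mem hc.tor.tK) dK)
  have h2 : p ≤ Nat.card (K ⊓ UU t : Subgroup G) := Nat.le_of_dvd Nat.card_pos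
    ((hd.trans hc.dvd).trans (card_dvd_of_le (le_inf inf_le_right (inf_le_left.trans (FF_le t)))))
  have k : ∀ v ∈ E ⊓ 𝒞[t], IsInv v → v ≠ t → 2 * kk t v ≤ Nat.card K ^ 2 := fun v hv iv vt => by
    have := (hc.la_kk hv iv vt).trans (Nat.mul_le_mul_right _ (hu.trans h2))
    nlinarith
  have k1 := k s ⟨sE, d.sH⟩ d.sInv d.st
  have k2 : 2 * kk t (s * c) ≤ Nat.card K ^ 2 := by
    by_cases e : s * c ∈ E
    · exact k _ ⟨e, d.swap.sH⟩ d.swap.sInv d.swap.st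
    have cE : c ∉ E := fun e' => e (mul_mem sE e')
    have c2 := d.pS.piElt d.cS
    have cc := d.pS.piElt (mul_mem d.cS d.cS)
    have h3 := hc.comp.out2 c (hS d.cS) c (hS d.cS) c2 c2 cE cE
    have h4 : c * c ∈ K := by
      by_cases e' : c * c * (c * c) ∈ OO M
      · have := (d.pS.piElt (mul_mem (mul_mem d.cS d.cS) (mul_mem d.cS d.cS))).eq_one ((pcore_piGrp _ M).piElt e')
        by_cases e1 : c * c = 1
        · exact e1 ▸ one_mem K
        · exact d.uniq (mul_mem (mem_zpowers c) (mem_zpowers c)) ⟨this, e1⟩ ▸ hc.tor.tK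
      · obtain ⟨a, ha, b, hb, e1⟩ := (mem_sup_of_left_le_norm ((hc.tor.le.trans hc.comp.le).trans (pcore_norm _ M))).1
          (hc.tor.sq _ ⟨h3, mul_mem d.cH d.cH⟩ e')
        have e2 := pow_orderOf_eq_one (c * c)
        nth_rw 1 [← e1] at e2
        rw [(hc.la_cEO (hc.tor.le ha) hb).mul_pow] at e2
        have e3 := hc.la_KO (eq_inv_of_mul_eq_one_right e2 ▸ K.inv_mem (K.pow_mem ha _)) (pow_mem hb _)
        rw [← e1, IsPiElt.eq_one (PiNat.of_dvd cc (orderOf_dvd_of_pow_eq_one e3)) ((pcore_piGrp _ M).piElt hb), mul_one]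
        exact ha
    have h5 : orderOf (c * c) * Nat.card (K ⊓ UU t : Subgroup G) ≤ Nat.card K := Nat.le_of_dvd Nat.card_pos
      (Nat.card_zpowers (c * c) ▸ ((piGrp_zpowers_iff.2 cc).coprime ((UU_odd t).inf_right K)).mul_dvd_of_dvd_of_dvd
        (card_dvd_of_le (zpowers_le.2 h4)) dK)
    have h6 : orderOf c ≤ 2 * orderOf (c * c) := Nat.le_of_dvd (Nat.mul_pos two_pos (orderOf_pos _))
      (orderOf_dvd_of_pow_eq_one (by rw [pow_mul, pow_two, pow_orderOf_eq_one]))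
    have h7 := hc.la_I d hp hx ox hΩ ⟨hS d.swap.sS, d.swap.sH⟩ d.swap.sInv d.swap.st
    rw [d.two_kk d.swap.sH d.swap.sInv d.swap.st]
    calc _ ≤ 2 * orderOf (c * c) * Nat.card (K ⊓ UU t : Subgroup G) ^ 2 := Nat.mul_le_mul h6 h7
      _ = orderOf (c * c) * Nat.card (K ⊓ UU t : Subgroup G) * (2 * Nat.card (K ⊓ UU t : Subgroup G)) := by ring
      _ ≤ _ := by rw [pow_two]; exact Nat.mul_le_mul h5 h1
  rw [kS] at big
  omega

theorem Loc.noA (h : Loc S c t s) : NoA t := h.toDS.noA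

end CA.GW
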