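/-
Groups with dihedral Sylow 2-subgroups: the first subcase of case B of the TI configuration.
-/
import Cfsg.Agent.GW.LA

set_option autoImplicit false
set_option linter.unusedSectionVars false

namespace CA.GW

open Subgroup Cfsg CA.FG CA.BG CA.Dih
open scoped commutatorElement

universe u

variable {G : Type u} [Group G] [Finite G] {S M E K : Subgroup G} {c t s x z : G} {q r p : ℕ}

theorem lb_cyc {X : Subgroup G} (pX : IsPGrp p X) (cX : IsCyclic X) (oX : IsPiGrp {2}ᶜ X) {y : G} (hy : y ∈ 𝒩(X))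
    (py : IsPiElt {p}ᶜ y) (h : X ⊓ 𝒞[y] ≠ ⊥) : y ∈ 𝒞(X) :=
  coprime_odd_faithful_Ohm1 pX (zpowers_le.2 hy) (pX.coprime (piGrp_zpowers_iff.2 py))
    (Nat.odd_iff.2 (by have := (piGrp_compl_singleton_iff Nat.prime_two).1 oX; omega))
    (zpowers_le.2 (mem_cent_iff_le_cent_singleton.2 ((ohm1_le_of_cyclic pX cX inf_le_left h).trans inf_le_right)))
    (mem_zpowers y)

theorem lb_pclosed {X : Subgroup G} {u : G} (oX : IsPiGrp {2}ᶜ X) (u2 : u * u = 1) (uX : u ∈ 𝒩(X))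
    (hX : X ≤ ⁅X, zpowers u⁆) (pB : IsPGrp p (X ⊓ 𝒞[u] : Subgroup G)) : X ⊓ 𝒞[u] ≤ pCoreOf p X := by
  have uQ : u ∈ 𝒩(pCoreOf p X) := norm_pcore _ (zpowers_le.2 uX) (mem_zpowers u)
  have h1 : IsPiGrp {p}ᶜ (fittingOf (X /ₛ pCoreOf p X)) := by
    have := (nilpotent_pcoreC {p} (fitting_nil (X /ₛ pCoreOf p X))).sup_eq
    rw [p_core_Fitting', show pCoreOf p (X /ₛ pCoreOf p X) = ⊥ from pcore_quot_pcore _ X, bot_sup_eq] at this
    rw [← this]; exact pcore_piGrp _ _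
  have h2 : fittingOf (X /ₛ pCoreOf p X) ⊓ 𝒞[coset _ ⟨u, uQ⟩] = ⊥ := by
    have := pB.quot (pCoreOf p X)
    rw [quot_cent1 oX u2 (pcore_le _ X) uQ] at this
    exact le_bot_iff.1 ((le_inf (inf_le_inf_right _ (fitting_le _)) inf_le_left).trans (this.inf_eq_bot h1).le)
  have h3 := comm_le_cent_of_inv (fun y hy => inv_of_fpf (coset_sq u2 uQ)
    ((charIn_fitting _).norm_le (coset_mem_norm uQ uX)) h2 hy) (fitting_norm (X /ₛ pCoreOf p X))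
  rw [← quot_comm_zpowers uQ (pcore_norm _ X)] at h3
  have h4 := (le_inf le_rfl ((quot_mono _ hX).trans h3)).trans (cent_sub_Fitting (sol_quot _ (odd_sol oX)))
  exact (quot_eq_bot_iff (inf_le_left.trans (pcore_norm _ X))).1 (le_bot_iff.1 ((le_inf le_rfl
    ((quot_mono _ inf_le_left).trans h4)).trans ((pB.quot _).inf_eq_bot h1).le))

theorem lb_W {P : Subgroup G} (hp : p.Prime) (p2 : p ≠ 2) (zC : z ∈ 𝒞(P)) (zp : z ^ p = 1) :
    ∃ W : Subgroup G, ∀ w, w ∈ W ↔ w ∈ P ∧ w ^ p = 1 ∧ ∀ g ∈ P, ⁅w, g⁆ ∈ zpowers z := by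
  have c : ∀ a ∈ P, ∀ y ∈ zpowers z, Commute a y := fun a ha y hy => zpowers_le.2 zC hy a ha
  refine ⟨⟨⟨⟨{w | w ∈ P ∧ w ^ p = 1 ∧ ∀ g ∈ P, ⁅w, g⁆ ∈ zpowers z}, fun {a b} ha hb => ⟨mul_mem ha.1 hb.1, ?_,
    fun g hg => ?_⟩⟩, one_mem _, one_pow _, fun g _ => by simp⟩, fun {a} ha => ⟨inv_mem ha.1,
    by rw [inv_pow, ha.2.1, inv_one], fun g hg => ?_⟩⟩, fun _ => Iff.rfl⟩
  · have h := inv_mem (ha.2.2 b hb.1)
    rw [P04.mul_pow_of_class2 hp p2 (w := ⁅a, b⁆⁻¹) (by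
      rw [(c _ (mul_mem ha.1 hb.1) _ h).eq, commutatorElement_def]; group) (c a ha.1 _ h).symm (c b hb.1 _ h).symm
      ((abelem_zpowers zp).2 _ h), ha.2.1, hb.2.1, mul_one]
  · rw [show ⁅a * b, g⁆ = a * ⁅b, g⁆ * a⁻¹ * ⁅a, g⁆ by simp only [commutatorElement_def]; group,
      (c a ha.1 _ (hb.2.2 g hg)).eq, mul_inv_cancel_right]
    exact mul_mem (hb.2.2 g hg) (ha.2.2 g hg)
  · rw [show ⁅a⁻¹, g⁆ = a⁻¹ * (⁅a, g⁆⁻¹ * a) by simp only [commutatorElement_def]; group,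
      ← (c a ha.1 _ (inv_mem (ha.2.2 g hg))).eq, inv_mul_cancel_left]
    exact inv_mem (ha.2.2 g hg)

theorem lb_zp (hp : p.Prime) (oz : orderOf z = p) {y : G} (hy : y ∈ zpowers z) (y1 : y ≠ 1) : zpowers y = zpowers z := by
  have := Fact.mk hp
  exact eq_of_le_of_card_ge (zpowers_le.2 hy) (by
    rw [Nat.card_zpowers, Nat.card_zpowers, oz,
      orderOf_eq_prime ((abelem_zpowers (oz ▸ pow_orderOf_eq_one z)).2 y hy) y1])

namespace CfF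

variable (hc : CfF t M E K q r)
include hc

theorem lb_S (d : DS S c t s) (H : ∀ v ∈ E ⊓ 𝒞[t], IsInv v → v ≠ t → ∀ g ∈ 𝒞[t], g * v * g⁻¹ ∈ M → g ∈ M) :
    ∃ S c s, DS S c t s ∧ S ≤ M ∧ s ∈ E := by
  obtain ⟨v, vE, iv, vt, hv⟩ := hc.comp.four t (hc.tor.le hc.tor.tK) d.inv
  have vM : v ∈ M ⊓ 𝒞[t] := ⟨hc.comp.le vE, hv⟩
  obtain ⟨T, hT, e⟩ := sylow_superset Nat.prime_two (two_zpowers iv.1) (zpowers_le.2 vM)
  obtain ⟨z, -, h1, d'⟩ := d.exists_of_le hT.pGrp (hT.le.trans inf_le_right) (e (mem_zpowers v)) iv vt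
  refine ⟨_, _, _, d', ?_, vE⟩
  rw [← nilpotent_sub_norm d'.pS.nil h1 fun g hg => ?_]
  · exact hT.le.trans inf_le_left
  exact (hT.eq_of_le (d'.pS.inf_left M) (le_inf h1 (hT.le.trans inf_le_left))
    (le_inf inf_le_right (inf_le_left.trans d'.le))).le ⟨hg.1, H v ⟨vE, hv⟩ iv vt g (d'.le hg.1)
      (hT.le (conj_mem_of_mem_norm hg.2 (e (mem_zpowers v)))).1⟩

theorem lb_p (hA : NoA t) (hp : p.Prime) (hx : x ∈ FF t ⊓ OO M) (ox : orderOf x = p) :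
    IsPGrp p (FF t ⊓ OO M : Subgroup G) := fun l hl hd => by_contra fun e => hA M E K q r hc l hl hd fun g hg y hy e' =>
  hc.la_cx hx (ne_one_of_orderOf hp ox) (nil_comm_of_coprime (fitting_nil _)
    (conj_mem_of_mem_norm ((FF_normal t).2 hg) hy.1) hx.1 (by
      rw [orderOf_conj, ox]
      exact ((Nat.coprime_primes hl hp).2 e).coprime_dvd_left (orderOf_dvd_of_pow_eq_one e')))

theorem lb_sc (hx : x ∈ FF t ⊓ OO M) (x1 : x ≠ 1) : SC (FF t ⊓ M) (UU t) :=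
  ⟨inf_le_left, fun _ hy => ⟨hy.1, hc.la_cx hx x1 (hy.2 x ⟨hx.1, pcore_le _ M hx.2⟩).symm⟩⟩

theorem lb_K (hA : NoA t) (hp : p.Prime) (hx : x ∈ FF t ⊓ OO M) (ox : orderOf x = p) {l : ℕ} (hl : l ≠ p) :
    pCoreOf l (UU t) ≤ K := fun y hy => by
  have yl := (pcore_pGrp l _).piElt hy
  have yF := pcore_le_fitting l _ hy
  have pF := hc.lb_p hA hp hx ox
  have co : ∀ b ∈ FF t ⊓ OO M, (orderOf b).Coprime (orderOf y) := fun b hb =>
    PiNat.coprime (pF.piElt hb) (PiNat.mono yl (by simpa using hl.symm))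
  obtain ⟨a, ha, b, hb, e⟩ := hc.star y ⟨yF, hc.la_cx hx (ne_one_of_orderOf hp ox)
    (nil_comm_of_coprime (fitting_nil _) yF hx.1 (co x hx).symm)⟩
  have e2 := pow_orderOf_eq_one y
  nth_rw 1 [e] at e2
  rw [(hc.la_cEO (hc.tor.le ha.2) hb.2).mul_pow] at e2
  have e3 := hc.la_KO (eq_inv_of_mul_eq_one_right e2 ▸ K.inv_mem (K.pow_mem ha.2 _)) ((OO M).pow_mem hb.2 _)
  rw [e, orderOf_eq_one_iff.1 (Nat.Coprime.eq_one_of_dvd (co b hb) (orderOf_dvd_of_pow_eq_one e3)), mul_one]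
  exact ha.2

theorem lb_xm (hA : NoA t) (hp : p.Prime) (hx : x ∈ FF t ⊓ OO M) (ox : orderOf x = p) {y : G}
    (hy : y ∈ FF t ⊓ OO M) (y1 : y ≠ 1) : x ∈ zpowers y :=
  ohm1_le_of_cyclic (hc.lb_p hA hp hx ox) hc.cyc (zpowers_le.2 hy) (mt zpowers_eq_bot.1 y1)
    (mem_ohm1 hx (ox ▸ pow_orderOf_eq_one x))

/-- an element of order `p` of `F ∩ M` -/
theorem lb_split (hp : p.Prime) (hz : z ∈ K) (oz : orderOf z = p) {y : G} (hy : y ∈ FF t ⊓ M) (yp : y ^ p = 1) :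
    ∃ a ∈ zpowers z, ∃ b ∈ FF t ⊓ OO M, y = a * b := by
  obtain ⟨a, ha, b, hb, e⟩ := hc.star y hy
  rw [e, (hc.la_cEO (hc.tor.le ha.2) hb.2).mul_pow] at yp
  exact ⟨a, (ohm1_eq_of_cyclic hp hc.tor.cyc (zpowers_le.2 hz) (by rw [Nat.card_zpowers, oz])).le
    (mem_ohm1 ha.2 (hc.la_KO (K.pow_mem ha.2 p) (by
      rw [eq_inv_of_mul_eq_one_left yp]; exact (OO M).inv_mem ((OO M).pow_mem hb.2 p)))), b, hb, e⟩

theorem lb_Z (hA : NoA t) (hp : p.Prime) (hx : x ∈ FF t ⊓ OO M) (ox : orderOf x = p) (hz : z ∈ K ⊓ FF t ⊓ 𝒞(FF t))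
    (oz : orderOf z = p) {y : G} (hy : y ∈ 𝒵(pCoreOf p (UU t))) (yp : y ^ p = 1) : y ∈ zpowers z := by
  have PF := pcore_le_fitting p (UU t)
  have xP := le_pcore_of_le_fitting inf_le_left (hc.lb_p hA hp hx ox) hx
  obtain ⟨a, ha, b, hb, e⟩ := hc.lb_split hp hz.1.1 oz
    ⟨PF hy.1, hc.la_cx hx (ne_one_of_orderOf hp ox) (hy.2 x xP).symm⟩ yp
  by_cases b1 : b = 1
  · rwa [e, b1, mul_one]
  refine absurd (fun g hg w hw e' => hc.la_cx hb b1 ?_) (hA M E K q r hc p hp (ox ▸ orderOf_dvd_card_of_mem hx))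
  have : b ∈ 𝒞(pCoreOf p (UU t)) := (mul_mem_cancel_left (cent_anti PF (zpowers_le.2 hz.2 ha))).1 (e ▸ hy.2)
  exact this _ (conj_mem_of_mem_norm ((pcore_UU_normal p t).2 hg) (le_pcore_of_le_fitting (zpowers_le.2 hw.1)
    (piGrp_zpowers_iff.2 (pElt_of_pow_eq_one hp e')) (mem_zpowers w)))

end CfF

theorem Loc.lb1 [IsSimpleGroup G] (h : Loc S c t s) (hII : CfgII t) (hA : NoA t) (hc : CfF t M E K q r)
    (hp : p.Prime) (hx : x ∈ FF t ⊓ OO M) (ox : orderOf x = p) (hz : z ∈ K ⊓ FF t ⊓ 𝒞(FF t)) (oz : orderOf z = p) :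
    ∀ g ∈ pCoreOf p (UU t), ⁅x, g⁆ ∈ zpowers z := by
  by_contra hn
  have x1 := ne_one_of_orderOf hp ox
  have xp : x ^ p = 1 := ox ▸ pow_orderOf_eq_one x
  have zp : z ^ p = 1 := oz ▸ pow_orderOf_eq_one z
  have p2 : p ≠ 2 := fun e => x1 (eq_one_of_odd (FF_odd t) hx.1 (by rw [← pow_two, ← e, xp]))
  have two : ∀ {a : G}, IsPiElt {2} a → IsPiElt {p}ᶜ a := fun ha => PiNat.mono ha (by simpa using p2)
  have pF := hc.lb_p hA hp hx ox
  have o0 : IsPiGrp {2}ᶜ (FF t ⊓ OO M : Subgroup G) := (FF_odd t).inf_left _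
  have PF := pcore_le_fitting p (UU t)
  have F0P := le_pcore_of_le_fitting inf_le_left pF
  have xP := F0P hx
  have zP : z ∈ pCoreOf p (UU t) := le_pcore_of_le_fitting (zpowers_le.2 hz.1.2)
    (piGrp_zpowers_iff.2 (pElt_of_pow_eq_one hp zp)) (mem_zpowers z)
  have zC := cent_anti PF hz.2
  have nP := pcore_UU_normal p t
  have hZ := fun y => hc.lb_Z hA hp hx ox hz oz (y := y)
  have nz : 𝒞[t] ≤ 𝒩(zpowers z) := fun g hg => mem_norm_of_conjg_le (by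
    rw [conjg_zpowers]
    exact zpowers_le.2 (hZ _ (conj_mem_of_mem_norm (norm_inf nP.2 (norm_cent nP.2) hg) ⟨zP, zC⟩)
      (by rw [conj_pow, zp]; group)))
  obtain ⟨W, hW⟩ := lb_W hp p2 zC zp
  have WP : W ≤ pCoreOf p (UU t) := fun y hy => ((hW y).1 hy).1
  have xW : x ∉ W := fun e => hn ((hW x).1 e).2.2
  have zW : zpowers z ≤ W := zpowers_le.2 ((hW z).2 ⟨zP, zp, fun g hg => by
    rw [commutatorElement_eq_one_iff_mul_comm.2 (zC g hg).symm]; exact one_mem _⟩)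
  have nW : 𝒞[t] ≤ 𝒩(W) := fun g hg => mem_norm_of_forall fun y hy => by
    obtain ⟨h1, h2, h3⟩ := (hW y).1 hy
    refine (hW _).2 ⟨conj_mem_of_mem_norm (nP.2 hg) h1, by rw [conj_pow, h2]; group, fun a ha => ?_⟩
    rw [show ⁅g * y * g⁻¹, a⁆ = g * ⁅y, g⁻¹ * a * g⁆ * g⁻¹ by simp only [commutatorElement_def]; group]
    exact conj_mem_of_mem_norm (nz hg) (h3 _ (conj_mem_of_mem_norm' (nP.2 hg) ha))
  have WF : ∀ y ∈ W, y ∈ FF t ⊓ OO M → y = 1 := fun y hy e => by_contra fun y1 =>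
    xW (zpowers_le.2 hy (hc.lb_xm hA hp hx ox e y1))
  have W0 : ∀ y ∈ W, Commute y x → y ∈ zpowers z := fun y hy e => by
    obtain ⟨a, ha, b, hb, e'⟩ := hc.lb_split hp hz.1.1 oz ⟨PF (WP hy), hc.la_cx hx x1 e⟩ ((hW y).1 hy).2.1
    rwa [e', WF b ((mul_mem_cancel_left (zW ha)).1 (e' ▸ hy)) hb, mul_one]
  obtain ⟨y0, y0W, y0z⟩ : ∃ y ∈ W, y ∉ zpowers z := by
    obtain ⟨A, nA, hA'⟩ := ex_odd_normal_p2Elem hp (pcore_pGrp p (UU t)) (Nat.odd_iff.2 (by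
      have := (piGrp_compl_singleton_iff Nat.prime_two).1 ((FF_odd t).of_le PF); omega)) fun e =>
        hn fun g hg => by
          rw [commutatorElement_eq_one_iff_mul_comm.2 (abelian_iff_forall.1 (abelian_of_cyclic e) x xP g hg)]
          exact one_mem _
    have cA := hA'.card
    have p1 : p < p ^ 2 := by rw [pow_two]; exact lt_mul_self hp.one_lt
    have h1 := pGrp_comm_lt (hA'.pGrp hp) (pcore_pGrp p _) nA.2 fun e => by
      rw [e, card_bot] at cA; have := hp.one_lt; omega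
    have h2 : ⁅A, pCoreOf p (UU t)⁆ ≤ zpowers z := by
      by_cases e : ⁅A, pCoreOf p (UU t)⁆ = ⊥
      · exact e.le.trans bot_le
      obtain ⟨⟨y, hy⟩, y1⟩ := ne_bot_iff_exists_ne_one.1
        (meet_center_nil (pcore_pGrp p (UU t)).nil (nA.comm (normalIn_refl _)) e)
      have h3 := lb_zp hp oz (hZ y hy.2 (hA'.abelem.2 y (h1.le hy.1))) (by simpa using y1)
      refine (eq_of_le_of_card_ge (h3.ge.trans (zpowers_le.2 hy.1)) ?_).ge
      obtain ⟨j, hj, e'⟩ := (Nat.dvd_prime_pow hp).1 (cA ▸ card_dvd_of_le h1.le)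
      have := card_lt_of_lt h1
      rw [Nat.card_zpowers, oz, e']
      rw [e', cA, Nat.pow_lt_pow_iff_right hp.one_lt] at this
      exact (Nat.pow_le_pow_right hp.pos (show j ≤ 1 by omega)).trans (pow_one p).le
    refine SetLike.not_le_iff_exists.1 fun e => ?_
    have := card_le_of_le (show A ≤ zpowers z from fun y hy => e ((hW y).2
      ⟨nA.1 hy, hA'.abelem.2 y hy, fun g hg => h2 (commutator_mem_commutator hy hg)⟩))
    rw [Nat.card_zpowers, oz] at this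
    omega
  have cz : ∀ a ∈ pCoreOf p (UU t), ∀ y ∈ W, Commute a ⁅y, x⁆ := fun a ha y hy =>
    zpowers_le.2 zC (((hW y).1 hy).2.2 x xP) a ha
  have CW : ∀ y ∈ W, y ∉ zpowers z → ∀ g, Commute g y → Commute g z → g ∈ 𝒞(W) := fun y hy yz g h1 h2 w hw => by
    let φ : W →* G := MonoidHom.mk' (fun w => ⁅(w : G), x⁆) fun a b => by
      rw [coe_mul, show ⁅(a : G) * b, x⁆ = a * ⁅(b : G), x⁆ * (a : G)⁻¹ * ⁅(a : G), x⁆ by
        simp only [commutatorElement_def]; group, (cz _ (WP a.2) _ b.2).eq, mul_inv_cancel_right]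
      exact (cz _ (zpowers_le.2 zP (((hW _).1 b.2).2.2 x xP)) _ a.2).eq
    obtain ⟨j, hj⟩ := (lb_zp hp oz (((hW y).1 hy).2.2 x xP) fun e =>
      yz (W0 y hy (commutatorElement_eq_one_iff_commute.1 e))).ge (((hW w).1 hw).2.2 x xP)
    have e : φ ((⟨y, hy⟩ ^ j)⁻¹ * ⟨w, hw⟩) = 1 := by rw [map_mul, map_inv, map_zpow, inv_mul_eq_one]; exact hj
    obtain ⟨i, hi⟩ := W0 ((y ^ j)⁻¹ * w) (mul_mem (inv_mem (zpow_mem hy j)) hw)
      (commutatorElement_eq_one_iff_commute.1 e)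
    have e2 : w = y ^ j * z ^ i := by rw [show z ^ i = (y ^ j)⁻¹ * w from hi]; group
    rw [e2]
    exact ((h1.zpow_right j).mul_right (h2.zpow_right i)).symm
  have key : ∀ a ∈ M ⊓ 𝒞[t], (a ∈ 𝒞(W) ∨ ∀ y ∈ W, a * y * a⁻¹ = y⁻¹) → Commute a x := fun a ha H => by
    have h1 := conj_mem_of_mem_norm (CfF.la_n0 ha) hx
    have ζW := zW (((hW y0).1 y0W).2.2 x xP)
    have c1 := cz _ (F0P (mul_mem h1 (inv_mem hx))) _ y0W
    have c2 := cz _ (WP y0W) _ y0W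
    have e0 : y0 * x * y0⁻¹ = ⁅y0, x⁆ * x := by rw [commutatorElement_def]; group
    generalize ⁅y0, x⁆ = ζ at *
    have e1 : y0 * (a * x * a⁻¹) * y0⁻¹ = ζ * (a * x * a⁻¹) := by
      have e2 : a * y0 * a⁻¹ * (a * x * a⁻¹) * (a * y0 * a⁻¹)⁻¹ = a * ζ * a⁻¹ * (a * x * a⁻¹) := by
        rw [conj_mul (a := ζ), ← e0]; group
      rcases H with H | H
      · rwa [← H y0 y0W, ← H ζ ζW, mul_inv_cancel_right, mul_inv_cancel_right] at e2
      · rw [H y0 y0W, H ζ ζW] at e2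
        calc _ = y0 * ζ * (ζ⁻¹ * (a * x * a⁻¹)) * y0⁻¹ := by group
          _ = _ := by rw [← e2, c2.eq]; group
    by_contra hne
    refine y0z (W0 y0 y0W ?_)
    obtain ⟨j, hj⟩ := hc.lb_xm hA hp hx ox (mul_mem h1 (inv_mem hx)) fun e =>
      hne (mul_inv_eq_iff_eq_mul.1 (mul_inv_eq_one.1 e))
    rw [← hj]
    refine Commute.zpow_right (mul_inv_eq_iff_eq_mul.1 ?_) j
    calc _ = y0 * (a * x * a⁻¹) * y0⁻¹ * (y0 * x * y0⁻¹)⁻¹ := by group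
      _ = ζ * (a * x * a⁻¹ * x⁻¹) * ζ⁻¹ := by rw [e1, e0]; group
      _ = _ := by rw [← c1.eq, mul_inv_cancel_right]
  have iW : ∀ v ∈ E ⊓ 𝒞[t], IsInv v → v ≠ t → ∀ y ∈ W, v * y * v⁻¹ = y⁻¹ := fun v hv iv vt y =>
    inv_of_fpf iv.1 (nW hv.2) (eq_bot_iff.2 fun y hy => mem_bot.2
      (WF y hy.1 ((hc.cs v hv iv vt).le ⟨PF (WP hy.1), hy.2⟩)))
  obtain ⟨S, c, s, d, hS, sE⟩ := hc.lb_S h.toDS fun v hv iv vt g hg e => by
    have h1 := key _ ⟨e, 𝒞[t].mul_mem (𝒞[t].mul_mem hg hv.2) (𝒞[t].inv_mem hg)⟩ (.inr fun y hy => by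
      rw [show g * v * g⁻¹ * y * (g * v * g⁻¹)⁻¹ = g * (v * (g⁻¹ * y * g) * v⁻¹) * g⁻¹ by group,
        iW v hv iv vt _ (conj_mem_of_mem_norm' (nW hg) hy)]
      group)
    refine inv_mem_iff.1 (hc.ti x hx x1 g⁻¹ ((hc.cs v hv iv vt).le
      ⟨conj_mem_of_mem_norm ((FF_normal t).2 (inv_mem hg)) hx.1, mem_centralizer_singleton_iff.2 ?_⟩))
    calc _ = g⁻¹ * (x * (g * v * g⁻¹)) * g := by group
      _ = _ := by rw [← h1.eq]; group
  have sE' : s ∈ E ⊓ 𝒞[t] := ⟨sE, d.sH⟩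
  have wM : s * c ∈ M ⊓ 𝒞[t] := ⟨hS d.swap.sS, d.swap.sH⟩
  have sM : s ∈ M ⊓ 𝒞[t] := ⟨hS d.sS, d.sH⟩
  have iw := d.swap.sInv
  have wK := hc.tor.inv _ wM iw d.swap.st
  have sK := hc.tor.inv _ sM d.sInv d.st
  by_cases h0 : FF t ⊓ OO M ⊓ 𝒞[s * c] = ⊥
  · have h1 : ¬ Commute (s * c) x := fun e => x1 (mem_bot.1 (h0.le ⟨hx, mem_centralizer_singleton_iff.2 e.symm⟩))
    obtain ⟨⟨w, hw⟩, w1⟩ := ne_bot_iff_exists_ne_one.1 (show W ⊓ 𝒞[s * c] ≠ ⊥ from fun e =>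
      h1 (key _ wM (.inr fun y => inv_of_fpf iw.1 (nW wM.2) e)))
    replace w1 : w ≠ 1 := by simpa using w1
    have wz : w ∉ zpowers z := fun e => by
      have := wK w (zpowers_le.2 hz.1.1 e)
      rw [conj_eq_of_cent (mem_cent_singleton_comm.1 hw.2), eq_inv_iff_mul_eq_one] at this
      exact w1 (eq_one_of_odd (FF_odd t) (PF (WP hw.1)) this)
    obtain ⟨M', E', K', q', r', hc', h2⟩ := hII _ wM.2 iw d.swap.st p hp
      (fun e => w1 (mem_bot.1 (e.le ⟨WP hw.1, hw.2⟩))) fun e => h1 (e x xP).symm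
    have h3 : w ∈ FF t ⊓ OO M' := ⟨PF (WP hw.1), h2 ⟨WP hw.1, hw.2⟩⟩
    refine hA M' E' K' q' r' hc' p hp (orderOf_eq_of_pow_prime hp ((hW w).1 hw.1).2.1 w1 ▸ orderOf_dvd_card_of_mem h3)
      fun g hg y hy _ => hc'.la_cx h3 w1 ?_
    exact (conj_mem_of_mem_norm (norm_cent nW hg) (CW w hw.1 wz y (hc'.la_abel hy ⟨h3.1, pcore_le _ M' h3.2⟩)
      (hz.2 y hy.1)) w hw.1).symm
  have sc := hc.lb_sc hx x1
  have cU : c ∈ 𝒞(UU t) := by
    have h1 := lb_cyc pF hc.cyc o0 (CfF.la_n0 wM) (two iw.two) h0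
    have c2 := d.pS.piElt d.cS
    refine cent_UU_of_FF d.cH c2 (sc.cent (zpowers_le.2 ((FF_normal t).2 d.cH))
      ((piGrp_zpowers_iff.2 c2).coprime (FF_odd t)).symm (zpowers_le.2 fun y hy => ?_) (mem_zpowers c))
    obtain ⟨a, ha, b, hb, rfl⟩ := hc.star y hy
    refine (mul_inv_eq_iff_eq_mul.1 (mul_left_cancel (a := s) (mul_right_cancel (b := s⁻¹) ?_))).symm
    calc _ = s * c * a * (s * c)⁻¹ * (s * c * b * (s * c)⁻¹) := by group
      _ = s * a * s⁻¹ * (s * b * s⁻¹) := by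
        rw [wK a ha.2, sK a ha.2, ← h1 b hb, (hc.la_cEO sE hb.2).eq, mul_inv_cancel_right, mul_inv_cancel_right]
      _ = _ := by group
  have cs := hc.cs s sE' d.sInv d.st
  have BM : UU t ⊓ 𝒞[s] ≤ M ⊓ 𝒞[t] := le_inf ((inf_le_inf_right _ (UU_le t)).trans (hc.cV s sE' d.sInv d.st))
    (inf_le_left.trans (UU_le t))
  have xB : x ∈ UU t ⊓ 𝒞[s] := ⟨FF_le t hx.1, (cs.ge hx).2⟩
  have U1W := comm_le_cent_of_inv (iW s sE' d.sInv d.st) ((UU_le t).trans nW)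
  have U1 := comm_normalIn_left (zpowers_le.2 (UU_norm t d.sH))
  have o1 := (UU_odd t).of_le U1.1
  have pB : IsPGrp p (⁅UU t, zpowers s⁆ ⊓ 𝒞[s] : Subgroup G) := fun l hl hd => by_contra fun e => by
    obtain ⟨y, hy, oy⟩ := exists_mem_orderOf_eq hl hd
    have yp : IsPiElt {p}ᶜ y := by rw [IsPiElt, oy]; exact fun l' hl' hd' => ((Nat.prime_dvd_prime_iff_eq hl' hl).1 hd').symm ▸ e
    have yM := BM ⟨U1.1 hy.1, hy.2⟩
    have h1 := lb_cyc pF hc.cyc o0 (CfF.la_n0 yM) yp fun e => x1 (mem_bot.1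
      (e.le ⟨hx, mem_centralizer_singleton_iff.2 (key y yM (.inl (U1W hy.1))).symm⟩))
    have h2 := lb_cyc ((pcore_pGrp p (UU t)).inf_left K) (cyclic_of_le hc.tor.cyc inf_le_right)
      (((FF_odd t).of_le PF).inf_left K) (norm_inf (zpowers_le.2 (nP.2 yM.2)) (zpowers_le.2 (hc.tor.norm yM))
        (mem_zpowers y)) yp fun e => ne_one_of_orderOf hp oz (mem_bot.1
      (e.le ⟨⟨zP, hz.1.1⟩, mem_centralizer_singleton_iff.2 (U1W hy.1 z (zW (mem_zpowers z)))⟩))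
    have h3 : y ∈ 𝒞(FF t) := mem_cent_iff_le_cent_singleton.2 (fitting_le_of_forall_pcore fun l' _ =>
      mem_cent_iff_le_cent_singleton.1 (by
        by_cases e' : l' = p
        · rw [e']
          refine sc.p_cent p (zpowers_le.2 (nP.2 yM.2)) (piGrp_zpowers_iff.2 yp) (zpowers_le.2 fun g hg => ?_)
            (mem_zpowers y)
          obtain ⟨a, ha, b, hb, rfl⟩ := hc.star g hg.2
          exact Commute.mul_left (h2 a ⟨(mul_mem_cancel_right (F0P hb)).1 hg.1, ha.2⟩) (h1 b hb)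
        · exact comm_le_cent_of_inv (fun a ha => sK a (hc.lb_K hA hp hx ox e' ha)) (pcore_norm _ _) hy.1))
    exact ne_one_of_orderOf hl oy
      ((pF.piElt (cs.le ⟨cent_sub_Fitting (UU_sol t) ⟨U1.1 hy.1, h3⟩, hy.2⟩)).eq_one yp)
  have h1 := lb_pclosed o1 d.sInv.1 (normalizer_commutator_ge_right _ _ (mem_zpowers s))
    (comm_comm_zpowers (UU_odd t) d.sInv.1 (UU_norm t d.sH)).ge pB
  have := (h.chA d).thmC cU (FF t ⊓ OO M ⊓ 𝒞(W)) (inf_le_left.trans (cs.ge.trans (inf_le_inf_right _ (FF_le t))))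
    (fun y hy => ⟨cs.le ⟨PF (U1.pcore_le _ (h1 ⟨hy.2, hy.1.2⟩)), hy.1.2⟩, U1W hy.2⟩)
    (norm_inf (BM.trans CfF.la_n0) (norm_cent (BM.trans (inf_le_right.trans nW)))) (fun m2 => by
      have tE := hc.tor.le hc.tor.tK
      have SE : S ≤ E := fun a ha => by
        rcases d.mem_S_cent ha (d.abel2 m2 d.sS ha) with e | e | e | e <;> rw [e]
        exacts [one_mem _, tE, sE, mul_mem tE sE]
      obtain ⟨g, hg, e⟩ := hc.comp.conj t tE s sE d.inv d.sInv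
      obtain ⟨σ, hσ, e'⟩ := d.FV2 m2 SE hg (e ▸ d.sS)
      exact ⟨σ, ⟨hσ.2, cent_le_norm _ fun b hb => (hc.la_cEO hσ.1 hb.1.2).symm⟩, fun e'' =>
        d.st (e.symm.trans (e'.symm.trans (conj_eq_of_cent e'')))⟩) xB
  exact y0z (W0 y0 y0W (this.2 y0 y0W))

end CA.GW
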