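/-
Simple groups of order 2520 with the involution centralizer of `A₇`.
-/
import Cfsg.Agent.GW.A7a
import Cfsg.Agent.Dih.Small
set_option autoImplicit false

namespace CA.GW
open Cfsg CA.FG CA.TC Subgroup

variable {G : Type*} [Group G]

/-- Normal forms in the group `C₃ ⋊ D₈`. -/
abbrev M24' : Type := Fin 3 × Fin 4 × Fin 2

def mm24 (p q : M24') : M24' :=
  (if p.2.1.1 % 2 = 0 then p.1 + q.1 else p.1 - q.1, if p.2.2 = 0 then p.2.1 + q.2.1 else p.2.1 - q.2.1, p.2.2 + q.2.2)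

def ev24 (x c s : G) (p : M24') : G := x ^ p.1.1 * c ^ p.2.1.1 * s ^ p.2.2.1

structure Fr0 (t x c s : G) : Prop where
  x3 : x ^ 3 = 1
  c2 : c ^ 2 = t
  t2 : t ^ 2 = 1
  s2 : s ^ 2 = 1
  sc : s * c = c⁻¹ * s
  sx : s * x = x * s
  cx : c * x = x⁻¹ * c

/-- Coordinates for the centralizer of `t`. -/
structure Fr (t x c s : G) : Prop extends Fr0 t x c s where
  inj : Function.Injective (ev24 x c s)
  cen : ∀ g, Commute g t → ∃ p, ev24 x c s p = g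

theorem Fr0.mul {t x c s : G} (h : Fr0 t x c s) (p q : M24') : ev24 x c s p * ev24 x c s q = ev24 x c s (mm24 p q) := by
  have c4 : c ^ 4 = 1 := by rw [show 4 = 2 * 2 from rfl, pow_mul, h.c2, h.t2]
  have k : ∀ {y z : G} {n : ℕ} [NeZero n], y ^ n = 1 → z * y = y⁻¹ * z → ∀ a b : Fin n,
      y ^ (a + b).1 = y ^ a.1 * y ^ b.1 ∧ y ^ a.1 * (z * y ^ b.1) = y ^ (a - b).1 * z := fun {y z n _} h1 h2 a b => by
    have e : ∀ a b : Fin n, y ^ (a + b).1 = y ^ a.1 * y ^ b.1 := fun a b => by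
      rw [Fin.val_add, ← pow_eq_pow_mod _ h1, pow_add]
    refine ⟨e a b, ?_⟩
    rw [(SemiconjBy.pow_right h2 b.1).eq, inv_pow, ← mul_assoc, mul_left_inj, mul_inv_eq_iff_eq_mul, ← e,
      sub_add_cancel]
  obtain ⟨a, b, d⟩ := p
  obtain ⟨a', b', d'⟩ := q
  have e1 : s ^ d.1 * x ^ a'.1 = x ^ a'.1 * s ^ d.1 := (Commute.pow_pow h.sx _ _).eq
  have e2 : x ^ a.1 * (c ^ b.1 * x ^ a'.1) = x ^ (if b.1 % 2 = 0 then a + a' else a - a').1 * c ^ b.1 := by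
    have h2 : Commute (c ^ 2) x := by
      show _ = _
      rw [pow_two, mul_assoc, h.cx, ← mul_assoc, (SemiconjBy.inv_right h.cx).eq, inv_inv, mul_assoc]
    split_ifs with hb
    · have : Commute (c ^ b.1) x := by
        rw [← Nat.div_add_mod b.1 2, hb, add_zero, pow_mul]; exact h2.pow_left _
      rw [(this.pow_right _).eq, ← mul_assoc, (k h.x3 h.cx a a').1]
    · refine (k h.x3 ?_ a a').2
      rw [← Nat.div_add_mod b.1 2, show b.1 % 2 = 1 by omega, pow_succ, pow_mul, mul_assoc, h.cx, ← mul_assoc,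
        (h2.pow_left _).inv_right.eq, mul_assoc]
  have e3 : c ^ b.1 * (s ^ d.1 * c ^ b'.1) = c ^ (if d = 0 then b + b' else b - b').1 * s ^ d.1 := by
    split_ifs with hd
    · rw [hd, (k c4 h.sc b b').1]; simp
    · obtain rfl : d = 1 := by omega
      simpa using (k c4 h.sc b b').2
  have e4 := (k h.s2 (z := 1) (by rw [one_mul, mul_one, eq_inv_iff_mul_eq_one, ← pow_two, h.s2]) d d').1
  simp only [ev24, mm24]
  rw [e4]
  calc _ = x ^ a.1 * c ^ b.1 * (s ^ d.1 * x ^ a'.1) * c ^ b'.1 * s ^ d'.1 := by simp only [mul_assoc]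
    _ = (x ^ a.1 * (c ^ b.1 * x ^ a'.1)) * (s ^ d.1 * c ^ b'.1) * s ^ d'.1 := by rw [e1]; simp only [mul_assoc]
    _ = _ := by rw [e2, mul_assoc _ (c ^ b.1), e3]; simp only [mul_assoc]

theorem Fr.conj {t x c s : G} (h : Fr t x c s) (g : G) :
    Fr (g * t * g⁻¹) (g * x * g⁻¹) (g * c * g⁻¹) (g * s * g⁻¹) := by
  have e : ∀ p, ev24 (g * x * g⁻¹) (g * c * g⁻¹) (g * s * g⁻¹) p = g * ev24 x c s p * g⁻¹ := fun p => by
    simp only [ev24, conj_pow, conj_mul]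
  refine ⟨⟨by rw [conj_pow, h.x3]; simp, by rw [conj_pow, h.c2], by rw [conj_pow, h.t2]; simp,
    by rw [conj_pow, h.s2]; simp, by rw [conj_inv, conj_mul, conj_mul, h.sc], by rw [conj_mul, conj_mul, h.sx],
    by rw [conj_inv, conj_mul, conj_mul, h.cx]⟩, fun p q e' => h.inj (by simpa [e] using e'), fun k hk => ?_⟩
  obtain ⟨p, hp⟩ := h.cen (g⁻¹ * k * g) (by
    have := hk.eq
    show _ = _
    calc _ = g⁻¹ * (k * (g * t * g⁻¹)) * g := by group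
      _ = _ := by rw [this]; group)
  exact ⟨p, by rw [e, hp]; group⟩

namespace Fr
variable {t x c s g : G} (h : Fr t x c s)
include h

omit h in
theorem e1 : ev24 x c s (0, 0, 0) = 1 := by simp [ev24]
omit h in
theorem ex : ev24 x c s (1, 0, 0) = x := by simp [ev24]
theorem ex' : ev24 x c s (2, 0, 0) = x⁻¹ := by
  rw [eq_inv_iff_mul_eq_one, ← h.x3]; simp [ev24, pow_succ]
omit h in
theorem ec : ev24 x c s (0, 1, 0) = c := by simp [ev24]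
theorem et : ev24 x c s (0, 2, 0) = t := by rw [← h.c2]; simp [ev24]
omit h in
theorem es : ev24 x c s (0, 0, 1) = s := by simp [ev24]

theorem eq_iff {p q : M24'} : ev24 x c s p = ev24 x c s q ↔ p = q := h.inj.eq_iff

theorem three (hg : Commute g t) (h3 : g ^ 3 = 1) : g = 1 ∨ g = x ∨ g = x⁻¹ := by
  obtain ⟨p, rfl⟩ := h.cen g hg
  have h1 : mm24 (mm24 p p) p = (0, 0, 0) := by
    simpa only [← h.eq_iff, ← h.mul, e1, pow_succ, pow_zero, one_mul] using h3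
  have : p = (0, 0, 0) ∨ p = (1, 0, 0) ∨ p = (2, 0, 0) := by clear hg h3; revert p; decide
  simpa only [← h.eq_iff, e1, ex, h.ex'] using this

theorem norm (hg : Commute g t) : g * x * g⁻¹ = x ∨ g * x * g⁻¹ = x⁻¹ := by
  obtain ⟨p, rfl⟩ := h.cen g hg
  have : mm24 p (1, 0, 0) = mm24 (1, 0, 0) p ∨ mm24 p (1, 0, 0) = mm24 (2, 0, 0) p := by clear hg; revert p; decide
  simpa only [← h.eq_iff, ← h.mul, ex, h.ex', mul_inv_eq_iff_eq_mul] using this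

theorem cenV (hg : Commute g t) (hs : Commute g s) : ∃ k : ℕ, g = x ^ k ∨ g = x ^ k * t ∨ g = x ^ k * s ∨
    g = x ^ k * (s * t) := by
  obtain ⟨p, rfl⟩ := h.cen g hg
  have h1 : mm24 p (0, 0, 1) = mm24 (0, 0, 1) p := by simpa only [← h.eq_iff, ← h.mul, es] using hs.eq
  have : p = (p.1, 0, 0) ∨ p = mm24 (p.1, 0, 0) (0, 2, 0) ∨ p = mm24 (p.1, 0, 0) (0, 0, 1) ∨
      p = mm24 (p.1, 0, 0) (mm24 (0, 0, 1) (0, 2, 0)) := by clear hg hs; revert p; decide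
  have e : ev24 x c s (p.1, 0, 0) = x ^ p.1.1 := by simp [ev24]
  exact ⟨p.1.1, by simpa only [← h.eq_iff, ← h.mul, es, h.et, e] using this⟩

theorem twelve (hg : Commute g t) : (g ^ 4) ^ 3 = 1 := by
  obtain ⟨p, rfl⟩ := h.cen g hg
  rw [← e1 (x := x) (c := c) (s := s)]
  simp only [pow_succ, pow_zero, one_mul, h.mul, h.eq_iff]
  clear hg; revert p; decide

theorem four (hg : Commute g t) (h4 : g ^ 4 = 1) : g ^ 2 = 1 ∨ g ^ 2 = t := by
  obtain ⟨p, rfl⟩ := h.cen g hg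
  rw [← e1 (x := x) (c := c) (s := s)] at *
  nth_rw 1 [← h.et]
  simp only [pow_succ, pow_zero, one_mul, h.mul, h.eq_iff] at h4 ⊢
  clear hg; revert p; decide

theorem cube {r : G} (hg : g ^ 2 = t) (hr : Commute r t) (r2 : r ^ 2 = 1) (r1 : r ≠ 1) (rt : r ≠ t) :
    (r * (g * r * g⁻¹)) ^ 3 = t := by
  obtain ⟨p, rfl⟩ := h.cen g (hg ▸ Commute.pow_right (Commute.refl g) 2)
  obtain ⟨q, rfl⟩ := h.cen r hr
  have : (ev24 x c s p)⁻¹ = ev24 x c s p * t := by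
    rw [inv_eq_iff_mul_eq_one, ← mul_assoc, ← pow_two, hg, ← pow_two, h.t2]
  rw [this]
  clear this hr
  rw [← e1 (x := x) (c := c) (s := s), ← h.et] at *
  simp only [pow_succ, pow_zero, one_mul, h.mul, h.eq_iff, ne_eq] at *
  revert p q; decide +kernel

theorem facts : x ≠ 1 ∧ t ≠ 1 ∧ s ≠ 1 ∧ s ≠ t ∧ s * t ≠ 1 ∧ s * t ≠ t ∧ s * t ≠ s ∧ Commute x t ∧ Commute s t ∧
    Commute c t ∧ (s * c) ^ 2 = 1 ∧ s * c ≠ 1 ∧ t ≠ s * c ∧ s * c * x * (s * c)⁻¹ = x⁻¹ ∧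
    s * c * s * (s * c)⁻¹ = s * t := by
  have : (1, 0, 0) ≠ ((0, 0, 0) : M24') ∧ (0, 2, 0) ≠ ((0, 0, 0) : M24') ∧ (0, 0, 1) ≠ ((0, 0, 0) : M24') ∧
      (0, 0, 1) ≠ ((0, 2, 0) : M24') ∧ mm24 (0, 0, 1) (0, 2, 0) ≠ (0, 0, 0) ∧ mm24 (0, 0, 1) (0, 2, 0) ≠ (0, 2, 0) ∧
      mm24 (0, 0, 1) (0, 2, 0) ≠ (0, 0, 1) ∧ mm24 (1, 0, 0) (0, 2, 0) = mm24 (0, 2, 0) (1, 0, 0) ∧
      mm24 (0, 0, 1) (0, 2, 0) = mm24 (0, 2, 0) (0, 0, 1) ∧ mm24 (0, 1, 0) (0, 2, 0) = mm24 (0, 2, 0) (0, 1, 0) ∧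
      mm24 (mm24 (0, 0, 1) (0, 1, 0)) (mm24 (0, 0, 1) (0, 1, 0)) = (0, 0, 0) ∧ mm24 (0, 0, 1) (0, 1, 0) ≠ (0, 0, 0) ∧
      (0, 2, 0) ≠ mm24 (0, 0, 1) (0, 1, 0) ∧
      mm24 (mm24 (0, 0, 1) (0, 1, 0)) (1, 0, 0) = mm24 (2, 0, 0) (mm24 (0, 0, 1) (0, 1, 0)) ∧
      mm24 (mm24 (0, 0, 1) (0, 1, 0)) (0, 0, 1) = mm24 (mm24 (0, 0, 1) (0, 2, 0)) (mm24 (0, 0, 1) (0, 1, 0)) := by
    decide
  simpa only [ne_eq, ← h.eq_iff, ← h.mul, e1, ex, ec, es, h.et, h.ex', commute_iff_eq, pow_two,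
    mul_inv_eq_iff_eq_mul] using this

theorem card : Nat.card 𝒞[t] = 24 := by
  have f := h.facts
  have : Function.Bijective fun p : M24' => (⟨ev24 x c s p, mem_centralizer_singleton_iff.2
      (((f.2.2.2.2.2.2.2.1.pow_left _).mul_left (f.2.2.2.2.2.2.2.2.2.1.pow_left _)).mul_left
        (f.2.2.2.2.2.2.2.2.1.pow_left _))⟩ : 𝒞[t]) :=
    ⟨fun p q e => h.inj (congrArg Subtype.val e), fun g =>
      let ⟨p, hp⟩ := h.cen g (mem_centralizer_singleton_iff.1 g.2); ⟨p, Subtype.ext hp⟩⟩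
  rw [← Nat.card_eq_of_bijective _ this]; simp

end Fr

end CA.GW

theorem CA.realizeEqns_GW_A7b : True := by
  have := @CA.GW.M24'.eq_1
  have := @CA.GW.M24'.eq_def
  have := @CA.GW.M24'.congr_simp
  have := @CA.GW.mm24.eq_1
  have := @CA.GW.mm24.eq_def
  have := @CA.GW.mm24.congr_simp
  have := @CA.GW.ev24.eq_1.{0}
  have := @CA.GW.ev24.eq_def.{0}
  have := @CA.GW.ev24.congr_simp.{0}
  trivial
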