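/-
Simple groups of order 2520 with the involution centralizer of `A₇`: the identification.
-/
import Cfsg.Agent.GW.A7b
set_option autoImplicit false

namespace CA.GW
open Cfsg CA.FG CA.TC Subgroup

variable {G : Type*} [Group G]

theorem Fr0.fr [Finite G] {t x c s : G} (h : Fr0 t x c s) (x1 : x ≠ 1) (t1 : t ≠ 1) (hc : Nat.card 𝒞[t] ≤ 24) :
    Fr t x c s := by
  have et : ev24 x c s (0, 2, 0) = t := by rw [← h.c2]; simp [ev24]
  have k : ∀ p, ev24 x c s p = 1 → p = (0, 0, 0) := fun p hp => by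
    have : p = (0, 0, 0) ∨ p = (0, 2, 0) ∨ ∃ q z, mm24 p q = mm24 (mm24 z q) p ∧
        (z = (1, 0, 0) ∨ mm24 z z = (1, 0, 0) ∨ mm24 (mm24 z z) z = (0, 2, 0)) := by
      clear hp; revert p; decide +kernel
    rcases this with e | e | ⟨q, z, e, e'⟩
    · exact e
    · rw [e, et] at hp; exact absurd hp t1
    · have e1 := congrArg (ev24 x c s) e
      rw [← h.mul, ← h.mul, ← h.mul, hp, one_mul, mul_one, right_eq_mul] at e1
      rcases e' with e' | e' | e'
      · rw [e', Fr.ex] at e1; exact absurd e1 x1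
      · have := congrArg (ev24 x c s) e'
        rw [← h.mul, e1, Fr.ex, mul_one] at this; exact absurd this.symm x1
      · have := congrArg (ev24 x c s) e'
        rw [← h.mul, ← h.mul, e1, et, mul_one, mul_one] at this; exact absurd this.symm t1
  have inj : Function.Injective (ev24 x c s) := fun p q e => by
    have : ∃ r, mm24 q r = (0, 0, 0) ∧ (mm24 p r = (0, 0, 0) → p = q) := by
      clear e; revert p q; decide +kernel
    obtain ⟨r, e1, e2⟩ := this
    exact e2 (k _ (by rw [← h.mul, e, h.mul, e1, Fr.e1]))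
  refine ⟨h, inj, fun g hg => ?_⟩
  have cm : ∀ p, ev24 x c s p ∈ 𝒞[t] := fun p => mem_centralizer_singleton_iff.2 (by
    have : mm24 p (0, 2, 0) = mm24 (0, 2, 0) p := by revert p; decide
    rw [← et, h.mul, h.mul, this])
  have : Function.Bijective fun p : M24' => (⟨ev24 x c s p, cm p⟩ : 𝒞[t]) :=
    Function.Injective.bijective_of_nat_card_le (fun p q e => inj (congrArg Subtype.val e)) (by simpa using hc)
  obtain ⟨p, hp⟩ := this.2 ⟨g, mem_centralizer_singleton_iff.2 hg⟩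
  exact ⟨p, congrArg Subtype.val hp⟩

/-- The elements centralizing or inverting `x`. -/
def nrm (x : G) : Subgroup G where
  carrier := {g | g * x * g⁻¹ = x ∨ g * x * g⁻¹ = x⁻¹}
  one_mem' := by simp
  mul_mem' := fun {a b} ha hb => by
    have e : a * b * x * (a * b)⁻¹ = a * (b * x * b⁻¹) * a⁻¹ := by group
    have e' : a * x⁻¹ * a⁻¹ = (a * x * a⁻¹)⁻¹ := by group
    rcases ha with ha | ha <;> rcases hb with hb | hb <;> simp only [Set.mem_ofPred_eq, e, e', ha, hb, inv_inv] <;> simp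
  inv_mem' := fun {a} ha => by
    rcases ha with ha | ha
    · left; conv_lhs => rw [← ha]
      group
    · right
      calc _ = (a⁻¹ * x⁻¹ * a)⁻¹ := by group
        _ = _ := by rw [← show a * x * a⁻¹ = x⁻¹ from ha]; nth_rw 2 [show a * x * a⁻¹ = x⁻¹ from ha]; group

theorem mem_nrm {x g : G} : g ∈ nrm x ↔ g * x * g⁻¹ = x ∨ g * x * g⁻¹ = x⁻¹ := Iff.rfl

theorem mem_nrm_of_comm {x g : G} (h : Commute g x) : g ∈ nrm x := Or.inl (by rw [h.eq]; group)

namespace Fr
variable {t x c s : G} (h : Fr t x c s) (hcls : ∀ i : G, i ^ 2 = 1 → i ≠ 1 → ∃ g, g * t * g⁻¹ = i)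
include h hcls

theorem pull {i y : G} (i2 : i ^ 2 = 1) (i1 : i ≠ 1) (y3 : y ^ 3 = 1) (y1 : y ≠ 1) (hy : Commute i y) :
    ∃ g, g * t * g⁻¹ = i ∧ (g⁻¹ * y * g = x ∨ g⁻¹ * y * g = x⁻¹) := by
  obtain ⟨g, rfl⟩ := hcls i i2 i1
  refine ⟨g, rfl, ?_⟩
  have h1 : Commute (g⁻¹ * y * g) t := by
    show _ = _
    calc _ = g⁻¹ * (y * (g * t * g⁻¹)) * g := by group
      _ = _ := by rw [← hy.eq]; group
  refine (h.three h1 ?_).resolve_left fun e => y1 ?_
  · rw [show g⁻¹ * y * g = g⁻¹ * y * g⁻¹⁻¹ by rw [inv_inv], conj_pow, y3]; group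
  · calc y = g * (g⁻¹ * y * g) * g⁻¹ := by group
      _ = 1 := by rw [e]; group

theorem pullN {i : G} (i2 : i ^ 2 = 1) (i1 : i ≠ 1) (hy : Commute i x) : ∃ g ∈ nrm x, g * t * g⁻¹ = i := by
  obtain ⟨g, h1, h2⟩ := h.pull hcls i2 i1 h.x3 h.facts.1 hy
  exact ⟨g, (nrm x).inv_mem_iff.1 (by rw [mem_nrm, inv_inv]; exact h2), h1⟩

theorem invs [Finite G] (hN : Nat.card (nrm x) = 72) {i : G} (i2 : i ^ 2 = 1) (i1 : i ≠ 1) (hy : Commute i x) :
    i = t ∨ i = s ∨ i = s * t := by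
  obtain ⟨x1, t1, s1, st, st1, stt, sts, xt, cst, -⟩ := h.facts
  let X : Set G := {i | i ^ 2 = 1 ∧ i ≠ 1 ∧ Commute i x}
  choose f hf hf' using fun i : X => h.pullN hcls i.2.1 i.2.2.1 i.2.2.2
  have le : 𝒞[t] ≤ nrm x := fun g hg => h.norm (mem_centralizer_singleton_iff.1 hg)
  have hi : (𝒞[t].subgroupOf (nrm x)).index = 3 := by
    have := (𝒞[t].subgroupOf (nrm x)).card_mul_index
    rw [Nat.card_congr (subgroupOfEquivOfLe le).toEquiv, h.card, hN] at this
    omega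
  have inj : Function.Injective fun i : X => (QuotientGroup.mk ⟨f i, hf i⟩ : nrm x ⧸ 𝒞[t].subgroupOf (nrm x)) :=
    fun i j e => by
      have := mem_centralizer_singleton_iff.1 (mem_subgroupOf.1 (QuotientGroup.eq.1 e))
      apply Subtype.ext
      rw [← hf' i, ← hf' j]
      calc _ = f i * (t * ((f i)⁻¹ * f j)) * (f j)⁻¹ := by group
        _ = _ := by
          simp only [coe_mul, coe_inv] at this
          rw [← this]; group
  have hX : X.ncard ≤ 3 := hi ▸ Nat.card_le_card_of_injective _ inj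
  have : ({t, s, s * t} : Set G) = X := Set.eq_of_subset_of_ncard_le (by
    rintro _ (rfl | rfl | rfl)
    · exact ⟨h.t2, t1, xt.symm⟩
    · exact ⟨h.s2, s1, h.sx⟩
    · exact ⟨by rw [cst.mul_pow, h.s2, h.t2, mul_one], st1, Commute.mul_left h.sx xt.symm⟩)
    (by rw [Set.ncard_eq_three.2 ⟨t, s, s * t, st.symm, stt.symm, sts.symm, rfl⟩]; exact hX)
  have h1 : i ∈ X := ⟨i2, i1, hy⟩
  rw [← this] at h1
  exact h1

theorem comm_invs [Finite G] (hN : Nat.card (nrm x) = 72) {i j y : G} (i2 : i ^ 2 = 1) (i1 : i ≠ 1)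
    (j2 : j ^ 2 = 1) (j1 : j ≠ 1) (y3 : y ^ 3 = 1) (y1 : y ≠ 1) (hi : Commute i y) (hj : Commute j y) :
    Commute i j := by
  obtain ⟨g, rfl, h2⟩ := h.pull hcls i2 i1 y3 y1 hi
  have h3 : Commute (g⁻¹ * j * g) (g⁻¹ * y * g) := by
    show _ = _
    calc _ = g⁻¹ * (j * y) * g := by group
      _ = _ := by rw [hj.eq]; group
  have h4 : Commute (g⁻¹ * j * g) x := by
    rcases h2 with h2 | h2 <;> rw [h2] at h3
    · exact h3
    · simpa using h3
  have h5 : Commute t (g⁻¹ * j * g) := by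
    rcases h.invs hcls hN (i := g⁻¹ * j * g) (by
      rw [show g⁻¹ * j * g = g⁻¹ * j * g⁻¹⁻¹ by rw [inv_inv], conj_pow, j2]; group) (fun e => j1 (by
        calc j = g * (g⁻¹ * j * g) * g⁻¹ := by group
          _ = 1 := by rw [e]; group)) h4 with e | e | e <;> rw [e]
    · exact h.facts.2.2.2.2.2.2.2.2.1.symm
    · exact h.facts.2.2.2.2.2.2.2.2.1.symm.mul_right (Commute.refl t)
  show _ = _
  calc _ = g * (t * (g⁻¹ * j * g)) * g⁻¹ := by group
    _ = _ := by rw [h5.eq]; group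

set_option maxHeartbeats 1000000 in
theorem exists_Q [Finite G] (hc : Nat.card G = 2520) (hN : Nat.card (nrm x) = 72) :
    ∃ Q : Sylow 3 G, x ∈ Q ∧ (∀ q ∈ Q, s * c * q * (s * c)⁻¹ = q⁻¹) ∧ (∀ a ∈ Q, ∀ b ∈ Q, Commute a b) ∧
      (∀ q ∈ Q, q ^ 9 = 1) ∧ (∀ g, (∀ q ∈ Q, Commute g q) → g ∈ Q) ∧ ∃ f ∈ 𝒩((Q : Subgroup G)), f ∉ nrm x := by
  have := Fact.mk Nat.prime_three
  obtain ⟨x1, t1, s1, st, st1, stt, sts, xt, cst, cct, w2, w1, tw, wx, ws⟩ := h.facts
  have wt : Commute (s * c) t := cst.mul_left cct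
  generalize s * c = w at *
  have st2 : (s * t) ^ 2 = 1 := by rw [cst.mul_pow, h.s2, h.t2, mul_one]
  have wi : w⁻¹ = w := by rw [inv_eq_iff_mul_eq_one, ← pow_two, w2]
  obtain ⟨n, nN, nt⟩ := h.pullN hcls h.s2 s1 h.sx
  obtain ⟨r, hr⟩ : ∃ r, r = n * w * n⁻¹ := ⟨_, rfl⟩
  have r2 : r * r = 1 := by rw [← pow_two, hr, conj_pow, w2]; group
  have ri : r⁻¹ = r := by rw [inv_eq_iff_mul_eq_one, r2]
  have rx : r * x * r⁻¹ = x⁻¹ := by
    have := (nrm x).inv_mem nN
    rw [mem_nrm, inv_inv] at this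
    calc _ = n * (w * (n⁻¹ * x * n) * w⁻¹) * n⁻¹ := by rw [hr]; group
      _ = n * (n⁻¹ * x * n)⁻¹ * n⁻¹ := by
        rcases this with e | e <;> rw [e]
        · rw [wx]
        · rw [← conj_inv, wx]
      _ = _ := by group
  have rs : r * s * r⁻¹ = s := by
    calc _ = n * (w * (n⁻¹ * (n * t * n⁻¹) * n) * w⁻¹) * n⁻¹ := by rw [hr, nt]; group
      _ = n * (w * t * w⁻¹) * n⁻¹ := by group
      _ = _ := by rw [wt.eq, ← nt]; group
  have cj : ∀ g ∈ nrm x, ∀ i, i ^ 2 = 1 → i ≠ 1 → Commute i x →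
      g * i * g⁻¹ = t ∨ g * i * g⁻¹ = s ∨ g * i * g⁻¹ = s * t := fun g hg i i2 i1 hi => by
    refine h.invs hcls hN (by rw [conj_pow, i2]; group) (by simpa using i1) ?_
    have : Commute (g * i * g⁻¹) (g * x * g⁻¹) := by
      show _ = _
      rw [conj_mul, conj_mul, hi.eq]
    rcases hg with e | e <;> rw [e] at this
    · exact this
    · simpa using this
  have rt : r * t * r⁻¹ = s * t := by
    have nt' : r * t * r⁻¹ ≠ t := fun e => by
      have e1 : w * (n⁻¹ * t * n) * w⁻¹ = n⁻¹ * t * n := by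
        calc _ = n⁻¹ * (r * t * r⁻¹) * n := by rw [hr]; group
          _ = _ := by rw [e]
      have := cj _ ((nrm x).inv_mem nN) t h.t2 t1 xt.symm
      rw [inv_inv] at this
      rcases this with e2 | e2 | e2
      · apply st; rw [← nt]; conv_lhs => rw [← e2]
        group
      · rw [e2, ws] at e1; exact sts e1
      · rw [e2, ← conj_mul, ws, wt.eq, mul_inv_cancel_right, mul_left_inj] at e1; exact sts e1
    rcases cj r (Or.inr rx) t h.t2 t1 xt.symm with e | e | e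
    · exact absurd e nt'
    · rw [← rs] at e; exact absurd (by simpa using e) st.symm
    · exact e
  have wt' : w * t * w⁻¹ = t := by rw [wt.eq]; group
  have ss : s * s = 1 := by rw [← pow_two, h.s2]
  have tt : t * t = 1 := by rw [← pow_two, h.t2]
  obtain ⟨m, hm⟩ : ∃ m, m = w * r := ⟨_, rfl⟩
  have cjm : ∀ g, m * g * m⁻¹ = w * (r * g * r⁻¹) * w⁻¹ := fun g => by rw [hm]; group
  have mx : m * x * m⁻¹ = x := by rw [cjm, rx, ← conj_inv, wx, inv_inv]
  have mt : m * t * m⁻¹ = s := by rw [cjm, rt, ← conj_mul, ws, wt', mul_assoc, tt, mul_one]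
  have ms : m * s * m⁻¹ = s * t := by rw [cjm, rs, ws]
  have mst : m * (s * t) * m⁻¹ = t := by rw [← conj_mul, ms, mt, mul_assoc, ← cst.eq, ← mul_assoc, ss, one_mul]
  have mx' : Commute m x := by show _ = _; rw [← mul_inv_eq_iff_eq_mul, mx]
  have wm : w * m * w⁻¹ = m⁻¹ := by
    rw [hm, mul_inv_rev, wi, ri, ← mul_assoc, ← pow_two, w2, one_mul]
  have m9 : m ^ 9 = 1 := by
    have c3 : ∀ g, m ^ 3 * g * (m ^ 3)⁻¹ = m * (m * (m * g * m⁻¹) * m⁻¹) * m⁻¹ := fun g => by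
      simp only [pow_succ, pow_zero, one_mul, mul_inv_rev, mul_assoc]
    have k : ∀ (k : ℕ) v, m ^ 3 = x ^ k * v → m * v * m⁻¹ = v := fun k v e => by
      have : v = (x ^ k)⁻¹ * m ^ 3 := by rw [e]; group
      rw [this, ((mx'.pow_right k).inv_right.mul_right (Commute.pow_right (Commute.refl m) 3)).eq]; group
    obtain ⟨j, e | e | e | e⟩ := h.cenV (g := m ^ 3)
      (by show _ = _; rw [← mul_inv_eq_iff_eq_mul, c3, mt, ms, mst])
      (by show _ = _; rw [← mul_inv_eq_iff_eq_mul, c3, ms, mst, mt])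
    · rw [show 9 = 3 * 3 from rfl, pow_mul, e, ← pow_mul, mul_comm, pow_mul, h.x3, one_pow]
    · exact absurd (mt.symm.trans (k _ _ e)) st
    · exact absurd (ms.symm.trans (k _ _ e)) sts
    · exact absurd (mst.symm.trans (k _ _ e)) stt.symm
  let K := closure ({x, m} : Set G)
  have Kc : ∀ a ∈ K, ∀ b ∈ K, Commute a b := fun a ha b hb => by
    have := isMulCommutative_closure (k := ({x, m} : Set G)) (by
      rintro _ (rfl | rfl) _ (rfl | rfl)
      exacts [rfl, mx'.symm, mx', rfl])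
    exact setLike_mul_comm ha hb
  have Kp : ∀ a ∈ K, a ^ 9 = 1 ∧ w * a * w⁻¹ = a⁻¹ := fun a ha => by
    induction ha using closure_induction with
    | mem a ha =>
      rcases ha with rfl | rfl
      · exact ⟨by rw [show 9 = 3 * 3 from rfl, pow_mul, h.x3, one_pow], wx⟩
      · exact ⟨m9, wm⟩
    | one => simp
    | mul a b ha hb ia ib =>
      exact ⟨by rw [(Kc a ha b hb).mul_pow, ia.1, ib.1, mul_one], by
        rw [← conj_mul, ia.2, ib.2, ← mul_inv_rev, (Kc a ha b hb).eq]⟩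
    | inv a ha ia => exact ⟨by rw [inv_pow, ia.1, inv_one], by rw [← conj_inv, ia.2]⟩
  have xK : x ∈ K := subset_closure (by simp)
  have mK : m ∈ K := subset_closure (by simp)
  obtain ⟨Q, hQ⟩ := IsPGroup.exists_le_sylow (p := 3) (P := K) fun a => ⟨2, Subtype.ext (Kp a a.2).1⟩
  have Q9 : Nat.card Q = 9 := by
    rw [Q.card_eq_multiplicity, hc, Nat.factorization_eq_of_coprime_left (a := 9) (b := 280) (by norm_num) (by
      simp)]
    rw [show 9 = 3 ^ 2 from rfl, Nat.prime_three.factorization_pow]; simp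
  have ox : orderOf x = 3 := orderOf_eq_prime h.x3 x1
  have KQ : K = Q := by
    have h1 : Nat.card K ∣ 3 ^ 2 := by rw [show 3 ^ 2 = 9 from rfl, ← Q9]; exact card_dvd_of_le hQ
    have h2 : zpowers x ≤ K := zpowers_le.2 xK
    have h3 := card_le_of_le h2
    rw [Nat.card_zpowers, ox] at h3
    refine eq_of_le_of_card_ge hQ ?_
    obtain ⟨j, hj, e⟩ := (Nat.dvd_prime_pow Nat.prime_three).1 h1
    interval_cases j
    · omega
    · have : zpowers x = K := eq_of_le_of_card_ge h2 (by rw [Nat.card_zpowers, ox, e]; rfl)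
      rw [← this] at mK
      obtain ⟨k, hk⟩ := mK
      have : Commute m t := hk ▸ xt.zpow_left k
      rw [this.eq, mul_inv_cancel_right] at mt
      exact absurd mt.symm st
    · rw [e]; exact Q9.le
  have mem : ∀ {a}, a ∈ Q → a ∈ K := fun ha => KQ ▸ ha
  have xQ : x ∈ Q := hQ xK
  have mQ : m ∈ Q := hQ mK
  refine ⟨Q, xQ, fun q hq => (Kp q (mem hq)).2, fun a ha b hb => Kc a (mem ha) b (mem hb),
    fun q hq => (Kp q (mem hq)).1, fun g hg => ?_, ?_⟩
  · have h1 : (Q : Subgroup G) ≤ 𝒞((Q : Subgroup G)) := fun a ha b hb => (Kc b (mem hb) a (mem ha)).eq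
    have h2 : 𝒞((Q : Subgroup G)) ≤ nrm x := fun a ha => mem_nrm_of_comm (ha x xQ).symm
    have h3 := card_dvd_of_le h2
    have h4 : ¬ 2 ∣ Nat.card 𝒞((Q : Subgroup G)) := fun h2' => by
      obtain ⟨⟨i, hi⟩, oi⟩ := @exists_prime_orderOf_dvd_card' 𝒞((Q : Subgroup G)) _ _ 2 ⟨Nat.prime_two⟩ h2'
      rw [orderOf_mk] at oi
      have e : m * i * m⁻¹ = i := by rw [show m * i = i * m from hi m mQ]; group
      have ix : Commute i x := (hi x xQ).symm
      rcases h.invs hcls hN (i := i) (by rw [← pow_orderOf_eq_one i, oi]) (fun e => by simp [e] at oi) ix with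
        e' | e' | e' <;> rw [e'] at e
      exacts [st (mt.symm.trans e), sts (ms.symm.trans e), stt (mst.symm.trans e).symm]
    have h5 : Nat.card 𝒞((Q : Subgroup G)) ∣ 9 := by
      rw [hN, show 72 = 2 ^ 3 * 9 from rfl] at h3
      exact ((Nat.prime_two.coprime_iff_not_dvd.2 h4).symm.pow_right 3).dvd_of_dvd_mul_left h3
    have : (Q : Subgroup G) = 𝒞((Q : Subgroup G)) := eq_of_le_of_card_ge h1 (by rw [Q9]; exact Nat.le_of_dvd (by norm_num) h5)
    show g ∈ (Q : Subgroup G)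
    rw [this]
    exact fun q hq => (hg q hq).symm.eq
  · by_contra hn
    push Not at hn
    have h1 := card_dvd_of_le (show 𝒩((Q : Subgroup G)) ≤ nrm x from hn)
    have h2 := card_dvd_of_le (le_normalizer (H := (Q : Subgroup G)))
    have wN : w ∈ 𝒩((Q : Subgroup G)) := by
      refine mem_normalizer_iff.2 fun q => ⟨fun hq => ?_, fun hq => ?_⟩
      · rw [(Kp q (mem hq)).2]; exact inv_mem hq
      · have := (Kp _ (mem hq)).2
        rw [show w * (w * q * w⁻¹) * w⁻¹ = w ^ 2 * q * (w ^ 2)⁻¹ by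
          simp only [pow_two, mul_inv_rev, mul_assoc], w2, one_mul, inv_one, mul_one] at this
        rw [this]; exact inv_mem hq
    have h3 := orderOf_dvd_natCard (⟨w, wN⟩ : 𝒩((Q : Subgroup G)))
    rw [orderOf_mk, orderOf_eq_prime w2 w1] at h3
    have h4 := card_sylow_modEq_one 3 G
    rw [Q.card_eq_index_normalizer] at h4
    have h5 := (𝒩((Q : Subgroup G))).card_mul_index
    have h6 : (𝒩((Q : Subgroup G))).relIndex (nrm x) * Nat.card 𝒩((Q : Subgroup G)) = 72 := by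
      rw [← hN, ← Nat.card_congr (subgroupOfEquivOfLe (show 𝒩((Q : Subgroup G)) ≤ nrm x from hn)).toEquiv, mul_comm]
      exact card_mul_index _
    have h7 : (𝒩((Q : Subgroup G))).relIndex (nrm x) = 2 := by
      rw [hN] at h1; rw [Q9] at h2; rw [hc] at h5
      have h8 : 18 ∣ Nat.card 𝒩((Q : Subgroup G)) := Nat.Coprime.mul_dvd_of_dvd_of_dvd (m := 9) (n := 2) (by norm_num) h2 h3
      change (𝒩((Q : Subgroup G))).index % 3 = 1 at h4
      generalize Nat.card 𝒩((Q : Subgroup G)) = a at *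
      obtain ⟨b, rfl⟩ := h8
      have : b ≤ 4 := by have := Nat.le_of_dvd (by norm_num) h1; omega
      interval_cases b <;> omega
    have tN : t ∈ 𝒩((Q : Subgroup G)) := by
      rw [← h.c2, pow_two]
      by_cases hcN : c ∈ 𝒩((Q : Subgroup G))
      · exact mul_mem hcN hcN
      · exact CA.Dih.mul_mem_of_relIndex_two h7 (h.norm cct) (h.norm cct) hcN hcN
    have h8 : m * (t * m * t⁻¹)⁻¹ ∈ Q := mul_mem mQ (inv_mem ((mem_normalizer_iff.1 tN m).1 mQ))
    rw [show m * (t * m * t⁻¹)⁻¹ = m * t * m⁻¹ * t⁻¹ by group, mt, show t⁻¹ = t by rw [inv_eq_iff_mul_eq_one, tt]] at h8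
    have := (Kp _ (mem h8)).1
    rw [show 9 = 2 * 4 + 1 from rfl, pow_succ, pow_mul, st2, one_pow, one_mul] at this
    exact st1 this

theorem a7 [Finite G] [IsSimpleGroup G] (hc : Nat.card G = 2520) : Nonempty (G ≃* alternatingGroup (Fin 7)) := by
  have := Fact.mk Nat.prime_three
  obtain ⟨x1, t1, s1, st, st1, stt, sts, xt, cst, cct, w2, w1, tw, wx, ws⟩ := h.facts
  have ox : orderOf x = 3 := orderOf_eq_prime h.x3 x1
  by_cases h7 : (nrm x).index ≤ 7
  · refine a7_of_index hc (fun e => ?_) h7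
    have : (zpowers x).Normal := ⟨fun _ ⟨k, hk⟩ g => by
      rw [← hk, ← conj_zpow]
      rcases (show g ∈ nrm x by rw [e]; trivial) with e | e <;> rw [e]
      · exact zpow_mem (mem_zpowers x) k
      · exact zpow_mem (inv_mem (mem_zpowers x)) k⟩
    rcases this.eq_bot_or_eq_top with e | e
    · exact x1 (zpowers_eq_bot.1 e)
    · have := Nat.card_zpowers x
      rw [e, card_top, hc, ox] at this; omega
  have hN : Nat.card (nrm x) = 72 := by
    have h1 := card_dvd_of_le (show 𝒞[t] ≤ nrm x from fun g hg => h.norm (mem_centralizer_singleton_iff.1 hg))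
    obtain ⟨P, hP⟩ := IsPGroup.exists_le_sylow (p := 3) (P := zpowers x)
      (IsPGroup.of_card (n := 1) (by rw [Nat.card_zpowers, ox]; rfl))
    have P9 : Nat.card P = 3 ^ 2 := by
      rw [P.card_eq_multiplicity, hc, Nat.factorization_eq_of_coprime_left (a := 9) (b := 280) (by norm_num) (by
        simp)]
      rw [show 9 = 3 ^ 2 from rfl, Nat.prime_three.factorization_pow]; simp
    have := IsPGroup.isMulCommutative_of_card_eq_prime_sq P9
    have h2 := card_dvd_of_le (show (P : Subgroup G) ≤ nrm x from fun g hg =>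
      mem_nrm_of_comm (setLike_mul_comm hg (hP (mem_zpowers x))))
    have h3 := (nrm x).card_mul_index
    rw [h.card] at h1; rw [P9] at h2; rw [hc] at h3
    obtain ⟨b, hb⟩ : 72 ∣ Nat.card (nrm x) :=
      Nat.Coprime.mul_dvd_of_dvd_of_dvd (m := 8) (n := 9) (by norm_num) (dvd_trans (by norm_num) h1) h2
    rw [hb] at h3 ⊢
    have : b < 5 := by nlinarith
    interval_cases b <;> omega
  obtain ⟨Q, xQ, wQ, cQ, Q9, CQ, f0, f0Q, f0N⟩ := h.exists_Q hcls hc hN
  have wt : Commute (s * c) t := cst.mul_left cct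
  generalize s * c = w at *
  have wi : w⁻¹ = w := by rw [inv_eq_iff_mul_eq_one, ← pow_two, w2]
  have QN : ∀ q ∈ Q, q ∈ nrm x := fun q hq => mem_nrm_of_comm (cQ q hq x xQ)
  have hq0 : f0 * w * f0⁻¹ * w⁻¹ ∈ Q := CQ _ fun q hq => by
    have e := wQ _ ((mem_normalizer_iff.1 (inv_mem f0Q) q).1 hq)
    show _ = _
    calc _ = f0 * w * f0⁻¹ * (w * q * w⁻¹) * w := by rw [wi]; rw [← mul_assoc, mul_assoc _ w w, ← pow_two, w2]; group
      _ = f0 * (w * (f0⁻¹ * q * f0⁻¹⁻¹) * w⁻¹)⁻¹ * (w * f0⁻¹ * w) := by rw [wQ q hq]; group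
      _ = _ := by rw [e, wi]; group
  obtain ⟨f, fQ, fN, fw⟩ : ∃ f ∈ 𝒩((Q : Subgroup G)), f ∉ nrm x ∧ Commute f w := by
    obtain ⟨q, hq, e⟩ : ∃ q ∈ Q, q * q = f0 * w * f0⁻¹ * w⁻¹ :=
      ⟨_, pow_mem hq0 5, by rw [← pow_add, pow_succ, Q9 _ hq0, one_mul]⟩
    refine ⟨q⁻¹ * f0, mul_mem (inv_mem (le_normalizer hq)) f0Q, fun hf => f0N ?_, ?_⟩
    · simpa using mul_mem (QN q hq) hf
    · show _ = _
      calc _ = q⁻¹ * (f0 * w * f0⁻¹ * w⁻¹) * w * f0 := by group
        _ = (w * q * w⁻¹)⁻¹ * w * f0 := by rw [← e, wQ q hq]; group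
        _ = _ := by group
  obtain ⟨m, hm⟩ : ∃ m, m = f * x * f⁻¹ := ⟨_, rfl⟩
  have mQ : m ∈ Q := hm ▸ (mem_normalizer_iff.1 fQ x).1 xQ
  have m3 : m ^ 3 = 1 := by rw [hm, conj_pow, h.x3]; group
  have mx : m ≠ x := fun e => fN (Or.inl (hm ▸ e))
  have mx' : m ≠ x⁻¹ := fun e => fN (Or.inr (hm ▸ e))
  have xm := cQ x xQ m mQ
  obtain ⟨g, hg⟩ := hcls w w2 w1
  have hw := h.conj g
  rw [hg] at hw
  have f4 : f ^ 4 = 1 := by
    have h1 := hw.twelve fw
    have h2 : IsPGroup 3 (zpowers (f ^ 4)) := fun ⟨y, k, hk⟩ => ⟨1, Subtype.ext (by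
      show y ^ 3 = 1
      rw [← hk, ← zpow_natCast, ← zpow_mul, mul_comm, zpow_mul, zpow_natCast, h1, one_zpow])⟩
    have h3 : f ^ 4 ∈ zpowers (f ^ 4) ⊓ 𝒩((Q : Subgroup G)) := ⟨mem_zpowers _, pow_mem fQ 4⟩
    have h4 := wQ _ ((h2.inf_normalizer_sylow Q).le h3).2
    rw [← (fw.pow_left 4).eq, mul_inv_cancel_right, eq_inv_iff_mul_eq_one] at h4
    rwa [pow_succ, pow_two, h4, one_mul] at h1
  have f2 : f ^ 2 = w := (hw.four fw f4).resolve_left fun f2 => by
    have fi : f⁻¹ = f := by rw [inv_eq_iff_mul_eq_one, ← pow_two, f2]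
    have f1 : f ≠ 1 := fun e => fN (e ▸ one_mem _)
    have fm : f * m * f⁻¹ = x := by
      rw [hm, show f * (f * x * f⁻¹) * f⁻¹ = f ^ 2 * x * (f ^ 2)⁻¹ by simp only [pow_two, mul_inv_rev, mul_assoc], f2]
      group
    have fy : Commute f (x * m) := by
      show _ = _
      rw [← mul_inv_eq_iff_eq_mul, ← conj_mul, fm, ← hm, xm.eq]
    have xy : Commute x (x * m) := (Commute.refl x).mul_right xm
    have := h.comm_invs hcls hN (j := x * f * x⁻¹) (y := x * m) f2 f1 (by rw [conj_pow, f2]; group) (by simpa using f1)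
      (by rw [xm.mul_pow, h.x3, m3, mul_one]) (fun e => mx' (eq_inv_of_mul_eq_one_right e)) fy
      ((xy.mul_left fy).mul_left xy.inv_left)
    have e : m * x⁻¹ = x * m⁻¹ := by
      calc _ = f * (x * f * x⁻¹) := by rw [hm, fi]; group
        _ = x * (f * x⁻¹ * f⁻¹) := by rw [this.eq, fi]; group
        _ = _ := by rw [hm]; group
    have e2 : (m * x⁻¹) ^ 3 = 1 := by rw [xm.symm.inv_right.mul_pow, m3, inv_pow, h.x3, inv_one, mul_one]
    rw [pow_succ, pow_two] at e2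
    nth_rw 2 [e] at e2
    exact mx (by simpa [mul_assoc, mul_inv_eq_one] using e2)
  have fm : f * m * f⁻¹ = x⁻¹ := by
    rw [hm, show f * (f * x * f⁻¹) * f⁻¹ = f ^ 2 * x * (f ^ 2)⁻¹ by simp only [pow_two, mul_inv_rev, mul_assoc], f2, wx]
  have ss : s * s = 1 := by rw [← pow_two, h.s2]
  have tt : t * t = 1 := by rw [← pow_two, h.t2]
  have mt : (m * t) ^ 3 = 1 := by
    have n1 : m * t * m⁻¹ ≠ t := fun e => by
      rcases h.three (g := m) (by show _ = _; rw [← mul_inv_eq_iff_eq_mul, e]) m3 with e | e | e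
      · rw [e, eq_comm] at hm; exact x1 (by simpa using hm)
      · exact mx e
      · exact mx' e
    have k : ∀ q ∈ Q, q * t * q⁻¹ = t ∨ q * t * q⁻¹ = s ∨ q * t * q⁻¹ = s * t := fun q hq =>
      h.invs hcls hN (by rw [conj_pow, h.t2]; group) (by simpa using t1)
        (((cQ q hq x xQ).mul_left xt.symm).mul_left (cQ q hq x xQ).inv_left)
    have mi : m * m = m⁻¹ := by rw [eq_inv_iff_mul_eq_one, ← m3]; simp only [pow_succ, pow_zero, one_mul]
    have e : (m * t) ^ 3 = (m * t * m⁻¹) * (m⁻¹ * t * m⁻¹⁻¹) * t := by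
      have : m⁻¹ * m⁻¹ = m := by rw [← mul_inv_rev, mi, inv_inv]
      calc _ = m * t * m * t * m * t := by simp only [pow_succ, pow_zero, one_mul, mul_assoc]
        _ = m * t * (m⁻¹ * m⁻¹) * t * m * t := by rw [this]
        _ = _ := by group
    have n2 : m⁻¹ * t * m⁻¹⁻¹ ≠ t := fun e => n1 (by
      conv_lhs => rw [← e]
      group)
    have n3 : m * t * m⁻¹ ≠ m⁻¹ * t * m⁻¹⁻¹ := fun e => n2 (by
      calc _ = m * m * t * (m * m)⁻¹ := by rw [mi]
        _ = m * (m * t * m⁻¹) * m⁻¹ := by simp only [mul_inv_rev, mul_assoc]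
        _ = t := by rw [e]; group)
    rw [e]
    rcases (k m mQ).resolve_left n1 with e1 | e1 <;> rcases (k _ (inv_mem mQ)).resolve_left n2 with e2 | e2
    · exact absurd (e1.trans e2.symm) n3
    · rw [e1, e2, ← mul_assoc, ss, one_mul, tt]
    · rw [e1, e2, mul_assoc, ← pow_two, cst.mul_pow, h.s2, h.t2, mul_one]
    · exact absurd (e1.trans e2.symm) n3
  have cb := hw.cube f2 wt.symm h.t2 t1 tw
  obtain ⟨a, ha⟩ : ∃ a, a = f * t * f⁻¹ := ⟨_, rfl⟩
  have ww : w * w = 1 := by rw [← pow_two, w2]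
  have aa : a * a = 1 := by rw [ha, conj_mul, tt]; group
  have ma : Commute m a := by show _ = _; rw [hm, ha, conj_mul, conj_mul, xt.eq]
  have wa : Commute w a := ha ▸ (fw.symm.mul_right wt).mul_right fw.symm.inv_right
  have xa : (x⁻¹ * a) ^ 3 = 1 := by rw [← fm, ha, conj_mul, conj_pow, mt]; group
  rw [← ha] at cb
  refine a7_equiv hc (fun g => [x, x⁻¹, m, m⁻¹, t, w, a].getD g 1) (fun g hg => ?_) (fun r hr => ?_) x1
  · interval_cases g <;> simp [a7i, wi, eq_inv_iff_mul_eq_one, tt, aa]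
  · have hx := h.x3
    have wm := wQ m mQ
    rw [wi] at wx wm
    simp only [pow_succ, pow_zero, one_mul, mul_assoc] at hx m3 mt xa cb wx wm
    simp only [a7B, List.mem_cons, List.not_mem_nil, or_false] at hr
    rcases hr with rfl | rfl | rfl | rfl | rfl | rfl | rfl | rfl | rfl | rfl | rfl | rfl | rfl | rfl | rfl <;>
      simp only [wd_cons, wd_nil, mul_one, List.getD_cons_succ, List.getD_cons_zero]
    · exact hx
    · exact m3
    · exact tt
    · exact ww
    · rw [← mul_assoc, xm.eq]; group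
    · rw [← mul_assoc, xt.eq, mul_assoc, mul_inv_cancel_left, tt]
    · exact mt
    · rw [← mul_assoc x, ← mul_assoc w, wx, inv_mul_cancel]
    · rw [← mul_assoc m, ← mul_assoc w, wm, inv_mul_cancel]
    · rw [← mul_assoc t, ← wt.eq, mul_assoc, tt, mul_one, ww]
    · exact aa
    · rw [← mul_assoc, ma.eq, mul_assoc, mul_inv_cancel_left, aa]
    · exact xa
    · rw [← mul_assoc a, ← wa.eq, mul_assoc, aa, mul_one, ww]
    · rw [← ww]; nth_rw 2 [← cb]; simp only [mul_assoc]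

end Fr

/-- A simple group of order 2520 with one class of involutions, dihedral Sylow 2-subgroups and
`|O(C(t))| = 3` with the action of `A₇` is `A₇`. -/
theorem a7id [Finite G] [IsSimpleGroup G] (hcls : ∀ i j : G, orderOf i = 2 → orderOf j = 2 → IsConj i j)
    (hc : Nat.card G = 2520) {S : Subgroup G} (hS : IsSylowOf 2 S ⊤) {c s : G} (hD : CA.Dih.IsDih S c)
    (h4 : orderOf c = 4) (hU : Nat.card (pPrimeCoreOf 2 𝒞[c ^ 2]) = 3) (hs : s ∈ S) (hsc : s ∉ zpowers c)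
    (h1 : s ∈ 𝒞(pPrimeCoreOf 2 𝒞[c ^ 2])) (h2 : ∀ u ∈ pPrimeCoreOf 2 𝒞[c ^ 2], s * c * u * (s * c)⁻¹ = u⁻¹) :
    Nonempty (G ≃* alternatingGroup (Fin 7)) := by
  have := Fact.mk Nat.prime_three
  have ot : orderOf (c ^ 2) = 2 := by rw [orderOf_pow, h4]; rfl
  have hH := hD.hall_core hS ot
  obtain ⟨⟨x, hx⟩, ox⟩ := exists_prime_orderOf_dvd_card' (G := pPrimeCoreOf 2 𝒞[c ^ 2]) 3 hU.symm.dvd
  rw [orderOf_mk] at ox
  have ss := hD.sq s hs hsc
  have sc := hD.sq _ (mul_mem hs hD.mem) fun e => hsc (by simpa using mul_mem e (inv_mem (mem_zpowers c)))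
  have sx : s * x = x * s := (h1 x hx).symm
  have h : Fr (c ^ 2) x c s := Fr0.fr ⟨ox ▸ pow_orderOf_eq_one x, rfl, by rw [← pow_mul, ← pow_orderOf_eq_one c, h4], by rw [pow_two, ss],
    by rw [eq_inv_mul_iff_mul_eq, ← mul_left_cancel_iff (a := s), ss, ← sc]; group, sx, by
      rw [← mul_left_cancel_iff (a := s), ← mul_assoc, mul_inv_eq_iff_eq_mul.1 (h2 x hx), ← mul_assoc, ← mul_assoc,
        (Commute.inv_right sx).eq]⟩ (fun e => by simp [e] at ox) (fun e => by simp [e] at ot) (by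
    have h3 : Nat.card (pPrimeCoreOf 2 𝒞[c ^ 2]) * (pPrimeCoreOf 2 𝒞[c ^ 2]).relIndex 𝒞[c ^ 2] = Nat.card 𝒞[c ^ 2] := by
      rw [← Nat.card_congr (subgroupOfEquivOfLe hH.le).toEquiv]; exact card_mul_index _
    have h5 := card_subgroup_dvd_card 𝒞[c ^ 2]
    rw [hU] at h3
    rw [hc, ← h3, show 2520 = 3 * (8 * (3 * 5 * 7)) from rfl, Nat.mul_dvd_mul_iff_left (by norm_num)] at h5
    have k : ∀ p, p.Prime → p ≠ 2 → ((pPrimeCoreOf 2 𝒞[c ^ 2]).relIndex 𝒞[c ^ 2]).Coprime p := fun p hp h =>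
      (hp.coprime_iff_not_dvd.2 (hH.2.2 p hp h)).symm
    have := Nat.le_of_dvd (by norm_num) ((((k 3 (by norm_num) (by norm_num)).mul_right
      (k 5 (by norm_num) (by norm_num))).mul_right (k 7 (by norm_num) (by norm_num))).dvd_of_dvd_mul_right h5)
    omega)
  exact h.a7 (fun i i2 i1 => isConj_iff.1 (hcls _ _ ot (orderOf_eq_prime i2 i1))) hc

end CA.GW

theorem CA.realizeEqns_GW_A7c : True := by
  have := @CA.GW.nrm.eq_1.{0}
  have := @CA.GW.nrm.eq_def.{0}
  have := @CA.GW.nrm.congr_simp.{0}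
  trivial
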