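/-
The `A₇` configuration.
-/
import Cfsg.Agent.GW.A7c
import Cfsg.Agent.GW.Defs
set_option autoImplicit false

namespace CA.GW
open Cfsg CA.FG Subgroup

variable {G : Type*} [Group G]

theorem IsInv.orderOf_eq {a : G} (h : IsInv a) : orderOf a = 2 :=
  orderOf_eq_prime (by rw [pow_two, h.1]) h.2

theorem isInv_of_orderOf {a : G} (h : orderOf a = 2) : IsInv a :=
  ⟨by rw [← pow_two, ← pow_orderOf_eq_one a, h], fun e => by simp [e] at h⟩

theorem A7T.iso [Finite G] [IsSimpleGroup G] {S : Subgroup G} {c t s : G} (h : A7T S c t s) :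
    Nonempty (G ≃* alternatingGroup (Fin 7)) := by
  classical
  have e : c ^ 2 = t := by
    obtain ⟨k, hk, e⟩ := (mem_zpowers_iff_mem_range_orderOf.trans Finset.mem_image).1 h.tc
    have o := h.inv.orderOf_eq
    rw [Finset.mem_range, h.m4] at hk
    rw [← e, orderOf_pow, h.m4] at o
    interval_cases k <;> simp_all
  subst e
  exact a7id (fun i j hi hj => (h.one i (isInv_of_orderOf hi)).symm.trans (h.one j (isInv_of_orderOf hj))) h.card h.syl
    h.dih h.m4 h.cardU h.sS h.sc h.cs h.isc

end CA.GW
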