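/-
Groups with dihedral Sylow 2-subgroups: the case where `C(t)` is not a maximal subgroup.
-/
import Cfsg.Agent.GW.OG1
import Cfsg.Agent.GW.A7d

set_option autoImplicit false
set_option linter.unusedSectionVars false

namespace CA.GW

open Subgroup Cfsg CA.FG CA.BG CA.Dih
open scoped commutatorElement

universe u

variable {G : Type u} [Group G] [Finite G] {S M : Subgroup G} {c t s : G}

theorem cent_of_Iset_le {U : Subgroup G} (oU : IsPiGrp {2}ᶜ U) {w y : G} (h5 : (Iset U w).ncard ≤ 5)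
    (hy : y ∈ Iset U w) : U ⊓ 𝒞[w] ≤ 𝒞[y] := by
  by_cases y1 : y = 1
  · subst y1; exact fun g _ => mem_centralizer_singleton_iff.2 (by simp)
  let O := {z | ∃ g ∈ U ⊓ 𝒞[w], g * y * g⁻¹ = z}
  have oB : IsPiGrp {2}ᶜ (U ⊓ 𝒞[w] : Subgroup G) := oU.inf_left _
  have h1 : O ⊆ Iset U w := by
    rintro _ ⟨g, hg, rfl⟩
    refine ⟨U.mul_mem (U.mul_mem hg.1 hy.1) (U.inv_mem hg.1), ?_⟩
    have := mem_centralizer_singleton_iff.1 hg.2
    calc _ = (w * g) * y * (w * g)⁻¹ := by group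
      _ = g * (w * y * w⁻¹) * g⁻¹ := by rw [← this]; group
      _ = _ := by rw [hy.2]; group
  have h2 : insert 1 (O ∪ O⁻¹) ⊆ Iset U w := by
    rintro z (rfl | hz | hz)
    · exact ⟨one_mem _, by simp⟩
    · exact h1 hz
    · exact ⟨inv_mem_iff.1 (h1 hz).1, by simpa [mul_assoc] using congrArg (·⁻¹) (h1 hz).2⟩
  have h3 : Disjoint O O⁻¹ := Set.disjoint_left.2 (by
    rintro _ ⟨g, hg, rfl⟩ ⟨g', hg', e⟩
    have hu := mul_mem (inv_mem hg) hg'
    have e1 : g⁻¹ * g' * y * (g⁻¹ * g')⁻¹ = y⁻¹ := by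
      calc _ = g⁻¹ * (g' * y * g'⁻¹) * g := by group
        _ = _ := by rw [e]; group
    generalize g⁻¹ * g' = z at hu e1
    obtain ⟨j, hj⟩ : ∃ j, orderOf z + 1 = 2 * j := ⟨(orderOf z + 1) / 2, by
      have := (piNat_compl_singleton_iff Nat.prime_two).1 (oB.piElt hu); omega⟩
    have e2 : z * z ∈ 𝒞[y] := cent_of_conj_eq (by
      rw [show z * z * y * (z * z)⁻¹ = z * (z * y * z⁻¹) * z⁻¹ by group, e1, ← conj_inv, e1, inv_inv])
    have := pow_mem e2 j
    rw [← pow_two, ← pow_mul, ← hj, pow_succ, pow_orderOf_eq_one, one_mul] at this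
    rw [conj_eq_of_cent this, eq_inv_iff_mul_eq_one] at e1
    exact y1 (eq_one_of_odd oU hy.1 e1))
  have h4 : (1 : G) ∉ O ∪ O⁻¹ := by
    rintro (⟨g, -, e⟩ | ⟨g, -, e⟩) <;> exact y1 (by simpa using e)
  have h6 := (Set.ncard_le_ncard h2).trans h5
  rw [Set.ncard_insert_of_notMem h4, Set.ncard_union_eq h3, Set.ncard_inv, ncard_conj] at h6
  have h7 : ¬ 2 ∣ (𝒞[y]).relIndex (U ⊓ 𝒞[w]) := fun e =>
    (piGrp_compl_singleton_iff Nat.prime_two).1 oB (e.trans (relIndex_dvd_card _ _))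
  exact relIndex_eq_one.1 (by omega)

variable [IsSimpleGroup G]

theorem Cx.og_solM (h : Cx S c t s) (hA : ClaimA G) (hM : IsCoatom M) (h2 : 𝒞[t] < M) (m4 : orderOf c = 4)
    (i3 : (𝒞[t]).relIndex M = 3) (hs : UU t ≤ 𝒞[s])
    (h3 : ∀ g ∈ M, g * t * g⁻¹ = t ∨ g * t * g⁻¹ = s ∨ g * t * g⁻¹ = t * s) : A7T S c t s := by
  have a := h.chA h.toDS
  have d := h.toDS.swap
  have k1 := h.two_kk h.sH h.sInv h.st
  have k2 := h.two_kk d.sH d.sInv d.st
  have hI := card_Iset (UU_odd t) d.sInv.1 (UU_norm t d.sH)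
  have hB := card_inf_mul_relIndex 𝒞[s * c] (UU t)
  have sU := mem_cent_iff_le_cent_singleton.2 hs
  have n1 : ¬ UU t ≤ 𝒞[s * c] := fun e => h.U1 (le_bot_iff.1 ((le_inf le_rfl hs).trans (a.thmC
    ((mul_mem_cancel_left sU).1 (mem_cent_iff_le_cent_singleton.2 e)) ⊥ bot_le
    (inf_le_right.trans (comm_eq_bot_iff'.2 (zpowers_le.2 sU)).le) (le_normalizer_of_normal) (by omega))))
  have o : ¬ 2 ∣ (𝒞[s * c]).relIndex (UU t) := fun e =>
    (piGrp_compl_singleton_iff Nat.prime_two).1 (UU_odd t) (e.trans (relIndex_dvd_card _ _))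
  have r1 := mt relIndex_eq_one.1 n1
  rw [relIndex_eq_one.2 hs, m4] at k1
  rw [m4] at k2
  generalize (𝒞[s * c]).relIndex (UU t) = ρ at *
  have k1' : kk t s = 2 := by omega
  have hN := (a.lemN m4.ge ρ (Nat.odd_iff.2 (by omega)) (by omega) (by rw [k1']; omega)).2
  rw [k1'] at hN
  have B0 : UU t ⊓ 𝒞[s * c] = ⊥ := by
    by_contra B1
    have sB : s ∈ 𝒞(UU t ⊓ 𝒞[s * c]) := centralizer_le inf_le_left sU
    have cB : zpowers c ≤ 𝒞(UU t ⊓ 𝒞[s * c]) := zpowers_le.2 ((mul_mem_cancel_left sB).1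
      (mem_cent_iff_le_cent_singleton.2 inf_le_right))
    have h4 : 𝒞[t] ≤ 𝒩(UU t ⊓ 𝒞[s * c]) := fun g hg => by
      obtain ⟨y, hy, x, hx, rfl⟩ := h.decomp hg
      obtain ⟨i, hi, b, hb, rfl⟩ := exists_inv_mul (UU_odd t) d.sInv.1 (UU_norm t d.sH) hy
      refine mul_mem (mul_mem (cent_le_norm _ (mem_cent_iff_le_cent_singleton.2
        (cent_of_Iset_le (UU_odd t) (by omega) hi))) (le_normalizer hb)) (cent_le_norm _ ?_)
      rcases h.mem_cases hx with e | ⟨z, hz, rfl⟩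
      exacts [cB e, mul_mem sB (cB hz)]
    have h5 := norm_ne_top B1 fun e => hM.1 (top_le_iff.1 (e.ge.trans (inf_le_left.trans ((UU_le t).trans h2.le))))
    obtain ⟨g, e1, e2⟩ := h.FV d.sH d.sInv d.st
    have hg : g ∈ 𝒩(UU t ⊓ 𝒞[s * c]) := mem_norm_of_conjg_le (by
      rw [conjg_inf, UU_conj, conjg_cent1, e1, e2, h.B_symm d.sInv]
      refine le_inf inf_le_left fun y hy => mem_cent_singleton_comm.1 ?_
      exact (mul_mem_cancel_right (mem_cent_singleton_comm.1 (UU_le _ hy.1))).1 (mem_cent_singleton_comm.1 hy.2))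
    have h6 : 𝒞[t] < 𝒩(UU t ⊓ 𝒞[s * c]) := h4.lt_of_ne fun e => d.st (e1.symm.trans (conj_eq_of_cent (e.ge hg)))
    by_cases sol : Group.IsSolvable 𝒩(UU t ⊓ 𝒞[s * c])
    · obtain ⟨-, -, v, -, -, hv, h7⟩ := h.og_sol hA h5 h6 sol
      refine n1 ?_
      rcases h7 g hg with e | e | e <;> rw [← e1, e]
      exacts [UU_le t, hv, fun y hy => mem_cent_singleton_comm.1
        (mul_mem (mem_cent_singleton_comm.1 (UU_le t hy)) (mem_cent_singleton_comm.1 (hv hy)))]
    · obtain ⟨-, E, K, q, r, hc, hT, -, h7⟩ := h.og_ns hA h5 h6 sol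
      obtain ⟨-, ρ', -, e⟩ := h7 _ d.sS (e1 ▸ conj_mem_of_mem_norm (hc.norm hg) (hT.le hT.tK)) d.sc
      rw [mul_assoc, ← h.conj_s (mem_zpowers c), kk_conj (inv_mem h.cH), k1', show kk t (s * c) = 2 * ρ by omega] at e
      have := Nat.le_of_dvd two_pos (Dvd.intro_left _ e.symm)
      omega
  rw [inf_comm, B0, card_bot, one_mul] at hB
  have cG := h.cardG
  rcases hN with ⟨rfl, hN⟩ | ⟨rfl, hN⟩
  · refine ⟨h.toDS, m4, hB.symm, sU, fun y hy => ?_, by rw [cG, m4, ← hB]; omega⟩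
    have : Iset (UU t) (s * c) = UU t := Set.eq_of_subset_of_ncard_le (fun _ e => e.1) (by
      rw [hI, ← Nat.card_coe_set_eq]; exact hB.ge)
    exact (this.ge hy).2
  · exfalso
    have := Fact.mk (show Nat.Prime 5 by norm_num)
    have h4 : M ≤ 𝒩(UU t) := fun g hg => conjg_eq_self_iff.1 (eq_of_le_of_card_ge (by
      rw [UU_conj]
      refine h.le_UU (h.inv.conj g) ?_ (UU_odd t)
      rcases h3 g hg with e | e | e <;> rw [e]
      exacts [UU_le t, hs, fun y hy => mem_cent_singleton_comm.1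
        (mul_mem (mem_cent_singleton_comm.1 (UU_le t hy)) (mem_cent_singleton_comm.1 (hs hy)))]) (card_conjg _ g).le).symm
    have h5 : 𝒩(UU t) = M := (hM.le_iff.1 h4).resolve_left (norm_ne_top h.U1 fun e =>
      hM.1 (top_le_iff.1 (e.ge.trans ((UU_le t).trans h2.le))))
    have h6 := (UU t).card_mul_index
    obtain ⟨P, hP⟩ := (sylow_mk le_top ((pGrp_iff_card this.out).2 ⟨1, hB.symm⟩) (by
      rw [relIndex_top_right]; rw [cG, m4, ← hB] at h6; omega)).exists_sylow_top this.out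
    have h7 := card_sylow_modEq_one 5 G
    rw [P.card_eq_index_normalizer] at h7
    change (𝒩((P : Subgroup G))).index % 5 = 1 at h7
    have h8 := relIndex_mul_index h2.le
    rw [hP, h5] at h7
    change _ = nn t at h8
    rw [i3] at h8
    omega

theorem Cx.og_nsM (h : Cx S c t s) (h1 : M ≠ ⊤) (h2 : 𝒞[t] < M) (m4 : 4 ≤ orderOf c) {E K : Subgroup G} {q r ρ : ℕ}
    (hT : Tor M E K t q r) (k1 : kk t s = Nat.card K) (o : Odd ρ) (k2 : kk t (s * c) = ρ * kk t s) :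
    Nonempty (G ≃* alternatingGroup (Fin 7)) := by
  have a := h.chA h.toDS
  have e1 : q * r * M.index = nn t := hT.idx ▸ relIndex_mul_index h2.le
  have on := h.odd_nn
  have i1 : M.index ≠ 1 := mt index_eq_one.1 h1
  have i2 : ¬ 2 ∣ M.index := fun e => on (e1 ▸ e.mul_left _)
  have i3 := two_mul_card_dvd_factorial h.nab h1
  have c1 := h.cardG
  have c2 := one_lt_card h.U1
  have c3 : ¬ 2 ∣ Nat.card (UU t) := (piGrp_compl_singleton_iff Nat.prime_two).1 (UU_odd t)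
  obtain ⟨κ, hκ⟩ : 2 ∣ Nat.card K := h.inv.ord ▸ orderOf_dvd_card_of_mem hT.tK
  have hq := hT.hq
  have hr := hT.hr
  have r3 := hT.r3
  rw [hκ] at k1 hq hr
  by_cases ρ1 : ρ = 1
  · exfalso
    have b := a.b45 m4
    rw [kS, k2, ρ1, k1, ← e1] at b
    have i7 : M.index ≤ 7 := by
      by_contra e
      have := Nat.mul_le_mul_left (q * r) (show 9 ≤ M.index by omega)
      subst hq
      rcases hr with rfl | hr
      · nlinarith
      · rw [← hr] at b this; nlinarith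
    have h3 : 2 * (2 * 4 * 3 * (q * r * M.index)) ≤ M.index.factorial := le_trans (by
      rw [c1, e1]
      exact Nat.mul_le_mul_left _ (Nat.mul_le_mul_right _ (Nat.mul_le_mul (by omega) (by omega))))
      (Nat.le_of_dvd (Nat.factorial_pos _) i3)
    have h4 : 5 * 3 ≤ q * r := Nat.mul_le_mul (by omega) r3
    generalize M.index = i at *
    interval_cases i <;> simp only [Nat.factorial] at h3 <;> try omega
    have h5 : κ = 1 := by
      by_contra e
      have : 7 * 3 ≤ q * r := Nat.mul_le_mul (by omega) r3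
      omega
    subst h5
    omega
  · obtain ⟨m4', hN⟩ := a.lemN m4 ρ o (by have := Nat.odd_iff.1 o; omega) k2
    rw [k1] at hN
    have co : (q * r).Coprime (κ ^ 2) := by
      refine Nat.Coprime.pow_right 2 (Nat.Coprime.coprime_dvd_right (Dvd.intro_left 2 rfl) ?_)
      have : r.Coprime (2 * κ) := by
        rcases hr with rfl | hr
        · simp
        · rw [← hr]; simp
      exact Nat.Coprime.mul_left (by rw [hq]; simpa using this) this
    have h3 : ∃ N, (N = 105 ∨ N = 189) ∧ nn t = N * κ ^ 2 := by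
      rcases hN with ⟨-, e⟩ | ⟨-, e⟩
      exacts [⟨105, .inl rfl, by nlinarith⟩, ⟨189, .inr rfl, by nlinarith⟩]
    obtain ⟨N, hN', e2⟩ := h3
    have h4 : q * r ∣ N := co.dvd_of_dvd_mul_right (e2 ▸ Dvd.intro _ e1)
    have h5 : q * r ≤ 189 := (Nat.le_of_dvd (by omega) h4).trans (by omega)
    have h6 : ¬ 2 ∣ κ := fun e => on (e2 ▸ (e.trans (dvd_pow_self κ two_ne_zero)).mul_left _)
    have h7 : r ≤ 13 := by nlinarith
    have h8 : κ = 1 ∧ r = 3 ∧ N = 105 := by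
      subst hq
      have : κ ≤ 7 := by omega
      rcases hN' with rfl | rfl <;> interval_cases κ <;> interval_cases r <;> omega
    obtain ⟨rfl, rfl, rfl⟩ := h8
    subst hq
    have i7 : M.index = 7 := by omega
    rw [i7, c1, m4', e2] at i3
    have := Nat.le_of_dvd (Nat.factorial_pos _) i3
    simp only [Nat.factorial] at this
    exact a7_of_index (by rw [c1, m4', e2]; omega) h1 i7.le

/-- if `C(t)` is not a maximal subgroup then `G` is `A₇` -/
theorem Cx.overgroup (h : Cx S c t s) (hA : ClaimA G) (hm : ¬ IsCoatom 𝒞[t]) :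
    Nonempty (G ≃* alternatingGroup (Fin 7)) := by
  have h0 : 𝒞[t] ≠ ⊤ := fun e => by
    rcases eq_bot_or_top (N := zpowers t) (e.ge.trans ((cent_zpowers t).ge.trans (cent_le_norm _))) with e' | e'
    · exact h.inv.2 (zpowers_eq_bot.1 e')
    · exact h.sc (zpowers_le.2 h.tc (e'.ge (mem_top s)))
  obtain ⟨M, hM, h2⟩ := exists_coatom_ge h0
  replace h2 := h2.lt_of_ne fun e => hm (e ▸ hM)
  by_cases sol : Group.IsSolvable M
  · obtain ⟨m4, i3, v, hv, vc, h3, h4⟩ := h.og_sol hA hM.1 h2 sol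
    exact ((h.change (h.toDS.change hv vc)).og_solM hA hM h2 m4 i3 h3 h4).iso
  · obtain ⟨m4, E, K, q, r, -, hT, e | e, h3⟩ := h.og_ns hA hM.1 h2 sol
    · obtain ⟨k1, ρ, o, k2⟩ := h3 s h.sS e h.sc
      exact h.og_nsM hM.1 h2 m4 hT k1 o k2
    · obtain ⟨k1, ρ, o, k2⟩ := h3 _ h.swap.sS e h.swap.sc
      exact (h.change h.swap).og_nsM hM.1 h2 m4 hT k1 o k2

end CA.GW
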