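import Cfsg.Agent.GW.Fin
import Cfsg.Agent.GW.L2
import Cfsg.Agent.GW.LA
import Cfsg.Agent.GW.OG2
import Cfsg.Agent.GW.B7
import Cfsg.Agent.GW.LB2c
import Cfsg.Agent.GW.LB1
import Cfsg.Agent.GW.Ch5

/-! The Gorenstein-Walter theorem: assembling the local analysis. -/

set_option autoImplicit false
set_option linter.unusedSectionVars false

namespace CA.GW

open Subgroup Cfsg CA.FG CA.BG CA.Dih
open scoped commutatorElement Classical

universe u

/-- case B is impossible -/
def NoBAll : Prop := ∀ (G : Type u) [Group G] [Finite G] [IsSimpleGroup G] (S M E K : Subgroup G) (c t s : G)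
  (q r : ℕ), Loc S c t s → CfgII t → NoA t → CfF t M E K q r → False

theorem step_of (nb : NoBAll.{u}) : Step.{u} := fun G _ _ _ S c t s h xq => by
  by_cases hm : IsCoatom 𝒞[t]
  · have l : Loc S c t s := ⟨h, hm⟩
    rcases l.main with ⟨K, b⟩ | ⟨M, E, K, q, r, hc⟩
    · exact .inl ⟨K, t, b⟩
    · exact (nb G S M E K c t s q r l l.cfgII l.noA hc).elim
  · exact .inr (h.overgroup (claimA h xq) hm)

end CA.GW

theorem CA.realizeEqns_GW_Step : True := by
  have := @CA.GW.NoBAll.eq_1.{0}
  have := @CA.GW.NoBAll.eq_def.{0}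
  have := @CA.GW.NoBAll.congr_simp.{0}
  trivial
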