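import Cfsg.Agent.Lin.Dickson

/-! Automorphisms of `PSL(2, q)`, `q` odd, are induced by semilinear maps. -/

set_option autoImplicit false
set_option linter.unusedSectionVars false

namespace CA.GW

open Matrix MulAction Subgroup Cfsg.Agent.Lin
open scoped MatrixGroups LinearAlgebra.Projectivization

variable {Γ : Type*} [Group Γ] {F : Type*} [Field F] [Fintype F]

abbrev M2 (F : Type*) := Matrix (Fin 2) (Fin 2) F

/-- the range of `ι` is a normal self-centralizing copy of `PSL(2, F)` -/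
structure PM (ι : SL(2, F) →* Γ) : Prop where
  two : (2 : F) ≠ 0
  ker : ∀ A, ι A = 1 ↔ A = 1 ∨ A = -1
  norm : ∀ γ A, ∃ B, γ * ι A * γ⁻¹ = ι B
  cent : ∀ γ, (∀ A, γ * ι A * γ⁻¹ = ι A) → γ = 1

/-- `γ` acts like the semilinear map `v ↦ g (σ v)` -/
def RR (ι : SL(2, F) →* Γ) (γ : Γ) (g : M2 F) (σ : F ≃+* F) : Prop :=
  g.det ≠ 0 ∧ ∀ A B : SL(2, F), B.1 * g = g * A.1.map σ → γ * ι A * γ⁻¹ = ι B

def uu (a : F) : SL(2, F) := sl2 1 a 0 1 (by ring)
def vv (a : F) : SL(2, F) := sl2 1 0 a 1 (by ring)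

theorem uu_add (a b : F) : uu (a + b) = uu a * uu b := Subtype.ext (by simp [uu, coe_sl2, add_comm])
theorem vv_add (a b : F) : vv (a + b) = vv a * vv b := Subtype.ext (by simp [vv, coe_sl2])

theorem m2_ext {A B : M2 F} (h0 : A 0 0 = B 0 0) (h1 : A 0 1 = B 0 1) (h2 : A 1 0 = B 1 0) (h3 : A 1 1 = B 1 1) :
    A = B := by
  ext i j; fin_cases i <;> fin_cases j <;> assumption

theorem map_mul2 (σ : F ≃+* F) (A B : M2 F) : (A * B).map σ = A.map σ * B.map σ :=
  Matrix.map_mul (f := σ.toRingHom)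

theorem det_map2 (σ : F ≃+* F) (A : M2 F) : (A.map σ).det = σ A.det := by simp [det_fin_two]

theorem cancel_r {g A B : M2 F} (hg : g.det ≠ 0) (h : A * g = B * g) : A = B :=
  ((isUnit_iff_isUnit_det g).2 hg.isUnit).mul_right_cancel h

theorem cancel_l {g A B : M2 F} (hg : g.det ≠ 0) (h : g * A = g * B) : A = B :=
  ((isUnit_iff_isUnit_det g).2 hg.isUnit).mul_left_cancel h

theorem exB {g : M2 F} (hg : g.det ≠ 0) (σ : F ≃+* F) (A : SL(2, F)) : ∃ B : SL(2, F), B.1 * g = g * A.1.map σ :=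
  ⟨⟨g * A.1.map σ * g⁻¹, by rw [det_mul, det_mul, det_map2, A.2, map_one, mul_one, det_nonsing_inv,
    Ring.mul_inverse_cancel _ hg.isUnit]⟩, by
      change g * _ * g⁻¹ * g = _
      rw [mul_assoc, nonsing_inv_mul _ hg.isUnit, mul_one]⟩

theorem sl_ind (P : SL(2, F) → Prop) (hu : ∀ a, P (uu a)) (hv : ∀ a, P (vv a)) (hm : ∀ A B, P A → P B → P (A * B))
    (A : SL(2, F)) : P A := by
  have h1 : uu (0 : F) = 1 := Subtype.ext (by simp [uu, coe_sl2, one_fin_two])
  refine SL_transvection_induction P (h1 ▸ hu 0) (fun i j h c => ?_) hm A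
  fin_cases i <;> fin_cases j
  · exact absurd rfl h
  · convert hu c using 1
    exact Subtype.ext (m2_ext (by simp [uu, coe_sl2, SpecialLinearGroup.transvection, transvection])
      (by simp [uu, coe_sl2, SpecialLinearGroup.transvection, transvection])
      (by simp [uu, coe_sl2, SpecialLinearGroup.transvection, transvection])
      (by simp [uu, coe_sl2, SpecialLinearGroup.transvection, transvection]))
  · convert hv c using 1
    exact Subtype.ext (m2_ext (by simp [vv, coe_sl2, SpecialLinearGroup.transvection, transvection])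
      (by simp [vv, coe_sl2, SpecialLinearGroup.transvection, transvection])
      (by simp [vv, coe_sl2, SpecialLinearGroup.transvection, transvection])
      (by simp [vv, coe_sl2, SpecialLinearGroup.transvection, transvection]))
  · exact absurd rfl h

variable {ι : SL(2, F) →* Γ}

theorem RR.mul {γ δ : Γ} {g k : M2 F} {σ τ : F ≃+* F} (h : RR ι γ g σ) (h' : RR ι δ k τ) :
    RR ι (γ * δ) (g * k.map σ) (σ * τ) := by
  refine ⟨by rw [det_mul, det_map2]; exact mul_ne_zero h.1 ((map_ne_zero σ).2 h'.1), fun A B e => ?_⟩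
  obtain ⟨C, hC⟩ := exB h'.1 τ A
  rw [← h.2 C B, ← h'.2 A C hC]
  · group
  refine cancel_r (g := k.map σ) (by rw [det_map2]; exact (map_ne_zero σ).2 h'.1) ?_
  rw [mul_assoc, e, mul_assoc, mul_assoc, ← map_mul2, hC, map_mul2, Matrix.map_map]
  rfl

theorem RR.smul {γ : Γ} {g : M2 F} {σ : F ≃+* F} (h : RR ι γ g σ) {c : F} (hc : c ≠ 0) : RR ι γ (c • g) σ :=
  ⟨by rw [det_smul]; exact mul_ne_zero (pow_ne_zero _ hc) h.1, fun A B e => h.2 A B (by
    rw [Matrix.mul_smul, Matrix.smul_mul] at e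
    exact smul_right_injective _ hc e)⟩

theorem rr_sl (B : SL(2, F)) : RR ι (ι B) B.1 1 :=
  ⟨by rw [B.2]; exact one_ne_zero, fun A C e => by
    rw [← map_inv, ← map_mul, ← map_mul, mul_inv_eq_of_eq_mul (Subtype.ext e.symm : B * A = C * B)]⟩

theorem rr_one : RR ι 1 1 1 := by simpa using rr_sl (ι := ι) 1

theorem RR.pow {γ : Γ} {g : M2 F} {σ : F ≃+* F} (h : RR ι γ g σ) (n : ℕ) : ∃ k, RR ι (γ ^ n) k (σ ^ n) := by
  induction n with
  | zero => exact ⟨1, by simpa using rr_one⟩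
  | succ n ih => obtain ⟨k, hk⟩ := ih; exact ⟨_, by rw [pow_succ, pow_succ]; exact hk.mul h⟩

theorem RR.pow_one {γ : Γ} {g : M2 F} (h : RR ι γ g 1) (n : ℕ) : RR ι (γ ^ n) (g ^ n) 1 := by
  induction n with
  | zero => simpa using rr_one
  | succ n ih => rw [pow_succ, pow_succ]; exact ih.mul h

namespace PM

variable (h : PM ι)
include h

theorem neg_ne (A : SL(2, F)) : -A ≠ A := fun e => by
  have : (-1 : SL(2, F)) = 1 := mul_right_cancel (b := A) (by simpa using e)
  have := congrArg (fun A : SL(2, F) => A 0 0) this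
  exact h.two (by simp at this; linear_combination -this)

theorem eq_iff {A B : SL(2, F)} : ι A = ι B ↔ A = B ∨ A = -B := by
  rw [← mul_inv_eq_one, ← map_inv, ← map_mul, h.ker, mul_inv_eq_one, mul_inv_eq_iff_eq_mul, neg_one_mul]

theorem map_neg (A : SL(2, F)) : ι (-A) = ι A := h.eq_iff.2 (.inr rfl)

theorem of_rr {γ : Γ} {g : M2 F} {σ : F ≃+* F} (r : RR ι γ g σ) {A B : SL(2, F)} (e : γ * ι A * γ⁻¹ = ι B) :
    B.1 * g = g * A.1.map σ ∨ B.1 * g = -(g * A.1.map σ) := by
  obtain ⟨C, hC⟩ := exB r.1 σ A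
  rcases h.eq_iff.1 (e.symm.trans (r.2 A C hC)) with rfl | rfl
  · exact .inl hC
  · exact .inr (by rw [← hC, ← neg_mul]; rfl)

theorem uniq {γ δ : Γ} {g : M2 F} {σ : F ≃+* F} (r : RR ι γ g σ) (r' : RR ι δ g σ) : γ = δ :=
  (inv_mul_eq_one.1 (h.cent _ fun A => by
    obtain ⟨B, hB⟩ := exB r.1 σ A
    calc _ = δ⁻¹ * (γ * ι A * γ⁻¹) * δ := by group
      _ = _ := by rw [r.2 A B hB, ← r'.2 A B hB]; group)).symm

/-- the trivial element is represented by scalars only -/
theorem of_one {g : M2 F} {σ : F ≃+* F} (r : RR ι 1 g σ) : σ = 1 ∧ ∃ c : F, c ≠ 0 ∧ g = c • (1 : M2 F) := by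
  have d := r.1
  rw [det_fin_two] at d
  have k : ∀ A : SL(2, F), A 0 0 + A 1 1 = 2 → A.1 * g = g * A.1.map σ := fun A hA =>
    (h.of_rr r (A := A) (B := A) (by simp)).resolve_right fun e => by
      have e1 : (A.1 * g * g⁻¹).trace = (-(g * A.1.map σ) * g⁻¹).trace := by rw [e]
      rw [mul_assoc, mul_nonsing_inv _ r.1.isUnit, mul_one, neg_mul, trace_neg, trace_mul_comm, ← mul_assoc,
        nonsing_inv_mul _ r.1.isUnit, one_mul, trace_fin_two, trace_fin_two, map_apply, map_apply, ← map_add] at e1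
      change A 0 0 + A 1 1 = -σ (A 0 0 + A 1 1) at e1
      rw [hA, map_ofNat] at e1
      exact mul_ne_zero h.two h.two (by linear_combination e1)
  have hu := fun a => k (uu a) (by simp [uu, coe_sl2]; norm_num)
  have hv := k (vv 1) (by simp [vv, coe_sl2]; norm_num)
  have a1 := congrFun (congrFun (hu 1) 0) 0
  have a2 := congrFun (congrFun (hu 1) 0) 1
  have a3 := congrFun (congrFun hv 0) 0
  have a4 := fun a => congrFun (congrFun (hu a) 0) 1
  simp [uu, vv, coe_sl2, mul_apply, Fin.sum_univ_two] at a1 a2 a3 a4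
  have b2 : g 1 1 = g 0 0 := by linear_combination a2
  have c0 : g 0 0 ≠ 0 := fun e => d (by rw [e, a1]; ring)
  refine ⟨RingEquiv.ext fun a => mul_left_cancel₀ c0 ?_, g 0 0, c0, m2_ext (by simp) (by simp [a3]) (by simp [a1])
    (by simp [b2])⟩
  have := a4 a
  rw [b2] at this
  change _ = g 0 0 * a
  linear_combination -this

theorem sig_pow {γ : Γ} {g : M2 F} {σ : F ≃+* F} (r : RR ι γ g σ) {n : ℕ} (e : γ ^ n = 1) : σ ^ n = 1 := by
  obtain ⟨k, hk⟩ := r.pow n
  exact (h.of_one (e ▸ hk)).1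

/-- a linear map of square determinant -/
theorem mem_of_sq {γ : Γ} {g : M2 F} (r : RR ι γ g 1) {s : F} (e : g.det = s * s) :
    ∃ B : SL(2, F), B.1 = s⁻¹ • g ∧ γ = ι B := by
  have s0 : s ≠ 0 := fun e' => r.1 (by rw [e, e', mul_zero])
  let B : SL(2, F) := ⟨s⁻¹ • g, by rw [det_smul, e, Fintype.card_fin]; field_simp⟩
  exact ⟨B, rfl, h.uniq (r.smul (inv_ne_zero s0)) (rr_sl B)⟩

theorem lift_unip (f : F → Γ) (hf : ∀ a b, f (a + b) = f a * f b) (hr : ∀ a, ∃ B, f a = ι B) :
    ∃ (B : F → SL(2, F)) (x : ℙ F (Fin 2 → F)), (∀ a, ι (B a) = f a) ∧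
      ∀ a, B a ∈ SpecialLinearGroup.lineStab x.submodule := by
  obtain ⟨p, _, n, hp, -⟩ := FiniteField.card' F
  have := Fact.mk hp
  have op : Odd p := hp.odd_of_ne_two fun e => h.two (by simpa [e] using CharP.cast_eq_zero F p)
  have f0 : f 0 = 1 := mul_left_cancel (a := f 0) (by rw [← hf, add_zero, mul_one])
  have fp : ∀ a (k : ℕ), f a ^ k = f (k * a) := fun a k => by
    induction k with
    | zero => simp [f0]
    | succ k ih => rw [pow_succ, ih, ← hf]; congr 1; push_cast; ring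
  have ex : ∀ a, ∃ B, ι B = f a ∧ B ^ p = 1 := fun a => by
    obtain ⟨B, hB⟩ := hr a
    rcases (h.ker (B ^ p)).1 (by rw [map_pow, ← hB, fp, CharP.cast_eq_zero, zero_mul, f0]) with e | e
    · exact ⟨B, hB.symm, e⟩
    · exact ⟨-B, (h.map_neg B).trans hB.symm, by rw [op.neg_pow, e, neg_neg]⟩
  choose B hB hBp using ex
  have hm : ∀ a b, B (a + b) = B a * B b := fun a b => by
    have c : Commute (B a) (B b) := by
      refine (h.eq_iff.1 (by rw [map_mul, map_mul, hB, hB, ← hf, ← hf, add_comm])).resolve_right fun e => ?_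
      have : SemiconjBy (B b) (B a) (-B a) := by rw [SemiconjBy, neg_mul, e, neg_neg]
      have := this.pow_right p
      rw [op.neg_pow, hBp, SemiconjBy, mul_one, neg_one_mul] at this
      exact h.neg_ne _ this.symm
    refine (h.eq_iff.1 (by rw [map_mul, hB, hB, hB, hf])).resolve_right fun e => ?_
    have := hBp (a + b)
    rw [e, op.neg_pow, c.mul_pow, hBp, hBp, mul_one] at this
    exact h.neg_ne _ this
  let β : Multiplicative F →* SL(2, F) := MonoidHom.mk' (fun a => B a.toAdd) fun a b => hm _ _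
  have hβ : IsPGroup p β.range := fun ⟨_, a, e⟩ => ⟨1, Subtype.ext (by subst e; exact (congrArg _ (pow_one p)).trans (hBp _))⟩
  obtain ⟨P, hP⟩ := hβ.exists_le_sylow
  obtain ⟨x, hx⟩ := exists_lineStab_eq_sylow p P
  exact ⟨B, x, hB, fun a => hx ▸ hP ⟨Multiplicative.ofAdd a, rfl⟩⟩

theorem rr_of_std {γ : Γ} (f g : F → F) (hf : ∀ a, γ * ι (uu a) * γ⁻¹ = ι (uu (f a)))
    (hg : ∀ a, γ * ι (vv a) * γ⁻¹ = ι (vv (g a))) : ∃ k σ, RR ι γ k σ := by
  have ui : ∀ a b : F, ι (uu a) = ι (uu b) → a = b := fun a b e => by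
    rcases h.eq_iff.1 e with e | e
    · simpa [uu, coe_sl2] using congrArg (fun A : SL(2, F) => A 0 1) e
    · have := congrArg (fun A : SL(2, F) => A 0 0) e
      simp [uu, coe_sl2] at this
      exact absurd (by linear_combination this) h.two
  have vi : ∀ a b : F, ι (vv a) = ι (vv b) → a = b := fun a b e => by
    rcases h.eq_iff.1 e with e | e
    · simpa [vv, coe_sl2] using congrArg (fun A : SL(2, F) => A 1 0) e
    · have := congrArg (fun A : SL(2, F) => A 0 0) e
      simp [vv, coe_sl2] at this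
      exact absurd (by linear_combination this) h.two
  have cm : ∀ x y : Γ, γ * (x * y) * γ⁻¹ = γ * x * γ⁻¹ * (γ * y * γ⁻¹) := fun x y => by group
  have fa : ∀ a b, f (a + b) = f a + f b := fun a b => ui _ _ (by
    rw [← hf, uu_add, uu_add, map_mul, map_mul, cm, hf, hf])
  have ga : ∀ a b, g (a + b) = g a + g b := fun a b => vi _ _ (by
    rw [← hg, vv_add, vv_add, map_mul, map_mul, cm, hg, hg])
  have fi : Function.Injective f := fun a b e => ui _ _ (by
    have := (hf a).trans (e ▸ (hf b).symm)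
    simpa using this)
  have f0 : f 0 = 0 := by simpa using fa 0 0
  have fn : ∀ a ≠ 0, f a ≠ 0 := fun a ha e => ha (fi (e.trans f0.symm))
  have g0 : g 0 = 0 := by simpa using ga 0 0
  have gn : ∀ a, g (-a) = -g a := fun a => eq_neg_of_add_eq_zero_left (by rw [← ga, neg_add_cancel, g0])
  have br : ∀ a ≠ 0, f a * g (-a⁻¹) = -1 := fun a ha => by
    have e : uu a * vv (-a⁻¹) * uu a = vv (-a⁻¹) * uu a * vv (-a⁻¹) :=
      Subtype.ext (m2_ext (by simp [uu, vv, coe_sl2, ha]) (by simp [uu, vv, coe_sl2, ha])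
        (by simp [uu, vv, coe_sl2, ha]) (by simp [uu, vv, coe_sl2, ha]))
    have e1 := congrArg (fun A => γ * ι A * γ⁻¹) e
    simp only [map_mul, cm, hf, hg] at e1
    rw [← map_mul, ← map_mul, ← map_mul, ← map_mul] at e1
    rcases h.eq_iff.1 e1 with e2 | e2
    · have := congrArg (fun A : SL(2, F) => A 0 1) e2
      simp [uu, vv, coe_sl2] at this
      linear_combination this.resolve_right (fn a ha)
    · have := congrArg (fun A : SL(2, F) => A 0 0) e2
      simp [uu, vv, coe_sl2] at this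
      exact mul_left_cancel₀ h.two (by linear_combination this)
  let w : F → SL(2, F) := fun a => uu a * vv (-a⁻¹) * uu a
  have hw : ∀ a ≠ 0, γ * ι (w a) * γ⁻¹ = ι (w (f a)) := fun a ha => by
    simp only [w, map_mul, cm, hf, hg]
    rw [show g (-a⁻¹) = -(f a)⁻¹ from mul_left_cancel₀ (fn a ha) (by rw [br a ha, mul_neg, mul_inv_cancel₀ (fn a ha)])]
  have wv : ∀ a ≠ 0, ∀ b, w a * vv b = uu (-(a * a * b)) * w a := fun a ha b =>
    Subtype.ext (m2_ext (by simp [w, uu, vv, coe_sl2, ha]; field_simp) (by simp [w, uu, vv, coe_sl2, ha])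
      (by simp [w, uu, vv, coe_sl2, ha]) (by simp [w, uu, vv, coe_sl2, ha]))
  have key : ∀ a ≠ 0, ∀ b, f (-(a * a * b)) = -(f a * f a * g b) := fun a ha b => ui _ _ (by
    have e1 := congrArg (fun A => γ * ι A * γ⁻¹) (wv a ha b)
    simp only [map_mul, cm, hf, hg, hw a ha] at e1
    rw [← map_mul, wv _ (fn a ha), map_mul] at e1
    exact (mul_right_cancel e1).symm)
  have fneg : ∀ a, f (-a) = -f a := fun a => eq_neg_of_add_eq_zero_left (by rw [← fa, neg_add_cancel, f0])
  have c0 := fn 1 one_ne_zero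
  have k1 : ∀ b, f b = f 1 * f 1 * g b := fun b => by
    have := key 1 one_ne_zero b
    rw [fneg, neg_inj, one_mul, one_mul] at this
    exact this
  have k2 : ∀ a, f 1 * f (a * a) = f a * f a := fun a => by
    by_cases ha : a = 0
    · simp [ha, f0]
    have := key a ha 1
    rw [fneg, neg_inj, mul_one] at this
    rw [this]
    exact mul_left_cancel₀ c0 (by linear_combination (-(f a * f a)) * k1 1)
  let φ : F →+* F :=
    { toFun := fun a => f a / f 1
      map_one' := div_self c0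
      map_zero' := by simp [f0]
      map_add' := fun a b => by rw [fa, add_div]
      map_mul' := fun a b => by
        have e1 := k2 (a + b)
        rw [show (a + b) * (a + b) = a * a + (a * b + a * b) + b * b by ring, fa, fa, fa, fa] at e1
        field_simp
        exact mul_left_cancel₀ h.two (by linear_combination e1 - k2 a - k2 b) }
  let σ := RingEquiv.ofBijective φ (Finite.injective_iff_bijective.1 φ.injective)
  have hσ : ∀ a, σ a = f a / f 1 := fun _ => rfl
  have d0 : (!![f 1, 0; 0, 1] : M2 F).det ≠ 0 := by simpa using c0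
  refine ⟨!![f 1, 0; 0, 1], σ, d0, fun A => ?_⟩
  induction A using sl_ind with
  | hu a =>
    intro B e
    rw [hf]
    congr 1
    refine Subtype.ext (cancel_r d0 (e.symm ▸ ?_))
    exact m2_ext (by simp [uu, coe_sl2, mul_apply]) (by simp [uu, coe_sl2, mul_apply, hσ]; field_simp)
      (by simp [uu, coe_sl2, mul_apply]) (by simp [uu, coe_sl2, mul_apply])
  | hv a =>
    intro B e
    rw [hg]
    congr 1
    refine Subtype.ext (cancel_r d0 (e.symm ▸ ?_))
    exact m2_ext (by simp [vv, coe_sl2, mul_apply]) (by simp [vv, coe_sl2, mul_apply])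
      (by simp [vv, coe_sl2, mul_apply, hσ]; rw [k1 a]; field_simp) (by simp [vv, coe_sl2, mul_apply])
  | hm A B i1 i2 =>
    intro C e
    obtain ⟨A', hA⟩ := exB d0 σ A
    obtain ⟨B', hB⟩ := exB d0 σ B
    rw [map_mul, cm, i1 _ hA, i2 _ hB, ← map_mul]
    congr 1
    refine Subtype.ext (cancel_r d0 ?_)
    rw [e, Matrix.SpecialLinearGroup.coe_mul, Matrix.SpecialLinearGroup.coe_mul, mul_assoc, hB, ← mul_assoc, hA,
      map_mul2, mul_assoc]

/-- every element acts as a semilinear map -/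
theorem exists_rr (γ : Γ) : ∃ g σ, RR ι γ g σ := by
  have cm : ∀ x y : Γ, γ * (x * y) * γ⁻¹ = γ * x * γ⁻¹ * (γ * y * γ⁻¹) := fun x y => by group
  obtain ⟨B, x, b1, b2⟩ := h.lift_unip (fun a => γ * ι (uu a) * γ⁻¹) (fun a b => by rw [uu_add, map_mul, cm])
    fun a => h.norm _ _
  obtain ⟨C, y, c1, c2⟩ := h.lift_unip (fun a => γ * ι (vv a) * γ⁻¹) (fun a b => by rw [vv_add, map_mul, cm])
    fun a => h.norm _ _
  have st : ∀ (k A : SL(2, F)) (z x : ℙ F (Fin 2 → F)), k • z = x → A ∈ SpecialLinearGroup.lineStab x.submodule →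
      k⁻¹ * A * k ∈ SpecialLinearGroup.lineStab z.submodule := fun k A z x e hA => by
    have := conj_mem_lineStab hA k⁻¹
    rwa [← e, inv_smul_smul, inv_inv] at this
  have su : ∀ A : SL(2, F), A ∈ SpecialLinearGroup.lineStab (pt0 F).submodule → A = uu (A 0 1) := fun A hA => by
    obtain ⟨a1, a2, a3⟩ := mem_lineStab_pt0.1 hA
    exact Subtype.ext (m2_ext a1 rfl a2 a3)
  have xy : x ≠ y := by
    rintro rfl
    obtain ⟨k, hk⟩ := exists_smul_pt0 x
    have e : (k⁻¹ * B 1 * k) * (k⁻¹ * C 1 * k) = (k⁻¹ * C 1 * k) * (k⁻¹ * B 1 * k) := by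
      rw [su _ (st k _ _ _ hk (b2 1)), su _ (st k _ _ _ hk (c2 1)), ← uu_add, ← uu_add, add_comm]
    have e1 : B 1 * C 1 = C 1 * B 1 := by
      exact mul_right_cancel (b := k) (by simpa [mul_assoc] using e)
    have e2 := congrArg ι e1
    rw [map_mul, map_mul, b1, c1, ← cm, ← cm, mul_left_inj, mul_right_inj, ← map_mul, ← map_mul] at e2
    rcases h.eq_iff.1 e2 with e3 | e3
    · simpa [uu, vv, coe_sl2] using congrArg (fun A : SL(2, F) => A 0 0) e3
    · have := congrArg (fun A : SL(2, F) => A 0 1) e3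
      simp [uu, vv, coe_sl2] at this
      exact h.two (by linear_combination this)
  obtain ⟨k, k1, k2⟩ := exists_smul_pt0_pt1 xy
  obtain ⟨g, σ, r⟩ := h.rr_of_std (γ := (ι k)⁻¹ * γ) (fun a => (k⁻¹ * B a * k) 0 1) (fun a => (k⁻¹ * C a * k) 1 0)
    (fun a => by rw [← su _ (st k _ _ _ k1 (b2 a)), map_mul, map_mul, b1, map_inv]; group)
    (fun a => by
      obtain ⟨a1, a2, a3⟩ := mem_lineStab_pt1 (st k _ _ _ k2 (c2 a))
      rw [← show k⁻¹ * C a * k = vv ((k⁻¹ * C a * k) 1 0) from Subtype.ext (m2_ext a1 a2 rfl a3), map_mul, map_mul, c1,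
        map_inv]
      group)
  exact ⟨_, _, by simpa using (rr_sl k).mul r⟩

end PM

end CA.GW

theorem CA.realizeEqns_GW_AS1 : True := by
  have := @CA.GW.M2.eq_1.{0}
  have := @CA.GW.M2.eq_def.{0}
  have := @CA.GW.M2.congr_simp.{0}
  have := @CA.GW.uu.eq_1.{0}
  have := @CA.GW.uu.eq_def.{0}
  have := @CA.GW.uu.congr_simp.{0}
  have := @CA.GW.vv.eq_1.{0}
  have := @CA.GW.vv.eq_def.{0}
  have := @CA.GW.vv.congr_simp.{0}
  have := @CA.GW.RR.eq_1.{0,0}
  have := @CA.GW.RR.eq_def.{0,0}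
  have := @CA.GW.RR.congr_simp.{0,0}
  trivial
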