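import Cfsg.Agent.GW.AS1

/-! Involutions and tori in automorphism groups of `PSL(2, q)`, `q` odd. -/

set_option autoImplicit false
set_option linter.unusedSectionVars false

namespace CA.GW

open Matrix MulAction Subgroup Cfsg.Agent.Lin
open scoped MatrixGroups LinearAlgebra.Projectivization commutatorElement

variable {Γ : Type*} [Group Γ] {F : Type*} [Field F] [Fintype F]

/-- no elementary abelian subgroup of order eight -/
def R2 (Γ : Type*) [Group Γ] : Prop := ∀ a b c : Γ, a * a = 1 → b * b = 1 → c * c = 1 → Commute a b → Commute a c →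
  Commute b c → a ≠ 1 → b ≠ 1 → a ≠ b → c = 1 ∨ c = a ∨ c = b ∨ c = a * b

theorem odd_card (h : (2 : F) ≠ 0) : Fintype.card F % 2 = 1 :=
  FiniteField.odd_card_of_char_ne_two fun e => h (by simpa [e] using ringChar.Nat.cast_ringChar (R := F))

theorem exists_frob (h : (2 : F) ≠ 0) (σ : F ≃+* F) : ∃ n, Odd n ∧ ∀ x, σ x = x ^ n := by
  obtain ⟨p, _, n, hp, -⟩ := FiniteField.card' F
  have := Fact.mk hp
  letI := ZMod.algebra F p
  obtain ⟨i, hi⟩ := FiniteField.exists_forall_apply_eq_pow (ZMod p) p F (AlgEquiv.ofRingEquiv (f := σ) fun x =>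
    congrFun (congrArg DFunLike.coe (RingHom.ext_zmod (σ.toRingHom.comp (algebraMap (ZMod p) F)) (algebraMap _ _))) x)
  exact ⟨_, (hp.odd_of_ne_two fun e => h (by simpa [e] using CharP.cast_eq_zero F p)).pow, fun x => by
    have := hi x
    rwa [Nat.card_zmod] at this⟩

theorem aut_comm (h : (2 : F) ≠ 0) (σ τ : F ≃+* F) : σ * τ = τ * σ := by
  obtain ⟨n, -, hn⟩ := exists_frob h σ
  exact RingEquiv.ext fun x => by
    change σ (τ x) = τ (σ x)
    rw [hn, hn, map_pow]

theorem sq_mul_map (h : (2 : F) ≠ 0) (σ : F ≃+* F) (x : F) : IsSquare (x * σ x) := by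
  obtain ⟨n, ⟨k, rfl⟩, hn⟩ := exists_frob h σ
  exact ⟨x ^ (k + 1), by rw [hn]; ring⟩

theorem exists_conic (h : (2 : F) ≠ 0) (σ : F ≃+* F) {d c : F} (d0 : d ≠ 0) (hd : σ d = d) (hc : σ c = c) :
    ∃ a b, σ a = a ∧ σ b = b ∧ a * a + d * (b * b) = c := by
  classical
  let R := σ.toRingHom.eqLocus (RingHom.id F)
  have := Fintype.ofFinite R
  obtain ⟨a, b, e⟩ := FiniteField.exists_root_sum_quadratic (R := R)
    (f := Polynomial.X ^ 2 - Polynomial.C ⟨c, hc⟩) (g := Polynomial.C ⟨d, hd⟩ * Polynomial.X ^ 2)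
    (Polynomial.degree_X_pow_sub_C (by norm_num) _) (Polynomial.degree_C_mul_X_pow _ fun e => d0 (congrArg Subtype.val e))
    (by
      have h1 := AddSubgroup.card_addSubgroup_dvd_card R.toAddSubgroup
      have h2 := odd_card h
      rw [Nat.card_eq_fintype_card (α := F), show Nat.card R.toAddSubgroup = Fintype.card R from
        Nat.card_eq_fintype_card (α := R)] at h1
      exact Nat.odd_iff.1 ((Nat.odd_iff.2 h2).of_dvd_nat h1))
  refine ⟨a, b, a.2, b.2, ?_⟩
  have := congrArg Subtype.val e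
  simp at this
  linear_combination this

theorem cayley2 (g : M2 F) : g * g = (g 0 0 + g 1 1) • g - g.det • (1 : M2 F) :=
  m2_ext (by simp [mul_apply, det_fin_two]; ring) (by simp [mul_apply]; ring) (by simp [mul_apply]; ring)
    (by simp [mul_apply, det_fin_two]; ring)

theorem map_one2 (A : M2 F) : A.map (1 : F ≃+* F) = A := rfl

theorem trace_of_rel {g A B : M2 F} (hg : g.det ≠ 0) (e : B * g = g * A) : B 0 0 + B 1 1 = A 0 0 + A 1 1 := by
  have e1 : (B * g * g⁻¹).trace = (g * A * g⁻¹).trace := by rw [e]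
  rwa [mul_assoc, mul_nonsing_inv _ hg.isUnit, mul_one, trace_mul_comm, ← mul_assoc,
    nonsing_inv_mul _ hg.isUnit, one_mul, trace_fin_two, trace_fin_two] at e1

/-- a non-scalar matrix whose square is scalar -/
theorem trace_zero {g : M2 F} {c : F} (e : g * g = c • (1 : M2 F)) (hg : ∀ a : F, g ≠ a • (1 : M2 F)) :
    g 0 0 + g 1 1 = 0 ∧ g * g = -(g.det • (1 : M2 F)) := by
  have h := cayley2 g
  have t : g 0 0 + g 1 1 = 0 := by_contra fun t => hg ((g 0 0 + g 1 1)⁻¹ * (c + g.det)) (by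
    rw [mul_smul, add_smul, ← e, h, sub_add_cancel, smul_smul, inv_mul_cancel₀ t, one_smul])
  exact ⟨t, by rw [h, t, zero_smul, zero_sub]⟩

theorem not_scalar {g : M2 F} (hg : ∀ a : F, g ≠ a • (1 : M2 F)) : ¬ (g 0 1 = 0 ∧ g 1 0 = 0 ∧ g 0 0 = g 1 1) :=
  fun ⟨a, b, c⟩ => hg (g 0 0) (m2_ext (by simp) (by simp [a]) (by simp [b]) (by simp [c]))

theorem cyc_pow {C : Type*} [Group C] [Finite C] [IsCyclic C] {p : ℕ} (hp : p.Prime) (op : Odd p) (ψ : C →* C)
    (h1 : ∀ y, ψ^[p] y = y) (h2 : ∀ y, (orderOf y).Coprime p → ψ y = y) (y : C) : ψ (y ^ p) = y ^ p := by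
  obtain ⟨k, hk⟩ := ψ.map_cyclic
  obtain ⟨g, hg⟩ := IsCyclic.exists_generator (α := C)
  have o0 : orderOf g ≠ 0 := (orderOf_pos g).ne'
  obtain ⟨a, m, hm, e⟩ := Nat.exists_eq_pow_mul_and_not_dvd o0 p hp.ne_one
  have it : ∀ n, ψ^[n] g = g ^ k ^ n := fun n => by
    induction n with
    | zero => simp
    | succ n ih => rw [Function.iterate_succ_apply', ih, hk, ← _root_.zpow_mul, pow_succ]
  have d1 : (orderOf g : ℤ) ∣ k ^ p - 1 := by
    rw [orderOf_dvd_iff_zpow_eq_one, _root_.zpow_sub, ← it, h1, zpow_one, mul_inv_cancel]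
  have cm : m.Coprime p := ((Nat.Prime.coprime_iff_not_dvd hp).2 hm).symm
  have d2 : (m : ℤ) ∣ k - 1 := by
    have o : orderOf (g ^ p ^ a) = m := by
      rw [orderOf_pow' _ (pow_ne_zero _ hp.ne_zero), e, Nat.gcd_mul_right_left, Nat.mul_div_cancel_left _ (pow_pos hp.pos _)]
    rw [← o, orderOf_dvd_iff_zpow_eq_one, _root_.zpow_sub, ← hk, h2 _ (o ▸ cm), zpow_one, mul_inv_cancel]
  have d3 : (p : ℤ) ^ a ∣ p * (k - 1) := by
    rcases a with _ | a
    · simp
    have d4 : (p : ℤ) ^ (a + 1) ∣ k ^ p - 1 ^ p := by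
      rw [one_pow]
      exact (show (p : ℤ) ^ (a + 1) ∣ orderOf g from ⟨m, by exact_mod_cast e⟩).trans d1
    have d5 : (p : ℤ) ∣ k - 1 := by
      have := Fact.mk hp
      have := (ZMod.intCast_zmod_eq_zero_iff_dvd _ p).2 ((dvd_pow_self _ (Nat.succ_ne_zero a)).trans d4)
      rw [← ZMod.intCast_zmod_eq_zero_iff_dvd]
      push_cast at this ⊢
      rwa [ZMod.pow_card, one_pow] at this
    rw [pow_dvd_iff_le_emultiplicity, Int.emultiplicity_pow_sub_pow hp op d5 (fun d => hp.not_dvd_one (by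
      have := dvd_sub d d5
      rw [sub_sub_cancel] at this
      exact_mod_cast this)), hp.emultiplicity_self] at d4
    rw [pow_succ', mul_dvd_mul_iff_left (by exact_mod_cast hp.ne_zero), pow_dvd_iff_le_emultiplicity]
    push_cast at d4
    exact (ENat.add_le_add_iff_right (by simp)).1 d4
  have d : (orderOf g : ℤ) ∣ p * (k - 1) := by
    rw [e]
    push_cast
    exact IsCoprime.mul_dvd (Nat.isCoprime_iff_coprime.2 cm.symm).pow_left d3 (d2.mul_left _)
  obtain ⟨j, rfl⟩ := mem_zpowers_iff.1 (hg y)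
  rw [hk, ← mul_inv_eq_one, ← zpow_natCast, ← _root_.zpow_mul, ← _root_.zpow_mul, ← _root_.zpow_mul,
    ← _root_.zpow_sub, ← orderOf_dvd_iff_zpow_eq_one, show j * ((p : ℤ) * k) - j * p = j * (p * (k - 1)) by ring]
  exact d.mul_left _

theorem card_fixed {σ : F ≃+* F} {p : ℕ} (ho : orderOf σ = p) :
    Fintype.card F = Nat.card {x : F // σ x = x} ^ p := by
  classical
  have : Finite (F ≃+* F) := Finite.of_injective _ (DFunLike.coe_injective (F := F ≃+* F))
  have := Fintype.ofFinite (zpowers σ)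
  have h := FixedPoints.finrank_eq_card (zpowers σ) F
  rw [← Nat.card_eq_fintype_card, Nat.card_zpowers, ho] at h
  rw [← Nat.card_eq_fintype_card, Module.natCard_eq_pow_finrank (K := FixedPoints.subfield (zpowers σ) F), h]
  congr 1
  refine Nat.card_congr (Equiv.subtypeEquivRight fun x => ⟨fun hx => hx ⟨σ, mem_zpowers σ⟩, fun hx g => ?_⟩)
  exact (zpowers_le (H := stabilizer (F ≃+* F) x)).2 hx g.2

/-- the torus through `g` -/
def CT (g : M2 F) : Subgroup SL(2, F) where
  carrier := {A | A.1 * g = g * A.1}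
  one_mem' := by simp
  mul_mem' := fun {a b} ha hb => by
    change a.1 * b.1 * g = g * (a.1 * b.1)
    rw [mul_assoc, hb, ← mul_assoc, ha, mul_assoc]
  inv_mem' := fun {a} ha => cancel_l (g := a.1) (by rw [a.2]; exact one_ne_zero) (by
    rw [← mul_assoc, ← mul_assoc, ha, mul_assoc g, ← Matrix.SpecialLinearGroup.coe_mul, mul_inv_cancel]; simp)

theorem mem_CT {g : M2 F} {A : SL(2, F)} : A ∈ CT g ↔ A.1 * g = g * A.1 := Iff.rfl

/-- a trace zero invertible matrix -/
structure TZ (g : M2 F) : Prop where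
  det : g.det ≠ 0
  tr : g 0 0 + g 1 1 = 0

namespace TZ

variable {g : M2 F}

theorem sq (z : TZ g) : g * g = -(g.det • (1 : M2 F)) := by rw [cayley2, z.tr, zero_smul, zero_sub]

theorem ns (z : TZ g) (h : (2 : F) ≠ 0) : ¬ (g 0 1 = 0 ∧ g 1 0 = 0 ∧ g 0 0 = g 1 1) := fun ⟨a, b, c⟩ => z.det (by
  have : g 1 1 = 0 := mul_left_cancel₀ h (by linear_combination z.tr - c)
  rw [det_fin_two, a, this]; ring)

theorem det_comb (z : TZ g) (a b : F) : (a • (1 : M2 F) + b • g).det = a * a + g.det * (b * b) := by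
  simp [det_fin_two]; linear_combination a * b * z.tr

noncomputable def torEquiv (z : TZ g) (h : (2 : F) ≠ 0) : {x : F × F // x.1 * x.1 + g.det * (x.2 * x.2) = 1} ≃ CT g :=
  Equiv.ofBijective (fun x => ⟨⟨x.1.1 • 1 + x.1.2 • g, (z.det_comb _ _).trans x.2⟩, by
    change (x.1.1 • 1 + x.1.2 • g) * g = g * (x.1.1 • 1 + x.1.2 • g)
    simp [add_mul, mul_add]⟩)
    ⟨fun x y e => Subtype.ext (Prod.ext_iff.2 (comb_unique (z.ns h) (congrArg (fun A : CT g => A.1.1) e))), fun A => by
      obtain ⟨a, b, e⟩ := exists_eq_of_commute (z.ns h) A.2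
      exact ⟨⟨(a, b), by rw [← z.det_comb, ← e, A.1.2]⟩, Subtype.ext (Subtype.ext e.symm)⟩⟩

theorem inv_of_anti (z : TZ g) (h : (2 : F) ≠ 0) {k : M2 F} (e : k * g = -(g * k)) {A : SL(2, F)} (hA : A ∈ CT g) :
    (A⁻¹).1 * k = k * A.1 := by
  obtain ⟨a, b, e'⟩ := exists_eq_of_commute (z.ns h) hA
  have d := z.det_comb a b
  rw [← e', A.2] at d
  refine cancel_l (g := A.1) (by rw [A.2]; exact one_ne_zero) ?_
  rw [← mul_assoc, ← Matrix.SpecialLinearGroup.coe_mul, mul_inv_cancel, Matrix.SpecialLinearGroup.coe_one, one_mul, e']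
  simp only [mul_add, add_mul, Matrix.mul_smul, Matrix.smul_mul, mul_one, one_mul, e, mul_neg, ← mul_assoc, z.sq,
    neg_mul, neg_neg]
  rw [show k = (a * a + g.det * (b * b)) • k by rw [← d, one_smul]]
  simp only [Matrix.mul_smul]
  rw [← d]
  simp only [one_smul]
  conv_lhs => rw [show k = (a * a + g.det * (b * b)) • k by rw [← d, one_smul]]
  module

theorem tr_of_anti (z : TZ g) (h : (2 : F) ≠ 0) {k : M2 F} (e : k * g = -(g * k)) : k 0 0 + k 1 1 = 0 := by
  have := trace_of_rel z.det (B := k) (A := -k) (by rw [e, mul_neg])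
  change _ = -k 0 0 + -k 1 1 at this
  exact mul_left_cancel₀ h (by linear_combination this)

end TZ

theorem card_tor_add (h : (2 : F) ≠ 0) {d e : F} (d0 : d ≠ 0) (e0 : e ≠ 0) (hd : IsSquare d) (he : ¬ IsSquare e) :
    Nat.card {x : F × F // x.1 * x.1 + d * (x.2 * x.2) = 1} + Nat.card {x : F × F // x.1 * x.1 + e * (x.2 * x.2) = 1} =
      2 * Fintype.card F := by
  classical
  have h2 : ringChar F ≠ 2 := fun e => h (by simpa [e] using ringChar.Nat.cast_ringChar (R := F))
  have k : ∀ d : F, d ≠ 0 → (Nat.card {x : F × F // x.1 * x.1 + d * (x.2 * x.2) = 1} : ℤ) =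
      ∑ a : F, (quadraticChar F (1 - a * a) * quadraticChar F d + 1) := fun d d0 => by
    rw [Nat.card_congr (Equiv.subtypeProdEquivSigmaSubtype fun a b : F => a * a + d * (b * b) = 1), Nat.card_sigma]
    push_cast
    refine Finset.sum_congr rfl fun a _ => ?_
    rw [← map_mul, ← quadraticChar_card_sqrts h2, ← Nat.card_eq_card_toFinset]
    congr 1
    exact Nat.card_congr ((Equiv.mulLeft₀ d d0).subtypeEquiv fun b => ⟨fun e => by
      simp only [Set.mem_setOf_eq, Equiv.mulLeft₀_apply]; linear_combination d * e, fun e => by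
      simp only [Set.mem_setOf_eq, Equiv.mulLeft₀_apply] at e; exact mul_left_cancel₀ d0 (by linear_combination e)⟩)
  zify
  rw [k d d0, k e e0, ← Finset.sum_add_distrib, (quadraticChar_one_iff_isSquare d0).2 hd,
    quadraticChar_neg_one_iff_not_isSquare.2 he, Finset.sum_congr rfl (g := fun _ => 2) fun a _ => by ring]
  simp [mul_comm]

theorem card_circle_ge (h : (2 : F) ≠ 0) :
    Fintype.card F ≤ Nat.card {x : F × F // x.1 * x.1 + 1 * (x.2 * x.2) = 1} + 2 := by
  classical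
  have h1 : Nat.card {s : F // 1 + s * s ≠ 0} ≤ Nat.card {x : F × F // x.1 * x.1 + 1 * (x.2 * x.2) = 1} :=
    Nat.card_le_card_of_injective (fun s => ⟨((1 - s.1 * s.1) / (1 + s.1 * s.1), 2 * s.1 / (1 + s.1 * s.1)), by
      have := s.2
      rw [one_mul, div_mul_div_comm, div_mul_div_comm, ← add_div, div_eq_one_iff_eq (mul_ne_zero this this)]; ring⟩) fun s t e => Subtype.ext (by
        have e1 := congrArg (fun x => x.1.1) e
        have e2 := congrArg (fun x => x.1.2) e
        have s2 := s.2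
        have t2 := t.2
        simp only at e1 e2
        rw [div_eq_div_iff s2 t2] at e1 e2
        have e3 : s.1 * s.1 = t.1 * t.1 := mul_left_cancel₀ h (by linear_combination -e1)
        rw [e3] at e2
        exact mul_left_cancel₀ h (mul_right_cancel₀ t2 e2))
  have h2 : (Finset.univ.filter fun s : F => 1 + s * s = 0).card ≤ 2 := by
    by_cases hs : ∃ i : F, 1 + i * i = 0
    · obtain ⟨i, hi⟩ := hs
      refine (Finset.card_le_card fun s hs => ?_).trans (Finset.card_le_two (a := i) (b := -i))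
      have : s * s = i * i := by linear_combination (Finset.mem_filter.1 hs).2 - hi
      simpa using mul_self_eq_mul_self_iff.1 this
    · rw [Finset.filter_eq_empty_iff.2 fun s _ e => hs ⟨s, e⟩]; simp
  have h3 := Finset.card_filter_add_card_filter_not (s := Finset.univ) fun s : F => 1 + s * s = 0
  rw [Nat.card_eq_fintype_card, Fintype.card_subtype] at h1
  rw [Finset.card_univ] at h3
  exact h3 ▸ (Nat.add_le_add h2 h1).trans (by omega)

theorem num_aux {q p : ℕ} (hq : 3 ≤ q) (hp : 3 ≤ p) : p * (2 * q) + 2 < q ^ p := by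
  obtain ⟨n, rfl⟩ := Nat.exists_eq_add_of_le hp
  have : 2 * (3 + n) + 1 ≤ q ^ (2 + n) := by
    refine le_trans ?_ (Nat.pow_le_pow_left hq _)
    clear hp
    induction n with
    | zero => norm_num
    | succ n ih => rw [← add_assoc 2, pow_succ]; omega
  rw [show 3 + n = 2 + n + 1 by ring, pow_succ]
  nlinarith

end CA.GW

theorem CA.realizeEqns_GW_AS2 : True := by
  have := @CA.GW.CT.eq_1.{0}
  have := @CA.GW.CT.eq_def.{0}
  have := @CA.GW.CT.congr_simp.{0}
  have := @CA.GW.R2.eq_1.{0}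
  have := @CA.GW.R2.eq_def.{0}
  have := @CA.GW.R2.congr_simp.{0}
  have := @CA.GW.TZ.torEquiv.eq_1.{0}
  have := @CA.GW.TZ.torEquiv.eq_def.{0}
  have := @CA.GW.TZ.torEquiv.congr_simp.{0}
  trivial
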