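import Cfsg.Agent.GW.AS2

/-! Structure of automorphism groups of `PSL(2, q)` of 2-rank two. -/

set_option autoImplicit false
set_option linter.unusedSectionVars false

namespace CA.GW.PM

open Matrix MulAction Subgroup Cfsg.Agent.Lin
open scoped MatrixGroups LinearAlgebra.Projectivization commutatorElement

variable {Γ : Type*} [Group Γ] [Finite Γ] {F : Type*} [Field F] [Fintype F] {ι : SL(2, F) →* Γ} (h : PM ι)
include h

theorem sig_eq {γ : Γ} {g k : M2 F} {σ τ : F ≃+* F} (r : RR ι γ g σ) (r' : RR ι γ k τ) : σ = τ := by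
  obtain ⟨n, hn⟩ := Nat.exists_eq_succ_of_ne_zero (orderOf_pos γ).ne'
  have e : γ ^ (n + 1) = 1 := by rw [← Nat.succ_eq_add_one, ← hn, pow_orderOf_eq_one]
  obtain ⟨m, hm⟩ := r.pow n
  have h1 := hm.mul r'
  rw [← pow_succ, e] at h1
  exact mul_left_cancel (a := σ ^ n) ((pow_succ σ n).symm.trans ((h.sig_pow r e).trans (h.of_one h1).1.symm))

theorem mem_of_same {γ δ : Γ} {g k : M2 F} {σ : F ≃+* F} (r : RR ι γ g σ) (r' : RR ι δ k σ)
    (e : IsSquare (g.det * k.det)) : ∃ B, γ = ι B * δ := by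
  obtain ⟨s, hs⟩ := e
  have s0 : s ≠ 0 := fun e => mul_ne_zero r.1 r'.1 (by rw [hs, e, mul_zero])
  have k0 := r'.1
  let B : SL(2, F) := ⟨(k.det / s) • (g * k⁻¹), by
    rw [det_smul, det_mul, det_nonsing_inv, Ring.inverse_eq_inv, Fintype.card_fin]
    field_simp
    linear_combination hs⟩
  refine ⟨B, h.uniq (r.smul (div_ne_zero k0 s0)) ?_⟩
  have := (rr_sl B).mul r'
  rwa [one_mul, map_one2, show B.1 * k = (k.det / s) • g by
    rw [Matrix.smul_mul, mul_assoc, nonsing_inv_mul _ k0.isUnit, mul_one]] at this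

/-- the quotient by the socle is abelian -/
theorem comm_mem (γ δ : Γ) : ⁅γ, δ⁆ ∈ ι.range := by
  obtain ⟨g, σ, r⟩ := h.exists_rr γ
  obtain ⟨k, τ, r'⟩ := h.exists_rr δ
  obtain ⟨B, hB⟩ := h.mem_of_same (r.mul r') (aut_comm h.two σ τ ▸ r'.mul r) (by
    rw [det_mul, det_mul, det_map2, det_map2, show g.det * σ k.det * (k.det * τ g.det) =
      (g.det * τ g.det) * (k.det * σ k.det) by ring]
    exact (sq_mul_map h.two _ _).mul (sq_mul_map h.two _ _))
  exact ⟨B, by rw [commutatorElement_def, hB]; group⟩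

theorem ne_one_of_tz {A : SL(2, F)} (t : A 0 0 + A 1 1 = 0) : ι A ≠ 1 := fun e => by
  rcases (h.ker A).1 e with rfl | rfl
  · exact h.two (by simpa [one_add_one_eq_two] using t)
  · exact h.two (by simp at t; linear_combination -t)

theorem sq_of_tz {A : SL(2, F)} (t : A 0 0 + A 1 1 = 0) : ι A * ι A = 1 := by
  rw [← map_mul, h.ker]
  exact .inr (Subtype.ext (by rw [Matrix.SpecialLinearGroup.coe_mul, sl2_cayley, t]; simp))

theorem comm_of_anti {A B : SL(2, F)} (e : A.1 * B.1 = -(B.1 * A.1)) : Commute (ι A) (ι B) := by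
  rw [Commute, SemiconjBy, ← map_mul, ← map_mul, h.eq_iff]
  exact .inr (Subtype.ext e)

/-- involutions are linear -/
theorem sig_inv (h2 : R2 Γ) {w : Γ} (w2 : w * w = 1) {g : M2 F} {σ : F ≃+* F} (r : RR ι w g σ) : σ = 1 := by
  by_contra s1
  obtain ⟨ss, c, c0, hc⟩ := h.of_one (w2 ▸ r.mul r)
  have σσ : ∀ x, σ (σ x) = x := fun x => DFunLike.congr_fun ss x
  have mm : ∀ A : M2 F, (A.map σ).map σ = A := fun A => by ext i j; exact σσ _
  have sm : ∀ (a : F) (A : M2 F), (a • A).map σ = σ a • A.map σ := fun a A => by ext i j; simp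
  have m1 : (1 : M2 F).map σ = 1 := Matrix.map_one _ (map_zero σ) (map_one σ)
  have σc : σ c = c := by
    have e1 := congrArg (fun A : M2 F => A.map σ) hc
    simp only [map_mul2, mm, sm, m1] at e1
    have e2 : g.map σ * g = c • (1 : M2 F) := cancel_l r.1 (by rw [← mul_assoc, hc]; simp)
    simpa using congrFun (congrFun (e1.symm.trans e2) 0) 0
  obtain ⟨θ, hθ⟩ : ∃ θ, σ θ ≠ θ := by_contra fun e => s1 (RingEquiv.ext fun x => by_contra fun e' => e ⟨x, e'⟩)
  obtain ⟨δ, δ0, hδ⟩ : ∃ δ, δ ≠ 0 ∧ σ δ = -δ := ⟨θ - σ θ, sub_ne_zero.2 hθ.symm, by rw [map_sub, σσ]; ring⟩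
  obtain ⟨a, b, ha, hb, hab⟩ := exists_conic h.two σ (d := -(δ * δ)) (by simpa using δ0) (by simp [hδ]) σc
  have hμ : (a + b * δ) * σ (a + b * δ) = c := by rw [map_add, map_mul, ha, hb, hδ]; linear_combination hab
  generalize a + b * δ = μ at hμ
  have μ0 : μ ≠ 0 := fun e => c0 (by rw [← hμ, e, zero_mul])
  have σμ : σ μ ≠ 0 := (map_ne_zero σ).2 μ0
  have r1 := r.smul (inv_ne_zero μ0)
  have k1 : (μ⁻¹ • g) * (μ⁻¹ • g).map σ = 1 := by
    rw [sm, Matrix.smul_mul, Matrix.mul_smul, hc, smul_smul, smul_smul, ← hμ, map_inv₀, show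
      μ⁻¹ * (σ μ)⁻¹ * (μ * σ μ) = 1 by field_simp, one_smul]
  generalize μ⁻¹ • g = k at r1 k1
  obtain ⟨l, hl⟩ : ∃ l : F, (l • (1 : M2 F) + σ l • k).det ≠ 0 := by
    by_contra! e
    have e1 := e 1
    have e2 := e δ
    have e3 := e (1 + δ)
    simp [det_fin_two, hδ] at e1 e2 e3
    exact mul_ne_zero (mul_ne_zero (mul_ne_zero h.two h.two) h.two) (pow_ne_zero 3 δ0) (by
      linear_combination 2 * δ ^ 2 * e3 - (2 * δ ^ 2 - 2 * δ ^ 3) * e1 - (2 * δ ^ 2 - 2 * δ) * e2)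
  have k2 : k * (l • (1 : M2 F) + σ l • k).map σ = l • (1 : M2 F) + σ l • k := by
    rw [Matrix.map_add _ (map_add σ), sm, sm, m1, σσ, mul_add, Matrix.mul_smul, Matrix.mul_smul, k1, mul_one, add_comm]
  generalize l • (1 : M2 F) + σ l • k = H at hl k2
  have key : ∀ A0 : SL(2, F), A0.1.map σ = A0.1 → ∃ A : SL(2, F), A.1 * H = H * A0.1 ∧ Commute (ι A) w := fun A0 e => by
    obtain ⟨A, hA⟩ := exB hl 1 A0
    refine ⟨A, hA, (mul_inv_eq_iff_eq_mul.1 (r1.2 A A (cancel_r (g := H.map σ) (by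
      rw [det_map2]; exact (map_ne_zero σ).2 hl) ?_))).symm⟩
    rw [map_one2] at hA
    rw [mul_assoc, k2, mul_assoc, ← map_mul2, hA, map_mul2, ← mul_assoc, k2, e]
  obtain ⟨x, y, hx, hy, hxy⟩ := exists_conic h.two σ (d := 1) (c := -1) one_ne_zero (map_one σ) (by simp)
  obtain ⟨A, a1, a2⟩ := key (sl2 0 1 (-1) 0 (by ring)) (m2_ext (by simp [coe_sl2]) (by simp [coe_sl2]) (by simp [coe_sl2])
    (by simp [coe_sl2]))
  obtain ⟨B, b1, b2⟩ := key (sl2 x y y (-x) (by linear_combination -hxy)) (m2_ext (by simp [coe_sl2, hx])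
    (by simp [coe_sl2, hy]) (by simp [coe_sl2, hy]) (by simp [coe_sl2, hx]))
  have ta : A 0 0 + A 1 1 = 0 := (trace_of_rel hl a1).trans (by simp [coe_sl2])
  have tb : B 0 0 + B 1 1 = 0 := (trace_of_rel hl b1).trans (by simp [coe_sl2])
  have ab : A.1 * B.1 = -(B.1 * A.1) := cancel_r hl (by
    rw [neg_mul, mul_assoc A.1, mul_assoc B.1, a1, b1, ← mul_assoc A.1, ← mul_assoc B.1, a1, b1, mul_assoc H,
      mul_assoc H, ← mul_neg H]
    congr 1
    exact m2_ext (by simp [coe_sl2]) (by simp [coe_sl2]) (by simp [coe_sl2]) (by simp [coe_sl2]))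
  have tab : (A * B) 0 0 + (A * B) 1 1 = 0 := (TZ.mk (g := (A * B).1) (by rw [(A * B).2]; exact one_ne_zero)
    (TZ.tr_of_anti (g := B.1) ⟨by rw [B.2]; exact one_ne_zero, tb⟩ h.two (by
      rw [Matrix.SpecialLinearGroup.coe_mul, mul_assoc, ← mul_assoc B.1, ← neg_mul, ← ab, mul_assoc]))).tr
  have : ∃ C, w = ι C := by
    rcases h2 _ _ _ (h.sq_of_tz ta) (h.sq_of_tz tb) w2 (h.comm_of_anti ab) a2 b2 (h.ne_one_of_tz ta) (h.ne_one_of_tz tb)
      (fun e => h.ne_one_of_tz tab (by rw [map_mul, e, h.sq_of_tz tb])) with e | e | e | e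
    exacts [⟨1, by rw [e, map_one]⟩, ⟨_, e⟩, ⟨_, e⟩, ⟨_, by rw [e, map_mul]⟩]
  obtain ⟨C, rfl⟩ := this
  exact s1 (h.sig_eq r (rr_sl C))

theorem inv_model (h2 : R2 Γ) {w : Γ} (w2 : w * w = 1) (w1 : w ≠ 1) : ∃ g, RR ι w g 1 ∧ TZ g := by
  obtain ⟨g, σ, r⟩ := h.exists_rr w
  obtain rfl := h.sig_inv h2 w2 r
  obtain ⟨-, c, -, hc⟩ := h.of_one (w2 ▸ r.mul r)
  exact ⟨g, r, r.1, (trace_zero hc fun a e => w1 (h.uniq r (e ▸ rr_one.smul fun a0 => r.1 (by simp [e, a0])))).1⟩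

theorem inv_lift {t : Γ} (t2 : t * t = 1) (t1 : t ≠ 1) (ht : t ∈ ι.range) : ∃ τ : SL(2, F), t = ι τ ∧ TZ τ.1 := by
  obtain ⟨τ, rfl⟩ := ht
  obtain ⟨-, c, -, hc⟩ := h.of_one (t2 ▸ (rr_sl τ).mul (rr_sl τ))
  exact ⟨τ, rfl, (rr_sl (ι := ι) τ).1, (trace_zero hc fun a e => t1 (h.uniq (rr_sl τ)
    (e ▸ rr_one.smul fun a0 => (rr_sl (ι := ι) τ).1 (by simp [e, a0])))).1⟩

theorem comm_cases {w : Γ} {g : M2 F} (r : RR ι w g 1) {A : SL(2, F)} :
    Commute w (ι A) ↔ A ∈ CT g ∨ A.1 * g = -(g * A.1) :=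
  ⟨fun c => h.of_rr r (mul_inv_eq_of_eq_mul c.eq), fun c => mul_inv_eq_iff_eq_mul.1 (c.elim (r.2 A A) fun e =>
    (r.2 A (-A) (by rw [Matrix.SpecialLinearGroup.coe_neg, neg_mul, e, neg_neg, map_one2])).trans (h.map_neg A))⟩

theorem lift_p {p : ℕ} [Fact p.Prime] [CharP F p] {y : Γ} (hy : y ∈ ι.range) {k : ℕ} (e : y ^ p ^ k = 1) :
    ∃ Y : SL(2, F), y = ι Y ∧ Y 0 0 + Y 1 1 = 2 := by
  have op : Odd p := (Fact.out : p.Prime).odd_of_ne_two fun e => h.two (by simpa [e] using CharP.cast_eq_zero F p)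
  obtain ⟨B, rfl⟩ := hy
  obtain ⟨Y, y1, y2⟩ : ∃ Y, ι B = ι Y ∧ Y ^ p ^ k = 1 := by
    rcases (h.ker (B ^ p ^ k)).1 (by rw [map_pow, e]) with e | e
    · exact ⟨B, rfl, e⟩
    · exact ⟨-B, (h.map_neg B).symm, by rw [op.pow.neg_pow, e, neg_neg]⟩
  obtain ⟨P, hP⟩ := (show IsPGroup p (zpowers Y) from fun ⟨_, j, e⟩ => ⟨k, Subtype.ext (by
    subst e; change (Y ^ j) ^ p ^ k = 1
    rw [← zpow_natCast, ← _root_.zpow_mul, mul_comm, _root_.zpow_mul, zpow_natCast, y2, _root_.one_zpow])⟩).exists_le_sylow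
  obtain ⟨x, hx⟩ := exists_lineStab_eq_sylow p P
  exact ⟨Y, y1, trace_of_mem_lineStab (hx ▸ hP (mem_zpowers Y))⟩

/-- no involution centralizes a nontrivial unipotent element -/
theorem inv_unip (h2 : R2 Γ) {p : ℕ} [Fact p.Prime] [CharP F p] {w y : Γ} (w2 : w * w = 1) (w1 : w ≠ 1)
    (hy : y ∈ ι.range) {k : ℕ} (e : y ^ p ^ k = 1) (c : Commute w y) : y = 1 := by
  obtain ⟨g, r, z⟩ := h.inv_model h2 w2 w1
  obtain ⟨Y, rfl, tY⟩ := h.lift_p hy e
  rcases (h.comm_cases r).1 c with e | e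
  · obtain ⟨a, b, hab⟩ := exists_eq_of_commute (z.ns h.two) e
    have d := z.det_comb a b
    rw [← hab, Y.2] at d
    have t : a = 1 := by
      change Y.1 0 0 + Y.1 1 1 = 2 at tY
      rw [hab] at tY
      simp at tY
      exact mul_left_cancel₀ h.two (by linear_combination tY - b * z.tr)
    have b0 : b = 0 := by
      have : g.det * (b * b) = 0 := by rw [t] at d; linear_combination -d
      simpa [z.det] using this
    rw [show Y = 1 from Subtype.ext (by simp [hab, t, b0]), map_one]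
  · exact absurd ((show (2 : F) = _ from tY.symm).trans (z.tr_of_anti h.two e)) h.two

theorem cyc_CT {τ : SL(2, F)} (z : TZ τ.1) : IsCyclic (CT τ.1) :=
  isCyclic_of_commute (z := τ) (by
    rw [show τ 0 0 + τ 1 1 = 0 from z.tr]
    exact fun e => mul_ne_zero h.two h.two (by linear_combination -e)) (CT τ.1).subtype Subtype.val_injective
    fun y => Subtype.ext y.2

theorem card_map_CT (g : M2 F) : Nat.card (CT g) = 2 * Nat.card ((CT g).map ι) := by
  have e : Nat.card (ι.ker.subgroupOf (CT g)) = 2 := by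
    rw [Nat.card_eq_two_iff]
    refine ⟨1, ⟨⟨-1, by simp [mem_CT]⟩, (h.ker _).2 (.inr rfl)⟩, fun e => h.neg_ne 1 (congrArg (fun x => x.1.1) e).symm,
      Set.eq_univ_of_forall fun x => ?_⟩
    rcases (h.ker _).1 x.2 with e | e
    · exact .inl (Subtype.ext (Subtype.ext e))
    · exact .inr (Subtype.ext (Subtype.ext e))
  rw [← relIndex_ker, relIndex, ← card_mul_index (ι.ker.subgroupOf (CT g)), e]

/-- involutions of a torus -/
theorem inv_CT {g : M2 F} (z : TZ g) {A : SL(2, F)} (hA : A ∈ CT g) (e : ι A * ι A = 1) :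
    ι A = 1 ∨ ∃ b : F, A.1 = b • g ∧ g.det * (b * b) = 1 := by
  refine or_iff_not_imp_left.2 fun a1 => ?_
  obtain ⟨B, hB, zB⟩ := h.inv_lift e a1 ⟨A, rfl⟩
  have t : A.1 0 0 + A.1 1 1 = 0 := by
    rcases h.eq_iff.1 hB with rfl | rfl
    · exact zB.tr
    · change -B.1 0 0 + -B.1 1 1 = 0
      linear_combination -zB.tr
  obtain ⟨a, b, hab⟩ := exists_eq_of_commute (z.ns h.two) hA
  have d := z.det_comb a b
  rw [← hab, A.2] at d
  rw [hab] at t
  simp at t
  obtain rfl : a = 0 := mul_left_cancel₀ h.two (by linear_combination t - b * z.tr)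
  exact ⟨b, by simpa using hab, by linear_combination -d⟩

theorem inv_CT_sl {τ : SL(2, F)} (z : TZ τ.1) {A : SL(2, F)} (hA : A ∈ CT τ.1) (e : ι A * ι A = 1) :
    ι A = 1 ∨ ι A = ι τ := (h.inv_CT z hA e).imp_right fun ⟨b, h1, h2⟩ => by
  rw [τ.2, one_mul, mul_self_eq_one_iff] at h2
  rcases h2 with rfl | rfl
  · exact congrArg ι (Subtype.ext (by simpa using h1))
  · exact h.eq_iff.2 (.inr (Subtype.ext (by simpa using h1)))

theorem inverts {w : Γ} {k : M2 F} (r : RR ι w k 1) {g : M2 F} (z : TZ g) (e : k * g = -(g * k)) {y : Γ}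
    (hy : y ∈ (CT g).map ι) : w * y * w⁻¹ = y⁻¹ := by
  obtain ⟨A, hA, rfl⟩ := hy
  rw [← map_inv]
  exact r.2 _ _ (z.inv_of_anti h.two e hA)

/-- the subgroup of index two in the centralizer of an involution of the socle -/
theorem eq_CT {τ : SL(2, F)} (z : TZ τ.1) {K : Subgroup Γ} (tK : ι τ ∈ K) (le : K ≤ ι.range ⊓ centralizer {ι τ})
    (ix : K.relIndex (ι.range ⊓ centralizer {ι τ}) = 2)
    (sq : ∀ x ∈ ι.range ⊓ centralizer {ι τ}, x ∉ K → x * x = 1) : K = (CT τ.1).map ι := by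
  have cc : ∀ A, ι A ∈ centralizer {ι τ} ↔ A ∈ CT τ.1 ∨ A.1 * τ.1 = -(τ.1 * A.1) := fun A =>
    mem_centralizer_singleton_iff.trans (Commute.symm_iff.trans (h.comm_cases (rr_sl τ)))
  have l1 : (CT τ.1).map ι ≤ K := by
    rintro _ ⟨A, hA, rfl⟩
    by_contra e
    rcases h.inv_CT_sl z hA (sq _ ⟨⟨A, rfl⟩, (cc A).2 (.inl hA)⟩ e) with e' | e'
    · exact e (e' ▸ one_mem K)
    · exact e (e' ▸ tK)
  refine le_antisymm (fun x hx => ?_) l1
  obtain ⟨⟨A, rfl⟩, hA⟩ := le hx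
  refine ((cc A).1 hA).elim (fun e => ⟨A, e, rfl⟩) fun e => absurd ix ?_
  rw [relIndex_eq_one.2]
  · norm_num
  rintro _ ⟨⟨B, rfl⟩, hB⟩
  rcases (cc B).1 hB with e' | e'
  · exact l1 ⟨B, e', rfl⟩
  · refine (K.mul_mem_cancel_left hx).1 (l1 ⟨A * B, ?_, map_mul _ _ _⟩)
    rw [SetLike.mem_coe, mem_CT, Matrix.SpecialLinearGroup.coe_mul, mul_assoc, e', mul_neg, ← mul_assoc, e, neg_mul,
      neg_neg, mul_assoc]

theorem tl_aux {τ : SL(2, F)} (z : TZ τ.1) {p : ℕ} (hp : p.Prime) (op : Odd p) {x : Γ} {g : M2 F} {σ : F ≃+* F}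
    (r : RR ι x g σ) (e : τ.1 * g = g * τ.1.map σ) (ho : orderOf σ = p)
    (hc : ∀ A ∈ CT τ.1, (orderOf A).Coprime p → Commute x (ι A)) : False := by
  classical
  have := h.cyc_CT z
  let E := z.torEquiv h.two
  have hE : ∀ u, (E u).1.1 = u.1.1 • 1 + u.1.2 • τ.1 := fun _ => rfl
  let s : {x : F × F // x.1 * x.1 + τ.1.det * (x.2 * x.2) = 1} → {x : F × F // x.1 * x.1 + τ.1.det * (x.2 * x.2) = 1} :=
    fun u => ⟨(σ u.1.1, σ u.1.2), by simpa [τ.2] using congrArg σ u.2⟩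
  have rel : ∀ u, (E (s u)).1.1 * g = g * (E u).1.1.map σ := fun u => by
    have sm : ∀ (a : F) (A : M2 F), (a • A).map σ = σ a • A.map σ := fun a A => by ext i j; simp
    rw [hE, hE, Matrix.map_add _ (map_add σ), sm, sm, Matrix.map_one _ (map_zero σ) (map_one σ)]
    simp [add_mul, mul_add, e, s]
  let ψ : CT τ.1 →* CT τ.1 := MonoidHom.mk' (fun A => E (s (E.symm A))) fun A B =>
    Subtype.ext (Subtype.ext (cancel_r r.1 (by
      change _ = (E (s (E.symm A))).1.1 * (E (s (E.symm B))).1.1 * g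
      rw [mul_assoc, rel, rel, ← mul_assoc, rel, mul_assoc, ← map_mul2]
      simp)))
  have hψ : ∀ u, ψ (E u) = E (s u) := fun u => by simp [ψ]
  have it : ∀ n u, (s^[n] u).1 = ((σ ^ n) u.1.1, (σ ^ n) u.1.2) := fun n u => by
    induction n with
    | zero => rfl
    | succ n ih => rw [Function.iterate_succ_apply', pow_succ']; simp [s, ih]
  have h1 : ∀ y, ψ^[p] y = y := fun y => by
    obtain ⟨u, rfl⟩ := E.surjective y
    rw [← (show Function.Semiconj E s ψ from fun u => (hψ u).symm).iterate_right p u]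
    congr 1
    exact Subtype.ext (by rw [it, ← ho, pow_orderOf_eq_one]; rfl)
  have fx := cyc_pow hp op ψ h1 fun y hy => by
    obtain ⟨u, rfl⟩ := E.surjective y
    have e1 := (mul_inv_eq_of_eq_mul (hc _ (E u).2 (by rwa [Subgroup.orderOf_coe])).eq).symm.trans (r.2 _ _ (rel u))
    rw [← hψ] at e1
    rcases h.eq_iff.1 e1 with e2 | e2
    · exact (Subtype.ext e2).symm
    · exfalso
      let m : CT τ.1 := ⟨-1, by simp [mem_CT]⟩
      have m1 : ψ m = m := by
        rw [show m = E ⟨(-1, 0), by simp⟩ from Subtype.ext (Subtype.ext (by simp [hE, m])), hψ]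
        congr 1
        exact Subtype.ext (by simp [s])
      have e3 : ψ (E u) = m * E u := Subtype.ext (by simp [m, ← neg_eq_iff_eq_neg.2 e2])
      have e4 : ∀ n, ψ^[n] (E u) = m ^ n * E u := fun n => by
        induction n with
        | zero => simp
        | succ n ih => rw [Function.iterate_succ_apply', ih, map_mul, map_pow, m1, e3, pow_succ, mul_assoc]
      have e5 := congrArg Subtype.val ((h1 _).symm.trans (e4 p))
      simp only [m, coe_mul, SubmonoidClass.coe_pow, op.neg_one_pow, neg_one_mul] at e5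
      exact h.neg_ne _ e5.symm
  letI := IsCyclic.commGroup (α := CT τ.1)
  have c1 : Nat.card (powMonoidHom p : CT τ.1 →* CT τ.1).range ≤ Nat.card {a : F // σ a = a} * 2 := by
    have fix : ∀ y : (powMonoidHom p : CT τ.1 →* CT τ.1).range, σ (E.symm y).1.1 = (E.symm y).1.1 := by
      rintro ⟨_, y, rfl⟩
      have := fx y
      rw [← E.apply_symm_apply (y ^ p), hψ] at this
      exact congrArg (fun u => u.1.1) (E.injective this)
    rw [Nat.card_eq_fintype_card (α := {a : F // σ a = a}), ← Finset.card_univ, mul_comm]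
    have := Fintype.ofFinite (powMonoidHom p : CT τ.1 →* CT τ.1).range
    rw [Nat.card_eq_fintype_card, ← Finset.card_univ]
    refine Finset.card_le_mul_card_image_of_maps_to (f := fun y => (⟨_, fix y⟩ : {a : F // σ a = a}))
      (fun _ _ => Finset.mem_univ _) 2 fun a _ => ?_
    by_contra! hh
    obtain ⟨y1, y2, y3, m1, m2, m3, n1, n2, n3⟩ := Finset.two_lt_card_iff.1 hh
    have k : ∀ y y' : (powMonoidHom p : CT τ.1 →* CT τ.1).range, (E.symm y).1.1 = a → (E.symm y').1.1 = a → y ≠ y' →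
        (E.symm y).1.2 = -(E.symm y').1.2 := fun y y' a1 a2 n => by
      have b1 := (E.symm y).2
      have b2 := (E.symm y').2
      refine (mul_self_eq_mul_self_iff.1 (mul_left_cancel₀ z.det (by
        rw [a1] at b1; rw [a2] at b2; linear_combination b1 - b2))).resolve_left
        fun e => n (Subtype.ext (E.symm.injective (Subtype.ext (Prod.ext (a1.trans a2.symm) e))))
    have f1 := congrArg Subtype.val (Finset.mem_filter.1 m1).2
    have f2 := congrArg Subtype.val (Finset.mem_filter.1 m2).2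
    have f3 := congrArg Subtype.val (Finset.mem_filter.1 m3).2
    exact n3 (Subtype.ext (E.symm.injective (Subtype.ext (Prod.ext (f2.trans f3.symm)
      (neg_injective ((k _ _ f1 f2 n1).symm.trans (k _ _ f1 f3 n2)))))))
  have c2 := card_mul_index (powMonoidHom p : CT τ.1 →* CT τ.1).range
  rw [IsCyclic.index_powMonoidHom_range] at c2
  have c3 := card_circle_ge h.two
  have c0 : ∀ d : F, d = 1 → Nat.card {x : F × F // x.1 * x.1 + 1 * (x.2 * x.2) = 1} =
    Nat.card {x : F × F // x.1 * x.1 + d * (x.2 * x.2) = 1} := fun d e => by rw [e]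
  rw [c0 _ τ.2, Nat.card_congr E, ← c2, card_fixed ho] at c3
  have c4 : 3 ≤ Nat.card {a : F // σ a = a} := by
    rw [Nat.card_eq_fintype_card, ← Finset.card_univ]
    exact Finset.two_lt_card_iff.2 ⟨⟨0, map_zero σ⟩, ⟨1, map_one σ⟩, ⟨-1, by simp⟩, by simp, by simp, by simp, by simp, by simp,
      fun e => h.two (by linear_combination congrArg Subtype.val e)⟩
  have c5 := num_aux c4 (hp.two_le.lt_of_ne fun e => by rw [← e] at op; exact absurd op (by decide))
  have c6 := Nat.mul_le_mul c1 (Nat.gcd_le_right (Nat.card (CT τ.1)) hp.pos)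
  nlinarith

theorem rr_pow_comm {τ : SL(2, F)} {x : Γ} {g : M2 F} {σ : F ≃+* F} (r : RR ι x g σ) (e : τ.1 * g = g * τ.1.map σ)
    (n : ℕ) : ∃ k, RR ι (x ^ n) k (σ ^ n) ∧ τ.1 * k = k * τ.1.map (σ ^ n) := by
  induction n with
  | zero => exact ⟨1, by simpa using rr_one, by simp [map_one2]⟩
  | succ n ih =>
    obtain ⟨k, h1, h2⟩ := ih
    refine ⟨_, by rw [pow_succ, pow_succ]; exact h1.mul r, ?_⟩
    rw [← mul_assoc, h2, mul_assoc, mul_assoc, ← map_mul2, e, map_mul2, Matrix.map_map, pow_succ]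
    rfl

/-- a `p`-element centralizing the `p'`-part of the torus lies in the torus -/
theorem tl {τ : SL(2, F)} (z : TZ τ.1) {p k : ℕ} (hp : p.Prime) (op : Odd p) {x : Γ} (hx : x ^ p ^ k = 1)
    (c : Commute x (ι τ)) (hc : ∀ y ∈ (CT τ.1).map ι, (orderOf y).Coprime p → Commute x y) :
    x ∈ (CT τ.1).map ι := by
  obtain ⟨g0, σ0, r0⟩ := h.exists_rr x
  have r := r0.mul r0
  have e : τ.1 * (g0 * g0.map σ0) = g0 * g0.map σ0 * τ.1.map (σ0 * σ0) := by
    have mm : τ.1.map (σ0 * σ0) = (τ.1.map σ0).map σ0 := rfl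
    rcases h.of_rr r0 (mul_inv_eq_of_eq_mul c.eq) with e | e
    · rw [← mul_assoc, e, mul_assoc, mul_assoc, ← map_mul2, e, map_mul2, mm]
    · rw [← mul_assoc, e, neg_mul, mul_assoc, mul_assoc, ← map_mul2, e, Matrix.map_neg _ (_root_.map_neg σ0), map_mul2, mm,
        mul_neg, neg_neg]
  generalize g0 * g0.map σ0 = g at r e
  generalize σ0 * σ0 = σ at r e
  obtain ⟨j, hj⟩ : Odd (p ^ k) := op.pow
  have x2 : (x * x) ^ p ^ k = 1 := by rw [(Commute.refl x).mul_pow, hx, one_mul]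
  by_cases s1 : σ = 1
  · subst s1
    obtain ⟨-, a, a0, ha⟩ := h.of_one (x2 ▸ r.pow_one _)
    have d := congrArg det ha
    rw [det_pow, det_smul, det_one, Fintype.card_fin, hj] at d
    obtain ⟨B, b1, b2⟩ := h.mem_of_sq r (s := a / g.det ^ j) (by have := r.1; field_simp; linear_combination d)
    rw [show x = (x * x) ^ (j + 1) by rw [← sq, ← pow_mul, show 2 * (j + 1) = p ^ k + 1 by omega, pow_succ, hx, one_mul]]
    refine pow_mem (show x * x ∈ (CT τ.1).map ι from ⟨B, ?_, b2.symm⟩) _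
    rw [SetLike.mem_coe, mem_CT, b1, Matrix.smul_mul, Matrix.mul_smul, e, map_one2]
  have := Fact.mk hp
  obtain ⟨i, -, hi⟩ := (Nat.dvd_prime_pow hp).1 (orderOf_dvd_of_pow_eq_one (h.sig_pow r x2))
  obtain ⟨i, rfl⟩ := Nat.exists_eq_succ_of_ne_zero (n := i) fun e => s1 (by simpa [e] using hi)
  obtain ⟨m, r1, e1⟩ := h.rr_pow_comm r e (p ^ i)
  refine (h.tl_aux z hp op r1 e1 (by
    rw [orderOf_pow' _ (pow_ne_zero _ hp.ne_zero), hi, pow_succ, Nat.gcd_mul_right_left,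
      Nat.mul_div_cancel_left _ (pow_pos hp.pos _)]) fun A hA o => ?_).elim
  have := hc _ ⟨A, hA, rfl⟩ (o.coprime_dvd_left (orderOf_map_dvd ι A))
  exact (this.mul_left this).pow_left _

/-- involutions outside the socle -/
theorem out (h2 : R2 Γ) {w : Γ} (w2 : w * w = 1) (hw : w ∉ ι.range) {τ : SL(2, F)} (z : TZ τ.1) (c : Commute w (ι τ)) :
    ∃ T : Subgroup Γ, T ≤ ι.range ∧ Odd (Nat.card T) ∧ Nat.card T + Nat.card ((CT τ.1).map ι) = Fintype.card F ∧
      (∀ y ∈ ι.range, Commute w y ↔ y ∈ T ∨ y * ι τ ∈ T) ∧ (∀ y ∈ T, ι τ * y * (ι τ)⁻¹ = y⁻¹) ∧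
      ∀ y ∈ (CT τ.1).map ι, w * y * w⁻¹ = y⁻¹ := by
  obtain ⟨g, r, zg⟩ := h.inv_model h2 w2 fun e => hw (e ▸ one_mem _)
  have ns : ¬ IsSquare g.det := fun ⟨s, e⟩ => hw ((h.mem_of_sq r e).imp fun B b => b.2.symm)
  have ni : ∀ A ∈ CT g, ι A * ι A = 1 → ι A = 1 := fun A hA e => (h.inv_CT zg hA e).resolve_right
    fun ⟨b, _, h2⟩ => ns ⟨g.det * b, by linear_combination -g.det * h2⟩
  have an : τ.1 * g = -(g * τ.1) := ((h.comm_cases r).1 c).resolve_left fun e =>
    h.ne_one_of_tz z.tr (ni τ e (h.sq_of_tz z.tr))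
  refine ⟨(CT g).map ι, map_le_range _ _, ?_, ?_, ?_, fun y => h.inverts (rr_sl τ) zg an, fun y => h.inverts r z (by
    rw [an, neg_neg])⟩
  · rw [← Nat.not_even_iff_odd, even_iff_two_dvd]
    intro d
    obtain ⟨⟨_, A, hA, rfl⟩, o⟩ := exists_prime_orderOf_dvd_card' (G := (CT g).map ι) 2 d
    rw [← Subgroup.orderOf_coe] at o
    have := ni A hA ((sq _).symm.trans (orderOf_dvd_iff_pow_eq_one.1 o.dvd))
    simp [this] at o
  · have := card_tor_add h.two (d := τ.1.det) z.det zg.det (by rw [τ.2]; exact IsSquare.one) ns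
    rw [Nat.card_congr (z.torEquiv h.two), Nat.card_congr (zg.torEquiv h.two), h.card_map_CT, h.card_map_CT] at this
    omega
  · rintro _ ⟨A, rfl⟩
    have tc : ∀ y ∈ (CT g).map ι, Commute w y := by
      rintro _ ⟨B, hB, rfl⟩
      exact (h.comm_cases r).2 (.inl hB)
    refine ⟨fun e => ((h.comm_cases r).1 e).imp (fun e => ⟨A, e, rfl⟩) fun e => ⟨A * τ, ?_, map_mul _ _ _⟩,
      fun e => e.elim (tc _) fun e => by simpa using (tc _ e).mul_right c.inv_right⟩
    rw [SetLike.mem_coe, mem_CT, Matrix.SpecialLinearGroup.coe_mul, mul_assoc, an, mul_neg, ← mul_assoc, e, neg_mul,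
      neg_neg, mul_assoc]

/-- odd `r`-subgroups of the socle are cyclic if `r` is not the characteristic -/
theorem cyc_sub {p r : ℕ} [Fact p.Prime] [CharP F p] [Fact r.Prime] (r2 : r ≠ 2) (rp : r ≠ p) {X : Subgroup Γ}
    (hX : X ≤ ι.range) (pX : IsPGroup r X) : IsCyclic X := by
  obtain ⟨P⟩ := Sylow.nonempty (p := r) (G := SL(2, F))
  obtain ⟨Q, hQ⟩ := (pX.of_equiv (subgroupOfEquivOfLe hX).symm).exists_le_sylow
  obtain ⟨P, rfl⟩ := Sylow.mapSurjective_surjective ι.rangeRestrict_surjective r Q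
  have := isCyclic_of_isPGroup p r2 rp P.isPGroup' (Subgroup.subtype _) Subtype.val_injective
  have : IsCyclic (P.mapSurjective ι.rangeRestrict_surjective : Subgroup ι.range) :=
    isCyclic_of_surjective _ (ι.rangeRestrict.subgroupMap_surjective P)
  have := Subgroup.isCyclic_of_le hQ
  exact isCyclic_of_surjective _ (subgroupOfEquivOfLe hX).surjective

end CA.GW.PM

theorem CA.realizeEqns_GW_AS3 : True := by

  trivial
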