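import Cfsg.Agent.GW.XC4

/-! The Gorenstein-Walter theorem: the induction and the final reduction. -/

set_option autoImplicit false
set_option linter.unusedSectionVars false

namespace CA.GW

open Subgroup Cfsg CA.FG CA.BG CA.Dih
open scoped commutatorElement Classical

universe u

/-- the local analysis of a minimal counterexample -/
def Step : Prop := ∀ (G : Type u) [Group G] [Finite G] [IsSimpleGroup G] (S : Subgroup G) (c t s : G),
  Cx S c t s → BA.XQ G → Good G

theorem gw_simple (ch : Ch.{u}) (step : Step.{u}) (G : Type u) [Group G] [Finite G] [IsSimpleGroup G]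
    (nab : ¬ IsMulCommutative G) (hd : HasDih G) : Good G := by
  generalize hn : Nat.card G = n
  induction n using Nat.strong_induction_on generalizing G with
  | _ n ih =>
  subst hn
  have ih' : IH G := fun L _ _ _ nab lt hd => ih _ lt L nab hd rfl
  obtain ⟨S, c, t, s, d⟩ := hd.exists_DS nab
  by_cases hU : UU t = ⊥
  · have := Fintype.ofFinite G
    exact .inl ⟨_, t, BSW.of_core (O := ⊥) (der_top_eq nab) d.syl d.inv.ord d.le (hU ▸ d.hall d.inv) (hU ▸ UU_norm t) d.zle
      (cyclic_zpowers c) d.dih.index d.tc (le_cent_symm bot_le) d.dih.sq (by simp) (by simp)⟩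
  · exact step G S c t s ⟨d, nab, ch, xc hd ih', hU⟩ (xq hd ih')

theorem s0483_of (ch : Ch.{u}) (step : Step.{u}) {X : Type u} [Group X] [Finite X] [Group.IsPerfect X]
    (S : Sylow 2 X) (n : ℕ) (hn : 2 ≤ n) (hS : Nonempty ((S : Subgroup X) ≃* DihedralGroup n)) :
    (∃ (F : Type) (_ : Field F) (_ : Fintype F), Odd (Fintype.card F) ∧ 3 < Fintype.card F ∧
        Nonempty (X ⧸ Cfsg.oddCore X ≃* Matrix.ProjectiveSpecialLinearGroup (Fin 2) F)) ∨
      Nonempty (X ⧸ Cfsg.oddCore X ≃* alternatingGroup (Fin 7)) := by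
  have := Fintype.ofFinite X
  obtain ⟨c, d, oc⟩ := exists_isDih (by omega) hS
  have c1 : c ≠ 1 := fun e => by simp [e] at oc; omega
  have hp : ⁅(⊤ : Subgroup X), (⊤ : Subgroup X)⁆ = ⊤ := Group.IsPerfect.commutator_eq_top
  let f := (QuotientGroup.mk' (oddCore X)).comp (⊤ : Subgroup X).subtype
  have hf : Function.Surjective f := (QuotientGroup.mk'_surjective _).comp fun x => ⟨⟨x, trivial⟩, rfl⟩
  obtain ⟨L, h⟩ := exists_AS hf (by
    ext x
    simp [mem_pre, f, ← pPrimeCore_eq_top Nat.prime_two]) (dd_of_isDih (sylow_top Nat.prime_two S) d)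
    fun e => (der_lt_of_sol e (ne_bot_of_mem (mem_top c) c1)).ne hp
  have := h.simple
  have g := gw_simple ch step L h.nab (h.hd.sub h.nsol)
  obtain rfl : L = ⊤ := by
    rw [eq_top_iff, ← map_top_of_surjective _ (QuotientGroup.mk'_surjective (oddCore X)), ← hp, map_commutator]
    exact commutator_le.2 fun x _ y _ => h.der g x y
  rcases g with ⟨K, t, b⟩ | ⟨⟨e⟩⟩
  · have := Fintype.ofFinite (⊤ : Subgroup (X ⧸ oddCore X))
    obtain ⟨F, _, _, o, ⟨e⟩⟩ := b.exists_equiv
    refine .inl ⟨F, inferInstance, inferInstance, o, ?_, ⟨topEquiv.symm.trans e⟩⟩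
    have h1 : 1 < Fintype.card F := Fintype.one_lt_card
    by_contra h2
    have h3 : Fintype.card F = 3 := by rw [Nat.odd_iff] at o; omega
    have h4 := Cfsg.Agent.Lin.card_center_mul_card_PSL h3 2 (by norm_num)
    rw [Cfsg.Agent.Lin.card_SL2 h3, ← Nat.card_congr e.toEquiv] at h4
    rw [show Nat.gcd 2 (3 - 1) = 2 by norm_num] at h4
    have := card_simple_le h.nab (by omega)
    omega
  · exact .inr ⟨topEquiv.symm.trans e⟩

end CA.GW

theorem CA.realizeEqns_GW_Fin : True := by
  have := @CA.GW.Step.eq_1.{0}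
  have := @CA.GW.Step.eq_def.{0}
  have := @CA.GW.Step.congr_simp.{0}
  trivial
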