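import Cfsg.Agent.GW.AS4
import Cfsg.Agent.GW.Basic

/-! Nonsolvable groups with dihedral Sylow `2`-subgroups and trivial core. -/

set_option autoImplicit false
set_option linter.unusedSectionVars false

namespace CA.GW

open Subgroup Cfsg CA.FG CA.BG CA.Dih
open scoped commutatorElement Classical

universe u v

variable {G : Type u} [Group G] [Finite G]

/-- every `2`-subgroup of `X` is cyclic or dihedral -/
def DD (X : Subgroup G) : Prop := ∀ T, T ≤ X → IsPGrp 2 T →
  ∃ c ∈ T, (zpowers c).relIndex T ≤ 2 ∧ ∀ s ∈ T, s ∉ zpowers c → s * s = 1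

theorem DD.mono {X Y : Subgroup G} (h : DD X) (hY : Y ≤ X) : DD Y := fun T hT => h T (hT.trans hY)

theorem DD.img {G' : Type v} [Group G'] [Finite G'] {D X : Subgroup G} (h : DD X) (f : D →* G') :
    DD (img f X) := fun T hT pT => by
  obtain ⟨P, hP⟩ := sylow_exists Nat.prime_two (X ⊓ pre f T)
  have e : FG.img f P = T := by
    have := hP.img (f := f) (inf_le_right.trans (pre_le f T))
    rw [img_inf_pre, inf_eq_right.2 hT] at this
    exact this.eq_self pT
  obtain ⟨c, hc, hi, hs⟩ := h P (hP.le.trans inf_le_left) hP.piGrp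
  have PD : P ≤ D := (hP.le.trans inf_le_right).trans (pre_le f T)
  refine ⟨f ⟨c, PD hc⟩, e ▸ mem_img_of_mem _ hc, ?_, fun s hs' hn => ?_⟩
  · rw [← img_zpowers, ← e]
    exact (Nat.le_of_dvd (relIndex_pos _ _) (relIndex_img_dvd (zpowers_le.2 hc) PD)).trans hi
  obtain ⟨x, hx, rfl⟩ := mem_img.1 (e.ge hs')
  rw [← map_mul, show x * x = 1 from Subtype.ext (hs x hx fun hz => hn ?_), map_one]
  rw [← img_zpowers]
  exact mem_img.2 ⟨x, hz, rfl⟩

theorem dd_of_isDih {S X : Subgroup G} {c : G} (hS : IsSylowOf 2 S X) (h : IsDih S c) : DD X := fun T hT pT => by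
  have := Fintype.ofFinite G
  obtain ⟨g, -, hg⟩ := sylow_subJ Nat.prime_two hS pT hT
  obtain ⟨d, hd, e⟩ := cyclic_iff_eq_zpowers.1 (cyclic_of_le (cyclic_zpowers (g * c * g⁻¹)) (inf_le_left (b := T)))
  refine ⟨d, hd.2, ?_, fun s hs hn => (h.conj g).sq s (hg hs) fun hz => hn (e ▸ ⟨hz, hs⟩)⟩
  rw [← e, inf_relIndex_right, ← (h.conj g).index]
  exact relIndex_le_of_le_right hg (relIndex_pos _ _).ne'

theorem HasDih.dd (h : HasDih G) : DD (⊤ : Subgroup G) := let ⟨_, _, hS, h, _⟩ := h; dd_of_isDih hS h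

theorem HasDih.r2 (h : HasDih G) : R2 G := let ⟨_, _, hS, h, _⟩ := h; r2_of_dih hS h

theorem sol_of_hall {H : Subgroup G} (h : IsPiHallOf {2}ᶜ (OO H) H) : Group.IsSolvable H := by
  have h1 : Group.IsSolvable (OO H) := FT.odd_sol (Nat.not_even_iff_odd.1 fun e =>
    (piGrp_compl_singleton_iff Nat.prime_two).1 h.piGrp e.two_dvd)
  refine sol_of_img (f := coset (OO H)) (pcore_norm _ H) (IsPGrp.sol (p := 2) ?_) (sol_of_le h1 ?_)
  · rw [IsPGrp, IsPiGrp, card_img_of_le (pcore_norm _ H), pre_coset_bot]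
    simpa using h.index
  · rw [pre_coset_bot]; exact inf_le_left

theorem sol_of_cyc_syl {S H : Subgroup G} (hS : IsSylowOf 2 S H) (e : IsCyclic S) : Group.IsSolvable H :=
  sol_of_hall ((cyclic_pdiv_normal_complement Nat.prime_two (fun _ hq _ => hq.two_le) hS e).complIn.pHall_left
    (pcore_piGrp _ _) (piNat_compl_compl.2 hS.piGrp))

theorem DD.hasDih (h : DD (⊤ : Subgroup G)) (ns : ¬ Group.IsSolvable G) : HasDih G := by
  obtain ⟨S, hS⟩ := sylow_exists Nat.prime_two (⊤ : Subgroup G)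
  obtain ⟨c, hc, hi, hs⟩ := h S le_top hS.piGrp
  have nc : ¬ IsCyclic S := fun e => ns (sol_top_iff.1 (sol_of_cyc_syl hS e))
  have h0 := relIndex_pos (zpowers c) S
  have h1 : (zpowers c).relIndex S ≠ 1 := fun e => nc (cyclic_of_le (cyclic_zpowers c) (relIndex_eq_one.1 e))
  refine ⟨S, c, hS, ⟨hc, by omega, hs⟩, fun e => nc ?_⟩
  have := Fact.mk Nat.prime_two
  rw [e, zpowers_one_eq_bot, relIndex_bot_left] at hi h0 h1
  exact isCyclic_of_prime_card (p := 2) (by omega)

theorem DD.hasDih_img {G' : Type v} [Group G'] [Finite G'] {D : Subgroup G} (h : DD D) {f : D →* G'}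
    (hf : Function.Surjective f) (ns : ¬ Group.IsSolvable G') : HasDih G' := by
  have := h.img f
  rw [img_dom, MonoidHom.range_eq_top.2 hf] at this
  exact this.hasDih ns

theorem HasDih.sub (h : HasDih G) {L : Subgroup G} (ns : ¬ Group.IsSolvable L) : HasDih L :=
  (h.dd.mono le_top).hasDih_img (f := MonoidHom.id L) Function.surjective_id ns

theorem HasDih.exists_DS [IsSimpleGroup G] (h : HasDih G) (nab : ¬ IsMulCommutative G) :
    ∃ (S : Subgroup G) (c t s : G), DS S c t s := by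
  have := Fintype.ofFinite G
  obtain ⟨S, c, hS, h, c1⟩ := h
  obtain ⟨t, ht, t2, t1⟩ := exists_inv_mem_zpowers (x := c) (by
    rw [← Nat.card_zpowers]
    exact IsPGrp.dvd_card (IsPiGrp.of_le hS.piGrp (zpowers_le.2 h.mem)) (by simpa using c1))
  obtain ⟨s, s1, s2⟩ := SetLike.not_le_iff_exists.1 (show ¬ S ≤ zpowers c from fun e => by
    have := h.index
    rw [relIndex_eq_one.2 e] at this
    omega)
  refine ⟨S, c, t, s, hS, h, ⟨t2, t1⟩, ht, s1, s2, fun u iu => ?_⟩
  obtain ⟨g, hg⟩ := exists_mem_conj_of_index (der_top_eq nab) (H := zpowers c) (fun e => by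
    rw [← relIndex_mul_index (zpowers_le.2 h.mem), h.index] at e
    have := hS.not_dvd_index Nat.prime_two
    rw [relIndex_top_right] at this
    omega) iu.1
  have := iu.conj g⁻¹
  rw [inv_inv] at this
  exact isConj_iff.2 ⟨g, by rw [← eq_of_cyclic_inv (cyclic_zpowers c) hg ht this.1 this.2 t2 t1]; group⟩

theorem HasDih.sol_cent (h : HasDih G) {t : G} (ht : IsInv t) : Group.IsSolvable 𝒞[t] := by
  have := Fintype.ofFinite G
  obtain ⟨S, c, hS, h, -⟩ := h
  exact sol_of_hall (h.hall_core hS (orderOf_two ht.1 ht.2))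

theorem sol_of_index_le_three {H : Subgroup G} (h : Group.IsSolvable H) (hi : H.index ≤ 3) : Group.IsSolvable G := by
  have h1 : H.normalCore.index ∣ H.index.factorial := by
    rw [normalCore_eq_ker, index_ker, index_eq_card, ← Nat.card_perm]
    exact card_subgroup_dvd_card (MulAction.toPermHom G (G ⧸ H)).range
  have h2 : IsZGroup (G ⧸ H.normalCore) := IsZGroup.of_squarefree (Squarefree.squarefree_of_dvd
    (h1.trans (Nat.factorial_dvd_factorial hi)) (by decide +kernel))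
  have := sol_of_le h H.normalCore_le
  exact solvable_of_ker_le_range H.normalCore.subtype (QuotientGroup.mk' H.normalCore) (by simp)

theorem exists_inv_of_not_odd {M : Subgroup G} (h : ¬ IsPiGrp {2}ᶜ M) : ∃ u ∈ M, IsInv u := by
  have := Fact.mk Nat.prime_two
  obtain ⟨u, hu⟩ := exists_prime_orderOf_dvd_card' (G := M) 2 (by_contra fun e =>
    h ((piGrp_compl_singleton_iff Nat.prime_two).2 e))
  rw [← Subgroup.orderOf_coe] at hu
  exact ⟨u, u.2, by rw [← sq, ← hu, pow_orderOf_eq_one], fun e => by simp [e] at hu⟩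

/-- the socle of a nonsolvable group with dihedral Sylow `2`-subgroups and trivial core -/
theorem dstruct (hd : HasDih G) (hO : OO (⊤ : Subgroup G) = ⊥) (ns : ¬ Group.IsSolvable G) :
    ∃ L : Subgroup G, L.Normal ∧ IsSimpleGroup L ∧ ¬ Group.IsSolvable L ∧ 𝒞(L) = ⊥ := by
  have := Fintype.ofFinite G
  have inv : ∀ M : Subgroup G, ⊤ ≤ 𝒩(M) → M ≠ ⊥ → ∃ u ∈ M, IsInv u := fun M nM hM =>
    exists_inv_of_not_odd fun e => hM (eq_bot_of_pcore_eq_bot hO ⟨le_top, nM⟩ e)
  obtain ⟨L, -, hL⟩ := minNormal_exists (K := (⊤ : Subgroup G)) (A := ⊤) (fun e => ns (sol_top_iff.1 (e ▸ inferInstance)))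
    (norm_of_le le_rfl)
  have nL : ¬ Group.IsSolvable L := fun sL => by
    obtain ⟨t, ht, it⟩ := inv L hL.norm hL.ne_bot
    obtain ⟨p, hp, eL⟩ := hL.abelem sL
    obtain rfl : 2 = p := (abelem_pGrp hp eL).piElt ht 2 Nat.prime_two (orderOf_two it.1 it.2).symm.dvd
    have cL := hL.abelian sL
    have cm : ∀ x ∈ L, ∀ y ∈ L, Commute x y := fun x hx y hy => congrArg Subtype.val (cL.is_comm.comm ⟨x, hx⟩ ⟨y, hy⟩)
    have k : ∀ y, IsConj t y → y ∈ L ∧ IsInv y := fun y hy => by
      obtain ⟨g, rfl⟩ := isConj_iff.1 hy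
      exact ⟨conj_mem_of_mem_norm (hL.norm trivial) ht, mem_invs.1 ((conj_mem_invs g).2 (mem_invs.2 it))⟩
    refine ns (sol_of_index_le_three (hd.sol_cent it) ?_)
    rw [← card_class]
    by_cases e : ∃ b, IsConj t b ∧ t ≠ b
    · obtain ⟨b, b1, b2⟩ := e
      refine (Finset.card_le_card (t := {t, b, t * b}) fun y hy => ?_).trans Finset.card_le_three
      have hy := k y (Finset.mem_filter.1 hy).2
      simpa using (hd.r2 t b y it.1 (k b b1).2.1 hy.2.1 (cm _ ht _ (k b b1).1) (cm _ ht _ hy.1) (cm _ (k b b1).1 _ hy.1)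
        it.2 (k b b1).2.2 b2).resolve_left hy.2.2
    · refine (Finset.card_le_card (t := {t}) fun y hy => ?_).trans (by simp)
      exact Finset.mem_singleton.2 (by_contra fun e' => e ⟨y, (Finset.mem_filter.1 hy).2, Ne.symm e'⟩)
  have : Nontrivial L := (nontrivial_iff_ne_bot L).2 hL.ne_bot
  refine ⟨L, normalIn_top.1 ⟨le_top, hL.norm⟩, ⟨fun A hA => or_iff_not_imp_left.2 fun A1 => ?_⟩, nL,
    by_contra fun e => ?_⟩
  · obtain ⟨V, VA, hV⟩ := minNormal_exists (K := A.map L.subtype) (A := L) (fun e => A1 ((map_eq_bot_iff_of_injective _ L.subtype_injective).1 e))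
      (normalIn_map_subtype A).2
    have VL := VA.trans (map_subtype_le A)
    suffices H : V = L from eq_top_iff.2 fun x _ => by simpa using VA (H.ge x.2)
    by_cases e : ⊤ ≤ 𝒩(V)
    · exact hL.2.2 V VL hV.ne_bot e
    obtain ⟨g, -, hg⟩ := SetLike.not_le_iff_exists.1 e
    have gL : L :^ g = L := conjg_of_mem_norm (hL.norm trivial)
    have nW : L ≤ 𝒩(V :^ g) := by rw [← gL, ← conjg_norm]; exact conjg_mono g hV.norm
    have WL : V :^ g ≤ L := (conjg_mono g VL).trans gL.le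
    have c : V :^ g ≤ 𝒞(V) := le_cent_symm (le_cent_of_norm_of_inf_eq_bot (WL.trans hV.norm) (VL.trans nW)
      ((hV.inf_eq_bot_or_le nW).resolve_right fun e' =>
        hg (mem_norm_of_conjg_le (eq_of_le_of_card_ge e' (card_conjg _ _).le).ge)))
    have sV : Group.IsSolvable V := by
      by_cases o : IsPiGrp {2}ᶜ V
      · exact FT.odd_sol (Nat.not_even_iff_odd.1 fun e => (piGrp_compl_singleton_iff Nat.prime_two).1 o e.two_dvd)
      · obtain ⟨u, hu, iu⟩ := exists_inv_of_not_odd o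
        exact sol_conjg.1 (sol_of_le (hd.sol_cent iu) (c.trans (cent_le_cent_singleton hu)))
    obtain ⟨p, hp, pV⟩ := hV.exists_pGrp sV
    have := hL.2.2 (pCoreOf p L) (pcore_le _ _) (fun e => hV.ne_bot (eq_bot_of_pcore_eq_bot e ⟨VL, hV.norm⟩ pV))
      (norm_pcore _ hL.norm)
    exact (nL (this ▸ (pcore_pGrp p L).sol)).elim
  · obtain ⟨u, hu, iu⟩ := inv _ (norm_cent hL.norm) e
    exact nL (sol_of_le (hd.sol_cent iu) ((le_cent_symm le_rfl).trans (cent_le_cent_singleton hu)))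

end CA.GW

theorem CA.realizeEqns_GW_XC1 : True := by
  have := @CA.GW.DD.eq_1.{0}
  have := @CA.GW.DD.eq_def.{0}
  have := @CA.GW.DD.congr_simp.{0}
  trivial
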