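import Cfsg.Agent.GW.XC1

/-! Almost simple groups with dihedral Sylow `2`-subgroups. -/

set_option autoImplicit false
set_option linter.unusedSectionVars false

namespace CA.GW

open Subgroup Cfsg CA.FG CA.BG CA.Dih Cfsg.Agent.Lin
open scoped MatrixGroups commutatorElement Classical

universe u v

variable {Γ : Type u} [Group Γ] [Finite Γ]

namespace PM

variable {F : Type*} [Field F] [Fintype F] {ι : SL(2, F) →* Γ} (h : PM ι)
include h

theorem norm_CT {τ : SL(2, F)} {γ : Γ} (c : Commute γ (ι τ)) : γ ∈ 𝒩((CT τ.1).map ι) := by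
  obtain ⟨g, σ, r⟩ := h.exists_rr γ
  refine mem_norm_of_conjg_le ?_
  rintro _ ⟨_, ⟨A, hA, rfl⟩, rfl⟩
  obtain ⟨B, hB⟩ := exB r.1 σ A
  refine ⟨B, mem_CT.2 (cancel_r r.1 ?_), (r.2 A B hB).symm⟩
  have e0 : A.1.map σ * τ.1.map σ = τ.1.map σ * A.1.map σ := by rw [← map_mul2, mem_CT.1 hA, map_mul2]
  rcases h.of_rr r (mul_inv_eq_of_eq_mul c.eq) with e | e
  · rw [mul_assoc, mul_assoc, e, hB, ← mul_assoc, ← mul_assoc, e, hB, mul_assoc, mul_assoc, e0]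
  · rw [mul_assoc, mul_assoc, e, hB, mul_neg, ← mul_assoc, ← mul_assoc, e, hB, neg_mul, mul_assoc, mul_assoc, e0]

theorem outp (h2 : R2 Γ) {u y : Γ} (u2 : u * u = 1) (u1 : u ≠ 1) (hy : y ∈ ι.range) (c : Commute u y) (y2 : y * y ≠ 1)
    {z : Γ} (hz : z ∈ ι.range) (c' : Commute y z) : Commute u z := by
  obtain ⟨g, r, zg⟩ := h.inv_model h2 u2 u1
  obtain ⟨A, rfl⟩ := hy
  obtain ⟨B, rfl⟩ := hz
  have tr : A 0 0 + A 1 1 ≠ 0 := fun e => y2 (h.sq_of_tz e)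
  obtain ⟨a, b, hab⟩ := exists_eq_of_commute (zg.ns h.two)
    (((h.comm_cases r).1 c).resolve_right fun e => tr (zg.tr_of_anti h.two e))
  have b0 : b ≠ 0 := fun e => y2 (by
    have d := zg.det_comb a b
    rw [← hab, A.2, e] at d
    rw [← map_mul, show A * A = 1 from Subtype.ext (by
      rw [Matrix.SpecialLinearGroup.coe_mul, hab, e]
      simp [smul_smul, show a * a = 1 by linear_combination -d]), map_one])
  rcases (h.comm_cases (rr_sl A)).1 c' with e | e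
  · refine (h.comm_cases r).2 (.inl (mem_CT.2 (smul_right_injective _ b0 ?_)))
    rw [mem_CT, hab] at e
    simpa [mul_add, add_mul] using e
  · have := trace_of_rel (g := B.1) (A := A.1) (B := -A.1) (by rw [B.2]; exact one_ne_zero) (by rw [neg_mul, e])
    exact (tr (mul_left_cancel₀ h.two (by
      change -A.1 0 0 + -A.1 1 1 = _ at this
      change 2 * (A.1 0 0 + A.1 1 1) = _
      linear_combination -this))).elim

end PM

theorem _root_.CA.Dih.BSW.conj {K : Subgroup Γ} {t : Γ} (h : BSW K t) (g : Γ) : BSW (K :^ g) (g * t * g⁻¹) where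
  t2 := (IsInv.conj ⟨h.t2, h.t1⟩ g).1
  t1 := (IsInv.conj ⟨h.t2, h.t1⟩ g).2
  tK := conj_mem_conjg g h.tK
  le := by rw [← conjg_cent1]; exact conjg_mono g h.le
  index := by rw [← conjg_cent1, relIndex_conjg, h.index]
  sq := fun x hx hx' => by
    rw [← conjg_cent1, mem_conjg] at hx
    have := h.sq _ hx fun e => hx' (mem_conjg.2 e)
    rw [show x * x = g * (g⁻¹ * x * g * (g⁻¹ * x * g)) * g⁻¹ by group, this]; group
  TI := fun a x hx x1 ha => by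
    rw [← conjg_cent1, mem_conjg]
    refine h.TI _ _ (mem_conjg.1 hx) (fun e => x1 ?_) (by convert mem_conjg.1 ha using 1; group)
    rw [show x = g * (g⁻¹ * x * g) * g⁻¹ by group, e]; group
  isConj := fun u u2 u1 => (isConj_iff.2 ⟨g, rfl⟩).symm.trans (h.isConj u u2 u1)

theorem bsw_num [IsSimpleGroup Γ] {K : Subgroup Γ} {t : Γ} (h : BSW K t) (nab : ¬ IsMulCommutative Γ) :
    ∃ q r, (𝒞[t]).index = q * r ∧ q = Nat.card K + r ∧ (r = Nat.card K + 1 ∨ r + 1 = Nat.card K) ∧ 3 ≤ r ∧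
      IsPrimePow q := by
  have := Fintype.ofFinite Γ
  by_cases hk : Nat.card K = 2
  · have h1 := h.card_lt (der_top_eq nab) hk
    have h2 := card_simple_le nab (by omega)
    have h3 := h.card_eq
    rw [hk] at h3
    exact ⟨5, 3, by omega, by omega, by omega, le_rfl, Nat.prime_five.isPrimePow⟩
  · obtain ⟨q, r, L0, L1, hD⟩ := h.exists_data hk
    obtain ⟨F, _, _, h1, -⟩ := hD.exists_equiv
    exact ⟨q, r, hD.f, hD.hq, hD.hr, by have := hD.k4; have := hD.hr; omega, h1 ▸ FiniteField.isPrimePow_card F⟩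

/-- `L` is the socle of the almost simple group `Γ` -/
structure AS (L : Subgroup Γ) : Prop where
  hd : HasDih Γ
  normal : L.Normal
  simple : IsSimpleGroup L
  nsol : ¬ Group.IsSolvable L
  cent : 𝒞(L) = ⊥

/-- the torus containing the involution `t` of the socle -/
structure TG (L K : Subgroup Γ) (t : Γ) (q r : ℕ) : Prop where
  tK : t ∈ K
  le : K ≤ L ⊓ 𝒞[t]
  cyc : IsCyclic K
  index : K.relIndex (L ⊓ 𝒞[t]) = 2
  sq : ∀ x ∈ L ⊓ 𝒞[t], x ∉ K → x * x = 1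
  norm : 𝒞[t] ≤ 𝒩(K)
  inv : ∀ a ∈ 𝒞[t], IsInv a → a ≠ t → ∀ y ∈ K, a * y * a⁻¹ = y⁻¹
  idx : (𝒞[t]).relIndex L = q * r
  hq : q = Nat.card K + r
  hr : r = Nat.card K + 1 ∨ r + 1 = Nat.card K
  r3 : 3 ≤ r
  pp : IsPrimePow q
  tl : ∀ p : ℕ, p.Prime → p ≠ 2 → ∀ x ∈ 𝒞[t], IsPiElt {p} x → (∀ y ∈ K, IsPiElt {p}ᶜ y → Commute x y) → x ∈ K
  ti : ∀ y ∈ K, y ≠ 1 → 𝒞[y] ≤ 𝒞[t]
  pcyc : ∀ p : ℕ, p.Prime → p ≠ 2 → ∀ Φ : Subgroup Γ, IsPGrp p Φ → Φ ≤ L → ∀ y ∈ Φ, y ∈ K → y ≠ 1 → Φ ≤ K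

namespace AS

variable {L : Subgroup Γ} (h : AS L)
include h

theorem nab : ¬ IsMulCommutative L := fun e => h.nsol (sol_of_abelian e)

theorem norm : ⊤ ≤ 𝒩(L) := (normalIn_top.2 h.normal).2

theorem le_of_normal {M : Subgroup Γ} (nM : ⊤ ≤ 𝒩(M)) (M1 : M ≠ ⊥) : L ≤ M := by
  have := h.simple
  have := normalIn_top.1 ⟨le_top, nM⟩
  refine subgroupOf_eq_top.1 ((Normal.eq_bot_or_eq_top inferInstance).resolve_left fun e => M1 ?_)
  exact le_bot_iff.1 (h.cent ▸ le_cent_of_norm_of_inf_eq_bot (le_top.trans nM) (le_top.trans h.norm)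
    (disjoint_iff.1 (subgroupOf_eq_bot.1 e)))

theorem perf : ⁅L, L⁆ = L := le_antisymm (comm_le_left (norm_of_le le_rfl)) (h.le_of_normal (norm_comm h.norm h.norm)
  fun e => h.nab (abelian_iff_le_cent.2 (commutator_eq_bot_iff_le_centralizer.1 e)))

theorem ds : ∃ (S : Subgroup L) (c t s : L), DS S c t s := have := h.simple; (h.hd.sub h.nsol).exists_DS h.nab

omit h in
theorem inv_coe {a : L} : IsInv (a : Γ) ↔ IsInv a :=
  and_congr (Subtype.ext_iff (a1 := a * a) (a2 := 1)).symm (Subtype.ext_iff (a1 := a) (a2 := 1)).symm.not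

theorem exists_inv : ∃ a ∈ L, IsInv a := let ⟨_, _, t, _, d⟩ := h.ds; ⟨t, t.2, inv_coe.2 d.inv⟩

theorem conj {a b : Γ} (ha : a ∈ L) (hb : b ∈ L) (ia : IsInv a) (ib : IsInv b) : ∃ g ∈ L, g * a * g⁻¹ = b := by
  obtain ⟨S, c, t, s, d⟩ := h.ds
  obtain ⟨g, hg⟩ := isConj_iff.1 ((d.one ⟨a, ha⟩ (inv_coe.1 ia)).symm.trans (d.one ⟨b, hb⟩ (inv_coe.1 ib)))
  exact ⟨g, g.2, congrArg Subtype.val hg⟩

theorem four {a : Γ} (ha : a ∈ L) (ia : IsInv a) : ∃ b ∈ L, IsInv b ∧ b ≠ a ∧ b ∈ 𝒞[a] := by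
  obtain ⟨S, c, t, s, d⟩ := h.ds
  obtain ⟨g, hg⟩ := d.exists_conj (a := ⟨a, ha⟩) (inv_coe.1 ia)
  have d' := d.conj g
  rw [hg] at d'
  exact ⟨_, (g * s * g⁻¹).2, inv_coe.2 d'.sInv, fun e => d'.st (Subtype.ext e), mem_centralizer_singleton_iff.2
    (congrArg Subtype.val (mem_centralizer_singleton_iff.1 d'.sH))⟩

theorem out {w : Γ} (iw : IsInv w) (hw : w ∉ L) : 2 ∣ (𝒞[w]).index := by
  by_contra e
  obtain ⟨T, hT⟩ := sylow_exists Nat.prime_two 𝒞[w]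
  have hT' : IsSylowOf 2 T ⊤ := sylow_mk le_top hT.piGrp (by
    rw [relIndex_top_right, ← relIndex_mul_index hT.le, Nat.prime_two.dvd_mul, not_or]
    exact ⟨hT.not_dvd_index Nat.prime_two, e⟩)
  obtain ⟨a, ha, ia⟩ := h.exists_inv
  obtain ⟨b, hb, ib, ne, c⟩ := h.four ha ia
  have pa : ∀ x : Γ, IsInv x → IsPGrp 2 (zpowers x) := fun x ix => piGrp_zpowers_iff.2 ix.two
  obtain ⟨g, -, hg⟩ := sylow_Jsub Nat.prime_two hT' (IsPiGrp.sup (pa a ia) (pa b ib)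
    (.inr (norm_zpowers_of_cent (zpowers_le.2 c)))) le_top
  have k : ∀ x ∈ zpowers a ⊔ zpowers b, Commute (g * x * g⁻¹) w := fun x hx =>
    mem_centralizer_singleton_iff.1 (hT.le (hg (conj_mem_conjg g hx)))
  have ha' := h.normal.conj_mem _ ha g
  have hb' := h.normal.conj_mem _ hb g
  rcases h.hd.r2 _ _ w (ia.conj g).1 (ib.conj g).1 iw.1 ((show Commute a b from (mem_centralizer_singleton_iff.1 c).symm).map
    (MulAut.conj g)) (k a (mem_sup_left (mem_zpowers a))) (k b (mem_sup_right (mem_zpowers b))) (ia.conj g).2 (ib.conj g).2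
    (by simpa using ne.symm) with e | e | e | e
  exacts [iw.2 e, hw (e ▸ ha'), hw (e ▸ hb'), hw (e ▸ mul_mem ha' hb')]

theorem out2 (der : ∀ x y : Γ, ⁅x, y⁆ ∈ L) {x y : Γ} (x2 : IsPiElt {2} x) (y2 : IsPiElt {2} y) (hx : x ∉ L) (hy : y ∉ L) :
    x * y ∈ L := by
  have := h.normal
  obtain ⟨S, c, hS, d, -⟩ := h.hd
  obtain ⟨s, hs, sc⟩ := SetLike.not_le_iff_exists.1 (show ¬ S ⊓ L ≤ zpowers c from fun e => h.nsol
    (sol_of_cyc_syl (hS.inf_normal ⟨le_top, h.norm⟩) (cyclic_of_le (cyclic_zpowers c) e)))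
  let φ := QuotientGroup.mk' L
  have k : ∀ x, φ x = 1 ↔ x ∈ L := fun x => QuotientGroup.eq_one_iff x
  have c2 : φ c * φ c = 1 := by
    have := d.sq _ (mul_mem hs.1 d.mem) fun e => sc ((mul_mem_cancel_right (mem_zpowers c)).1 e)
    simpa [(k s).2 hs.2] using congrArg φ this
  have k1 : ∀ u ∈ zpowers c, φ u = 1 ∨ φ u = φ c := by
    rintro _ ⟨n, rfl⟩
    rcases Int.even_or_odd' n with ⟨m, rfl | rfl⟩ <;> simp [zpow_add, zpow_mul, pow_two, -QuotientGroup.mk'_apply, c2]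
  have k2 : ∀ u, IsPiElt {2} u → u ∉ L → φ u = φ c := fun u u2 hu => by
    obtain ⟨g, -, hg⟩ := sylow_Jsub Nat.prime_two hS (piGrp_zpowers_iff.2 u2) le_top
    have h1 := hg (conj_mem_conjg g (mem_zpowers u))
    have h2 : φ (g * u * g⁻¹) = φ u := by
      rw [← mul_inv_eq_one, ← map_inv, ← map_mul, k]; exact der g u
    refine (?_ : φ u = 1 ∨ φ u = φ c).resolve_left fun e => hu ((k u).1 e)
    rw [← h2]
    by_cases h3 : g * u * g⁻¹ ∈ zpowers c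
    · exact k1 _ h3
    · simpa [(k s).2 hs.2] using k1 _ (mul_mem_of_relIndex_two d.index h1 hs.1 h3 sc)
  rw [← k, map_mul, k2 x x2 hx, k2 y y2 hy, c2]

theorem model {K : Subgroup L} {t : L} (b : BSW K t) :
    ∃ (F : Type) (_ : Field F) (_ : Fintype F) (ι : SL(2, F) →* Γ), PM ι ∧ ι.range = L := by
  have := h.simple
  have := h.normal
  have := Fintype.ofFinite L
  obtain ⟨F, _, _, o, ⟨e⟩⟩ := b.exists_equiv
  exact ⟨F, inferInstance, inferInstance, exists_pm h.cent o e⟩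

theorem tg {K₀ : Subgroup L} {t₀ : L} (b₀ : BSW K₀ t₀) {t : Γ} (ht : t ∈ L) (it : IsInv t) : ∃ K q r, TG L K t q r := by
  have := h.simple
  have := Fintype.ofFinite L
  have := Fintype.ofFinite Γ
  obtain ⟨F, _, _, ι, m, hr⟩ := h.model b₀
  obtain ⟨g, hg⟩ := isConj_iff.1 (b₀.isConj ⟨t, ht⟩ (inv_coe.1 it).1 (inv_coe.1 it).2)
  have b := b₀.conj g
  rw [hg] at b
  generalize K₀ :^ g = K₁ at b
  obtain ⟨q, r, n1, n2, n3, n4, n5⟩ := bsw_num b h.nab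
  have ec : (𝒞[(⟨t, ht⟩ : L)]).map L.subtype = L ⊓ 𝒞[t] := by rw [cent1_subgroupOf, subgroupOf_map_subtype, inf_comm]
  have ck : Nat.card (K₁.map L.subtype) = Nat.card K₁ := card_map_of_injective L.subtype_injective
  have mc : ∀ x : L, x ∈ 𝒞[(⟨t, ht⟩ : L)] ↔ (x : Γ) ∈ 𝒞[t] := fun x => by rw [cent1_subgroupOf, mem_subgroupOf]
  have mk : ∀ x : L, (x : Γ) ∈ K₁.map L.subtype ↔ x ∈ K₁ := fun x => mem_map_iff_mem L.subtype_injective
  have tK := (mk _).2 b.tK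
  have le : K₁.map L.subtype ≤ L ⊓ 𝒞[t] := ec ▸ map_mono b.le
  have ix : (K₁.map L.subtype).relIndex (L ⊓ 𝒞[t]) = 2 := by
    rw [← ec, relIndex_map_map_of_injective _ _ L.subtype_injective, b.index]
  have sq : ∀ x ∈ L ⊓ 𝒞[t], x ∉ K₁.map L.subtype → x * x = 1 := fun x hx e =>
    congrArg Subtype.val (b.sq ⟨x, hx.1⟩ ((mc _).2 hx.2) fun e' => e ((mk ⟨x, hx.1⟩).2 e'))
  have cl : ∀ y ∈ K₁.map L.subtype, y ≠ 1 → L ⊓ 𝒞[y] ≤ 𝒞[t] := by
    rintro _ ⟨y, hy, rfl⟩ y1 x hx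
    exact (mc ⟨x, hx.1⟩).1 (b.cent_le hy (fun e => y1 (congrArg Subtype.val e))
      (mem_centralizer_singleton_iff.2 (Subtype.ext (mem_centralizer_singleton_iff.1 hx.2))))
  have iv : ∀ a ∈ L ⊓ 𝒞[t], a ∉ K₁.map L.subtype → ∀ y ∈ K₁.map L.subtype, a * y * a⁻¹ = y⁻¹ := by
    rintro a ha ha' _ ⟨y, hy, rfl⟩
    exact congrArg Subtype.val (b.inv (w := ⟨a, ha.1⟩) ((mc _).2 ha.2) (fun e => ha' ((mk ⟨a, ha.1⟩).2 e)) hy)
  rw [← ck] at n2 n3
  rw [cent1_subgroupOf] at n1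
  generalize K₁.map L.subtype = K at *
  subst hr
  obtain ⟨τ, rfl, z⟩ := m.inv_lift it.1 it.2 ht
  obtain rfl := m.eq_CT z tK le ix sq
  have cyc : IsCyclic ((CT τ.1).map ι) := have := m.cyc_CT z; isCyclic_of_surjective _ (ι.subgroupMap_surjective _)
  have uq : ∀ a ∈ (CT τ.1).map ι, IsInv a → a = ι τ := fun a ha ia => eq_of_cyclic_inv cyc ha tK ia.1 ia.2 it.1 it.2
  have cm : ∀ {a b : Γ}, a ∈ 𝒞[b] → Commute a b := fun e => mem_centralizer_singleton_iff.1 e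
  refine ⟨_, q, r, tK, le, cyc, ix, sq, fun g hg => m.norm_CT (cm hg), fun a ha ia ne => ?_, n1, n2, n3, n4, n5,
    fun p hp p2 x hx px hc => ?_, fun y hy y1 g hg => ?_, fun p hp p2 Φ pΦ hΦ y hy hy' y1 x hx => ?_⟩
  · by_cases e : a ∈ ι.range
    · exact iv a ⟨e, ha⟩ fun e' => ne (uq a e' ia)
    · exact (m.out h.hd.r2 ia.1 e z (cm ha)).choose_spec.2.2.2.2.2
  · obtain ⟨k, hk⟩ := (pElt_iff hp).1 px
    exact m.tl z hp (hp.odd_of_ne_two p2) hk (cm hx) fun y hy o => hc y hy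
      ((piNat_compl_singleton_iff hp).2 ((Nat.Prime.coprime_iff_not_dvd hp).1 o.symm))
  · have h1 : g * ι τ * g⁻¹ ∈ ι.range ⊓ 𝒞[y] := ⟨h.normal.conj_mem _ ht g, by
      rw [← conj_eq_of_cent hg, ← conjg_cent1]
      exact conj_mem_conjg g (mem_cent_singleton_comm.1 (le hy).2)⟩
    by_cases e : g * ι τ * g⁻¹ ∈ (CT τ.1).map ι
    · exact cent_of_conj_eq (uq _ e (it.conj g))
    · have := (conj_eq_of_cent h1.2).symm.trans (iv _ ⟨h1.1, cl y hy y1 h1⟩ e y hy)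
      rwa [← uq y hy ⟨mul_eq_one_iff_eq_inv.2 this, y1⟩]
  · obtain ⟨p', _, -, hp', -⟩ := FiniteField.card' F
    have := Fact.mk hp'
    have := Fact.mk hp
    by_cases e : p = p'
    · subst e
      obtain ⟨k, hk⟩ := (pElt_iff hp).1 (pΦ.piElt hy)
      exact (y1 (m.inv_unip h.hd.r2 it.1 it.2 (hΦ hy) hk (cm (le hy').2).symm)).elim
    have := m.cyc_sub p2 e hΦ (pΦ.isPGroup hp)
    have h1 : x ∈ 𝒞[y] := (abelian_iff_le_cent.1 (abelian_of_cyclic this)).trans (cent_le_cent_singleton hy) hx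
    by_contra e'
    exact e' (eq_one_of_odd (fun q hq hd e => p2 ((pΦ q hq hd).symm.trans e)) hx
      (sq x ⟨hΦ hx, cl y hy' y1 ⟨hΦ hx, h1⟩⟩ e') ▸ one_mem _)

end AS

end CA.GW

theorem CA.realizeEqns_GW_XC2 : True := by

  trivial
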