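import Cfsg.Agent.GW.XC2

/-! Lifting the structure of `N / O(N)` to `N`. -/

set_option autoImplicit false
set_option linter.unusedSectionVars false

namespace CA.GW

open Subgroup Cfsg CA.FG CA.BG CA.Dih
open scoped commutatorElement Classical

universe u v

variable {G : Type u} [Group G] [Finite G] {Γ : Type v} [Group Γ] [Finite Γ]

theorem comm_le_of_central {A B O : Subgroup G} (hA : A ≤ 𝒞(O)) (hB : B ≤ 𝒞(O)) (h : A ≤ O ⊔ B) : ⁅A, A⁆ ≤ ⁅B, B⁆ := by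
  refine commutator_le.2 fun x hx y hy => ?_
  obtain ⟨o, ho, e, he, rfl⟩ := (mem_sup_of_right_le_norm (norm_of_cent hB)).1 (h hx)
  obtain ⟨o', ho', e', he', h1⟩ := (mem_sup_of_right_le_norm (norm_of_cent hB)).1 (h hy)
  have h2 : ⁅o * e, y⁆ = ⁅e, y⁆ := by
    have := (mul_mem (mul_mem (hB he) (hA hy)) (inv_mem (hB he))) o ho
    rw [commutatorElement_def, commutatorElement_def, show o * e * y * (o * e)⁻¹ = o * (e * y * e⁻¹) * o⁻¹ by group, this]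
    group
  have h3 : ⁅e, o' * e'⁆ = ⁅e, e'⁆ := by
    have := hB (comm_le_of_le le_rfl le_rfl (commutator_mem_commutator he he')) o' ho'
    rw [← mul_inv_eq_iff_eq_mul] at this
    rw [← this, commutatorElement_def, commutatorElement_def, ← mul_assoc e, ← hB he o' ho']
    group
  rw [h2, ← h1, h3]
  exact commutator_mem_commutator he he'

/-- `E` is a perfect subgroup centralizing `O(N)` and covering `L` -/
structure LF {N : Subgroup G} (f : N →* Γ) (E : Subgroup G) (L : Subgroup Γ) : Prop where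
  surj : Function.Surjective f
  ker : pre f ⊥ = OO N
  le : E ≤ N
  norm : N ≤ 𝒩(E)
  img : img f E = L
  cent : E ≤ 𝒞(OO N)
  perf : ⁅E, E⁆ = E

variable {N E : Subgroup G} {f : N →* Γ} {L : Subgroup Γ}

theorem img_norm_top (hf : Function.Surjective f) {A : Subgroup G} (h : N ≤ 𝒩(A)) : ⊤ ≤ 𝒩(img f A) := by
  rw [← MonoidHom.range_eq_top.2 hf, ← img_dom]; exact img_norm h

theorem exists_LF (h : AS L) (hf : Function.Surjective f) (hk : pre f ⊥ = OO N)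
    (ha : ∃ a ∈ N, IsInv a ∧ OO N ≤ 𝒞[a]) : ∃ E, LF f E L := by
  obtain ⟨a, ha, ia, ca⟩ := ha
  have nC : N ≤ 𝒩(N ⊓ 𝒞(OO N)) := norm_inf (norm_of_le le_rfl) (norm_cent (pcore_norm _ N))
  have h1 : L ≤ img f (N ⊓ 𝒞(OO N)) := h.le_of_normal (img_norm_top hf nC) fun e => ia.2 (eq_one_of_odd
    (pcore_piGrp _ N) (hk.le ((img_eq_bot_iff inf_le_left).1 e ⟨ha, fun y hy => mem_centralizer_singleton_iff.1 (ca hy)⟩)) ia.1)
  have nL : N ≤ 𝒩(pre f L) := le_norm_pre le_rfl (le_top.trans h.norm)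
  have h2 : img f (N ⊓ 𝒞(OO N) ⊓ pre f L) = L := by rw [img_inf_pre, inf_eq_right.2 h1]
  have n1 := norm_inf nC nL
  have l1 : N ⊓ 𝒞(OO N) ⊓ pre f L ≤ N := inf_le_left.trans inf_le_left
  have c1 : N ⊓ 𝒞(OO N) ⊓ pre f L ≤ 𝒞(OO N) := inf_le_left.trans inf_le_right
  generalize N ⊓ 𝒞(OO N) ⊓ pre f L = C at *
  have l2 : ⁅C, C⁆ ≤ C := comm_le_of_le le_rfl le_rfl
  have h3 : img f ⁅C, C⁆ = L := by rw [img_comm l1 l1, h2, h.perf]
  refine ⟨⁅C, C⁆, hf, hk, l2.trans l1, norm_comm n1 n1, h3, l2.trans c1,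
    le_antisymm (comm_le_of_le le_rfl le_rfl) (comm_le_of_central c1 (l2.trans c1) ?_)⟩
  rw [← hk, ← pre_img_of_le (l2.trans l1), h3, ← h2]
  exact le_pre_img l1

namespace LF

variable (h : LF f E L)
include h

theorem k1 {x : N} : f x = 1 ↔ (x : G) ∈ OO N := by
  rw [← h.ker, mem_pre]; exact ⟨fun e => ⟨x.2, e⟩, fun ⟨_, e⟩ => e⟩

theorem mem_sup {A : Subgroup G} (hA : A ≤ N) {x : N} : (x : G) ∈ A ⊔ OO N ↔ f x ∈ FG.img f A := by
  rw [sup_comm, ← h.ker, ← pre_img_of_le hA, mem_pre]; exact ⟨fun ⟨_, e⟩ => e, fun e => ⟨x.2, e⟩⟩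

theorem memE {x : N} : (x : G) ∈ E ⊔ OO N ↔ f x ∈ L := h.img ▸ h.mem_sup h.le

theorem memL {x : N} (hx : (x : G) ∈ E) : f x ∈ L := h.memE.1 (mem_sup_left hx)

theorem lift {γ : Γ} (hγ : γ ∈ L) : ∃ x : N, (x : G) ∈ E ∧ f x = γ := mem_img.1 (h.img.ge hγ)

theorem conjE (g : N) {a : N} (ha : (a : G) ∈ E) : ((g * a * g⁻¹ : N) : G) ∈ E := conj_mem_of_mem_norm (h.norm g.2) ha

theorem eq_of {a b : N} (ha : (a : G) ∈ E) (a2 : a * a = 1) (b2 : b * b = 1) (e : f a = f b) : a = b := by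
  have h1 : ((a⁻¹ * b : N) : G) ∈ OO N := h.k1.1 (by simp [e])
  have h2 : a⁻¹ * b * a = a * (a⁻¹ * b) := Subtype.ext (h.cent ha _ h1)
  refine inv_mul_eq_one.1 (Subtype.ext (eq_one_of_odd (pcore_piGrp _ N) h1 (congrArg Subtype.val
    (show a⁻¹ * b * (a⁻¹ * b) = 1 from ?_))))
  rw [← mul_assoc, inv_eq_of_mul_eq_one_right a2] at *
  rw [h2, a2, one_mul, b2]

theorem cm {a g : N} (ha : (a : G) ∈ E) (a2 : a * a = 1) (e : Commute (f g) (f a)) : (g : G) ∈ 𝒞[(a : G)] :=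
  cent_of_conj_eq (congrArg Subtype.val (h.eq_of (b := g * a * g⁻¹) ha a2
    (by rw [show g * a * g⁻¹ * (g * a * g⁻¹) = g * (a * a) * g⁻¹ by group, a2]; group) (by simp [e.eq])).symm)

omit h in
theorem cm' {a g : N} (e : (g : G) ∈ 𝒞[(a : G)]) : f g ∈ 𝒞[f a] := mem_centralizer_singleton_iff.2 (by
  rw [← map_mul, ← map_mul]; exact congrArg f (Subtype.ext (mem_centralizer_singleton_iff.1 e)))

theorem inv_img {a : N} (ia : IsInv (a : G)) : IsInv (f a) :=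
  ⟨by rw [← map_mul, (AS.inv_coe.1 ia).1, map_one], fun e => ia.2 (eq_one_of_odd (pcore_piGrp _ N) (h.k1.1 e) ia.1)⟩

theorem lift_inv {γ : Γ} (hγ : γ ∈ L) (iγ : IsInv γ) : ∃ a : N, (a : G) ∈ E ∧ IsInv (a : G) ∧ f a = γ := by
  obtain ⟨x, hx, rfl⟩ := h.lift hγ
  have h1 : ((x * x : N) : G) ∈ OO N := h.k1.1 (by rw [map_mul, iγ.1])
  obtain ⟨k, hk⟩ := Nat.not_even_iff_odd.1 (mt even_iff_two_dvd.1
    ((piGrp_compl_singleton_iff Nat.prime_two).1 (pcore_piGrp {2}ᶜ N)))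
  have h2 : f (x ^ (2 * k + 1)) = f x := by rw [map_pow, pow_succ, pow_mul, pow_two, iγ.1, one_pow, one_mul]
  refine ⟨x ^ (2 * k + 1), pow_mem hx _, ⟨?_, fun e => iγ.2 ?_⟩, h2⟩
  · rw [coe_pow, ← (Commute.refl _).mul_pow, ← hk]
    exact orderOf_dvd_iff_pow_eq_one.1 (orderOf_dvd_card_of_mem h1)
  · rw [← h2, show x ^ (2 * k + 1) = 1 from Subtype.ext e, map_one]

theorem two {x : G} (hx : x ∈ E ⊔ OO N) (x2 : IsPiElt {2} x) : x ∈ E := by
  obtain ⟨e, he, o, ho, rfl⟩ := (mem_sup_of_left_le_norm (norm_of_cent h.cent)).1 hx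
  have c : Commute e o := (h.cent he o ho).symm
  have h1 : (e * o) ^ orderOf o ∈ E := by rw [c.mul_pow, pow_orderOf_eq_one, mul_one]; exact pow_mem he _
  obtain ⟨m, hm⟩ := exists_pow_eq_self_of_coprime (x := e * o) (n := orderOf o)
    (PiNat.coprime x2 ((pcore_piGrp _ N).piElt ho)).symm
  exact hm ▸ pow_mem h1 m

theorem img_cent1 {a : N} (ha : (a : G) ∈ E) (a2 : a * a = 1) {A : Subgroup G} (hA : OO N ≤ A) :
    FG.img f (A ⊓ 𝒞[(a : G)]) = FG.img f A ⊓ 𝒞[f a] := by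
  refine le_antisymm (le_inf (img_mono f inf_le_left) (FG.img_cent1 inf_le_right)) fun y hy => ?_
  obtain ⟨x, hx, rfl⟩ := mem_img.1 hy.1
  exact mem_img.2 ⟨x, ⟨hx, h.cm ha a2 (mem_centralizer_singleton_iff.1 hy.2)⟩, rfl⟩

theorem conj (s : AS L) (a : G) (ha : a ∈ E) (b : G) (hb : b ∈ E) (ia : IsInv a) (ib : IsInv b) :
    ∃ g ∈ E, g * a * g⁻¹ = b := by
  lift a to N using h.le ha
  lift b to N using h.le hb
  obtain ⟨γ, hγ, e⟩ := s.conj (h.memL ha) (h.memL hb) (h.inv_img ia) (h.inv_img ib)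
  obtain ⟨g, hg, rfl⟩ := h.lift hγ
  exact ⟨g, hg, congrArg Subtype.val (h.eq_of (h.conjE g ha) (AS.inv_coe.1 (ia.conj g)).1 (AS.inv_coe.1 ib).1
    (by simpa using e))⟩

theorem comp (s : AS L) (der : ∀ x y : Γ, ⁅x, y⁆ ∈ L) : Comp N E where
  le := h.le
  norm := h.norm
  perf := h.perf
  nsol := fun e => s.nsol (h.img ▸ sol_img f e)
  cent := le_antisymm (fun x hx => h.k1.1 (show f ⟨x, hx.1⟩ ∈ (⊥ : Subgroup Γ) from s.cent ▸ h.img ▸
    img_cent (A := zpowers x) (zpowers_le.2 hx.2) (mem_img_of_mem _ (mem_zpowers x))))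
    (le_inf (pcore_le _ _) (le_cent_symm h.cent))
  der := commutator_le.2 fun x hx y hy => (h.memE (x := ⁅(⟨x, hx⟩ : N), (⟨y, hy⟩ : N)⁆)).2 (by rw [map_commutatorElement]; exact der _ _)
  gen := by
    have l : Subgroup.closure {a | a ∈ E ∧ IsInv a} ≤ E := (closure_le _).2 fun _ e => e.1
    obtain ⟨γ, hγ, iγ⟩ := s.exists_inv
    obtain ⟨a, ha, ia, rfl⟩ := h.lift_inv hγ iγ
    have h1 := s.le_of_normal (img_norm_top h.surj (A := Subgroup.closure {a | a ∈ E ∧ IsInv a})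
      (norm_closure fun g hg x hx => ⟨conj_mem_of_mem_norm (h.norm hg) hx.1, hx.2.conj g⟩))
      (ne_bot_of_mem (mem_img.2 ⟨a, subset_closure ⟨ha, ia⟩, rfl⟩) iγ.2)
    refine h.perf.ge.trans ((comm_le_of_central h.cent (l.trans h.cent) fun x hx => ?_).trans (comm_le_of_le le_rfl le_rfl))
    rw [sup_comm]
    exact (h.mem_sup (l.trans h.le) (x := ⟨x, h.le hx⟩)).2 (h1 (h.memL hx))
  conj := h.conj s
  four := fun a ha ia => by
    lift a to N using h.le ha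
    obtain ⟨γ, hγ, iγ, ne, c⟩ := s.four (h.memL ha) (h.inv_img ia)
    obtain ⟨b, hb, ib, rfl⟩ := h.lift_inv hγ iγ
    exact ⟨b, hb, ib, fun e => ne (congrArg f (Subtype.ext e)), h.cm ha (AS.inv_coe.1 ia).1
      (mem_centralizer_singleton_iff.1 c)⟩
  two := fun _ => h.two
  out := fun w hw iw e => by
    lift w to N using hw
    have h1 := relIndex_img_dvd (f := f) (inf_le_left (a := N) (b := 𝒞[(w : G)])) le_rfl
    rw [img_dom, MonoidHom.range_eq_top.2 h.surj, relIndex_top_right, inf_relIndex_left] at h1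
    exact ((s.out (h.inv_img iw) fun e' => e (h.two (h.memE.2 e') iw.two)).trans
      (index_dvd_of_le (FG.img_cent1 inf_le_right))).trans h1
  out2 := fun x hx y hy x2 y2 e e' => by
    lift x to N using hx
    lift y to N using hy
    have k : ∀ x : N, IsPiElt {2} (x : G) → IsPiElt {2} (f x) := fun x e =>
      IsPiElt.map (by rwa [IsPiElt, Subgroup.orderOf_coe] at e) f
    exact (h.memE (x := x * y)).2 (map_mul f x y ▸ s.out2 der (k x x2) (k y y2)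
      (fun e1 => e (h.two (h.memE.2 e1) x2)) fun e1 => e' (h.two (h.memE.2 e1) y2))

theorem tor (s : AS L) {t : N} (ht : (t : G) ∈ E) (it : IsInv (t : G)) {K₀ : Subgroup Γ} {q r : ℕ}
    (g : TG L K₀ (f t) q r) : ∃ K, Tor N E K t q r := by
  have := Fintype.ofFinite Γ
  have t2 := (AS.inv_coe.1 it).1
  have it' := h.inv_img it
  have oO := pcore_piGrp {2}ᶜ N
  have uq : ∀ a ∈ K₀, IsInv a → a = f t := fun a ha ia => eq_of_cyclic_inv g.cyc ha g.tK ia.1 ia.2 it'.1 it'.2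
  obtain ⟨γ, hγ, iγ, ne, c⟩ := s.four (h.memL ht) it'
  obtain ⟨v, hv, iv, rfl⟩ := h.lift_inv hγ iγ
  have vt := h.cm ht t2 (mem_centralizer_singleton_iff.1 c)
  have mT : ∀ x : N, (x : G) ∈ E ⊓ pre f K₀ ↔ (x : G) ∈ E ∧ f x ∈ K₀ := fun x =>
    and_congr_right fun _ => mem_pre.trans ⟨fun ⟨_, e⟩ => e, fun e => ⟨x.2, e⟩⟩
  have TN : E ⊓ pre f K₀ ≤ N := inf_le_left.trans h.le
  have cT : ∀ x ∈ E ⊓ pre f K₀, ∀ y ∈ E ⊓ pre f K₀, x * y = y * x := by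
    obtain ⟨γ, hγ, e⟩ := cyclic_iff_eq_zpowers.1 g.cyc
    obtain ⟨z, hz, rfl⟩ := h.lift (g.le hγ).1
    have h1 := comm_le_of_central (A := E ⊓ pre f K₀) (inf_le_left.trans h.cent) ((zpowers_le.2 hz).trans h.cent) (by
      rw [← h.ker, ← pre_img_of_le (zpowers_le.2 z.2), img_zpowers, ← e]; exact inf_le_right)
    rw [commutator_eq_bot_iff_le_centralizer.2 (abelian_iff_le_cent.1 (abelian_of_cyclic (cyclic_zpowers _)))] at h1
    exact fun x hx y hy => commutatorElement_eq_one_iff_mul_comm.1 (h1 (commutator_mem_commutator hx hy))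
  have tT := (mT t).2 ⟨ht, g.tK⟩
  have Tt : E ⊓ pre f K₀ ≤ 𝒞[(t : G)] := fun x hx => mem_centralizer_singleton_iff.2 (cT _ hx _ tT)
  have nT : ∀ a : N, (a : G) ∈ 𝒞[(t : G)] → ∀ x ∈ E ⊓ pre f K₀, a * x * (a : G)⁻¹ ∈ E ⊓ pre f K₀ := fun a ha x hx => by
    lift x to N using TN hx
    exact (mT (a * x * a⁻¹)).2 ⟨h.conjE a hx.1, by
      simpa using conj_mem_of_mem_norm (g.norm (cm' ha)) ((mT x).1 hx).2⟩
  let K : Subgroup G :=
    { carrier := {x | x ∈ E ⊓ pre f K₀ ∧ v * x * (v : G)⁻¹ = x⁻¹}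
      mul_mem' := fun {x y} hx hy => ⟨mul_mem hx.1 hy.1, by
        rw [← conj_mul, hx.2, hy.2, ← mul_inv_rev, cT _ hx.1 _ hy.1]⟩
      one_mem' := ⟨one_mem _, by simp⟩
      inv_mem' := fun {x} hx => ⟨inv_mem hx.1, by rw [← conj_inv, hx.2]⟩ }
  have mK : ∀ x, x ∈ K ↔ x ∈ E ⊓ pre f K₀ ∧ v * x * (v : G)⁻¹ = x⁻¹ := fun _ => Iff.rfl
  have KT : K ≤ E ⊓ pre f K₀ := fun _ e => e.1
  have KN := KT.trans TN
  have KO : K ⊓ OO N = ⊥ := eq_bot_iff.2 fun x hx => eq_one_of_odd oO hx.2 (by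
    rw [mul_eq_one_iff_eq_inv, ← hx.1.2, ← h.cent hv x hx.2, mul_inv_cancel_right])
  have iK : FG.img f K = K₀ := le_antisymm (img_le_of_le_pre (KT.trans inf_le_right)) fun γ hγ => by
    obtain ⟨x, hx, rfl⟩ := h.lift (g.le hγ).1
    have h1 : ((x * (v * x * v⁻¹) : N) : G) ∈ OO N := h.k1.1 (by simp [g.inv _ c iγ ne _ hγ])
    obtain ⟨w, hw, e⟩ := exists_sqrt oO (inv_mem h1)
    have wO : w ∈ OO N := zpowers_le.2 (inv_mem h1) hw
    have wE : w ∈ E := zpowers_le.2 (inv_mem (mul_mem hx (h.conjE v hx))) hw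
    lift w to N using h.le wE
    have fw := h.k1.2 wO
    refine mem_img.2 ⟨x * w, ⟨(mT _).2 ⟨mul_mem hx wE, by simpa [fw] using hγ⟩, ?_⟩, by simp [fw]⟩
    have e1 : (v : G) * x * (v : G)⁻¹ = (x : G)⁻¹ * (w * w : G)⁻¹ := by rw [e]; simp [mul_assoc]
    rw [coe_mul, ← conj_mul, e1, ← h.cent hv w wO, ← h.cent hx w wO]
    group
  obtain ⟨eK⟩ := img_equiv (f := f) KN (by rw [h.ker, inf_comm, KO])
  rw [iK] at eK
  have cK : Nat.card K = Nat.card K₀ := Nat.card_congr eK.toEquiv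
  have mKO : ∀ x : N, (x : G) ∈ K ⊔ OO N ↔ f x ∈ K₀ := fun x => iK ▸ h.mem_sup KN
  have nK0 : ∀ a : N, IsInv (a : G) → (a : G) ≠ t → (a : G) ∈ E → f a ∉ K₀ := fun a ia ne ha e =>
    ne (congrArg Subtype.val (h.eq_of ha (AS.inv_coe.1 ia).1 t2 (uq _ e (h.inv_img ia))))
  have vt' : (v : G) ≠ t := fun e => ne (congrArg f (Subtype.ext e))
  have inn : ∀ a : G, a ∈ E ⊓ 𝒞[(t : G)] → IsInv a → a ≠ t → v * a ∈ K := fun a ha ia ne => by
    lift a to N using h.le ha.1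
    refine ⟨(mT (v * a)).2 ⟨mul_mem hv ha.1, ?_⟩, by rw [← mul_assoc, iv.1, mul_inv_rev, ia.inv_eq, one_mul]⟩
    rw [map_mul]
    exact mul_mem_of_relIndex_two g.index ⟨hγ, c⟩ ⟨h.memL ha.1, cm' ha.2⟩ (nK0 v iv vt' hv) (nK0 a ia ne ha.1)
  have inn2 : ∀ a : G, a ∈ E ⊓ 𝒞[(t : G)] → IsInv a → a ≠ t → ∀ y ∈ K, a * y * a⁻¹ = y⁻¹ := fun a ha ia ne y hy => by
    have h1 := cT _ (inn a ha ia ne).1 _ hy.1
    rw [show a * y * a⁻¹ = (v : G)⁻¹ * (v * a * y) * (v * a)⁻¹ * v by group, h1, iv.inv_eq, ← hy.2, iv.inv_eq]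
    group
  have nK : N ⊓ 𝒞[(t : G)] ≤ 𝒩(K) := fun a ha => mem_norm_of_conjg_le (by
    rintro _ ⟨y, hy, rfl⟩
    lift a to N using ha.1
    refine ⟨nT a ha.2 y hy.1, ?_⟩
    have ha2 : (a : G)⁻¹ ∈ 𝒞[(t : G)] := inv_mem ha.2
    have := inn2 ((a : G)⁻¹ * v * a⁻¹⁻¹) ⟨h.conjE a⁻¹ hv, (𝒞[(t : G)]).mul_mem ((𝒞[(t : G)]).mul_mem ha2 vt) (inv_mem ha2)⟩
      (iv.conj _) (fun e => vt' (by rw [← conj_eq_of_cent ha.2, ← e]; group)) y hy
    change v * (a * y * (a : G)⁻¹) * (v : G)⁻¹ = (a * y * (a : G)⁻¹)⁻¹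
    rw [conj_inv, ← this]
    group)
  have cyc : IsCyclic K := have := g.cyc; isCyclic_of_surjective eK.symm eK.symm.surjective
  refine ⟨K, ⟨tT, by rw [conj_eq_of_cent vt, it.inv_eq]⟩, KT.trans inf_le_left, cyc, KO, nK, fun a ha ia ne y hy => ?_,
    fun x hx e => ?_, ?_, ?_, cK ▸ g.hq, cK ▸ g.hr, g.r3, g.pp, fun p hp p2 Φ pΦ hΦ cΦ x hx => ?_, fun y hy e x hx => ?_,
    fun p hp p2 Φ pΦ hΦ y hy hy' e x hx => ?_⟩
  · lift a to N using ha.1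
    lift y to N using KN hy
    refine mul_eq_one_iff_eq_inv.1 (KO.le ⟨mul_mem (conj_mem_of_mem_norm (nK ha) hy) hy, (h.k1 (x := a * y * a⁻¹ * y)).1 ?_⟩)
    have := g.inv _ (cm' ha.2) (h.inv_img ia) (fun e => ne (congrArg Subtype.val
      (h.eq_of ht t2 (AS.inv_coe.1 ia).1 e.symm).symm)) _ ((mT y).1 hy.1).2
    simp [this]
  · have xN : x ∈ N := sup_le h.le (pcore_le _ _) hx.1
    lift x to N using xN
    exact (mKO x).2 (by_contra fun e' => e ((h.k1 (x := x * x)).1 (map_mul f x x ▸ g.sq _ ⟨h.memE.1 hx.1, cm' hx.2⟩ e')))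
  · rw [show {a | a ∈ E ⊓ 𝒞[(t : G)] ∧ IsInv a ∧ a ≠ t} = (fun k => (v : G) * k) '' (K : Set G) from ?_,
      Set.ncard_image_of_injective _ (mul_right_injective _)]
    · rfl
    have vK : (v : G) ∉ K := fun e => nK0 v iv vt' hv ((mT v).1 e.1).2
    ext a
    refine ⟨fun e => ⟨_, inn a e.1 e.2.1 e.2.2, by simp [← mul_assoc, iv.1]⟩, ?_⟩
    rintro ⟨k, hk, rfl⟩
    refine ⟨⟨mul_mem hv hk.1.1, mul_mem vt (Tt hk.1)⟩, ⟨?_, fun e => vK ?_⟩, fun e => vK ?_⟩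
    · rw [← mul_assoc, show (v : G) * k * v = k⁻¹ by rw [← hk.2, iv.inv_eq], inv_mul_cancel]
    · exact (K.mul_mem_cancel_right hk).1 ((show v * k = 1 from e) ▸ one_mem K)
    · exact (K.mul_mem_cancel_right hk).1 (by rw [show v * k = t from e]; exact ⟨tT, by rw [conj_eq_of_cent vt, it.inv_eq]⟩)
  · have h1 := relIndex_img (f := f) (H := (E ⊔ OO N) ⊓ 𝒞[(t : G)]) (K := E ⊔ OO N) (h.ker.le.trans (le_inf le_sup_right
      ((le_cent_symm h.cent).trans (cent_le_cent_singleton ht)))) inf_le_left (sup_le h.le (pcore_le _ _))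
    have h2 : FG.img f (E ⊔ OO N) = L := by
      rw [← h.ker, img_sup h.le (pre_le _ _), img_ker, h.img, sup_bot_eq]
    rw [h.img_cent1 ht t2 le_sup_right, h2, inf_relIndex_left, inf_relIndex_left, g.idx] at h1
    rw [h1, ← ncard_conj, ← ncard_conj]
    congr 1
    ext b
    refine ⟨?_, fun ⟨a, ha, e⟩ => ⟨a, sup_le h.le (pcore_le _ _) ha, e⟩⟩
    rintro ⟨a, ha, rfl⟩
    obtain ⟨b, hb, e⟩ := h.conj s t ht _ (h.conjE ⟨a, ha⟩ ht) it (it.conj a)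
    exact ⟨b, mem_sup_left hb, e⟩
  · lift x to N using (hΦ hx).1
    refine (mKO x).2 (g.tl p hp p2 _ (cm' (hΦ hx).2) (IsPiElt.map (by
      simpa only [IsPiElt, Subgroup.orderOf_coe] using pΦ.piElt hx) f) fun γ hγ pγ => ?_)
    obtain ⟨y, hy, rfl⟩ := mem_img.1 (iK.ge hγ)
    have o : orderOf (y : G) ∣ orderOf (f y) := orderOf_dvd_of_pow_eq_one (KO.le ⟨pow_mem hy _,
      (h.k1 (x := y ^ orderOf (f y))).1 (by rw [map_pow, pow_orderOf_eq_one])⟩)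
    exact mem_centralizer_singleton_iff.1 (cm' (mem_centralizer_singleton_iff.2 (cΦ hx y (pcore_max ⟨zpowers_le.2 hy,
      norm_of_cent ((abelian_iff_le_cent.1 (abelian_of_cyclic cyc)).trans (cent_anti (zpowers_le.2 hy)))⟩
      (piGrp_zpowers_iff.2 (pγ.of_dvd o)) (mem_zpowers _))).symm))
  · have yN : y ∈ N := sup_le KN (pcore_le _ _) hy
    lift y to N using yN
    lift x to N using hx.1
    exact h.cm ht t2 (mem_centralizer_singleton_iff.1 (g.ti _ ((mKO y).1 hy) (fun e' => e (h.k1.1 e')) (cm' hx.2)))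
  · have ΦN : Φ ≤ N := hΦ.trans (sup_le h.le (pcore_le _ _))
    lift y to N using ΦN hy
    lift x to N using ΦN hx
    refine (mKO x).2 (g.pcyc p hp p2 _ (pΦ.img (f := f)) (fun γ hγ => ?_) (f y) (mem_img.2 ⟨y, hy, rfl⟩) ((mKO y).1 hy')
      (fun e' => e (h.k1.1 e')) (mem_img.2 ⟨x, hx, rfl⟩))
    obtain ⟨z, hz, rfl⟩ := mem_img.1 hγ
    exact h.memE.1 (hΦ hz)

theorem torA {t : N} (ht : (t : G) ∈ E) (it : IsInv (t : G)) (hL : L = ⊤)
    (g : ∃ s, IsInv s ∧ s ≠ f t ∧ s ∈ 𝒞[f t] ∧ ∀ y ∈ 𝒞[f t], ¬ 2 ∣ orderOf y → y ∈ 𝒞[s]) : TorA N E t := by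
  obtain ⟨γ, iγ, ne, c, hγ⟩ := g
  obtain ⟨s, hs, is, rfl⟩ := h.lift_inv (hL ▸ mem_top γ) iγ
  refine ⟨fun a ha ia => h.two ((h.memE (x := ⟨a, ha⟩)).2 (hL ▸ mem_top _)) ia.two, s, ⟨hs, h.cm ht (AS.inv_coe.1 it).1
    (mem_centralizer_singleton_iff.1 c)⟩, is, fun e => ne (congrArg f (Subtype.ext e)), fun y hy o => ?_⟩
  lift y to N using hy.1
  exact h.cm hs (AS.inv_coe.1 is).1 (mem_centralizer_singleton_iff.1 (hγ _ (cm' hy.2) fun e =>
    o (Subgroup.orderOf_coe y ▸ e.trans (orderOf_map_dvd f y))))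

end LF

end CA.GW

theorem CA.realizeEqns_GW_XC3 : True := by

  trivial
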